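import Mathlib
import Cfsg.Agent.Lib.H14.FWTransfer
import Cfsg.Agent.Lib.H01.Coprime3
import Cfsg.Agent.Lib.H01.Maximal
import Cfsg.Agent.Lib.H02.SolvH
import Cfsg.Agent.Lib.H02.MinAb

set_option autoImplicit false

namespace Cfsg.Agent.H02

universe u

open Cfsg
open scoped Pointwise

/-- Frobenius-type lemma with abelian maximal complement. -/
theorem derived_two_of_abelian_ti {Γ : Type u} [Group Γ] [Finite Γ] (B : Subgroup Γ) [hcomm : IsMulCommutative B]
    (hB : IsCoatom B) (hTI : ∀ g : Γ, g ∉ B → ∀ y ∈ B, g⁻¹ * y * g ∈ B → y = 1) : derivedSeries Γ 2 = ⊥ := by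
  classical
  obtain ⟨V, hV⟩ := Cfsg.Agent.H14.exists_transfer_ext (M := B) (A := B) (fun a b => mul_comm' a b)
    (MonoidHom.id B) (by
      intro x hx y hy hy'
      have := hTI x hx y hy hy'
      apply Subtype.ext
      change x⁻¹ * y * x = 1
      rw [this]
      group)
  set K := V.ker with hK
  have hKn : K.Normal := V.normal_ker
  have hVB : ∀ m : B, V (m : Γ) = m := fun m => hV m
  have hKB : ∀ x ∈ K, x ∈ B → x = 1 := by
    intro x hxK hxB
    have h1 := hVB ⟨x, hxB⟩
    have h2 : V x = 1 := hxK
    have h3 : (⟨x, hxB⟩ : B) = 1 := by rw [← h1]; exact h2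
    exact congrArg Subtype.val h3
  have hdis : K ⊓ B = ⊥ := by
    rw [eq_bot_iff]
    intro x hx
    exact Subgroup.mem_bot.mpr (hKB x (Subgroup.mem_inf.mp hx).1 (Subgroup.mem_inf.mp hx).2)
  have hVsurj : Function.Surjective V := fun m => ⟨m, hVB m⟩
  have hcardK : Nat.card Γ = Nat.card K * Nat.card B := by
    have h1 := Subgroup.card_eq_card_quotient_mul_card_subgroup K
    have h2 : Nat.card (Γ ⧸ K) = Nat.card B := Nat.card_congr (QuotientGroup.quotientKerEquivOfSurjective V hVsurj).toEquiv
    rw [h1, h2, mul_comm]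
  have hderK : commutator Γ ≤ K := by
    rw [commutator_def, Subgroup.commutator_le]
    intro x _ y _
    change V _ = 1
    rw [commutatorElement_def, map_mul, map_mul, map_mul, map_inv, map_inv]
    have : V x * V y = V y * V x := mul_comm' _ _
    rw [this]
    group
  have hhall : (Nat.card B).Coprime B.index := by
    apply hall_of_centralizer_le
    intro x hx hx1 c hc
    by_contra hcB
    rw [Subgroup.mem_centralizer_singleton_iff] at hc
    apply hx1
    apply hTI c hcB x hx
    have : c⁻¹ * x * c = x := by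
      rw [mul_assoc, ← hc]
      group
    rw [this]
    exact hx
  have hidx : B.index = Nat.card K := by
    have h1 := B.card_mul_index
    rw [hcardK, mul_comm (Nat.card K)] at h1
    exact Nat.eq_of_mul_eq_mul_left Nat.card_pos h1
  have hBK : B ≤ Subgroup.normalizer (K : Set Γ) := by
    rw [Subgroup.normalizer_eq_top_iff.mpr hKn]
    exact le_top
  -- irreducibility
  have hirr : ∀ W : Subgroup Γ, W ≤ K → W ≠ ⊥ → B ≤ Subgroup.normalizer (W : Set Γ) → W = K := by
    intro W hWK hWb hBW
    obtain ⟨S, hS⟩ := exists_subgroup_mul_of_le_normalizer hBW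
    have hBS : B ≤ S := by
      intro b hb
      rw [← SetLike.mem_coe, hS]
      exact ⟨b, hb, 1, W.one_mem, by simp⟩
    have hWS : W ≤ S := by
      intro w hw
      rw [← SetLike.mem_coe, hS]
      exact ⟨1, B.one_mem, w, hw, by simp⟩
    have hSne : S ≠ B := by
      rintro rfl
      apply hWb
      rw [eq_bot_iff]
      intro w hw
      exact Subgroup.mem_bot.mpr (hKB w (hWK hw) (hWS hw))
    have hStop : S = ⊤ := hB.2 S (lt_of_le_of_ne hBS (Ne.symm hSne))
    have hd : B ⊓ W = ⊥ := by
      rw [eq_bot_iff]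
      intro w hw
      exact Subgroup.mem_bot.mpr (hKB w (hWK (Subgroup.mem_inf.mp hw).2) (Subgroup.mem_inf.mp hw).1)
    have h1 := Cfsg.Agent.H18.card_set_mul_mul_card_inf B W
    rw [← hS, hStop, hd, Subgroup.card_bot, mul_one] at h1
    have h2 : Nat.card ((⊤ : Subgroup Γ) : Set Γ) = Nat.card Γ := by
      rw [Subgroup.coe_top, Nat.card_coe_set_eq, Set.ncard_univ]
    rw [h2, hcardK, mul_comm] at h1
    have h3 : Nat.card K = Nat.card W := Nat.eq_of_mul_eq_mul_left Nat.card_pos h1
    exact Subgroup.eq_of_le_of_card_ge hWK h3.le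
  -- `K` abelian
  have hKcomm : ⁅K, K⁆ = ⊥ := by
    by_cases hKb : K = ⊥
    · rw [hKb]
      simp
    have hc1 : 1 < Nat.card K := by
      have : Nontrivial K := (Subgroup.nontrivial_iff_ne_bot K).mpr hKb
      exact Finite.one_lt_card
    obtain ⟨r, hrp, hrK⟩ := Nat.exists_prime_and_dvd hc1.ne'
    haveI hrf : Fact r.Prime := ⟨hrp⟩
    have hsol : Group.IsSolvable B := by
      have := isNilpotent_of_isMulCommutative B hcomm
      infer_instance
    obtain ⟨R, hR⟩ := Cfsg.Agent.H01.exists_invariant_sylow hBK (by rw [← hidx]; exact hhall) (Or.inl hsol) r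
    have hR'K : (R : Subgroup K).map K.subtype ≤ K := by
      rintro _ ⟨y, -, rfl⟩
      exact y.2
    have hRb : (R : Subgroup K).map K.subtype ≠ ⊥ := by
      intro h
      have h1 : Nat.card ((R : Subgroup K).map K.subtype) = 1 := by rw [h]; simp
      rw [Subgroup.card_map_of_injective K.subtype_injective, Sylow.card_eq_multiplicity] at h1
      have h2 : (Nat.card K).factorization r ≠ 0 := (hrp.factorization_pos_of_dvd Nat.card_pos.ne' hrK).ne'
      exact (Nat.one_lt_pow h2 hrp.one_lt).ne' h1
    have hRK := hirr _ hR'K hRb hR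
    have hKp : IsPGroup r K := by
      rw [← hRK]
      exact R.isPGroup'.map K.subtype
    have hKnil : Group.IsNilpotent K := hKp.isNilpotent
    have hKnt : Nontrivial K := (Subgroup.nontrivial_iff_ne_bot K).mpr hKb
    have hlt : commutator K < ⊤ := IsSolvable.commutator_lt_top_of_nontrivial K
    by_contra hne
    haveI hCn : (⁅K, K⁆ : Subgroup Γ).Normal := Subgroup.commutator_normal K K
    have hCK : ⁅K, K⁆ ≤ K := Subgroup.commutator_le_left K K
    have h1 := hirr ⁅K, K⁆ hCK hne (by
      rw [Subgroup.normalizer_eq_top_iff.mpr hCn]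
      exact le_top)
    have h2 : (commutator K).map K.subtype = ⁅K, K⁆ := by
      rw [commutator_def, Subgroup.map_commutator, ← MonoidHom.range_eq_map, K.range_subtype]
    rw [h1] at h2
    have h3 : commutator K = ⊤ := by
      apply Subgroup.map_injective K.subtype_injective
      rw [h2, ← MonoidHom.range_eq_map, K.range_subtype]
    exact hlt.ne h3
  have h2 : derivedSeries Γ 2 = ⁅commutator Γ, commutator Γ⁆ := rfl
  rw [h2, eq_bot_iff, ← hKcomm]
  exact Subgroup.commutator_mono hderK hderK

theorem derived_three_of_abelian_coatom {G : Type u} [Group G] [Finite G] (A : Subgroup G) (hA : IsCoatom A)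
    [hcomm : IsMulCommutative A] : derivedSeries G 3 = ⊥ := by
  classical
  have hcommA : ∀ a ∈ A, ∀ b ∈ A, a * b = b * a := fun a ha b hb =>
    congrArg Subtype.val (mul_comm' (⟨a, ha⟩ : A) ⟨b, hb⟩)
  by_cases hAn : A.Normal
  · -- normal case
    obtain ⟨y, hy⟩ : ∃ y, y ∉ A := by
      by_contra hno
      push Not at hno
      exact hA.1 (eq_top_iff.mpr (fun x _ => hno x))
    have hcyc : ∀ g : G ⧸ A, g ∈ Subgroup.zpowers (QuotientGroup.mk' A y) := by
      intro g
      obtain ⟨g, rfl⟩ := QuotientGroup.mk'_surjective A g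
      have h1 : A < (Subgroup.zpowers (QuotientGroup.mk' A y)).comap (QuotientGroup.mk' A) := by
        apply lt_of_le_of_ne
        · intro a ha
          rw [Subgroup.mem_comap]
          have : QuotientGroup.mk' A a = 1 := (QuotientGroup.eq_one_iff a).mpr ha
          rw [this]
          exact Subgroup.one_mem _
        · intro h
          apply hy
          rw [h, Subgroup.mem_comap]
          exact Subgroup.mem_zpowers _
      have h2 := hA.2 _ h1
      have : g ∈ (Subgroup.zpowers (QuotientGroup.mk' A y)).comap (QuotientGroup.mk' A) := by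
        rw [h2]
        trivial
      exact this
    have hcq : ∀ a b : G ⧸ A, a * b = b * a := by
      intro a b
      obtain ⟨i, rfl⟩ := Subgroup.mem_zpowers_iff.mp (hcyc a)
      obtain ⟨j, rfl⟩ := Subgroup.mem_zpowers_iff.mp (hcyc b)
      exact (Commute.refl _ |>.zpow_zpow i j).eq
    have hder : commutator G ≤ A := by
      rw [commutator_def, Subgroup.commutator_le]
      intro x _ y _
      rw [← QuotientGroup.eq_one_iff, commutatorElement_def, QuotientGroup.mk_mul, QuotientGroup.mk_mul,
        QuotientGroup.mk_mul, QuotientGroup.mk_inv, QuotientGroup.mk_inv, hcq (x : G ⧸ A) y]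
      group
    have hAA : ⁅A, A⁆ = ⊥ := by
      rw [eq_bot_iff, Subgroup.commutator_le]
      intro a ha b hb
      rw [Subgroup.mem_bot, commutatorElement_eq_one_iff_mul_comm]
      exact hcommA a ha b hb
    have h2 : derivedSeries G 2 = ⊥ := by
      have h3 : derivedSeries G 2 = ⁅commutator G, commutator G⁆ := rfl
      rw [h3, eq_bot_iff, ← hAA]
      exact Subgroup.commutator_mono hder hder
    have h3 : derivedSeries G 3 = ⁅derivedSeries G 2, derivedSeries G 2⁆ := rfl
    rw [h3, h2]
    simp
  -- non-normal case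
  have hNA : Subgroup.normalizer (A : Set G) = A := by
    have h1 : A ≤ Subgroup.normalizer (A : Set G) := Subgroup.le_normalizer
    rcases h1.lt_or_eq with h2 | h2
    · exfalso
      apply hAn
      exact Subgroup.normalizer_eq_top_iff.mp (hA.2 _ h2)
    · exact h2.symm
  set Z := Subgroup.center G with hZ
  have hZA : Z ≤ A := by
    intro z hz
    by_contra hzA
    apply hAn
    have h1 : z ∈ Subgroup.normalizer (A : Set G) := by
      apply mem_normalizer_of_conj_le
      intro a ha
      have : z * a * z⁻¹ = a := by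
        rw [(Subgroup.mem_center_iff.mp hz a).symm]
        group
      rw [this]
      exact ha
    rw [hNA] at h1
    exact absurd h1 hzA
  have hmem : ∀ g, g ∉ A → ∀ y ∈ A, g⁻¹ * y * g ∈ A → y ∈ Z := by
    intro g hg y hy hy'
    -- `A^g := g A g⁻¹`
    have hAT : A ⊔ A.map (MulAut.conj g).toMonoidHom = ⊤ := by
      apply hA.2
      apply lt_of_le_of_ne le_sup_left
      intro he
      have h1 : A.map (MulAut.conj g).toMonoidHom ≤ A := le_sup_right.trans he.symm.le
      apply hg
      have h5 : g ∈ Subgroup.normalizer (A : Set G) := by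
        apply mem_normalizer_of_conj_le
        intro a ha
        exact h1 ⟨a, ha, rfl⟩
      rwa [hNA] at h5
    have hcen : A ⊔ A.map (MulAut.conj g).toMonoidHom ≤ Subgroup.centralizer ({y} : Set G) := by
      apply sup_le
      · intro a ha
        rw [Subgroup.mem_centralizer_singleton_iff]
        exact hcommA a ha y hy
      · rintro _ ⟨a, ha, rfl⟩
        rw [Subgroup.mem_centralizer_singleton_iff]
        have h1 := hcommA a ha _ hy'
        change g * a * g⁻¹ * y = y * (g * a * g⁻¹)
        calc g * a * g⁻¹ * y = g * (a * (g⁻¹ * y * g)) * g⁻¹ := by group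
          _ = g * ((g⁻¹ * y * g) * a) * g⁻¹ := by rw [h1]
          _ = y * (g * a * g⁻¹) := by group
    rw [hAT] at hcen
    refine Subgroup.mem_center_iff.mpr ?_
    intro x
    have := hcen (Subgroup.mem_top x)
    rw [Subgroup.mem_centralizer_singleton_iff] at this
    exact this
  haveI hZn : Z.Normal := inferInstance
  set B := A.map (QuotientGroup.mk' Z) with hB
  have hBcoatom : IsCoatom B := Cfsg.Agent.H01.isCoatom_map_mk hZA hA
  have hBcomm : IsMulCommutative B := by
    refine ⟨⟨fun a b => ?_⟩⟩
    obtain ⟨a, ⟨a', ha', rfl⟩⟩ := a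
    obtain ⟨b, ⟨b', hb', rfl⟩⟩ := b
    apply Subtype.ext
    change QuotientGroup.mk' Z a' * QuotientGroup.mk' Z b' = QuotientGroup.mk' Z b' * QuotientGroup.mk' Z a'
    rw [← map_mul, ← map_mul, hcommA a' ha' b' hb']
  have hBA : ∀ x, QuotientGroup.mk' Z x ∈ B → x ∈ A := by
    intro x hx
    obtain ⟨a, ha, he⟩ := hx
    have h1 : a⁻¹ * x ∈ Z := QuotientGroup.eq.mp he
    have h2 := A.mul_mem ha (hZA h1)
    simpa using h2
  have hF := derived_two_of_abelian_ti B hBcoatom (by
    intro g hg y hy hy'
    obtain ⟨g, rfl⟩ := QuotientGroup.mk'_surjective Z g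
    obtain ⟨a, ha, rfl⟩ := hy
    have hgA : g ∉ A := fun h => hg ⟨g, h, rfl⟩
    have h1 : g⁻¹ * a * g ∈ A := by
      apply hBA
      rw [map_mul, map_mul, map_inv]
      exact hy'
    have h2 := hmem g hgA a ha h1
    exact (QuotientGroup.eq_one_iff a).mpr h2)
  have h2le : derivedSeries G 2 ≤ Z := by
    have h3 := map_derivedSeries_eq (QuotientGroup.mk'_surjective Z) 2
    rw [hF] at h3
    intro x hx
    have h4 : QuotientGroup.mk' Z x ∈ (derivedSeries G 2).map (QuotientGroup.mk' Z) := ⟨x, hx, rfl⟩
    rw [h3] at h4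
    exact (QuotientGroup.eq_one_iff x).mp h4
  have hZZ : ⁅Z, Z⁆ = ⊥ := by
    rw [eq_bot_iff, Subgroup.commutator_le]
    intro a ha b hb
    rw [Subgroup.mem_bot, commutatorElement_eq_one_iff_mul_comm]
    exact (Subgroup.mem_center_iff.mp ha b).symm
  have h3 : derivedSeries G 3 = ⁅derivedSeries G 2, derivedSeries G 2⁆ := rfl
  rw [h3, eq_bot_iff, ← hZZ]
  exact Subgroup.commutator_mono h2le h2le

end Cfsg.Agent.H02
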