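import Cfsg.Agent.Lib.H02.BN3

set_option autoImplicit false

namespace Cfsg.Agent.H02.BN

open Cfsg

open scoped Pointwise

theorem exists_bnpair_of_two_transitive {G Ω : Type*} [Group G] [MulAction G Ω]
    (h2 : MulAction.IsMultiplyPretransitive G Ω 2) {x y z : Ω} (hxy : x ≠ y) (hyz : y ≠ z)
    (hxz : x ≠ z) :
    ∃ P : BNPair G, P.B = MulAction.stabilizer G x ∧
      P.N = MulAction.stabilizer G ({x, y} : Set Ω) ∧ P.rank = 1 := by
  classical
  have htr : ∀ {a b c d : Ω}, a ≠ b → c ≠ d → ∃ g : G, g • a = c ∧ g • b = d :=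
    fun {a b c d} h h' => MulAction.is_two_pretransitive_iff.mp h2 h h'
  obtain ⟨s, hsx, hsy⟩ := htr hxy hxy.symm
  have memB : ∀ {g : G}, g ∈ MulAction.stabilizer G x ↔ g • x = x := Iff.rfl
  have memN : ∀ {g : G}, g ∈ MulAction.stabilizer G ({x, y} : Set Ω) ↔
      (g • x = x ∧ g • y = y) ∨ (g • x = y ∧ g • y = x) := by
    intro g
    rw [MulAction.mem_stabilizer_iff, Set.smul_set_insert, Set.smul_set_singleton,
      Set.pair_eq_pair_iff]
  have hsinvx : s⁻¹ • x = y := by rw [← hsy, inv_smul_smul]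
  have hsinvy : s⁻¹ • y = x := by rw [← hsx, inv_smul_smul]
  have hinv : ∀ {g : G} {a b : Ω}, g • a = b → g⁻¹ • b = a := by
    intro g a b h
    rw [← h, inv_smul_smul]
  have hdecomp : ∀ g : G, g • x = x ∨ ∃ b, b • x = x ∧ ∃ b', b' • x = x ∧ g = b * s * b' := by
    intro g
    by_cases hg : g • x = x
    · exact Or.inl hg
    · right
      obtain ⟨b, hb1, hb2⟩ := htr hxy (fun h : x = g • x => hg h.symm)
      have h3 : (b * s) • x = g • x := by rw [mul_smul, hsx, hb2]
      refine ⟨b, hb1, (b * s)⁻¹ * g, ?_, by group⟩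
      rw [mul_smul, ← h3, inv_smul_smul]
  have hsN : s ∈ MulAction.stabilizer G ({x, y} : Set Ω) := memN.mpr (Or.inr ⟨hsx, hsy⟩)
  refine ⟨{ B := MulAction.stabilizer G x
            N := MulAction.stabilizer G ({x, y} : Set Ω)
            S := {s}
            sup_eq_top := ?_
            conj_mem := ?_
            subset := ?_
            sq_mem := ?_
            inj := ?_
            closure_sup := ?_
            mul_mem_union := ?_
            conj_ne := ?_ }, rfl, rfl, ?_⟩
  · rw [eq_top_iff]
    intro g _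
    rcases hdecomp g with h | ⟨b, hb, b', hb', rfl⟩
    · exact Subgroup.mem_sup_left h
    · exact mul_mem (mul_mem (Subgroup.mem_sup_left hb) (Subgroup.mem_sup_right hsN))
        (Subgroup.mem_sup_left hb')
  · intro n hn t ht
    obtain ⟨htB, htN⟩ := Subgroup.mem_inf.mp ht
    have htx : t • x = x := htB
    have hty : t • y = y := by
      rcases memN.mp htN with ⟨_, h⟩ | ⟨h, _⟩
      · exact h
      · exact absurd (htx.symm.trans h) hxy
    rcases memN.mp hn with ⟨h1, h2⟩ | ⟨h1, h2⟩
    · change (n * t * n⁻¹) • x = x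
      rw [mul_smul, mul_smul, hinv h1, htx, h1]
    · change (n * t * n⁻¹) • x = x
      rw [mul_smul, mul_smul, hinv h2, hty, h2]
  · intro s' hs'
    rw [show s' = s from hs']
    exact hsN
  · intro s' hs'
    rw [show s' = s from hs']
    change (s * s) • x = x
    rw [mul_smul, hsx, hsy]
  · intro s' hs' s'' hs'' _
    rw [show s' = s from hs', show s'' = s from hs'']
  · apply le_antisymm
    · refine sup_le ?_ inf_le_right
      rw [Subgroup.closure_le, Set.singleton_subset_iff]
      exact hsN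
    · intro n hn
      rcases memN.mp hn with ⟨h1, h2⟩ | ⟨h1, h2⟩
      · exact Subgroup.mem_sup_right (Subgroup.mem_inf.mpr ⟨h1, hn⟩)
      · have e : n = s * (s⁻¹ * n) := by group
        rw [e]
        refine mul_mem (Subgroup.mem_sup_left (Subgroup.subset_closure rfl))
          (Subgroup.mem_sup_right (Subgroup.mem_inf.mpr ⟨?_, ?_⟩))
        · change (s⁻¹ * n) • x = x
          rw [mul_smul, h1, hsinvy]
        · refine memN.mpr (Or.inl ⟨?_, ?_⟩)
          · rw [mul_smul, h1, hsinvy]
          · rw [mul_smul, h2, hsinvx]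
  · intro s' hs' n hn b hb
    rw [show s' = s from hs']
    have hbx : b • x = x := hb
    rcases memN.mp hn with ⟨h1, h2⟩ | ⟨h1, h2⟩
    · left
      have hg : (s * b * n) • x = y := by
        rw [mul_smul, mul_smul, h1, hbx, hsx]
      rcases hdecomp (s * b * n) with h | ⟨b₁, hb₁, b₂, hb₂, he⟩
      · exact absurd (h.symm.trans hg) hxy
      · rw [he]
        refine DoubleCoset.mem_doubleCoset.mpr ⟨b₁, hb₁, n⁻¹ * b₂, ?_, by group⟩
        change (n⁻¹ * b₂) • x = x
        rw [mul_smul, hb₂, hinv h1]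
    · rcases hdecomp (s * b * n) with h | ⟨b₁, hb₁, b₂, hb₂, he⟩
      · left
        have hsn : (s * n) • x = x := by rw [mul_smul, h1, hsy]
        refine DoubleCoset.mem_doubleCoset.mpr ⟨(s * b * n) * (s * n)⁻¹, ?_, 1, one_mem _, by group⟩
        change ((s * b * n) * (s * n)⁻¹) • x = x
        rw [mul_smul, hinv hsn, h]
      · right
        rw [he]
        refine DoubleCoset.mem_doubleCoset.mpr ⟨b₁, hb₁, n⁻¹ * s * b₂, ?_, by group⟩
        change (n⁻¹ * s * b₂) • x = x
        rw [mul_smul, mul_smul, hb₂, hsx, hinv h1]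
  · intro s' hs'
    rw [show s' = s from hs']
    intro heq
    obtain ⟨b, hb1, hb2⟩ := htr (c := x) (d := z) hxy hxz
    have h1 : s * b * s ∈ ((MulAction.stabilizer G x : Subgroup G) : Set G) := by
      have h2 : s * b * s ∈ (fun b : G => s * b * s) '' ((MulAction.stabilizer G x : Subgroup G) : Set G) :=
        ⟨b, hb1, rfl⟩
      rwa [heq] at h2
    have h3 : (s * b * s) • x = x := h1
    rw [mul_smul, mul_smul, hsx, hb2] at h3
    have h4 : s • z = s • y := h3.trans hsy.symm
    exact hyz (smul_left_cancel s h4).symm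
  · change Nat.card ({s} : Set G) = 1
    simp

end Cfsg.Agent.H02.BN
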