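import Cfsg.Agent.Lib.H15.OddCore
import Cfsg.Agent.Lib.H18.PGroup
import Cfsg.Agent.Lib.H06.Stable
import Cfsg.Agent.Lib.H01.Fitting
import Cfsg.Agent.Lib.H02.SolvF

/-!
Characteristic `2`-type from solvable involution centralizers with trivial odd core.
-/

set_option autoImplicit false

namespace Cfsg.Agent.H02

open Cfsg
open scoped commutatorElement

variable {X : Type*} [Group X] [Finite X]

theorem eq_one_of_mem_coprime_of_mem_two {W P : Subgroup X} (hW : (Nat.card W).Coprime 2)
    (hP : IsPGroup 2 P) {x : X} (hxW : x ∈ W) (hxP : x ∈ P) : x = 1 := by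
  have h1 : orderOf x ∣ Nat.card W := by
    have := orderOf_dvd_natCard (⟨x, hxW⟩ : W)
    rwa [Subgroup.orderOf_mk] at this
  have h2 : ∃ k, orderOf x = 2 ^ k := by
    obtain ⟨k, hk⟩ := hP ⟨x, hxP⟩
    have hk' : x ^ 2 ^ k = 1 := by simpa using congrArg Subtype.val hk
    obtain ⟨j, -, hj⟩ := (Nat.dvd_prime_pow Nat.prime_two).mp (orderOf_dvd_of_pow_eq_one hk')
    exact ⟨j, hj⟩
  obtain ⟨k, hk⟩ := h2
  have h3 : (orderOf x).Coprime 2 := Nat.Coprime.coprime_dvd_left h1 hW
  rw [hk] at h3
  have h4 : k = 0 := by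
    by_contra hk0
    have : (2 : ℕ) ∣ 2 ^ k := dvd_pow_self 2 hk0
    have := Nat.Coprime.eq_one_of_dvd h3.symm this
    omega
  rw [h4, pow_zero, orderOf_eq_one_iff] at hk
  exact hk

/-- Local subgroups of groups with `C(O₂) ≤ O₂` have trivial odd core. -/
theorem odd_normal_eq_bot_of_local (hD : Subgroup.centralizer ((pCore 2 X : Subgroup X) : Set X) ≤ pCore 2 X)
    (T : Subgroup X) (hT : IsPGroup 2 T) (W : Subgroup X) (hW : (Nat.card W).Coprime 2)
    (hWT : W ≤ Subgroup.normalizer (T : Set X))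
    (hWn : ∀ x ∈ Subgroup.normalizer (T : Set X), ∀ w ∈ W, x * w * x⁻¹ ∈ W) : W = ⊥ := by
  classical
  set D := pCore 2 X with hDdef
  haveI hDn : D.Normal := H01.pCore_normal 2
  haveI : Fact (Nat.Prime 2) := ⟨Nat.prime_two⟩
  have hDp : IsPGroup 2 D := H01.pCore_isPGroup 2
  set P : Subgroup X := D ⊔ T with hPdef
  have hPp : IsPGroup 2 P := IsPGroup.to_sup_of_normal_left hDp hT
  have hTP : T ≤ P := le_sup_right
  have hDP : D ≤ P := le_sup_left
  -- W normalizes P
  have hWP : ∀ w ∈ W, ∀ x ∈ P, w * x * w⁻¹ ∈ P := by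
    intro w hw x hx
    obtain ⟨d, hd, q, hq, rfl⟩ := Subgroup.mem_sup_of_normal_left.mp hx
    have h1 : w * (d * q) * w⁻¹ = (w * d * w⁻¹) * (w * q * w⁻¹) := by group
    rw [h1]
    exact P.mul_mem (hDP (hDn.conj_mem d hd w))
      (hTP ((Subgroup.mem_normalizer_iff.mp (hWT hw) q).mp hq))
  have hWP1 : ∀ x, x ∈ W → x ∈ P → x = 1 := fun x h1 h2 =>
    eq_one_of_mem_coprime_of_mem_two hW hPp h1 h2
  -- W centralizes T and the normalizer of T in P
  have hcN : ∀ w ∈ W, ∀ x ∈ P, x ∈ Subgroup.normalizer (T : Set X) → w * x = x * w := by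
    intro w hw x hx hxN
    have h1 : w * x * w⁻¹ * x⁻¹ ∈ P := P.mul_mem (hWP w hw x hx) (P.inv_mem hx)
    have h2 : w * x * w⁻¹ * x⁻¹ ∈ W := by
      have h3 := hWn x hxN w⁻¹ (W.inv_mem hw)
      have h4 : w * x * w⁻¹ * x⁻¹ = w * (x * w⁻¹ * x⁻¹) := by group
      rw [h4]
      exact W.mul_mem hw h3
    have h5 := hWP1 _ h2 h1
    calc w * x = (w * x * w⁻¹ * x⁻¹) * (x * w) := by group
      _ = x * w := by rw [h5, one_mul]
  set M : Subgroup X := P ⊓ Subgroup.centralizer (W : Set X) with hMdef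
  have hmemM : ∀ x, x ∈ P → (∀ w ∈ W, w * x = x * w) → x ∈ M := by
    intro x hx h
    refine Subgroup.mem_inf.mpr ⟨hx, Subgroup.mem_centralizer_iff.mpr ?_⟩
    intro w hw
    exact h w hw
  have hTM : T ≤ M := fun q hq => hmemM q (hTP hq)
    (fun w hw => hcN w hw q (hTP hq) (Subgroup.le_normalizer hq))
  have hMP : M = P := by
    by_contra hne
    have hlt : M < P := lt_of_le_of_ne inf_le_left hne
    obtain ⟨g, hgP, hgM, hgN⟩ := H18.exists_mem_sdiff_normalizer hPp hlt
    apply hgM
    refine hmemM g hgP ?_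
    intro w hw
    -- three subgroups
    set L : Subgroup X := P ⊓ Subgroup.normalizer (M : Set X) with hLdef
    have hgL : g ∈ L := Subgroup.mem_inf.mpr ⟨hgP, hgN⟩
    have h3 : ⁅⁅L, W⁆, T⁆ = ⊥ := by
      apply Subgroup.commutator_commutator_eq_bot_of_rotate
      · have h4 : ⁅W, T⁆ = ⊥ := by
          rw [Subgroup.commutator_eq_bot_iff_le_centralizer]
          intro w' hw'
          rw [Subgroup.mem_centralizer_iff]
          intro q hq
          exact (hcN w' hw' q (hTP hq) (Subgroup.le_normalizer hq)).symm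
        rw [h4, Subgroup.commutator_bot_left]
      · rw [Subgroup.commutator_eq_bot_iff_le_centralizer, Subgroup.commutator_le]
        intro q hq l hl
        have h5 : l * q⁻¹ * l⁻¹ ∈ M :=
          (Subgroup.mem_normalizer_iff.mp (Subgroup.mem_inf.mp hl).2 q⁻¹).mp (M.inv_mem (hTM hq))
        have h6 : ⁅q, l⁆ = q * (l * q⁻¹ * l⁻¹) := by
          rw [commutatorElement_def]; group
        rw [h6]
        exact (Subgroup.mem_inf.mp (M.mul_mem (hTM hq) h5)).2
    set c := ⁅g, w⁆ with hc
    have hc1 : c ∈ ⁅L, W⁆ := Subgroup.commutator_mem_commutator hgL hw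
    have hc2 : c ∈ Subgroup.centralizer (T : Set X) := by
      rw [Subgroup.commutator_eq_bot_iff_le_centralizer] at h3
      exact h3 hc1
    have hc3 : c ∈ P := by
      have h7 : c = g * (w * g⁻¹ * w⁻¹) := by
        rw [hc, commutatorElement_def]; group
      rw [h7]
      exact P.mul_mem hgP (hWP w hw _ (P.inv_mem hgP))
    have hc4 : c ∈ Subgroup.normalizer (T : Set X) := by
      rw [Subgroup.mem_normalizer_iff]
      intro q
      constructor
      · intro hq
        have := Subgroup.mem_centralizer_iff.mp hc2 q hq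
        have h8 : c * q * c⁻¹ = q := by
          rw [← this]; group
        rw [h8]; exact hq
      · intro hq
        have h9 := Subgroup.mem_centralizer_iff.mp (Subgroup.inv_mem _ hc2) _ hq
        have h8 : c * q * c⁻¹ = q := by
          apply mul_right_cancel (b := c⁻¹)
          rw [h9]; group
        rw [h8] at hq; exact hq
    have hwc : w * c = c * w := hcN w hw c hc3 hc4
    have hord : (orderOf c).Coprime (orderOf w) := by
      obtain ⟨k, hk⟩ := hPp ⟨c, hc3⟩
      have hk' : c ^ 2 ^ k = 1 := by simpa using congrArg Subtype.val hk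
      obtain ⟨j, -, hj⟩ := (Nat.dvd_prime_pow Nat.prime_two).mp (orderOf_dvd_of_pow_eq_one hk')
      rw [hj]
      apply Nat.Coprime.pow_left
      have h1 : orderOf w ∣ Nat.card W := by
        have := orderOf_dvd_natCard (⟨w, hw⟩ : W)
        rwa [Subgroup.orderOf_mk] at this
      exact (Nat.Coprime.coprime_dvd_left h1 hW).symm
    have hc5 : c = 1 := H06.eq_one_of_conj_eq_mul (a := w) (x := g⁻¹) (y := c) (pow_orderOf_eq_one w) hord
      (by rw [hc, commutatorElement_def]; group) hwc
    have h9 : g * w * g⁻¹ * w⁻¹ = 1 := by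
      rw [← commutatorElement_def]; exact hc5
    have h10 : g * w = w * g := by
      calc g * w = (g * w * g⁻¹ * w⁻¹) * (w * g) := by group
        _ = w * g := by rw [h9, one_mul]
    exact h10.symm
  rw [eq_bot_iff]
  intro x hx
  have hxc : x ∈ Subgroup.centralizer ((pCore 2 X : Subgroup X) : Set X) := by
    rw [Subgroup.mem_centralizer_iff]
    intro h hh
    have h1 : h ∈ M := hMP ▸ hDP hh
    exact (Subgroup.mem_centralizer_iff.mp (Subgroup.mem_inf.mp h1).2 x hx).symm
  exact (Subgroup.mem_bot).mpr (hWP1 x hx (hDP (hD hxc)))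

section char

variable {Y : Type*} [Group Y] [Finite Y]

/-- A characteristic-like subgroup of a normal subgroup is normal. -/
theorem map_subtype_normal_of_stable (K : Subgroup Y) [hK : K.Normal] (F : Subgroup K)
    (hF : ∀ φ : K ≃* K, F.map φ.toMonoidHom ≤ F) : (F.map K.subtype).Normal := by
  constructor
  rintro _ ⟨k, hk, rfl⟩ y
  let φ : K ≃* K := MulAut.conjNormal y
  have h1 : φ k ∈ F := hF φ ⟨k, hk, rfl⟩
  exact ⟨φ k, h1, by simp [φ, MulAut.conjNormal_apply]⟩

theorem oddCore_stable (K : Type*) [Group K] [Finite K] (φ : K ≃* K) :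
    (oddCore K).map φ.toMonoidHom ≤ oddCore K := by
  apply H15.le_oddCore
  · exact Subgroup.Normal.map inferInstance _ φ.surjective
  · rw [Subgroup.card_map_of_injective φ.injective]
    exact H15.card_oddCore_coprime

theorem pCore_stable (K : Type*) [Group K] [Finite K] (p : ℕ) [Fact p.Prime] (φ : K ≃* K) :
    (pCore p K).map φ.toMonoidHom ≤ pCore p K := by
  apply H01.le_pCore
  · exact Subgroup.Normal.map (H01.pCore_normal p) _ φ.surjective
  · exact (H01.pCore_isPGroup p).map _ |>.to_le (le_refl _)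

end char

section main

variable {G : Type*} [Group G] [Finite G]

/-- The odd core of a `2`-local subgroup is trivial. -/
theorem oddCore_normalizer_eq_bot
    (hs : ∀ t : G, orderOf t = 2 → Group.IsSolvable (Subgroup.centralizer ({t} : Set G)))
    (hc : ∀ t : G, orderOf t = 2 → oddCore (Subgroup.centralizer ({t} : Set G)) = ⊥)
    (T : Subgroup G) (hT : IsPGroup 2 T) (hT1 : T ≠ ⊥) :
    oddCore (Subgroup.normalizer (T : Set G)) = ⊥ := by
  classical
  haveI : Fact (Nat.Prime 2) := ⟨Nat.prime_two⟩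
  set N := Subgroup.normalizer (T : Set G) with hN
  -- a central involution of T
  haveI : Nontrivial T := (Subgroup.nontrivial_iff_ne_bot T).mpr hT1
  haveI := hT.center_nontrivial
  have hdvd : 2 ∣ Nat.card (Subgroup.center T) := by
    obtain ⟨k, hk0, hk⟩ := (hT.to_subgroup (Subgroup.center T)).nontrivial_iff_card.mp inferInstance
    rw [hk]
    exact dvd_pow_self 2 hk0.ne'
  obtain ⟨t₀, ht₀⟩ := exists_prime_orderOf_dvd_card' 2 hdvd
  set t : G := ((t₀ : T) : G) with ht
  have htT : t ∈ T := (t₀ : T).2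
  have hto : orderOf t = 2 := by
    rw [ht, Subgroup.orderOf_coe, Subgroup.orderOf_coe]; exact ht₀
  have htc : ∀ q ∈ T, q * t = t * q := by
    intro q hq
    have := Subgroup.mem_center_iff.mp t₀.2 ⟨q, hq⟩
    exact congrArg Subtype.val this
  set X := Subgroup.centralizer ({t} : Set G) with hX
  have hTX : T ≤ X := fun q hq => Subgroup.mem_centralizer_singleton_iff.mpr (htc q hq)
  set W₀ : Subgroup G := (oddCore N).map N.subtype with hW₀
  have hW₀N : W₀ ≤ N := by
    rintro _ ⟨w, -, rfl⟩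
    exact w.2
  have hW₀odd : (Nat.card W₀).Coprime 2 := by
    rw [hW₀, Subgroup.card_map_of_injective N.subtype_injective]
    exact H15.card_oddCore_coprime
  have hW₀n : ∀ x ∈ N, ∀ w ∈ W₀, x * w * x⁻¹ ∈ W₀ := by
    rintro x hx _ ⟨w, hw, rfl⟩
    have h1 : (⟨x, hx⟩ : N) * w * (⟨x, hx⟩ : N)⁻¹ ∈ oddCore N :=
      (inferInstance : (oddCore N).Normal).conj_mem w hw _
    exact ⟨_, h1, rfl⟩
  have hTN : T ≤ N := Subgroup.le_normalizer
  have hTodd : ∀ w ∈ W₀, ∀ q ∈ T, w * q = q * w := by
    intro w hw q hq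
    have h1 : w * q * w⁻¹ ∈ T := (Subgroup.mem_normalizer_iff.mp (hW₀N hw) q).mp hq
    have h2 : w * q * w⁻¹ * q⁻¹ ∈ T := T.mul_mem h1 (T.inv_mem hq)
    have h3 : w * q * w⁻¹ * q⁻¹ ∈ W₀ := by
      have h4 : w * q * w⁻¹ * q⁻¹ = w * (q * w⁻¹ * q⁻¹) := by group
      rw [h4]
      exact W₀.mul_mem hw (hW₀n q (hTN hq) _ (W₀.inv_mem hw))
    have h5 := eq_one_of_mem_coprime_of_mem_two hW₀odd hT h3 h2
    calc w * q = (w * q * w⁻¹ * q⁻¹) * (q * w) := by group
      _ = q * w := by rw [h5, one_mul]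
  have hW₀X : W₀ ≤ X := fun w hw => Subgroup.mem_centralizer_singleton_iff.mpr (hTodd w hw t htT)
  have hbot := odd_normal_eq_bot_of_local (X := X) (H15.centralizer_pCore_two_le (hs t hto) (hc t hto))
    (T.subgroupOf X) (hT.comap_of_injective X.subtype X.subtype_injective) (W₀.subgroupOf X) ?_ ?_ ?_
  · have h1 : W₀ = ⊥ := by
      rw [eq_bot_iff]
      intro w hw
      have h2 : (⟨w, hW₀X hw⟩ : X) ∈ W₀.subgroupOf X := hw
      rw [hbot, Subgroup.mem_bot] at h2
      exact (Subgroup.mem_bot).mpr (congrArg Subtype.val h2)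
    rw [eq_bot_iff]
    intro w hw
    have h2 : (w : G) ∈ W₀ := ⟨w, hw, rfl⟩
    rw [h1, Subgroup.mem_bot] at h2
    exact (Subgroup.mem_bot).mpr (Subtype.ext h2)
  · rw [Nat.card_congr (Subgroup.subgroupOfEquivOfLe hW₀X).toEquiv]
    exact hW₀odd
  · intro w hw
    apply H02.mem_normalizer_of_conj_le
    intro q hq
    rw [Subgroup.mem_subgroupOf] at hq ⊢
    exact (Subgroup.mem_normalizer_iff.mp (hW₀N hw) q).mp hq
  · intro x hx w hw
    rw [Subgroup.mem_subgroupOf] at hw ⊢
    refine hW₀n x ?_ w hw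
    apply H02.mem_normalizer_of_conj_le
    intro q hq
    have h1 := (Subgroup.mem_normalizer_iff.mp hx ⟨q, hTX hq⟩).mp hq
    exact h1

/-- Characteristic `2` type. -/
theorem charTwo_of_centralizers (h2 : Even (Nat.card G))
    (hs : ∀ t : G, orderOf t = 2 → Group.IsSolvable (Subgroup.centralizer ({t} : Set G)))
    (hc : ∀ t : G, orderOf t = 2 → oddCore (Subgroup.centralizer ({t} : Set G)) = ⊥) :
    IsCharacteristicTwoType G := by
  classical
  refine ⟨h2, ?_⟩
  intro T hT hT1
  haveI : Fact (Nat.Prime 2) := ⟨Nat.prime_two⟩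
  have hodd := oddCore_normalizer_eq_bot hs hc T hT hT1
  set Y := Subgroup.normalizer (T : Set G) with hY
  show Subgroup.centralizer ((pCore 2 Y : Subgroup Y) : Set Y) ≤ pCore 2 Y
  set K : Subgroup Y := Subgroup.centralizer ((pCore 2 Y : Subgroup Y) : Set Y) with hK
  haveI hDn : (pCore 2 Y).Normal := H01.pCore_normal 2
  haveI hKn : K.Normal := Subgroup.normal_centralizer (H := pCore 2 Y)
  -- a central involution
  have hTY : T ≤ Y := Subgroup.le_normalizer
  have hT'n : (T.subgroupOf Y).Normal := (Subgroup.normal_subgroupOf_iff_le_normalizer hTY).mpr le_rfl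
  have hT'p : IsPGroup 2 (T.subgroupOf Y) := hT.comap_of_injective Y.subtype Y.subtype_injective
  have hT'le : T.subgroupOf Y ≤ pCore 2 Y := H01.le_pCore hT'n hT'p
  haveI : Nontrivial T := (Subgroup.nontrivial_iff_ne_bot T).mpr hT1
  have hdvd : 2 ∣ Nat.card T := by
    obtain ⟨k, hk0, hk⟩ := hT.nontrivial_iff_card.mp inferInstance
    rw [hk]
    exact dvd_pow_self 2 hk0.ne'
  obtain ⟨t₀, ht₀⟩ := exists_prime_orderOf_dvd_card' 2 hdvd
  set t : G := (t₀ : G) with ht
  have htT : t ∈ T := t₀.2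
  have hto : orderOf t = 2 := by
    rw [ht, Subgroup.orderOf_coe]; exact ht₀
  -- K embeds in the centralizer of t
  have hcomm : ∀ k : K, ((k : Y) : G) * t = t * ((k : Y) : G) := by
    intro k
    have h1 : (⟨t, hTY htT⟩ : Y) ∈ pCore 2 Y := hT'le htT
    have h2 := Subgroup.mem_centralizer_iff.mp k.2 _ h1
    exact (congrArg Subtype.val h2).symm
  let f : K →* Subgroup.centralizer ({t} : Set G) :=
    { toFun := fun k => ⟨((k : Y) : G), Subgroup.mem_centralizer_singleton_iff.mpr (hcomm k)⟩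
      map_one' := rfl
      map_mul' := fun _ _ => rfl }
  have hfinj : Function.Injective f := by
    intro a b hab
    have h1 : ((a : Y) : G) = ((b : Y) : G) := congrArg (fun z : Subgroup.centralizer ({t} : Set G) => (z : G)) hab
    exact Subtype.ext (Subtype.ext h1)
  haveI hsolX := hs t hto
  have hKsol : Group.IsSolvable K := solvable_of_solvable_injective hfinj
  -- odd core of K
  have hKodd : oddCore K = ⊥ := by
    have h1 : ((oddCore K).map K.subtype).Normal :=
      map_subtype_normal_of_stable K _ (oddCore_stable K)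
    have h2 : (Nat.card ((oddCore K).map K.subtype)).Coprime 2 := by
      rw [Subgroup.card_map_of_injective K.subtype_injective]
      exact H15.card_oddCore_coprime
    have h3 := H15.le_oddCore h1 h2
    rw [hodd] at h3
    rw [eq_bot_iff]
    intro k hk
    have h4 : (k : Y) ∈ ((oddCore K).map K.subtype) := ⟨k, hk, rfl⟩
    have h5 := h3 h4
    rw [Subgroup.mem_bot] at h5
    exact (Subgroup.mem_bot).mpr (Subtype.ext h5)
  have hCK := H15.centralizer_pCore_two_le hKsol hKodd
  -- the 2-core of K lies in the 2-core of Y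
  have h2K : (pCore 2 K).map K.subtype ≤ pCore 2 Y := by
    apply H01.le_pCore
    · exact map_subtype_normal_of_stable K _ (pCore_stable K 2)
    · exact (H01.pCore_isPGroup 2).map _
  intro k hk
  have h6 : (⟨k, hk⟩ : K) ∈ Subgroup.centralizer ((pCore 2 K : Subgroup K) : Set K) := by
    rw [Subgroup.mem_centralizer_iff]
    intro h hh
    have h7 : (h : Y) ∈ pCore 2 Y := h2K ⟨h, hh, rfl⟩
    have h8 := Subgroup.mem_centralizer_iff.mp hk _ h7
    exact Subtype.ext h8
  exact h2K ⟨_, hCK h6, rfl⟩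

end main

end Cfsg.Agent.H02
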