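import Cfsg.Agent.Lib.H02.Gol2
import Cfsg.Agent.Lib.H27.GolayIso
import Cfsg.Agent.Lib.H07.GolayOctA8

/-!
Stabiliser orders and the automorphism group of the octad system.
-/

set_option autoImplicit false

namespace Cfsg.Agent.H02.Gol

open Cfsg Cfsg.Agent.H27.Golay
open scoped Pointwise

theorem M24_eq_aut : M24 = setSystemAut octads := by
  ext g
  constructor
  · intro hg
    rw [MulAction.mem_stabilizer_iff]
    ext o
    constructor
    · rintro ⟨o', ho', rfl⟩
      exact smul_mem_octads hg ho'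
    · intro ho
      refine ⟨g⁻¹ • o, smul_mem_octads (M24.inv_mem hg) ho, ?_⟩
      show g • g⁻¹ • o = o
      rw [smul_inv_smul]
  · intro hg
    rw [MulAction.mem_stabilizer_iff] at hg
    apply mem_M24_of_basis
    intro b hb
    have hlt : ∀ b ∈ basisL, b < 2 ^ 24 ∧ popc b = 8 ∧ inCode b = true := by decide +kernel
    obtain ⟨h1, h2, h3⟩ := hlt b hb
    have hoct : fs b ∈ octads := mem_octads_fs h1 h3 h2
    have h4 : g • fs b ∈ octads := by
      rw [← hg]
      exact Set.smul_mem_smul_set hoct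
    have h5 : support₂ (pw g (wd b)) = g • fs b := by
      rw [support_pw, support_wd]
    obtain ⟨w, hw, hw2⟩ := h4.1
    have h6 : pw g (wd b) = w := by
      have h7 : support₂ (pw g (wd b)) = support₂ w := by rw [h5, hw2]
      funext p
      by_cases hp : w p = 0
      · have hq : p ∉ support₂ w := by simp [mem_support₂, hp]
        rw [← h7, mem_support₂] at hq
        push Not at hq
        rw [hq, hp]
      · have hq : p ∈ support₂ w := mem_support₂.mpr hp
        rw [← h7, mem_support₂] at hq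
        rw [zmod2_eq _ hq, zmod2_eq _ hp]
    rw [h6]
    exact hw

theorem card_pts : Nat.card GolayPt = 24 := by
  rw [Nat.card_eq_fintype_card]
  rfl

theorem k_pretrans (k : ℕ) (hk : k ≤ 5) : MulAction.IsMultiplyPretransitive M24 GolayPt k := by
  haveI := five_pretrans
  refine MulAction.isMultiplyPretransitive_of_le (n := 5) hk ?_
  rw [card_pts]
  norm_num

theorem one_trans (p y : GolayPt) : ∃ g ∈ M24, g p = y := by
  haveI := k_pretrans 1 (by norm_num)
  let x : Fin 1 ↪ GolayPt := ⟨fun _ => p, fun a b _ => Subsingleton.elim a b⟩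
  let x' : Fin 1 ↪ GolayPt := ⟨fun _ => y, fun a b _ => Subsingleton.elim a b⟩
  obtain ⟨g, hg⟩ := MulAction.exists_smul_eq M24 x x'
  exact ⟨g.1, g.2, congrArg (fun e : Fin 1 ↪ GolayPt => e 0) hg⟩

theorem two_trans {p q p' q' : GolayPt} (h : p ≠ q) (h' : p' ≠ q') : ∃ g ∈ M24, g p = p' ∧ g q = q' := by
  haveI := k_pretrans 2 (by norm_num)
  let x : Fin 2 ↪ GolayPt := ⟨![p, q], by
    intro a b hab
    fin_cases a <;> fin_cases b <;> simp_all⟩
  let x' : Fin 2 ↪ GolayPt := ⟨![p', q'], by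
    intro a b hab
    fin_cases a <;> fin_cases b <;> simp_all⟩
  obtain ⟨g, hg⟩ := MulAction.exists_smul_eq M24 x x'
  exact ⟨g.1, g.2, congrArg (fun e : Fin 2 ↪ GolayPt => e 0) hg, congrArg (fun e : Fin 2 ↪ GolayPt => e 1) hg⟩

theorem three_trans {p q r p' q' r' : GolayPt} (h1 : p ≠ q) (h2 : p ≠ r) (h3 : q ≠ r)
    (h1' : p' ≠ q') (h2' : p' ≠ r') (h3' : q' ≠ r') :
    ∃ g ∈ M24, g p = p' ∧ g q = q' ∧ g r = r' := by
  haveI := k_pretrans 3 (by norm_num)
  let x : Fin 3 ↪ GolayPt := ⟨![p, q, r], by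
    intro a b hab
    fin_cases a <;> fin_cases b <;> simp_all⟩
  let x' : Fin 3 ↪ GolayPt := ⟨![p', q', r'], by
    intro a b hab
    fin_cases a <;> fin_cases b <;> simp_all⟩
  obtain ⟨g, hg⟩ := MulAction.exists_smul_eq M24 x x'
  exact ⟨g.1, g.2, congrArg (fun e : Fin 3 ↪ GolayPt => e 0) hg, congrArg (fun e : Fin 3 ↪ GolayPt => e 1) hg,
    congrArg (fun e : Fin 3 ↪ GolayPt => e 2) hg⟩

theorem card_point_stab (p : GolayPt) : Nat.card (MulAction.stabilizer M24 p) = 10200960 := by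
  have h := card_stab_of_trans (A := (Set.univ : Set GolayPt)) (x := p) (Set.mem_univ _)
    (fun y _ => one_trans p y)
    (fun g _ y _ => Set.mem_univ _)
  have h2 : (Set.univ : Set GolayPt).ncard = 24 := by
    rw [Set.ncard_univ, card_pts]
  rw [h2] at h
  omega

theorem card_two_stab {p q : GolayPt} (hpq : p ≠ q) :
    Nat.card ↥(MulAction.stabilizer M24 p ⊓ MulAction.stabilizer M24 q) = 443520 := by
  have h := card_inf_stab p q
  have h2 : Orb p q = {y : GolayPt | y ≠ p} := by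
    ext y
    constructor
    · rintro ⟨s, hs, h1, rfl⟩ he
      have h3 : s • q = s • p := by rw [he]; exact h1.symm
      exact hpq (MulAction.injective s h3).symm
    · intro hy
      obtain ⟨g, hg, h1, h3⟩ := two_trans hpq (Ne.symm hy)
      exact ⟨g, hg, h1, h3⟩
  have h3 : ({y : GolayPt | y ≠ p} : Set GolayPt).ncard = 23 := by
    have h4 : ({y : GolayPt | y ≠ p} : Set GolayPt) = {p}ᶜ := by
      ext y
      simp
    rw [h4, Set.ncard_compl, Set.ncard_singleton, card_pts]
  rw [h2, h3, card_point_stab] at h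
  omega

theorem T7_invol : allL (fun t => allBelow (fun i => Nat.beq (pa t (pa t i)) i) 24) T7 = true := by decide +kernel

theorem fix6_invol {g : Equiv.Perm GolayPt} (hg : g ∈ fixG [5, 3, 2, 1, 0, 23]) : g * g = 1 := by
  obtain ⟨t, ht, hok, rfl⟩ := exists_T7 hg
  have h1 := allL_spec T7_invol t ht
  ext1 p
  have h2 := Nat.eq_of_beq_eq_true (allBelow_spec h1 _ (idx_lt p))
  rw [Equiv.Perm.mul_apply, P_apply hok p, P_pt hok (pa_lt hok (idx_lt p)), h2, pt_idx]
  rfl

theorem octad_fix_card_invol (o : Finset GolayPt) (ho : o ∈ octads) :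
    Nat.card ↥(M24 ⊓ fixingSubgroup (Equiv.Perm GolayPt) (o : Set GolayPt)) = 16 ∧
      ∀ g ∈ M24 ⊓ fixingSubgroup (Equiv.Perm GolayPt) (o : Set GolayPt), g * g = 1 := by
  obtain ⟨h, hh, rfl⟩ := exists_smul_O0 ho
  have hfix : ∀ g ∈ M24 ⊓ fixingSubgroup (Equiv.Perm GolayPt) ((h • fs O0 : Finset GolayPt) : Set GolayPt),
      h⁻¹ * g * h ∈ fixG [5, 3, 2, 1, 0, 23] := by
    intro g hg
    refine Cfsg.Agent.H07.Orb.mem_fixG_of_pw (M24.mul_mem (M24.mul_mem (M24.inv_mem hh) hg.1) hh) ?_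
    intro x hx
    have hx2 : h x ∈ h • fs O0 := Finset.smul_mem_smul_finset (a := h) hx
    have h2 := (mem_fixingSubgroup_iff (Equiv.Perm GolayPt)).mp hg.2 (h x) (Finset.mem_coe.mpr hx2)
    simp only [Equiv.Perm.mul_apply]
    have h3 : g (h x) = h x := h2
    rw [h3]
    simp
  constructor
  · rw [← card_fix6]
    refine Nat.card_congr ⟨fun z => ⟨h⁻¹ * z.1 * h, hfix z.1 z.2⟩,
      fun y => ⟨h * y.1 * h⁻¹, M24.mul_mem (M24.mul_mem hh y.2.1) (M24.inv_mem hh), ?_⟩, ?_, ?_⟩
    · refine (mem_fixingSubgroup_iff (Equiv.Perm GolayPt)).mpr ?_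
      intro x hx
      have hx' : x ∈ h • fs O0 := Finset.mem_coe.mp hx
      obtain ⟨a, ha, rfl⟩ := Finset.mem_smul_finset.mp hx'
      show (h * y.1 * h⁻¹) (h a) = h a
      have h1 := Cfsg.Agent.H07.Orb.fix6_pw y.2 ha
      simp [h1]
    · intro z
      apply Subtype.ext
      show h * (h⁻¹ * z.1 * h) * h⁻¹ = _
      group
    · intro y
      apply Subtype.ext
      show h⁻¹ * (h * y.1 * h⁻¹) * h = _
      group
  · intro g hg
    have h1 := fix6_invol (hfix g hg)
    have h2 : g * g = h * ((h⁻¹ * g * h) * (h⁻¹ * g * h)) * h⁻¹ := by group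
    rw [h2, h1]
    group

end Cfsg.Agent.H02.Gol
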