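import Cfsg.Agent.Lib.H02.LeechB

/-!
Counting vectors of the Leech lattice of small norm by a generating function evaluated at a large base.
-/

set_option autoImplicit false

namespace Cfsg.Agent.H02.LeechC

open Cfsg Cfsg.Agent.H27.Golay Cfsg.Agent.H26.Leech

/-- Digit extraction for a sum of powers. -/
theorem digit_sum {α : Type*} (V : Finset α) (E : α → ℕ) (b : ℕ) (hb : V.card < b) (n : ℕ) :
    ((∑ v ∈ V, b ^ E v) / b ^ n) % b = (V.filter (fun v => E v = n)).card := by
  classical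
  have hb0 : 0 < b := by omega
  have hbn : 0 < b ^ n := pow_pos hb0 n
  set A := ∑ v ∈ V, (if E v < n then b ^ E v else 0) with hA
  set B := ∑ v ∈ V, (if E v = n then 1 else 0) with hB
  set C := ∑ v ∈ V, (if n < E v then b ^ (E v - n - 1) else 0) with hC
  have h1 : ∑ v ∈ V, b ^ E v = A + b ^ n * (B + b * C) := by
    rw [hA, hB, hC, Finset.mul_sum, ← Finset.sum_add_distrib, Finset.mul_sum, ← Finset.sum_add_distrib]
    apply Finset.sum_congr rfl
    intro v _
    rcases lt_trichotomy (E v) n with h | h | h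
    · simp [h, h.ne, h.not_gt]
    · simp [h]
    · simp only [h, h.ne', h.not_gt, if_true, if_false, zero_add, ↓reduceIte]
      rw [← mul_assoc, ← pow_succ, ← pow_add]
      congr 1
      omega
  have hBcard : B = (V.filter (fun v => E v = n)).card := by
    rw [hB, Finset.card_filter]
  have hBlt : B < b := by
    rw [hBcard]
    exact lt_of_le_of_lt (Finset.card_filter_le _ _) hb
  have hAlt : A < b ^ n := by
    have h2 : A * b ≤ V.card * b ^ n := by
      rw [hA, Finset.sum_mul, ← smul_eq_mul, ← Finset.sum_const]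
      apply Finset.sum_le_sum
      intro v _
      by_cases h : E v < n
      · rw [if_pos h, ← pow_succ]
        exact Nat.pow_le_pow_right hb0 h
      · rw [if_neg h, zero_mul]
        exact Nat.zero_le _
    have h3 : V.card * b ^ n < b * b ^ n := Nat.mul_lt_mul_of_pos_right hb hbn
    have h4 : A * b < b ^ n * b := by
      calc A * b ≤ V.card * b ^ n := h2
        _ < b * b ^ n := h3
        _ = b ^ n * b := mul_comm _ _
    exact Nat.lt_of_mul_lt_mul_right h4
  rw [h1, Nat.add_mul_div_left _ _ hbn, Nat.div_eq_of_lt hAlt, zero_add, Nat.add_mul_mod_self_left,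
    Nat.mod_eq_of_lt hBlt, hBcard]

/-- The base. -/
def bb : ℕ := 2 ^ 64

theorem bb_eq : bb = 2 ^ 64 := rfl

/-- The multiplier of the squared length. -/
def KK : ℕ := 256

theorem KK_eq : KK = 256 := rfl

attribute [irreducible] bb KK

/-- The exponent of one coordinate. -/
def ee (a : ℤ) : ℕ := KK * (a ^ 2).toNat + (a % 8).toNat

/-- The exponent of a vector. -/
def EE (x : GolayPt → ℤ) : ℕ := ∑ i, ee (x i)

/-- The residue class of a coordinate. -/
def rr (ε : ℕ) (b : ZMod 2) : ℤ := (ε : ℤ) + 2 * (b.val : ℤ)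

/-- Allowed values in a class. -/
noncomputable def Sc (r : ℤ) : Finset ℤ := (Finset.Icc (-8) 8).filter (fun a => a % 4 = r)

theorem mem_Sc {r a : ℤ} : a ∈ Sc r ↔ (-8 ≤ a ∧ a ≤ 8) ∧ a % 4 = r := by
  unfold Sc
  rw [Finset.mem_filter, Finset.mem_Icc]

/-- All vectors with prescribed residues. -/
noncomputable def pi' (ε : ℕ) (c : GolayPt → ZMod 2) : Finset (GolayPt → ℤ) :=
  Fintype.piFinset (fun i => Sc (rr ε (c i)))

theorem mem_pi' {ε : ℕ} {c : GolayPt → ZMod 2} {x : GolayPt → ℤ} :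
    x ∈ pi' ε c ↔ ∀ i, (-8 ≤ x i ∧ x i ≤ 8) ∧ x i % 4 = rr ε (c i) := by
  unfold pi'
  rw [Fintype.mem_piFinset]
  exact forall_congr' fun i => mem_Sc

/-- The vectors of a given class. -/
noncomputable def X (ε : ℕ) (c : GolayPt → ZMod 2) (N : ℕ) : Finset (GolayPt → ℤ) :=
  (pi' ε c).filter (fun x => sqNorm x = N ∧ (∑ i, x i) % 8 = 4 * (ε : ℤ))

theorem zmod2_cases (b : ZMod 2) : b = 0 ∨ b = 1 := by revert b; decide

theorem val_zero : (0 : ZMod 2).val = 0 := rfl

theorem val_one : (1 : ZMod 2).val = 1 := rfl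

theorem le_of_sqNorm {x : GolayPt → ℤ} {N : ℕ} (h : sqNorm x = N) (hN : N ≤ 64) (i : GolayPt) :
    -8 ≤ x i ∧ x i ≤ 8 := by
  have h1 : x i ^ 2 ≤ sqNorm x := by
    unfold sqNorm
    exact Finset.single_le_sum (f := fun i => x i ^ 2) (fun j _ => sq_nonneg (x j)) (Finset.mem_univ i)
  rw [h] at h1
  have h2 : x i ^ 2 ≤ 64 := by
    have : (N : ℤ) ≤ 64 := by exact_mod_cast hN
    omega
  constructor <;> nlinarith

theorem hi_res {x : GolayPt → ℤ} {ε : ℕ} (hε : ε < 2) (h : ∀ i, x i % 2 = (ε : ℤ)) (i : GolayPt) :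
    x i % 4 = rr ε (hi x i) := by
  have h1 := h i
  show x i % 4 = (ε : ℤ) + 2 * ((hiZ (x i)).val : ℤ)
  unfold hiZ
  have hε' : (ε : ℤ) = 0 ∨ (ε : ℤ) = 1 := by omega
  by_cases h2 : x i % 4 = 2 ∨ x i % 4 = 3
  · rw [if_pos h2, val_one]
    push_cast
    omega
  · rw [if_neg h2, val_zero]
    push_cast
    omega

theorem hi_of_res {x : GolayPt → ℤ} {ε : ℕ} {c : GolayPt → ZMod 2} (hε : ε < 2)
    (h : ∀ i, x i % 4 = rr ε (c i)) : hi x = c := by
  funext i
  have h1 := h i
  show hiZ (x i) = c i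
  unfold hiZ rr at *
  have hε' : (ε : ℤ) = 0 ∨ (ε : ℤ) = 1 := by omega
  rcases zmod2_cases (c i) with h2 | h2
  · rw [h2, val_zero] at h1
    rw [h2, if_neg]
    push_cast at h1
    omega
  · rw [h2, val_one] at h1
    rw [h2, if_pos]
    push_cast at h1
    omega

theorem mem_T {x : GolayPt → ℤ} {N : ℕ} (hN : N ≤ 64) :
    (x ∈ leechLattice ∧ sqNorm x = N) ↔ ∃ ε < 2, ∃ c ∈ golayCode, x ∈ X ε c N := by
  constructor
  · rintro ⟨h1, h2⟩
    rw [mem_leechLattice_iff] at h1
    rcases even_or_odd h1 with ⟨h3, h4, h5⟩ | ⟨h3, h4, h5⟩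
    · refine ⟨0, by norm_num, hi x, h5, ?_⟩
      unfold X
      rw [Finset.mem_filter, mem_pi']
      refine ⟨fun i => ⟨le_of_sqNorm h2 hN i, hi_res (by norm_num) (fun j => by simpa using h3 j) i⟩, h2, ?_⟩
      simpa using h4
    · refine ⟨1, by norm_num, hi x, h5, ?_⟩
      unfold X
      rw [Finset.mem_filter, mem_pi']
      refine ⟨fun i => ⟨le_of_sqNorm h2 hN i, hi_res (by norm_num) (fun j => by simpa using h3 j) i⟩, h2, ?_⟩
      simpa using h4
  · rintro ⟨ε, hε, c, hc, hx⟩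
    unfold X at hx
    rw [Finset.mem_filter, mem_pi'] at hx
    obtain ⟨h1, h2, h3⟩ := hx
    refine ⟨?_, h2⟩
    rw [mem_leechLattice_iff, mem_leechSet_iff]
    have hres : ∀ i, x i % 4 = rr ε (c i) := fun i => (h1 i).2
    refine ⟨(ε : ℤ), fun i => ?_, ?_, ?_⟩
    · have h4 := hres i
      show x i % 2 = (ε : ℤ) % 2
      unfold rr at h4
      omega
    · show (∑ i, x i) % 8 = (4 * (ε : ℤ)) % 8
      rw [h3]
      omega
    · rw [hi_of_res hε hres]
      exact hc

theorem X_disjoint {ε ε' : ℕ} {c c' : GolayPt → ZMod 2} (N : ℕ) (hε : ε < 2) (hε' : ε' < 2)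
    (hne : (ε, c) ≠ (ε', c')) : Disjoint (X ε c N) (X ε' c' N) := by
  rw [Finset.disjoint_left]
  intro x hx hx'
  unfold X at hx hx'
  rw [Finset.mem_filter, mem_pi'] at hx hx'
  apply hne
  have h1 : hi x = c := hi_of_res hε (fun i => (hx.1 i).2)
  have h2 : hi x = c' := hi_of_res hε' (fun i => (hx'.1 i).2)
  have h3 := (hx.1 none).2
  have h4 := (hx'.1 none).2
  have hc : c = c' := h1.symm.trans h2
  subst hc
  unfold rr at h3 h4
  have : ε = ε' := by omega
  rw [this]

/-- The sum of the residues modulo eight. -/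
def Sm (x : GolayPt → ℤ) : ℕ := ∑ i, (x i % 8).toNat

theorem Sm_lt (x : GolayPt → ℤ) : Sm x < KK := by
  have h : Sm x ≤ ∑ _i : GolayPt, 7 := by
    apply Finset.sum_le_sum
    intro i _
    have h1 := Int.emod_nonneg (x i) (by norm_num : (8 : ℤ) ≠ 0)
    have h2 := Int.emod_lt_of_pos (x i) (by norm_num : (0 : ℤ) < 8)
    omega
  have h3 : ∑ _i : GolayPt, 7 = 168 := by decide
  have h4 : KK = 256 := KK_eq
  omega

theorem EE_eq (x : GolayPt → ℤ) : EE x = KK * (sqNorm x).toNat + Sm x := by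
  have h : ((∑ i, (x i ^ 2).toNat : ℕ) : ℤ) = ∑ i, x i ^ 2 := by
    push_cast
    apply Finset.sum_congr rfl
    intro i _
    exact Int.toNat_of_nonneg (sq_nonneg _)
  have h2 : (sqNorm x).toNat = ∑ i, (x i ^ 2).toNat := by
    unfold sqNorm
    rw [← h, Int.toNat_natCast]
  rw [h2]
  unfold EE ee Sm
  rw [Finset.sum_add_distrib, ← Finset.mul_sum]

theorem Sm_mod (x : GolayPt → ℤ) : (∑ i, x i) % 8 = ((Sm x % 8 : ℕ) : ℤ) := by
  have h : ((Sm x : ℕ) : ℤ) = ∑ i, x i % 8 := by
    unfold Sm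
    push_cast
    apply Finset.sum_congr rfl
    intro i _
    exact Int.toNat_of_nonneg (Int.emod_nonneg _ (by norm_num))
  have h2 : (∑ i, x i) % 8 = (∑ i, x i % 8) % 8 := by
    rw [Finset.sum_int_mod]
  rw [h2, ← h]
  omega

/-- The set of residues for the sum. -/
def Rs (ε : ℕ) : Finset ℕ := (Finset.range KK).filter (fun s => s % 8 = 4 * ε)

theorem card_X (ε : ℕ) (hε : ε < 2) (c : GolayPt → ZMod 2) (N : ℕ) :
    (X ε c N).card = ∑ s ∈ Rs ε, ((pi' ε c).filter (fun x => EE x = KK * N + s)).card := by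
  classical
  have hmaps : ∀ x ∈ X ε c N, Sm x ∈ Rs ε := by
    intro x hx
    unfold X at hx
    rw [Finset.mem_filter] at hx
    unfold Rs
    rw [Finset.mem_filter, Finset.mem_range]
    refine ⟨Sm_lt x, ?_⟩
    have h1 := hx.2.2
    rw [Sm_mod] at h1
    exact_mod_cast h1
  have hfib : ∀ s ∈ Rs ε, (X ε c N).filter (fun x => Sm x = s) =
      (pi' ε c).filter (fun x => EE x = KK * N + s) := by
    intro s hs
    unfold Rs at hs
    rw [Finset.mem_filter, Finset.mem_range] at hs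
    ext x
    unfold X
    rw [Finset.mem_filter, Finset.mem_filter, Finset.mem_filter]
    constructor
    · rintro ⟨⟨h1, h2, h3⟩, h4⟩
      refine ⟨h1, ?_⟩
      rw [EE_eq, h2, h4, Int.toNat_natCast]
    · rintro ⟨h1, h2⟩
      rw [EE_eq] at h2
      have hK : 0 < KK := by rw [KK_eq]; norm_num
      have h3 := Sm_lt x
      have h5 : (sqNorm x).toNat = N := by
        have h6 : (KK * (sqNorm x).toNat + Sm x) / KK = (KK * N + s) / KK := by rw [h2]
        rw [Nat.mul_add_div hK, Nat.mul_add_div hK, Nat.div_eq_of_lt h3, Nat.div_eq_of_lt hs.1] at h6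
        simpa using h6
      have h7 : Sm x = s := by
        rw [h5] at h2
        omega
      have h8 : sqNorm x = N := by
        have h9 : 0 ≤ sqNorm x := sqNorm_nonneg' x
        omega
      refine ⟨⟨h1, h8, ?_⟩, h7⟩
      rw [Sm_mod, h7, hs.2]
      push_cast
      rfl
  rw [Finset.card_eq_sum_card_fiberwise hmaps]
  exact Finset.sum_congr rfl (fun s hs => by rw [hfib s hs])

/-- The generating polynomial of one class. -/
noncomputable def gg (r : ℤ) : ℕ := ∑ a ∈ Sc r, bb ^ ee a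

theorem prod_gg (ε : ℕ) (c : GolayPt → ZMod 2) :
    ∏ i, gg (rr ε (c i)) = ∑ x ∈ pi' ε c, bb ^ EE x := by
  unfold gg pi'
  rw [Finset.prod_univ_sum]
  apply Finset.sum_congr rfl
  intro x _
  unfold EE
  rw [Finset.prod_pow_eq_pow_sum]

theorem prod_gg_eq (ε : ℕ) (c : GolayPt → ZMod 2) :
    ∏ i, gg (rr ε (c i)) = gg ((ε : ℤ) + 2) ^ hammingNorm c * gg (ε : ℤ) ^ (24 - hammingNorm c) := by
  classical
  rw [← Finset.prod_filter_mul_prod_filter_not Finset.univ (fun i => c i ≠ 0)]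
  have h1 : ∏ i ∈ Finset.univ.filter (fun i => c i ≠ 0), gg (rr ε (c i)) =
      gg ((ε : ℤ) + 2) ^ hammingNorm c := by
    rw [Finset.prod_congr rfl (g := fun _ => gg ((ε : ℤ) + 2))]
    · rw [Finset.prod_const]
      rfl
    · intro i hi
      rw [Finset.mem_filter] at hi
      rcases zmod2_cases (c i) with h | h
      · exact absurd h hi.2
      · rw [h]
        unfold rr
        rw [val_one]
        simp
  have h2 : ∏ i ∈ Finset.univ.filter (fun i => ¬ c i ≠ 0), gg (rr ε (c i)) =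
      gg (ε : ℤ) ^ (24 - hammingNorm c) := by
    rw [Finset.prod_congr rfl (g := fun _ => gg (ε : ℤ))]
    · rw [Finset.prod_const]
      congr 1
      have h3 := Finset.card_filter_add_card_filter_not (s := (Finset.univ : Finset GolayPt)) (fun i => c i ≠ 0)
      have h4 : (Finset.univ : Finset GolayPt).card = 24 := by decide
      have h5 : hammingNorm c = (Finset.univ.filter (fun i => c i ≠ 0)).card := rfl
      omega
    · intro i hi
      rw [Finset.mem_filter] at hi
      have : c i = 0 := by simpa using hi.2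
      rw [this]
      unfold rr
      rw [val_zero]
      simp
  rw [h1, h2]

theorem card_Sc_le {r : ℤ} (h : r = 0 ∨ r = 1 ∨ r = 2 ∨ r = 3) : (Sc r).card ≤ 5 := by
  rcases h with rfl | rfl | rfl | rfl <;> decide

theorem card_pi'_lt {ε : ℕ} (hε : ε < 2) (c : GolayPt → ZMod 2) : (pi' ε c).card < bb := by
  unfold pi'
  rw [Fintype.card_piFinset]
  have h1 : ∏ i, (Sc (rr ε (c i))).card ≤ 5 ^ (Finset.univ : Finset GolayPt).card := by
    apply Finset.prod_le_pow_card
    intro i _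
    apply card_Sc_le
    unfold rr
    have hε' : (ε : ℤ) = 0 ∨ (ε : ℤ) = 1 := by omega
    rcases zmod2_cases (c i) with h | h <;> rw [h]
    · rw [val_zero]
      omega
    · rw [val_one]
      omega
  have h2 : (Finset.univ : Finset GolayPt).card = 24 := by decide
  rw [h2] at h1
  exact lt_of_le_of_lt h1 (by rw [bb_eq]; norm_num)

/-- The digits of the relevant block. -/
def DD (P N : ℕ) : ℕ := (P / bb ^ (KK * N)) % bb ^ KK

/-- Summing digits. -/
def sumS : ℕ → ℕ → ℕ → ℕ
  | 0, _, _ => 0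
  | n + 1, D, r => (if n % 8 = r then (D / bb ^ n) % bb else 0) + sumS n D r

theorem sumS_eq (n D r : ℕ) : sumS n D r = ∑ s ∈ (Finset.range n).filter (fun s => s % 8 = r), (D / bb ^ s) % bb := by
  induction n with
  | zero => rfl
  | succ m ih =>
    rw [sumS, ih, Finset.range_add_one, Finset.filter_insert]
    by_cases h : m % 8 = r
    · rw [if_pos h, if_pos h, Finset.sum_insert]
      simp
    · rw [if_neg h, if_neg h, zero_add]

theorem dig_block (P N s : ℕ) (hs : s < KK) :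
    (P / bb ^ (KK * N + s)) % bb = (DD P N / bb ^ s) % bb := by
  unfold DD
  rw [pow_add, ← Nat.div_div_eq_div_mul]
  set Q := P / bb ^ (KK * N)
  rw [← Nat.mod_mul_right_div_self, ← Nat.mod_mul_right_div_self (Q % bb ^ KK)]
  congr 1
  rw [Nat.mod_mod_of_dvd]
  rw [← pow_succ]
  exact pow_dvd_pow _ hs

/-- The count for a given class and weight. -/
noncomputable def FF (ε w N : ℕ) : ℕ :=
  sumS KK (DD (gg ((ε : ℤ) + 2) ^ w * gg (ε : ℤ) ^ (24 - w)) N) (4 * ε)

theorem card_X_eq (ε : ℕ) (hε : ε < 2) (c : GolayPt → ZMod 2) (N : ℕ) :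
    (X ε c N).card = FF ε (hammingNorm c) N := by
  unfold FF
  rw [← prod_gg_eq, prod_gg, card_X ε hε, sumS_eq]
  apply Finset.sum_congr rfl
  intro s hs
  unfold Rs at hs
  rw [Finset.mem_filter, Finset.mem_range] at hs
  rw [← dig_block _ _ _ hs.1, digit_sum _ _ _ (card_pi'_lt hε c)]

/-- The code words as a finite set. -/
noncomputable def codeF : Finset (GolayPt → ZMod 2) :=
  (Finset.univ : Finset (Fin 4096)).image (fun c : Fin 4096 => wd (cwF c))

theorem mem_codeF {w : GolayPt → ZMod 2} : w ∈ codeF ↔ w ∈ golayCode := by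
  unfold codeF
  rw [Finset.mem_image]
  constructor
  · rintro ⟨c, -, rfl⟩
    exact wd_cwF_mem c
  · intro h
    obtain ⟨c, hc, rfl⟩ := exists_cwF_of_mem h
    exact ⟨⟨c, hc⟩, Finset.mem_univ _, rfl⟩

theorem wd_cwF_inj : Function.Injective (fun c : Fin 4096 => wd (cwF c)) := by
  intro c d h
  have hc := cw_low c c.2
  have hd := cw_low d d.2
  rw [cw_eq_cwF c c.2] at hc
  rw [cw_eq_cwF d d.2] at hd
  have h2 := wd_injOn (cwF_lt c c.2) (cwF_lt d d.2) h
  apply Fin.ext
  rw [← hc, ← hd, h2]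

theorem wt_wd (c : Fin 4096) : hammingNorm (wd (cwF c)) = popc (cwF c) := by
  have h1 : hammingNorm (wd (cwF c)) = (support₂ (wd (cwF c))).card := rfl
  rw [h1, support_wd, card_fs (cwF_lt c c.2)]

theorem count0 : ((Finset.univ : Finset (Fin 4096)).filter (fun c : Fin 4096 => popc (cwF c) = 0)).card = 1 := by
  decide +kernel

theorem count8 : ((Finset.univ : Finset (Fin 4096)).filter (fun c : Fin 4096 => popc (cwF c) = 8)).card = 759 := by
  decide +kernel

theorem count12 : ((Finset.univ : Finset (Fin 4096)).filter (fun c : Fin 4096 => popc (cwF c) = 12)).card = 2576 := by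
  decide +kernel

theorem count16 : ((Finset.univ : Finset (Fin 4096)).filter (fun c : Fin 4096 => popc (cwF c) = 16)).card = 759 := by
  decide +kernel

theorem count24 : ((Finset.univ : Finset (Fin 4096)).filter (fun c : Fin 4096 => popc (cwF c) = 24)).card = 1 := by
  decide +kernel

theorem sum_code (f : ℕ → ℕ) :
    ∑ c ∈ codeF, f (hammingNorm c) = f 0 + 759 * f 8 + 2576 * f 12 + 759 * f 16 + f 24 := by
  unfold codeF
  rw [Finset.sum_image (fun x _ y _ h => wd_cwF_inj h)]
  simp only [wt_wd]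
  have hmaps : ∀ c ∈ (Finset.univ : Finset (Fin 4096)), popc (cwF c) ∈ ({0, 8, 12, 16, 24} : Finset ℕ) := by
    intro c _
    rw [← wt_wd]
    have := Gol.golay_weights _ (wd_cwF_mem c)
    simpa using this
  rw [← Finset.sum_fiberwise_of_maps_to hmaps]
  have hfib : ∀ y ∈ ({0, 8, 12, 16, 24} : Finset ℕ),
      ∑ c ∈ (Finset.univ : Finset (Fin 4096)).filter (fun c : Fin 4096 => popc (cwF c) = y), f (popc (cwF c)) =
        ((Finset.univ : Finset (Fin 4096)).filter (fun c : Fin 4096 => popc (cwF c) = y)).card * f y := by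
    intro y _
    rw [Finset.sum_congr rfl (g := fun _ => f y), Finset.sum_const, smul_eq_mul]
    intro c hc
    rw [(Finset.mem_filter.mp hc).2]
  rw [Finset.sum_congr rfl hfib]
  rw [Finset.sum_insert (by decide), Finset.sum_insert (by decide), Finset.sum_insert (by decide),
    Finset.sum_insert (by decide), Finset.sum_singleton, count0, count8, count12, count16, count24]
  ring

/-- The union of all classes. -/
noncomputable def TT (N : ℕ) : Finset (GolayPt → ℤ) :=
  ((Finset.range 2) ×ˢ codeF).biUnion (fun p => X p.1 p.2 N)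

theorem ncard_T (N : ℕ) (hN : N ≤ 64) :
    {x : GolayPt → ℤ | x ∈ leechLattice ∧ sqNorm x = N}.ncard =
      ∑ ε ∈ Finset.range 2, (FF ε 0 N + 759 * FF ε 8 N + 2576 * FF ε 12 N + 759 * FF ε 16 N + FF ε 24 N) := by
  have h1 : {x : GolayPt → ℤ | x ∈ leechLattice ∧ sqNorm x = N} = ↑(TT N) := by
    ext x
    rw [Set.mem_setOf_eq, mem_T hN, Finset.mem_coe]
    unfold TT
    rw [Finset.mem_biUnion]
    constructor
    · rintro ⟨ε, hε, c, hc, hx⟩
      exact ⟨(ε, c), Finset.mem_product.mpr ⟨Finset.mem_range.mpr hε, mem_codeF.mpr hc⟩, hx⟩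
    · rintro ⟨⟨ε, c⟩, hp, hx⟩
      rw [Finset.mem_product] at hp
      exact ⟨ε, Finset.mem_range.mp hp.1, c, mem_codeF.mp hp.2, hx⟩
  rw [h1, Set.ncard_coe_finset]
  unfold TT
  rw [Finset.card_biUnion, Finset.sum_product]
  · apply Finset.sum_congr rfl
    intro ε hε
    rw [Finset.mem_range] at hε
    have h2 : ∀ c ∈ codeF, (X ε c N).card = (fun w => FF ε w N) (hammingNorm c) :=
      fun c _ => card_X_eq ε hε c N
    rw [Finset.sum_congr rfl h2]
    exact sum_code (fun w => FF ε w N)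
  · rintro ⟨ε, c⟩ hp ⟨ε', c'⟩ hp' hne
    rw [Finset.mem_coe, Finset.mem_product] at hp hp'
    exact X_disjoint N (Finset.mem_range.mp hp.1) (Finset.mem_range.mp hp'.1) hne

/-- Explicit polynomials. -/
def GLs (l : List ℤ) : ℕ := (l.map (fun a => bb ^ ee a)).sum

theorem gg0 : gg 0 = GLs [-8, -4, 0, 4, 8] := by
  unfold gg GLs
  rw [show Sc 0 = ([-8, -4, 0, 4, 8] : List ℤ).toFinset by decide +kernel, List.sum_toFinset _ (by decide)]

theorem gg1 : gg 1 = GLs [-7, -3, 1, 5] := by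
  unfold gg GLs
  rw [show Sc 1 = ([-7, -3, 1, 5] : List ℤ).toFinset by decide +kernel, List.sum_toFinset _ (by decide)]

theorem gg2 : gg 2 = GLs [-6, -2, 2, 6] := by
  unfold gg GLs
  rw [show Sc 2 = ([-6, -2, 2, 6] : List ℤ).toFinset by decide +kernel, List.sum_toFinset _ (by decide)]

theorem gg3 : gg 3 = GLs [-5, -1, 3, 7] := by
  unfold gg GLs
  rw [show Sc 3 = ([-5, -1, 3, 7] : List ℤ).toFinset by decide +kernel, List.sum_toFinset _ (by decide)]

/-- Even classes. -/
def F0 (w N : ℕ) : ℕ :=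
  sumS KK (DD (GLs [-6, -2, 2, 6] ^ w * GLs [-8, -4, 0, 4, 8] ^ (24 - w)) N) 0

/-- Odd classes. -/
def F1 (w N : ℕ) : ℕ :=
  sumS KK (DD (GLs [-5, -1, 3, 7] ^ w * GLs [-7, -3, 1, 5] ^ (24 - w)) N) 4

theorem FF_zero (w N : ℕ) : FF 0 w N = F0 w N := by
  unfold FF F0
  rw [show (((0 : ℕ) : ℤ) + 2) = 2 by norm_num, show ((0 : ℕ) : ℤ) = 0 by norm_num, gg0, gg2]

theorem FF_one (w N : ℕ) : FF 1 w N = F1 w N := by
  unfold FF F1
  rw [show (((1 : ℕ) : ℤ) + 2) = 3 by norm_num, show ((1 : ℕ) : ℤ) = 1 by norm_num, gg1, gg3]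

theorem ncard_T' (N : ℕ) (hN : N ≤ 64) :
    {x : GolayPt → ℤ | x ∈ leechLattice ∧ sqNorm x = N}.ncard =
      (F0 0 N + 759 * F0 8 N + 2576 * F0 12 N + 759 * F0 16 N + F0 24 N) +
      (F1 0 N + 759 * F1 8 N + 2576 * F1 12 N + 759 * F1 16 N + F1 24 N) := by
  rw [ncard_T N hN, Finset.sum_range_succ, Finset.sum_range_succ, Finset.sum_range_zero, zero_add]
  simp only [FF_zero, FF_one]

theorem total32 : (F0 0 32 + 759 * F0 8 32 + 2576 * F0 12 32 + 759 * F0 16 32 + F0 24 32) +
      (F1 0 32 + 759 * F1 8 32 + 2576 * F1 12 32 + 759 * F1 16 32 + F1 24 32) = 196560 := by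
  decide +kernel

theorem total48 : (F0 0 48 + 759 * F0 8 48 + 2576 * F0 12 48 + 759 * F0 16 48 + F0 24 48) +
      (F1 0 48 + 759 * F1 8 48 + 2576 * F1 12 48 + 759 * F1 16 48 + F1 24 48) = 16773120 := by
  decide +kernel

theorem total64 : (F0 0 64 + 759 * F0 8 64 + 2576 * F0 12 64 + 759 * F0 16 64 + F0 24 64) +
      (F1 0 64 + 759 * F1 8 64 + 2576 * F1 12 64 + 759 * F1 16 64 + F1 24 64) = 398034000 := by
  decide +kernel

theorem count32 : {x : GolayPt → ℤ | x ∈ leechLattice ∧ sqNorm x = 32}.ncard = 196560 := by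
  have h := ncard_T' 32 (by norm_num)
  rw [total32] at h
  exact_mod_cast h

theorem count48 : {x : GolayPt → ℤ | x ∈ leechLattice ∧ sqNorm x = 48}.ncard = 16773120 := by
  have h := ncard_T' 48 (by norm_num)
  rw [total48] at h
  exact_mod_cast h

theorem count64 : {x : GolayPt → ℤ | x ∈ leechLattice ∧ sqNorm x = 64}.ncard = 398034000 := by
  have h := ncard_T' 64 (by norm_num)
  rw [total64] at h
  exact_mod_cast h

end Cfsg.Agent.H02.LeechC
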