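import Cfsg.Agent.Lib.H02.LeechA
import Cfsg.Agent.Lib.H02.LeechC
import Cfsg.Agent.Lib.H02.Gol3

/-!
The automorphism group of the lattice: monomial automorphisms, the centre.
-/

set_option autoImplicit false

namespace Cfsg.Agent.H02.CoA

open Cfsg Cfsg.Agent.H27.Golay Cfsg.Agent.H26.Leech

/-- Build an automorphism. -/
def mk (f f' : leechLattice → leechLattice) (h1 : ∀ x, f' (f x) = x) (h2 : ∀ x, f (f' x) = x)
    (hadd : ∀ x y, f (x + y) = f x + f y)
    (hn : ∀ x, sqNorm (f x : GolayPt → ℤ) = sqNorm (x : GolayPt → ℤ)) : Co0 :=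
  ⟨⟨f, f', h1, h2⟩, hadd, hn⟩

theorem mk_apply (f f' : leechLattice → leechLattice) (h1 : ∀ x, f' (f x) = x) (h2 : ∀ x, f (f' x) = x)
    (hadd : ∀ x y, f (x + y) = f x + f y)
    (hn : ∀ x, sqNorm (f x : GolayPt → ℤ) = sqNorm (x : GolayPt → ℤ)) (x : leechLattice) :
    (mk f f' h1 h2 hadd hn).1 x = f x := rfl

/-- Sign change on a code word. -/
def sgnF (c : Finset GolayPt) (hc : c ∈ supports (golayCode : Set (GolayPt → ZMod 2))) (x : leechLattice) :
    leechLattice :=
  ⟨fun i => if i ∈ c then -x.1 i else x.1 i, LeechA.sign_mem c hc x.1 x.2⟩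

theorem sgnF_apply (c : Finset GolayPt) (hc : c ∈ supports (golayCode : Set (GolayPt → ZMod 2)))
    (x : leechLattice) (i : GolayPt) : (sgnF c hc x).1 i = if i ∈ c then -x.1 i else x.1 i := rfl

/-- The sign change as an automorphism. -/
def sgn (c : Finset GolayPt) (hc : c ∈ supports (golayCode : Set (GolayPt → ZMod 2))) : Co0 :=
  mk (sgnF c hc) (sgnF c hc)
    (by
      intro x
      apply Subtype.ext
      funext i
      rw [sgnF_apply, sgnF_apply]
      by_cases h : i ∈ c <;> simp [h])
    (by
      intro x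
      apply Subtype.ext
      funext i
      rw [sgnF_apply, sgnF_apply]
      by_cases h : i ∈ c <;> simp [h])
    (by
      intro x y
      apply Subtype.ext
      funext i
      show (sgnF c hc (x + y)).1 i = (sgnF c hc x).1 i + (sgnF c hc y).1 i
      rw [sgnF_apply, sgnF_apply, sgnF_apply]
      by_cases h : i ∈ c <;> simp [h, add_comm])
    (by
      intro x
      unfold sqNorm
      apply Finset.sum_congr rfl
      intro i _
      rw [sgnF_apply]
      by_cases h : i ∈ c <;> simp [h])

theorem sgn_apply (c : Finset GolayPt) (hc : c ∈ supports (golayCode : Set (GolayPt → ZMod 2)))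
    (x : leechLattice) (i : GolayPt) : ((sgn c hc).1 x).1 i = if i ∈ c then -x.1 i else x.1 i := rfl

/-- Coordinate permutation. -/
def prmF (σ : Equiv.Perm GolayPt) (hσ : σ ∈ M24) (x : leechLattice) : leechLattice :=
  ⟨fun i => x.1 (σ i), LeechA.perm_mem σ hσ x.1 x.2⟩

theorem prmF_apply (σ : Equiv.Perm GolayPt) (hσ : σ ∈ M24) (x : leechLattice) (i : GolayPt) :
    (prmF σ hσ x).1 i = x.1 (σ i) := rfl

/-- The permutation as an automorphism. -/
def prm (σ : Equiv.Perm GolayPt) (hσ : σ ∈ M24) : Co0 :=
  mk (prmF σ hσ) (prmF σ⁻¹ (M24.inv_mem hσ))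
    (by
      intro x
      apply Subtype.ext
      funext i
      rw [prmF_apply, prmF_apply]
      simp)
    (by
      intro x
      apply Subtype.ext
      funext i
      rw [prmF_apply, prmF_apply]
      simp)
    (by
      intro x y
      apply Subtype.ext
      funext i
      rfl)
    (by
      intro x
      unfold sqNorm
      exact Equiv.sum_comp σ (fun i => x.1 i ^ 2))

theorem prm_apply (σ : Equiv.Perm GolayPt) (hσ : σ ∈ M24) (x : leechLattice) (i : GolayPt) :
    ((prm σ hσ).1 x).1 i = x.1 (σ i) := rfl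

/-- Negation. -/
def negC : Co0 :=
  mk (fun x => -x) (fun x => -x) (fun x => neg_neg x) (fun x => neg_neg x) (fun x y => neg_add x y)
    (by
      intro x
      unfold sqNorm
      apply Finset.sum_congr rfl
      intro i _
      show (-x.1 i) ^ 2 = _
      ring)

theorem negC_apply (x : leechLattice) : negC.1 x = -x := rfl

/-- The vector `8 e_i`. -/
def e8 (i : GolayPt) : leechLattice :=
  ⟨fun j => if j = i then 8 else 0, by
    rw [mem_leechLattice_iff, mem_leechSet_iff]
    refine ⟨0, fun j => ?_, ?_, ?_⟩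
    · show (if j = i then (8 : ℤ) else 0) % 2 = 0 % 2
      split_ifs <;> rfl
    · rw [Finset.sum_ite_eq' Finset.univ i]
      simp only [Finset.mem_univ, if_true]
      decide
    · have : hi (fun j => if j = i then (8 : ℤ) else 0) = 0 := by
        funext j
        show hiZ (if j = i then (8 : ℤ) else 0) = 0
        split_ifs <;> decide
      rw [this]
      exact golayCode.zero_mem⟩

theorem e8_apply (i j : GolayPt) : (e8 i).1 j = if j = i then 8 else 0 := rfl

/-- Additive maps of the lattice. -/
def addHom (g : Co0) : leechLattice →+ leechLattice :=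
  AddMonoidHom.mk' g.1 g.2.1

theorem addHom_apply (g : Co0) (x : leechLattice) : addHom g x = g.1 x := rfl

/-- The expansion in the frame. -/
theorem eight_smul (v : leechLattice) : (8 : ℤ) • v = ∑ i, v.1 i • e8 i := by
  apply Subtype.ext
  funext j
  have h1 : ((∑ i, v.1 i • e8 i : leechLattice) : GolayPt → ℤ) j = ∑ i, v.1 i * (e8 i).1 j := by
    have := map_sum (leechLattice.subtype) (fun i => v.1 i • e8 i) Finset.univ
    have h2 := congrFun this j
    simp only [AddSubgroup.subtype_apply] at h2
    rw [h2, Finset.sum_apply]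
    apply Finset.sum_congr rfl
    intro i _
    rfl
  rw [h1]
  simp only [e8_apply]
  rw [Finset.sum_eq_single j]
  · simp only [if_true]
    show 8 * v.1 j = v.1 j * 8
    ring
  · intro i _ hij
    rw [if_neg (Ne.symm hij), mul_zero]
  · simp

/-- The image of a vector under an automorphism in terms of the images of the frame. -/
theorem eight_smul_map (g : Co0) (v : leechLattice) : (8 : ℤ) • g.1 v = ∑ i, v.1 i • g.1 (e8 i) := by
  have h := congrArg (addHom g) (eight_smul v)
  rw [map_zsmul, map_sum] at h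
  simp only [map_zsmul, addHom_apply] at h
  exact h

theorem coe_sum_apply {ι : Type*} (s : Finset ι) (f : ι → leechLattice) (j : GolayPt) :
    ((∑ i ∈ s, f i : leechLattice) : GolayPt → ℤ) j = ∑ i ∈ s, (f i).1 j := by
  have := map_sum (leechLattice.subtype) f s
  have h2 := congrFun this j
  simp only [AddSubgroup.subtype_apply] at h2
  rw [h2, Finset.sum_apply]

/-- Separation of points by code words. -/
theorem exists_qr_sep : ∀ i j : GolayPt, i ≠ j → ∃ t : ZMod 23, qrWord t i ≠ qrWord t j := by
  decide +kernel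

theorem exists_sep {i j : GolayPt} (h : i ≠ j) :
    ∃ c ∈ supports (golayCode : Set (GolayPt → ZMod 2)), j ∈ c ∧ i ∉ c := by
  obtain ⟨t, ht⟩ := exists_qr_sep i j h
  have h01 : ∀ a b : ZMod 2, a ≠ b → (a = 0 ∧ b ≠ 0) ∨ (a ≠ 0 ∧ b = 0) := by decide
  have hmem : qrWord t ∈ golayCode := Submodule.subset_span (Or.inl ⟨t, rfl⟩)
  rcases h01 _ _ ht with ⟨h1, h2⟩ | ⟨h1, h2⟩
  · exact ⟨support₂ (qrWord t), ⟨_, hmem, rfl⟩, mem_support₂.mpr h2, by
      rw [mem_support₂]
      simpa using h1⟩
  · have hmem' : qrWord t + 1 ∈ golayCode :=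
      golayCode.add_mem hmem (Submodule.subset_span (Or.inr rfl))
    refine ⟨support₂ (qrWord t + 1), ⟨_, hmem', rfl⟩, ?_, ?_⟩
    · rw [mem_support₂]
      show qrWord t j + 1 ≠ 0
      rw [h2]
      decide
    · rw [mem_support₂]
      show ¬ (qrWord t i + 1 ≠ 0)
      have h3 : ∀ a : ZMod 2, a ≠ 0 → ¬ (a + 1 ≠ 0) := by decide
      exact h3 _ h1

/-- A central automorphism acts on the frame diagonally. -/
theorem central_coord (z : Co0) (hz : ∀ g : Co0, g * z = z * g) (i j : GolayPt) (hij : j ≠ i) :
    (z.1 (e8 i)).1 j = 0 := by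
  obtain ⟨c, hc, hj, hi'⟩ := exists_sep (Ne.symm hij)
  have h1 : (sgn c hc).1 (e8 i) = e8 i := by
    apply Subtype.ext
    funext k
    rw [sgn_apply, e8_apply]
    by_cases hk : k ∈ c
    · have : k ≠ i := fun e => hi' (e ▸ hk)
      simp [hk, this]
    · simp [hk]
  have h2 : (sgn c hc).1 (z.1 (e8 i)) = z.1 (e8 i) := by
    have h3 := congrArg (fun g : Co0 => g.1 (e8 i)) (hz (sgn c hc))
    have h4 : ((sgn c hc) * z).1 (e8 i) = (sgn c hc).1 (z.1 (e8 i)) := rfl
    have h5 : (z * (sgn c hc)).1 (e8 i) = z.1 ((sgn c hc).1 (e8 i)) := rfl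
    simp only [h4, h5, h1] at h3
    exact h3
  have h6 := congrArg (fun w : leechLattice => w.1 j) h2
  simp only [sgn_apply, hj, if_true] at h6
  omega

theorem sqNorm_e8 (i : GolayPt) : sqNorm (e8 i).1 = 64 := by
  unfold sqNorm
  rw [Finset.sum_eq_single i]
  · rw [e8_apply, if_pos rfl]
    norm_num
  · intro j _ hj
    rw [e8_apply, if_neg hj]
    norm_num
  · simp

theorem central_val (z : Co0) (hz : ∀ g : Co0, g * z = z * g) (i : GolayPt) :
    (z.1 (e8 i)).1 i = 8 ∨ (z.1 (e8 i)).1 i = -8 := by
  have h1 : sqNorm (z.1 (e8 i)).1 = 64 := by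
    rw [z.2.2, sqNorm_e8]
  unfold sqNorm at h1
  rw [Finset.sum_eq_single i] at h1
  · have h2 : ((z.1 (e8 i)).1 i - 8) * ((z.1 (e8 i)).1 i + 8) = 0 := by
      linear_combination h1
    rcases mul_eq_zero.mp h2 with h | h
    · left
      omega
    · right
      omega
  · intro j _ hj
    rw [central_coord z hz i j hj]
    norm_num
  · simp

theorem central_same (z : Co0) (hz : ∀ g : Co0, g * z = z * g) (i j : GolayPt) :
    (z.1 (e8 i)).1 i = (z.1 (e8 j)).1 j := by
  obtain ⟨σ, hσ, e⟩ := Gol.one_trans j i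
  have h1 : (prm σ hσ).1 (e8 i) = e8 j := by
    apply Subtype.ext
    funext k
    rw [prm_apply, e8_apply, e8_apply]
    have : σ k = i ↔ k = j := by
      rw [← e]
      exact σ.injective.eq_iff
    simp [this]
  have h3 := congrArg (fun g : Co0 => g.1 (e8 i)) (hz (prm σ hσ))
  have h4 : ((prm σ hσ) * z).1 (e8 i) = (prm σ hσ).1 (z.1 (e8 i)) := rfl
  have h5 : (z * (prm σ hσ)).1 (e8 i) = z.1 ((prm σ hσ).1 (e8 i)) := rfl
  simp only [h4, h5, h1] at h3
  have h6 := congrArg (fun w : leechLattice => w.1 j) h3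
  simp only [prm_apply, e] at h6
  exact h6

theorem cancel8 (a b : leechLattice) (h : (8 : ℤ) • a = (8 : ℤ) • b) : a = b := by
  apply Subtype.ext
  funext j
  have h1 := congrArg (fun w : leechLattice => w.1 j) h
  have h2 : (8 : ℤ) * a.1 j = 8 * b.1 j := h1
  omega

/-- Central elements act as a scalar on the frame, hence on the lattice. -/
theorem central_cases (z : Co0) (hz : ∀ g : Co0, g * z = z * g) : z = 1 ∨ z = negC := by
  rcases central_val z hz none with h | h
  · left
    have hdiag : ∀ i, z.1 (e8 i) = e8 i := by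
      intro i
      apply Subtype.ext
      funext j
      by_cases hj : j = i
      · subst hj
        rw [central_same z hz j none, h, e8_apply, if_pos rfl]
      · rw [central_coord z hz i j hj, e8_apply, if_neg hj]
    refine Subtype.ext (Equiv.ext fun v => cancel8 _ _ ?_)
    rw [eight_smul_map]
    simp only [hdiag]
    rw [← eight_smul v]
    rfl
  · right
    have hdiag : ∀ i, z.1 (e8 i) = -e8 i := by
      intro i
      apply Subtype.ext
      funext j
      by_cases hj : j = i
      · subst hj
        rw [central_same z hz j none, h]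
        show (-8 : ℤ) = -(e8 j).1 j
        rw [e8_apply, if_pos rfl]
      · rw [central_coord z hz i j hj]
        show (0 : ℤ) = -(e8 i).1 j
        rw [e8_apply, if_neg hj]
        rfl
    refine Subtype.ext (Equiv.ext fun v => cancel8 _ _ ?_)
    rw [eight_smul_map]
    simp only [hdiag, smul_neg]
    rw [Finset.sum_neg_distrib, ← eight_smul v, ← smul_neg]
    rfl

theorem negC_ne : negC ≠ 1 := by
  intro h
  have h1 := congrArg (fun g : Co0 => (g.1 (e8 none)).1 none) h
  have h2 : (negC.1 (e8 none)).1 none = -8 := by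
    rw [negC_apply]
    rfl
  have h3 : ((1 : Co0).1 (e8 none)).1 none = 8 := rfl
  simp only [h2, h3] at h1
  norm_num at h1

theorem negC_central (g : Co0) : g * negC = negC * g := by
  refine Subtype.ext (Equiv.ext fun v => ?_)
  show g.1 (negC.1 v) = negC.1 (g.1 v)
  rw [negC_apply, negC_apply]
  have h := map_neg (addHom g) v
  simpa [addHom_apply] using h

theorem card_center : Nat.card (Subgroup.center Co0) = 2 := by
  rw [Nat.card_eq_two_iff]
  have hn : negC ∈ Subgroup.center Co0 := by
    rw [Subgroup.mem_center_iff]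
    intro g
    exact negC_central g
  refine ⟨1, ⟨negC, hn⟩, ?_, ?_⟩
  · intro e
    exact negC_ne (congrArg Subtype.val e).symm
  · ext z
    simp only [Set.mem_insert_iff, Set.mem_singleton_iff, Set.mem_univ, iff_true]
    rcases central_cases z.1 (fun g => (Subgroup.mem_center_iff.mp z.2 g)) with h | h
    · left
      exact Subtype.ext h
    · right
      exact Subtype.ext h

end Cfsg.Agent.H02.CoA
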