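import Cfsg.Agent.Lib.H02.CoA
import Cfsg.Prelude.Def_Spor_Conway

/-!
Generators of the lattice and a non-monomial automorphism.
-/

set_option autoImplicit false
set_option maxRecDepth 100000

namespace Cfsg.Agent.H02.CoB

open Cfsg Cfsg.Agent.H27.Golay Cfsg.Agent.H26.Leech Cfsg.Agent.H02.CoA

/-- Twice the integer lift of a word. -/
def lift2 (w : GolayPt → ZMod 2) : GolayPt → ℤ := fun i => if w i ≠ 0 then 2 else 0

/-- The generators `4 (e_j + e_∞)`. -/
def e4 (j : ZMod 23) : GolayPt → ℤ := fun i => if i = some j ∨ i = none then 4 else 0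

/-- The generator `8 e_∞`. -/
def e8v : GolayPt → ℤ := fun i => if i = none then 8 else 0

theorem zmod2_cases (b : ZMod 2) : b = 0 ∨ b = 1 := by revert b; decide

section induction

variable (P : AddSubgroup (GolayPt → ℤ)) (hV : Spor.vecV ∈ P) (h8 : e8v ∈ P) (h4 : ∀ j, e4 j ∈ P)
  (hq : ∀ t, lift2 (qrWord t) ∈ P) (h1 : lift2 1 ∈ P)

include h8 h4 in
/-- Four times vectors of even coordinate sum. -/
theorem four_mem (z : GolayPt → ℤ) (hz : (∑ i, z i) % 2 = 0) : (fun i => 4 * z i) ∈ P := by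
  have hsum : ∑ i, z i = z none + ∑ j : ZMod 23, z (some j) := Fintype.sum_option z
  set s : ℤ := ∑ j : ZMod 23, z (some j) with hs
  obtain ⟨k, hk⟩ : ∃ k : ℤ, z none - s = 2 * k := ⟨(z none - s) / 2, by omega⟩
  have heq : (fun i => 4 * z i) = ∑ j : ZMod 23, z (some j) • e4 j + k • e8v := by
    funext i
    rw [Pi.add_apply, Finset.sum_apply]
    cases i with
    | none =>
      have : ∀ j : ZMod 23, (z (some j) • e4 j) none = z (some j) * 4 := by
        intro j
        simp [e4]
      simp only [this]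
      rw [← Finset.sum_mul, ← hs]
      have h2 : (k • e8v) none = k * 8 := by simp [e8v]
      rw [h2]
      linarith
    | some a =>
      have : ∀ j : ZMod 23, (z (some j) • e4 j) (some a) = if j = a then z (some j) * 4 else 0 := by
        intro j
        by_cases h : j = a
        · subst h
          simp [e4]
        · have h' : a ≠ j := Ne.symm h
          simp [e4, h, h']
      simp only [this]
      rw [Finset.sum_ite_eq' Finset.univ a]
      simp only [Finset.mem_univ, if_true]
      have h2 : (k • e8v) (some a) = 0 := by simp [e8v]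
      rw [h2]
      ring
  rw [heq]
  exact P.add_mem (P.sum_mem fun j _ => P.zsmul_mem (h4 j) _) (P.zsmul_mem h8 _)

theorem weight_even {w w' : GolayPt → ZMod 2} (hw : w ∈ golayCode) (hw' : w' ∈ golayCode) :
    (∑ i, if w i ≠ 0 ∧ w' i ≠ 0 then (1 : ℤ) else 0) % 2 = 0 := by
  have h := Gol.golay_self_orth w w' hw hw'
  have h2 : ((∑ i, if w i ≠ 0 ∧ w' i ≠ 0 then (1 : ℤ) else 0 : ℤ) : ZMod 2) = 0 := by
    refine Eq.trans ?_ h
    push_cast
    apply Finset.sum_congr rfl
    intro i _
    have key : ∀ a b : ZMod 2, (if a ≠ 0 ∧ b ≠ 0 then (1 : ZMod 2) else 0) = a * b := by decide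
    exact key _ _
  rw [ZMod.intCast_zmod_eq_zero_iff_dvd] at h2
  push_cast at h2
  omega

include h8 h4 hq h1 in
theorem lift2_mem {w : GolayPt → ZMod 2} (hw : w ∈ golayCode) : lift2 w ∈ P := by
  induction hw using Submodule.span_induction with
  | mem x hx =>
    rcases hx with ⟨t, rfl⟩ | hx
    · exact hq t
    · rw [Set.mem_singleton_iff.mp hx]
      exact h1
  | zero =>
    have : lift2 0 = 0 := by
      funext i
      simp [lift2]
    rw [this]
    exact P.zero_mem
  | add x y hx hy ihx ihy =>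
    have hz := four_mem P h8 h4 (fun i => if x i ≠ 0 ∧ y i ≠ 0 then (1 : ℤ) else 0) (weight_even hx hy)
    have : lift2 (x + y) = lift2 x + lift2 y - fun i => 4 * (if x i ≠ 0 ∧ y i ≠ 0 then (1 : ℤ) else 0) := by
      funext i
      simp only [lift2, Pi.add_apply, Pi.sub_apply]
      have key : ∀ a b : ZMod 2, (if a + b ≠ 0 then (2 : ℤ) else 0) =
          (if a ≠ 0 then 2 else 0) + (if b ≠ 0 then 2 else 0) - 4 * (if a ≠ 0 ∧ b ≠ 0 then 1 else 0) := by decide
      exact key _ _
    rw [this]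
    exact P.sub_mem (P.add_mem ihx ihy) hz
  | smul a x hx ih =>
    rcases zmod2_cases a with rfl | rfl
    · have : lift2 ((0 : ZMod 2) • x) = 0 := by
        funext i
        simp [lift2]
      rw [this]
      exact P.zero_mem
    · rw [one_smul]
      exact ih

theorem sum_lift2 {w : GolayPt → ZMod 2} (hw : w ∈ golayCode) : (∑ i, lift2 w i) % 8 = 0 := by
  have h1 : ∑ i, lift2 w i = 2 * (hammingNorm w : ℤ) := by
    have h2 : hammingNorm w = (Finset.univ.filter (fun i => w i ≠ 0)).card := rfl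
    rw [h2, Finset.card_filter]
    push_cast
    rw [Finset.mul_sum]
    apply Finset.sum_congr rfl
    intro i _
    unfold lift2
    split_ifs <;> norm_num
  rw [h1]
  rcases Gol.golay_weights w hw with h | h | h | h | h <;> rw [h] <;> norm_num

include h8 h4 hq h1 in
theorem even_mem {x : GolayPt → ℤ} (hx : x ∈ leechSet) (h2 : ∀ i, x i % 2 = 0) : x ∈ P := by
  rcases even_or_odd hx with ⟨-, h3, h5⟩ | ⟨h3, -, -⟩
  · have hl := lift2_mem P h8 h4 hq h1 h5
    have hres : ∀ i, (x i - lift2 (hi x) i) % 4 = 0 := by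
      intro i
      have h6 := h2 i
      show (x i - (if hiZ (x i) ≠ 0 then 2 else 0)) % 4 = 0
      unfold hiZ
      by_cases h7 : x i % 4 = 2 ∨ x i % 4 = 3
      · rw [if_pos h7, if_pos (by decide)]
        omega
      · rw [if_neg h7, if_neg (by decide)]
        omega
    have hz := four_mem P h8 h4 (fun i => (x i - lift2 (hi x) i) / 4) (by
      have h8' := sum_lift2 h5
      have h9 : 4 * ∑ i, (x i - lift2 (hi x) i) / 4 = ∑ i, x i - ∑ i, lift2 (hi x) i := by
        rw [Finset.mul_sum, ← Finset.sum_sub_distrib]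
        apply Finset.sum_congr rfl
        intro i _
        have := hres i
        omega
      omega)
    have : x = lift2 (hi x) + fun i => 4 * ((x i - lift2 (hi x) i) / 4) := by
      funext i
      have := hres i
      simp only [Pi.add_apply]
      omega
    rw [this]
    exact P.add_mem hl hz
  · exfalso
    have h6 := h3 none
    have h7 := h2 none
    omega

include hV h8 h4 hq h1 in
theorem leech_le : leechLattice ≤ P := by
  intro x hx
  have hx' := mem_leechLattice_iff.mp hx
  rcases even_or_odd hx' with ⟨h2, -, -⟩ | ⟨h2, -, -⟩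
  · exact even_mem P h8 h4 hq h1 hx' h2
  · have hV' : Spor.vecV ∈ leechSet := Spor.vecV_mem_leechSet
    have h3 : x - Spor.vecV ∈ leechLattice :=
      leechLattice.sub_mem hx (mem_leechLattice_iff.mpr hV')
    have h4' := even_mem P h8 h4 hq h1 (mem_leechLattice_iff.mp h3) (by
      intro i
      have h5 := h2 i
      have h6 : ∀ i, Spor.vecV i % 2 = 1 := by decide
      have h7 := h6 i
      rw [Pi.sub_apply]
      omega)
    have := P.add_mem h4' hV
    simpa using this

end induction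

/-! ### The tetrads -/

/-- The tetrad of a point. -/
def tauL : List (Fin 6) := [3, 3, 3, 4, 5, 4, 1, 1, 2, 0, 0, 2, 2, 5, 4, 0, 5, 4, 2, 1, 0, 1, 5, 3]

/-- The sextet as a map. -/
def tau (i : GolayPt) : Fin 6 := tauL.getD (idx i) 0

theorem card_fiber (t : Fin 6) : (Finset.univ.filter (fun i => tau i = t)).card = 4 := by
  revert t
  decide +kernel

/-- The sum over a tetrad. -/
def tsum (x : GolayPt → ℤ) (t : Fin 6) : ℤ := ∑ i, if tau i = t then x i else 0

/-- The sign of a tetrad. -/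
def sg (t : Fin 6) : ℤ := if t = 3 then -1 else 1

/-- Twice the automorphism. -/
def GG (x : GolayPt → ℤ) (i : GolayPt) : ℤ := sg (tau i) * (2 * x i - tsum x (tau i))

/-- The automorphism on vectors. -/
def XI (x : GolayPt → ℤ) : GolayPt → ℤ := fun i => GG x i / 2

theorem tsum_add (x y : GolayPt → ℤ) (t : Fin 6) : tsum (x + y) t = tsum x t + tsum y t := by
  unfold tsum
  rw [← Finset.sum_add_distrib]
  apply Finset.sum_congr rfl
  intro i _
  simp only [Pi.add_apply]
  split_ifs <;> simp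

theorem GG_add (x y : GolayPt → ℤ) (i : GolayPt) : GG (x + y) i = GG x i + GG y i := by
  unfold GG
  rw [tsum_add]
  simp only [Pi.add_apply]
  ring

/-- The subgroup of vectors mapped into twice the lattice. -/
def QQ : AddSubgroup (GolayPt → ℤ) where
  carrier := {x | ∃ y ∈ leechLattice, ∀ i, GG x i = 2 * y i}
  zero_mem' := ⟨0, leechLattice.zero_mem, fun i => by
    simp [GG, tsum]⟩
  add_mem' := by
    rintro a b ⟨y, hy, h1⟩ ⟨y', hy', h2⟩
    refine ⟨y + y', leechLattice.add_mem hy hy', fun i => ?_⟩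
    rw [GG_add, h1, h2]
    simp only [Pi.add_apply]
    ring
  neg_mem' := by
    rintro a ⟨y, hy, h1⟩
    refine ⟨-y, leechLattice.neg_mem hy, fun i => ?_⟩
    have h2 : GG (a + -a) i = GG a i + GG (-a) i := GG_add _ _ _
    have h3 : GG (a + -a) i = 0 := by
      rw [add_neg_cancel]
      simp [GG, tsum]
    rw [h3, h1] at h2
    simp only [Pi.neg_apply]
    linarith

/-- A decidable test for membership. -/
def testL (z : GolayPt → ℤ) : Prop :=
  (∀ i, z i % 2 = z none % 2) ∧ (∑ i, z i) % 8 = (4 * (z none % 2)) % 8 ∧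
    inCode (maskOf (support₂ (hi z))) = true

instance (z : GolayPt → ℤ) : Decidable (testL z) := by
  unfold testL
  infer_instance

theorem mem_of_test {z : GolayPt → ℤ} (h : testL z) : z ∈ leechLattice := by
  rw [mem_leechLattice_iff, mem_leechSet_iff]
  obtain ⟨h1, h2, h3⟩ := h
  refine ⟨z none % 2, fun i => ?_, ?_, ?_⟩
  · show z i % 2 = (z none % 2) % 2
    rw [h1 i]
    omega
  · exact h2
  · rw [← (mem_supports_iff _)] at h3
    obtain ⟨w, hw, hww⟩ := h3
    have : hi z = w := by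
      rw [← wd_support (hi z), ← wd_support w, hww]
    rw [this]
    exact hw

/-- The check for a vector. -/
def okG (x : GolayPt → ℤ) : Prop := (∀ i, GG x i % 2 = 0) ∧ testL (XI x)

instance (x : GolayPt → ℤ) : Decidable (okG x) := by
  unfold okG
  infer_instance

theorem mem_QQ_of_ok {x : GolayPt → ℤ} (h : okG x) : x ∈ QQ := by
  refine ⟨XI x, mem_of_test h.2, fun i => ?_⟩
  have := h.1 i
  show GG x i = 2 * (GG x i / 2)
  omega

theorem ok_V : okG Spor.vecV := by decide +kernel

theorem ok_e8v : okG e8v := by decide +kernel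

theorem ok_e4 : ∀ j, okG (e4 j) := by decide +kernel

theorem ok_one : okG (lift2 1) := by decide +kernel

theorem ok_qr : ∀ t, okG (lift2 (qrWord t)) := by decide +kernel

theorem leech_le_QQ : leechLattice ≤ QQ :=
  leech_le QQ (mem_QQ_of_ok ok_V) (mem_QQ_of_ok ok_e8v) (fun j => mem_QQ_of_ok (ok_e4 j))
    (fun t => mem_QQ_of_ok (ok_qr t)) (mem_QQ_of_ok ok_one)

theorem sg_cases (t : Fin 6) : sg t = 1 ∨ sg t = -1 := by
  unfold sg
  split_ifs <;> simp

theorem sg_sq (t : Fin 6) : sg t * sg t = 1 := by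
  rcases sg_cases t with h | h <;> rw [h] <;> norm_num

theorem tau_surj (t : Fin 6) : ∃ i, tau i = t := by
  revert t
  decide

theorem tsum_even {x : GolayPt → ℤ} (hx : x ∈ leechLattice) (t : Fin 6) : tsum x t % 2 = 0 := by
  obtain ⟨y, -, h⟩ := leech_le_QQ hx
  obtain ⟨i, rfl⟩ := tau_surj t
  have h1 := h i
  unfold GG at h1
  rcases sg_cases (tau i) with h2 | h2 <;> rw [h2] at h1 <;> omega

theorem XI_mem {x : GolayPt → ℤ} (hx : x ∈ leechLattice) : XI x ∈ leechLattice := by
  obtain ⟨y, hy, h⟩ := leech_le_QQ hx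
  have : XI x = y := by
    funext i
    show GG x i / 2 = y i
    rw [h i]
    omega
  rwa [this]

/-- The sum against a function of the tetrad. -/
theorem sum_tau (h : Fin 6 → ℤ) (x : GolayPt → ℤ) : ∑ i, h (tau i) * x i = ∑ t, h t * tsum x t := by
  unfold tsum
  simp only [Finset.mul_sum]
  rw [Finset.sum_comm]
  apply Finset.sum_congr rfl
  intro i _
  rw [Finset.sum_eq_single (tau i)]
  · simp
  · intro t _ ht
    rw [if_neg (Ne.symm ht), mul_zero]
  · simp

theorem tsum_const (c : ℤ) (t : Fin 6) : tsum (fun _ => c) t = 4 * c := by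
  unfold tsum
  have h := card_fiber t
  rw [← Finset.sum_filter, Finset.sum_const, h]
  simp

/-- The half sums. -/
def aa (x : GolayPt → ℤ) (t : Fin 6) : ℤ := tsum x t / 2

theorem XI_apply {x : GolayPt → ℤ} (hx : x ∈ leechLattice) (i : GolayPt) :
    XI x i = sg (tau i) * (x i - aa x (tau i)) := by
  have h := tsum_even hx (tau i)
  show sg (tau i) * (2 * x i - tsum x (tau i)) / 2 = _
  unfold aa
  have h2 : sg (tau i) * (2 * x i - tsum x (tau i)) = 2 * (sg (tau i) * (x i - tsum x (tau i) / 2)) := by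
    have h3 : tsum x (tau i) = 2 * (tsum x (tau i) / 2) := by omega
    conv_lhs => rw [h3]
    ring
  rw [h2]
  omega

theorem tsum_XI {x : GolayPt → ℤ} (hx : x ∈ leechLattice) (t : Fin 6) :
    tsum (XI x) t = -(2 * sg t * aa x t) := by
  have h := tsum_even hx t
  have h0 : tsum x t = 2 * aa x t := by
    unfold aa
    omega
  have e : tsum (XI x) t = sg t * (tsum x t - tsum (fun _ => aa x t) t) := by
    unfold tsum
    rw [← Finset.sum_sub_distrib, Finset.mul_sum]
    apply Finset.sum_congr rfl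
    intro i _
    rw [XI_apply hx]
    by_cases hi' : tau i = t
    · simp [hi']
    · simp [hi']
  rw [e, tsum_const, h0]
  ring

theorem XI_XI {x : GolayPt → ℤ} (hx : x ∈ leechLattice) : XI (XI x) = x := by
  funext i
  show GG (XI x) i / 2 = x i
  have h : GG (XI x) i = 2 * x i := by
    unfold GG
    rw [tsum_XI hx, XI_apply hx]
    have h1 := sg_sq (tau i)
    have : sg (tau i) * (2 * (sg (tau i) * (x i - aa x (tau i))) - -(2 * sg (tau i) * aa x (tau i))) =
        (sg (tau i) * sg (tau i)) * (2 * x i) := by ring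
    rw [this, h1, one_mul]
  rw [h]
  omega

theorem sqNorm_XI {x : GolayPt → ℤ} (hx : x ∈ leechLattice) : sqNorm (XI x) = sqNorm x := by
  unfold sqNorm
  have h1 : ∀ i, XI x i ^ 2 = x i ^ 2 - 2 * (aa x (tau i) * x i) + aa x (tau i) ^ 2 * 1 := by
    intro i
    rw [XI_apply hx]
    have h2 := sg_sq (tau i)
    have : (sg (tau i) * (x i - aa x (tau i))) ^ 2 = (sg (tau i) * sg (tau i)) * (x i - aa x (tau i)) ^ 2 := by ring
    rw [this, h2]
    ring
  simp only [h1]
  rw [Finset.sum_add_distrib, Finset.sum_sub_distrib, ← Finset.mul_sum]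
  rw [sum_tau (aa x) x, sum_tau (fun t => aa x t ^ 2) (fun _ => 1)]
  simp only [tsum_const]
  have h3 : ∀ t, tsum x t = 2 * aa x t := by
    intro t
    have h := tsum_even hx t
    unfold aa
    omega
  simp only [h3]
  have e1 : ∑ t, aa x t * (2 * aa x t) = 2 * ∑ t, aa x t ^ 2 := by
    rw [Finset.mul_sum]
    apply Finset.sum_congr rfl
    intro t _
    ring
  have e2 : ∑ t, aa x t ^ 2 * (4 * 1) = 4 * ∑ t, aa x t ^ 2 := by
    rw [Finset.mul_sum]
    apply Finset.sum_congr rfl
    intro t _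
    ring
  rw [e1, e2]
  ring

/-- The map on the lattice. -/
def xiF (x : leechLattice) : leechLattice := ⟨XI x.1, XI_mem x.2⟩

theorem xiF_add (x y : leechLattice) : xiF (x + y) = xiF x + xiF y := by
  apply Subtype.ext
  funext i
  show GG (x.1 + y.1) i / 2 = GG x.1 i / 2 + GG y.1 i / 2
  rw [GG_add]
  have h1 : GG x.1 i = 2 * (GG x.1 i / 2) := by
    obtain ⟨z, -, h⟩ := leech_le_QQ x.2
    rw [h i]
    omega
  have h2 : GG y.1 i = 2 * (GG y.1 i / 2) := by
    obtain ⟨z, -, h⟩ := leech_le_QQ y.2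
    rw [h i]
    omega
  omega

/-- The non-monomial automorphism. -/
def xiC : Co0 :=
  mk xiF xiF (fun x => Subtype.ext (XI_XI x.2)) (fun x => Subtype.ext (XI_XI x.2)) xiF_add
    (fun x => sqNorm_XI x.2)

theorem xiC_apply (x : leechLattice) : (xiC.1 x).1 = XI x.1 := rfl

/-! ### The orbit relation -/

/-- Two vectors in one orbit. -/
def RR (x y : GolayPt → ℤ) : Prop := ∃ (hx : x ∈ leechLattice) (g : Co0), (g.1 ⟨x, hx⟩).1 = y

theorem RR.refl {x : GolayPt → ℤ} (hx : x ∈ leechLattice) : RR x x := ⟨hx, 1, rfl⟩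

theorem RR.mem_right {x y : GolayPt → ℤ} (h : RR x y) : y ∈ leechLattice := by
  obtain ⟨hx, g, rfl⟩ := h
  exact (g.1 ⟨x, hx⟩).2

theorem RR.mem_left {x y : GolayPt → ℤ} (h : RR x y) : x ∈ leechLattice := h.1

theorem RR.symm {x y : GolayPt → ℤ} (h : RR x y) : RR y x := by
  obtain ⟨hx, g, rfl⟩ := h
  refine ⟨(g.1 ⟨x, hx⟩).2, g⁻¹, ?_⟩
  have : (g⁻¹).1 (g.1 ⟨x, hx⟩) = ⟨x, hx⟩ := by
    show (g.1)⁻¹ (g.1 ⟨x, hx⟩) = _
    simp
  rw [show (⟨(g.1 ⟨x, hx⟩).1, (g.1 ⟨x, hx⟩).2⟩ : leechLattice) = g.1 ⟨x, hx⟩ from rfl, this]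

theorem RR.trans {x y z : GolayPt → ℤ} (h : RR x y) (h' : RR y z) : RR x z := by
  obtain ⟨hx, g, rfl⟩ := h
  obtain ⟨hy, g', rfl⟩ := h'
  exact ⟨hx, g' * g, rfl⟩

theorem RR_xi {x : GolayPt → ℤ} (hx : x ∈ leechLattice) : RR x (XI x) := ⟨hx, xiC, rfl⟩

theorem RR_perm {x : GolayPt → ℤ} (hx : x ∈ leechLattice) {σ : Equiv.Perm GolayPt} (hσ : σ ∈ M24) :
    RR x (fun i => x (σ i)) := ⟨hx, prm σ hσ, rfl⟩

theorem RR_sign {x : GolayPt → ℤ} (hx : x ∈ leechLattice) {c : Finset GolayPt}
    (hc : c ∈ supports (golayCode : Set (GolayPt → ZMod 2))) :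
    RR x (fun i => if i ∈ c then -x i else x i) := ⟨hx, sgn c hc, rfl⟩

theorem RR_neg {x : GolayPt → ℤ} (hx : x ∈ leechLattice) : RR x (-x) := ⟨hx, negC, rfl⟩

/-- From the orbit relation to the statement. -/
theorem exists_of_RR {v w : leechLattice} (h : RR v.1 w.1) : ∃ g : Co0, g • v = w := by
  obtain ⟨hv, g, hg⟩ := h
  exact ⟨g, Subtype.ext hg⟩

end Cfsg.Agent.H02.CoB
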