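import Cfsg.Agent.Lib.H02.CoB
import Cfsg.Agent.Lib.H02.Gol3

/-!
Classification of lattice vectors of small norm by shape, up to monomial automorphisms.
-/

set_option autoImplicit false
set_option maxRecDepth 100000

namespace Cfsg.Agent.H02.CoC

open Cfsg Cfsg.Agent.H27.Golay Cfsg.Agent.H26.Leech Cfsg.Agent.H02.CoA Cfsg.Agent.H02.CoB
open scoped Pointwise

/-- A vector from a list of coordinates. -/
def vecOf (l : List ℤ) : GolayPt → ℤ := fun i => l.getD (idx i) 0

/-! ### Odd vectors -/

theorem odd_to_one {x : GolayPt → ℤ} (hx : x ∈ leechLattice) (hodd : ∀ i, x i % 2 = 1) :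
    ∃ x', RR x x' ∧ (∀ i, x' i % 4 = 1) ∧ sqNorm x' = sqNorm x := by
  have hx' := mem_leechLattice_iff.mp hx
  have hc : hi x ∈ golayCode := by
    rcases even_or_odd hx' with ⟨-, -, h⟩ | ⟨-, -, h⟩ <;> exact h
  refine ⟨_, RR_sign hx (c := support₂ (hi x)) ⟨_, hc, rfl⟩, fun i => ?_, ?_⟩
  · have h1 := hodd i
    by_cases h : i ∈ support₂ (hi x)
    · rw [if_pos h]
      have := mem_support_hi.mp h
      omega
    · rw [if_neg h]
      rw [mem_support_hi] at h
      omega
  · unfold sqNorm
    apply Finset.sum_congr rfl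
    intro i _
    show (if i ∈ support₂ (hi x) then -x i else x i) ^ 2 = _
    by_cases h : i ∈ support₂ (hi x)
    · rw [if_pos h]
      ring
    · rw [if_neg h]

/-- The odd representatives. -/
def oddRep (A B : Finset GolayPt) : GolayPt → ℤ := fun i => if i ∈ A then -3 else if i ∈ B then 5 else 1

theorem card_pts' : (Finset.univ : Finset GolayPt).card = 24 := by decide

theorem odd_shape {x : GolayPt → ℤ} (h1 : ∀ i, x i % 4 = 1) {N : ℕ} (hN : sqNorm x = N) (hN64 : N ≤ 64) :
    ∃ A B : Finset GolayPt, x = oddRep A B ∧ 24 + 8 * A.card + 24 * B.card = N := by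
  classical
  have hb := LeechC.le_of_sqNorm hN hN64
  set A := Finset.univ.filter (fun i => x i = -3) with hA
  set B := Finset.univ.filter (fun i => x i = 5) with hB
  set D := Finset.univ.filter (fun i => x i = -7) with hD
  have hval : ∀ i, x i = -7 ∨ x i = -3 ∨ x i = 1 ∨ x i = 5 := by
    intro i
    have h2 := h1 i
    have h3 := hb i
    omega
  have hpt : ∀ i, x i ^ 2 = 1 + 8 * (if x i = -3 then 1 else 0) + 24 * (if x i = 5 then 1 else 0) +
      48 * (if x i = -7 then 1 else 0) := by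
    intro i
    rcases hval i with h | h | h | h <;> rw [h] <;> norm_num
  have hsum : (N : ℤ) = 24 + 8 * A.card + 24 * B.card + 48 * D.card := by
    rw [← hN]
    unfold sqNorm
    simp only [hpt]
    rw [Finset.sum_add_distrib, Finset.sum_add_distrib, Finset.sum_add_distrib, ← Finset.mul_sum,
      ← Finset.mul_sum, ← Finset.mul_sum]
    simp only [Finset.sum_const, card_pts', hA, hB, hD, Finset.card_filter]
    push_cast
    simp
  have hD0 : D.card = 0 := by
    have : (N : ℤ) ≤ 64 := by exact_mod_cast hN64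
    omega
  refine ⟨A, B, ?_, ?_⟩
  · funext i
    unfold oddRep
    have hi7 : x i ≠ -7 := by
      intro h
      have : i ∈ D := Finset.mem_filter.mpr ⟨Finset.mem_univ _, h⟩
      rw [Finset.card_eq_zero.mp hD0] at this
      exact absurd this (Finset.notMem_empty _)
    by_cases h3 : i ∈ A
    · rw [if_pos h3]
      exact (Finset.mem_filter.mp h3).2
    · rw [if_neg h3]
      by_cases h5 : i ∈ B
      · rw [if_pos h5]
        exact (Finset.mem_filter.mp h5).2
      · rw [if_neg h5]
        have h6 : x i ≠ -3 := fun h => h3 (Finset.mem_filter.mpr ⟨Finset.mem_univ _, h⟩)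
        have h7 : x i ≠ 5 := fun h => h5 (Finset.mem_filter.mpr ⟨Finset.mem_univ _, h⟩)
        rcases hval i with h | h | h | h
        · exact absurd h hi7
        · exact absurd h h6
        · exact h
        · exact absurd h h7
  · have : (N : ℤ) = 24 + 8 * A.card + 24 * B.card := by
      rw [hsum, hD0]
      simp
    omega

theorem smul_mem_iff (σ : Equiv.Perm GolayPt) (S : Finset GolayPt) (i : GolayPt) : σ i ∈ σ • S ↔ i ∈ S := by
  have := Finset.smul_mem_smul_finset_iff (s := S) (b := i) σ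
  rwa [Equiv.Perm.smul_def] at this

theorem oddRep_move {A B A' B' : Finset GolayPt} (hx : oddRep A B ∈ leechLattice) {σ : Equiv.Perm GolayPt}
    (hσ : σ ∈ M24) (h1 : σ • A' = A) (h2 : σ • B' = B) : RR (oddRep A B) (oddRep A' B') := by
  have h := RR_perm hx hσ
  have e : (fun i => oddRep A B (σ i)) = oddRep A' B' := by
    funext i
    unfold oddRep
    rw [← h1, ← h2]
    simp only [smul_mem_iff]
  rwa [e] at h

/-! ### Even vectors -/

/-- The pattern of absolute values. -/
def absRep (C F4 F6 F8 : Finset GolayPt) : GolayPt → ℤ := fun i =>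
  if i ∈ F8 then 8 else if i ∈ F4 then 4 else if i ∈ F6 then 6 else if i ∈ C then 2 else 0

theorem even_shape {x : GolayPt → ℤ} (hx : x ∈ leechLattice) (he : ∀ i, x i % 2 = 0) {N : ℕ} (hN : sqNorm x = N)
    (hN64 : N ≤ 64) :
    ∃ C F4 F6 F8 : Finset GolayPt, C ∈ supports (golayCode : Set (GolayPt → ZMod 2)) ∧
      (∀ i, x i ^ 2 = absRep C F4 F6 F8 i ^ 2) ∧ F6 ⊆ C ∧ Disjoint F4 C ∧ Disjoint F8 C ∧
      4 * C.card + 32 * F6.card + 16 * F4.card + 64 * F8.card = N := by
  classical
  have hx' := mem_leechLattice_iff.mp hx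
  have hc : hi x ∈ golayCode := by
    rcases even_or_odd hx' with ⟨-, -, h⟩ | ⟨-, -, h⟩ <;> exact h
  have hb := LeechC.le_of_sqNorm hN hN64
  set C := support₂ (hi x) with hC
  set F4 := Finset.univ.filter (fun i => x i ^ 2 = 16) with hF4
  set F6 := Finset.univ.filter (fun i => x i ^ 2 = 36) with hF6
  set F8 := Finset.univ.filter (fun i => x i ^ 2 = 64) with hF8
  have hval : ∀ i, x i = -8 ∨ x i = -6 ∨ x i = -4 ∨ x i = -2 ∨ x i = 0 ∨ x i = 2 ∨ x i = 4 ∨ x i = 6 ∨ x i = 8 := by
    intro i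
    have h2 := he i
    have h3 := hb i
    omega
  have hCm : ∀ i, i ∈ C ↔ x i % 4 = 2 ∨ x i % 4 = 3 := fun i => mem_support_hi
  have mem4 : ∀ i, i ∈ F4 ↔ x i ^ 2 = 16 := fun i => by simp [hF4]
  have mem6 : ∀ i, i ∈ F6 ↔ x i ^ 2 = 36 := fun i => by simp [hF6]
  have mem8 : ∀ i, i ∈ F8 ↔ x i ^ 2 = 64 := fun i => by simp [hF8]
  refine ⟨C, F4, F6, F8, ⟨_, hc, rfl⟩, fun i => ?_, fun i hi => ?_, ?_, ?_, ?_⟩
  · unfold absRep
    simp only [mem4, mem6, mem8, hCm]
    rcases hval i with h | h | h | h | h | h | h | h | h <;> rw [h] <;> norm_num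
  · rw [mem6] at hi
    rw [hCm]
    rcases hval i with h | h | h | h | h | h | h | h | h <;> rw [h] at hi ⊢ <;> first | omega | norm_num at hi
  · rw [Finset.disjoint_left]
    intro i hi hi'
    rw [mem4] at hi
    rw [hCm] at hi'
    rcases hval i with h | h | h | h | h | h | h | h | h <;> rw [h] at hi hi' <;> first | omega | norm_num at hi
  · rw [Finset.disjoint_left]
    intro i hi hi'
    rw [mem8] at hi
    rw [hCm] at hi'
    rcases hval i with h | h | h | h | h | h | h | h | h <;> rw [h] at hi hi' <;> first | omega | norm_num at hi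
  · have hpt : ∀ i, x i ^ 2 = 4 * (if i ∈ C then 1 else 0) + 32 * (if i ∈ F6 then 1 else 0) +
        16 * (if i ∈ F4 then 1 else 0) + 64 * (if i ∈ F8 then 1 else 0) := by
      intro i
      simp only [mem4, mem6, mem8, hCm]
      rcases hval i with h | h | h | h | h | h | h | h | h <;> rw [h] <;> norm_num
    have hsum : (N : ℤ) = 4 * C.card + 32 * F6.card + 16 * F4.card + 64 * F8.card := by
      rw [← hN]
      unfold sqNorm
      simp only [hpt]
      rw [Finset.sum_add_distrib, Finset.sum_add_distrib, Finset.sum_add_distrib, ← Finset.mul_sum,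
        ← Finset.mul_sum, ← Finset.mul_sum, ← Finset.mul_sum]
      simp only [Finset.sum_boole, Finset.filter_mem_eq_inter, Finset.univ_inter]
    exact_mod_cast hsum.symm

/-- If no coordinate is `2` modulo `4`, the number of coordinates `±4` is even. -/
theorem even_F4 {x : GolayPt → ℤ} (hx : x ∈ leechLattice) (he : ∀ i, x i % 2 = 0) {F4 : Finset GolayPt}
    (h : ∀ i, x i ^ 2 = absRep ∅ F4 ∅ ∅ i ^ 2) : F4.card % 2 = 0 := by
  classical
  have hx' := mem_leechLattice_iff.mp hx
  have hs : (∑ i, x i) % 8 = 0 := by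
    rcases even_or_odd hx' with ⟨-, h1, -⟩ | ⟨h1, -, -⟩
    · exact h1
    · have := h1 none
      have := he none
      omega
  have h1 : ∀ i, x i % 8 = 4 * (if i ∈ F4 then 1 else 0) := by
    intro i
    have h2 := h i
    unfold absRep at h2
    simp only [Finset.notMem_empty, if_false] at h2
    have h3' : ∀ a : ℤ, a ^ 2 = 16 → a % 8 = 4 := by
      intro a ha
      have h4 : (a - 4) * (a + 4) = 0 := by linear_combination ha
      rcases mul_eq_zero.mp h4 with h5 | h5 <;> omega
    by_cases h4 : i ∈ F4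
    · rw [if_pos h4] at h2
      rw [if_pos h4]
      have := h3' (x i) (by rw [h2]; norm_num)
      omega
    · rw [if_neg h4] at h2
      rw [if_neg h4]
      have h5 : x i = 0 := by
        have : x i ^ 2 = 0 := by rw [h2]; norm_num
        exact pow_eq_zero_iff (by norm_num) |>.mp this
      rw [h5]
      rfl
  rw [Finset.sum_int_mod] at hs
  simp only [h1] at hs
  rw [← Finset.mul_sum, Finset.sum_boole, Finset.filter_mem_eq_inter, Finset.univ_inter] at hs
  omega

theorem move_even {x : GolayPt → ℤ} (hx : x ∈ leechLattice) {C F4 F6 F8 : Finset GolayPt}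
    (hc : ∀ i, x i ^ 2 = absRep C F4 F6 F8 i ^ 2) {σ : Equiv.Perm GolayPt} (hσ : σ ∈ M24)
    {C' F4' F6' F8' : Finset GolayPt} (h1 : σ • C' = C) (h2 : σ • F4' = F4) (h3 : σ • F6' = F6)
    (h4 : σ • F8' = F8) :
    RR x (fun i => x (σ i)) ∧ ∀ i, (x (σ i)) ^ 2 = absRep C' F4' F6' F8' i ^ 2 := by
  refine ⟨RR_perm hx hσ, fun i => ?_⟩
  rw [hc]
  unfold absRep
  rw [← h1, ← h2, ← h3, ← h4]
  simp only [smul_mem_iff]

/-! ### Signs -/

/-- Data of pivots. -/
def pivOK (l : List (ℕ × ℕ)) : Prop :=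
  (∀ q ∈ l, q.1 < 24 ∧ q.2 < 2 ^ 24 ∧ inCode q.2 = true ∧ q.2.testBit q.1 = true) ∧
    l.Pairwise (fun a b => a.2.testBit b.1 = false)

instance (l : List (ℕ × ℕ)) : Decidable (pivOK l) := by
  unfold pivOK
  infer_instance

theorem mem_fs_pt {m a : ℕ} (ha : a < 24) : pt a ∈ fs m ↔ m.testBit a = true := by
  rw [mem_fs, idx_pt' ha]

theorem fix_pivots (r : GolayPt → ℤ) : ∀ (l : List (ℕ × ℕ)), pivOK l → ∀ {x : GolayPt → ℤ}, x ∈ leechLattice →
    (∀ i, x i ^ 2 = r i ^ 2) → ∃ x', RR x x' ∧ (∀ i, x' i ^ 2 = r i ^ 2) ∧ ∀ q ∈ l, x' (pt q.1) = r (pt q.1) := by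
  intro l
  induction l with
  | nil =>
    intro _ x hx hsq
    exact ⟨x, RR.refl hx, hsq, fun q hq => absurd hq (List.not_mem_nil)⟩
  | cons q l ih =>
    intro h x hx hsq
    have hl : pivOK l := ⟨fun a ha => h.1 a (List.mem_cons_of_mem _ ha), (List.pairwise_cons.mp h.2).2⟩
    obtain ⟨x', h1, h2, h3⟩ := ih hl hx hsq
    obtain ⟨hq1, hq2, hq3, hq4⟩ := h.1 q List.mem_cons_self
    have htail := (List.pairwise_cons.mp h.2).1
    by_cases hv : x' (pt q.1) = r (pt q.1)
    · refine ⟨x', h1, h2, fun a ha => ?_⟩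
      rcases List.mem_cons.mp ha with rfl | ha
      · exact hv
      · exact h3 a ha
    · have hneg : x' (pt q.1) = -r (pt q.1) := by
        have h4 := h2 (pt q.1)
        have h5 : (x' (pt q.1) - r (pt q.1)) * (x' (pt q.1) + r (pt q.1)) = 0 := by linear_combination h4
        rcases mul_eq_zero.mp h5 with h6 | h6
        · exact absurd (sub_eq_zero.mp h6) hv
        · linarith
      have hmem : fs q.2 ∈ supports (golayCode : Set (GolayPt → ZMod 2)) :=
        (fs_mem_supports_iff hq2).mpr hq3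
      refine ⟨_, h1.trans (RR_sign h1.mem_right hmem), fun i => ?_, fun a ha => ?_⟩
      · show (if i ∈ fs q.2 then -x' i else x' i) ^ 2 = _
        by_cases hi' : i ∈ fs q.2
        · rw [if_pos hi', neg_sq, h2]
        · rw [if_neg hi', h2]
      · show (if pt a.1 ∈ fs q.2 then -x' (pt a.1) else x' (pt a.1)) = _
        rcases List.mem_cons.mp ha with rfl | ha
        · rw [if_pos ((mem_fs_pt hq1).mpr hq4), hneg, neg_neg]
        · have ha1 := (h.1 a (List.mem_cons_of_mem _ ha)).1
          have hnot : pt a.1 ∉ fs q.2 := by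
            rw [mem_fs_pt ha1, htail a ha]
            simp
          rw [if_neg hnot, h3 a ha]

/-- Flip the signs on a set. -/
def flip (S : Finset GolayPt) (r : GolayPt → ℤ) : GolayPt → ℤ := fun i => if i ∈ S then -r i else r i

theorem finalU (r : GolayPt → ℤ) (l : List (ℕ × ℕ)) (hl : pivOK l) (U : Finset GolayPt)
    (hc : ∀ i, r i = 0 ∨ i ∈ U ∨ ∃ q ∈ l, pt q.1 = i) {x : GolayPt → ℤ} (hx : x ∈ leechLattice)
    (hsq : ∀ i, x i ^ 2 = r i ^ 2) : ∃ S ∈ U.powerset, RR x (flip S r) := by
  classical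
  obtain ⟨x', h1, h2, h3⟩ := fix_pivots r l hl hx hsq
  refine ⟨U.filter (fun i => x' i ≠ r i), Finset.mem_powerset.mpr (Finset.filter_subset _ _), ?_⟩
  have e : x' = flip (U.filter (fun i => x' i ≠ r i)) r := by
    funext i
    unfold flip
    have h4 : (x' i - r i) * (x' i + r i) = 0 := by linear_combination h2 i
    by_cases hr : r i = 0
    · rw [hr] at h4 ⊢
      have : x' i = 0 := by
        rcases mul_eq_zero.mp h4 with h5 | h5 <;> linarith
      rw [this]
      simp
    · by_cases hU : i ∈ U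
      · by_cases hv : x' i = r i
        · rw [if_neg]
          · exact hv
          · simp [hv]
        · rw [if_pos (Finset.mem_filter.mpr ⟨hU, hv⟩)]
          rcases mul_eq_zero.mp h4 with h5 | h5
          · exact absurd (sub_eq_zero.mp h5) hv
          · linarith
      · rcases hc i with h5 | h5 | ⟨q, hq, rfl⟩
        · exact absurd h5 hr
        · exact absurd h5 hU
        · rw [if_neg]
          · exact h3 q hq
          · intro h6
            exact hU (Finset.mem_filter.mp h6).1
  rw [← e]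
  exact h1

theorem even_sum {x : GolayPt → ℤ} (hx : x ∈ leechLattice) (he : x none % 2 = 0) : (∑ i, x i) % 8 = 0 := by
  rcases even_or_odd (mem_leechLattice_iff.mp hx) with ⟨-, h1, -⟩ | ⟨h1, -, -⟩
  · exact h1
  · have := h1 none
    omega

/-- All signs are determined by the pivots. -/
theorem final0 (r : GolayPt → ℤ) (l : List (ℕ × ℕ)) (hl : pivOK l)
    (hc : ∀ i, r i = 0 ∨ ∃ q ∈ l, pt q.1 = i)
    {x : GolayPt → ℤ} (hx : x ∈ leechLattice) (hsq : ∀ i, x i ^ 2 = r i ^ 2) : RR x r := by
  obtain ⟨S, hS, h⟩ := finalU r l hl ∅ (fun i => by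
    rcases hc i with h | h
    · exact Or.inl h
    · exact Or.inr (Or.inr h)) hx hsq
  rw [Finset.powerset_empty, Finset.mem_singleton] at hS
  subst hS
  have e : flip ∅ r = r := by
    funext i
    simp [flip]
  rwa [e] at h

/-- The sum decides the remaining sign. -/
theorem final1 (r : GolayPt → ℤ) (l : List (ℕ × ℕ)) (hl : pivOK l) (u : GolayPt)
    (hc : ∀ i, r i = 0 ∨ i = u ∨ ∃ q ∈ l, pt q.1 = i)
    (hU : flip {u} r none % 2 = 0 ∧ (∑ i, flip {u} r i) % 8 ≠ 0)
    {x : GolayPt → ℤ} (hx : x ∈ leechLattice) (hsq : ∀ i, x i ^ 2 = r i ^ 2) : RR x r := by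
  obtain ⟨S, hS, h⟩ := finalU r l hl {u} (fun i => by
    rcases hc i with h | h | h
    · exact Or.inl h
    · exact Or.inr (Or.inl (Finset.mem_singleton.mpr h))
    · exact Or.inr (Or.inr h)) hx hsq
  rw [Finset.mem_powerset, Finset.subset_singleton_iff] at hS
  rcases hS with rfl | rfl
  · have e : flip ∅ r = r := by
      funext i
      simp [flip]
    rwa [e] at h
  · exact absurd (even_sum h.mem_right hU.1) hU.2

/-! ### Explicit moves -/

/-- A permutation code on a vector. -/
def pv (π : ℕ) (x : GolayPt → ℤ) : GolayPt → ℤ := fun i => x (pt (pa π (idx i)))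

/-- A sign change by a mask on a vector. -/
def sv (m : ℕ) (x : GolayPt → ℤ) : GolayPt → ℤ := fun i => if i ∈ fs m then -x i else x i

theorem RR_pv {π : ℕ} (h : isM24 π = true) {x : GolayPt → ℤ} (hx : x ∈ leechLattice) : RR x (pv π x) := by
  have h1 := RR_perm hx (P_mem_M24 h)
  have h2 : permOK π = true := by
    rw [isM24, Bool.and_eq_true] at h
    exact h.1
  have e : (fun i => x (P π i)) = pv π x := by
    funext i
    rw [P_apply h2]
    rfl
  rwa [e] at h1

theorem RR_sv {m : ℕ} (hm : m < 2 ^ 24) (h : inCode m = true) {x : GolayPt → ℤ} (hx : x ∈ leechLattice) :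
    RR x (sv m x) :=
  RR_sign hx ((fs_mem_supports_iff hm).mpr h)

/-- A link between two vectors through one non-monomial step. -/
theorem link {x y : GolayPt → ℤ} (hx : testL x) (π m π' m' : ℕ) (h1 : isM24 π = true) (h2 : m < 2 ^ 24)
    (h3 : inCode m = true) (h4 : isM24 π' = true) (h5 : m' < 2 ^ 24) (h6 : inCode m' = true)
    (e : sv m' (pv π' (XI (sv m (pv π x)))) = y) : RR x y := by
  have hx' := mem_of_test hx
  have a1 := RR_pv h1 hx'
  have a2 := a1.trans (RR_sv h2 h3 a1.mem_right)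
  have a3 := a2.trans (RR_xi a2.mem_right)
  have a4 := a3.trans (RR_pv h4 a3.mem_right)
  have a5 := a4.trans (RR_sv h5 h6 a4.mem_right)
  rwa [e] at a5

/-- A monomial link. -/
theorem link0 {x y : GolayPt → ℤ} (hx : testL x) (π m : ℕ) (h1 : isM24 π = true) (h2 : m < 2 ^ 24)
    (h3 : inCode m = true) (e : sv m (pv π x) = y) : RR x y := by
  have hx' := mem_of_test hx
  have a1 := RR_pv h1 hx'
  have a2 := a1.trans (RR_sv h2 h3 a1.mem_right)
  rwa [e] at a2

/-! ### Moving configurations -/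

theorem octad_of_supports {C : Finset GolayPt} (h : C ∈ supports (golayCode : Set (GolayPt → ZMod 2)))
    (h8 : C.card = 8) : C ∈ octads := ⟨h, h8⟩

theorem dodecad_of_supports {C : Finset GolayPt} (h : C ∈ supports (golayCode : Set (GolayPt → ZMod 2)))
    (h8 : C.card = 12) : C ∈ dodecads := ⟨h, h8⟩

theorem supports_card {C : Finset GolayPt} (h : C ∈ supports (golayCode : Set (GolayPt → ZMod 2))) :
    C.card = 0 ∨ C.card = 8 ∨ C.card = 12 ∨ C.card = 16 ∨ C.card = 24 := by
  obtain ⟨w, hw, rfl⟩ := h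
  exact Gol.golay_weights w hw

end Cfsg.Agent.H02.CoC
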