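import Cfsg.Agent.Lib.H02.CoD

/-!
Transitivity on the vectors of norm 48.
-/

set_option autoImplicit false
set_option maxRecDepth 100000

namespace Cfsg.Agent.H02.CoE

open Cfsg Cfsg.Agent.H27.Golay Cfsg.Agent.H26.Leech Cfsg.Agent.H02.CoA Cfsg.Agent.H02.CoB Cfsg.Agent.H02.CoC
open scoped Pointwise

def rE3 : GolayPt → ℤ := vecOf [-2, 2, 2, 2, 4, 2, 0, 0, 0, 0, 0, 0, 0, 0, 2, 0, 0, 2, 0, 0, 0, 0, 0, 2]
def rE4 : GolayPt → ℤ := vecOf [2, 2, 2, 2, 2, 0, 2, 0, 2, 2, 0, 0, 2, 2, 0, 0, 2, 0, 2, 0, 0, 0, 0, 0]
def rO1 : GolayPt → ℤ := oddRep ∅ {pt 23}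
def rO3 : GolayPt → ℤ := oddRep {pt 23, pt 0, pt 1} ∅

def p3 : List (ℕ × ℕ) := [(0, 16095553), (1, 10335874), (2, 15480516), (3, 16364104), (4, 7903248), (14, 13721920), (5, 11055264), (17, 8592704)]
def p4 : List (ℕ × ℕ) := [(0, 7767041), (1, 5129250), (2, 8126628), (3, 3951624), (4, 6703248), (9, 3050016), (12, 2019456), (6, 1445088), (16, 5621792), (8, 2409888), (13, 5024896)]

theorem p3_ok : pivOK p3 := by decide +kernel
theorem p4_ok : pivOK p4 := by decide +kernel

/-- Elements stabilising the base octad, moving a point off it. -/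
def LO : List ℕ := [984818244535754528103549039458486304, 15118521128881001990012639531031598, 729701057532452799089654296254449111, 983057589258016504260074498389213251, 965259690662158669917158057253604353, 102923900538012510889762167357749344, 144596649226525563569225052637086882, 970499966350631336865513127433832480, 152306179538857038733193377144691781, 732466996834138193434970174421828325, 99119411202307695299711736928538158, 975328244459434111629100963789276258, 14622600421411776157103442651482213, 50965502096699391919999296788272130, 605364265184734668776269538489550565, 719523717263563000632563398483152622]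

theorem LO_ok : ∀ π ∈ LO, isM24 π = true ∧ am π O0 = O0 := by decide +kernel

theorem LO_tr : ∀ a : Fin 24, O0.testBit a = false → ∃ π ∈ LO, pa π 4 = a := by decide +kernel

theorem flag_off {o : Finset GolayPt} (ho : o ∈ octads) {p : GolayPt} (hp : p ∉ o) :
    ∃ σ ∈ M24, σ • fs O0 = o ∧ σ (pt 4) = p := by
  obtain ⟨g, hg, rfl⟩ := exists_smul_O0 ho
  have h1 : g⁻¹ p ∉ fs O0 := by
    intro h
    apply hp
    rw [← smul_mem_iff g (fs O0) (g⁻¹ p)] at h
    simpa using h
  have h2 : O0.testBit (idx (g⁻¹ p)) = false := by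
    rw [mem_fs] at h1
    simpa using h1
  obtain ⟨π, hπ, e⟩ := LO_tr ⟨idx (g⁻¹ p), idx_lt _⟩ h2
  obtain ⟨h3, h4⟩ := LO_ok π hπ
  have h5 : permOK π = true := by
    rw [isM24, Bool.and_eq_true] at h3
    exact h3.1
  refine ⟨g * P π, M24.mul_mem hg (P_mem_M24 h3), ?_, ?_⟩
  · rw [mul_smul, ← fs_am h5, h4]
  · show g (P π (pt 4)) = p
    rw [P_pt h5 (by norm_num), e]
    simp [pt_idx]

theorem link_43 : RR rE4 rE3 :=
  link (by decide +kernel) 751613104988364777530534605380804115 14616083 588962202647641607732789321269676689 615188 (by decide +kernel) (by decide +kernel) (by decide +kernel)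
    (by decide +kernel) (by decide +kernel) (by decide +kernel) (by decide +kernel)

theorem link_13 : RR rO1 rE3 :=
  link (by decide +kernel) 915247555046756390670156277906514317 720871 969143009712403877916730531979085941 8546577 (by decide +kernel) (by decide +kernel) (by decide +kernel)
    (by decide +kernel) (by decide +kernel) (by decide +kernel) (by decide +kernel)

theorem link_33 : RR rO3 rE3 :=
  link (by decide +kernel) 93124682144513993419511939839203794 11715893 332817522541764203252504174000640046 8497054 (by decide +kernel) (by decide +kernel) (by decide +kernel)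
    (by decide +kernel) (by decide +kernel) (by decide +kernel) (by decide +kernel)

theorem case_E3 {x : GolayPt → ℤ} (hx : x ∈ leechLattice) (h : ∀ i, x i ^ 2 = absRep (fs O0) {pt 4} ∅ ∅ i ^ 2) :
    RR x rE3 := by
  refine final1 rE3 p3 p3_ok (pt 23) (by decide +kernel) (by decide +kernel) hx (fun i => ?_)
  rw [h i]
  revert i
  decide +kernel

theorem case_E4 {x : GolayPt → ℤ} (hx : x ∈ leechLattice)
    (h : ∀ i, x i ^ 2 = absRep (fs H26.GolayMod.D0) ∅ ∅ ∅ i ^ 2) : RR x rE4 := by
  refine final1 rE4 p4 p4_ok (pt 18) (by decide +kernel) (by decide +kernel) hx (fun i => ?_)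
  rw [h i]
  revert i
  decide +kernel

theorem main48 {x : GolayPt → ℤ} (hx : x ∈ leechLattice) (hN : sqNorm x = (48 : ℕ)) : RR x rE3 := by
  rcases even_or_odd (mem_leechLattice_iff.mp hx) with ⟨he, -, -⟩ | ⟨ho, -, -⟩
  · obtain ⟨C, F4, F6, F8, hC, h1, h2, h3, h4, h5⟩ := even_shape hx he hN (by norm_num)
    have hF6 : F6.card ≤ C.card := Finset.card_le_card h2
    rcases supports_card hC with h | h | h | h | h
    · exfalso
      have hC0 : C = ∅ := Finset.card_eq_zero.mp h
      have hF60 : F6 = ∅ := Finset.card_eq_zero.mp (by omega)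
      have hF80 : F8 = ∅ := Finset.card_eq_zero.mp (by omega)
      subst hC0 hF60 hF80
      have := even_F4 hx he h1
      omega
    · have hF60 : F6 = ∅ := Finset.card_eq_zero.mp (by omega)
      have hF80 : F8 = ∅ := Finset.card_eq_zero.mp (by omega)
      have hF41 : F4.card = 1 := by omega
      obtain ⟨p, rfl⟩ := Finset.card_eq_one.mp hF41
      have hp : p ∉ C := Finset.disjoint_left.mp h3 (Finset.mem_singleton_self p)
      obtain ⟨σ, hσ, e, e2⟩ := flag_off (octad_of_supports hC h) hp
      have h6 : σ • ({pt 4} : Finset GolayPt) = {p} := by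
        rw [Finset.smul_finset_singleton]
        show ({σ (pt 4)} : Finset GolayPt) = _
        rw [e2]
      subst hF60 hF80
      obtain ⟨a1, a2⟩ := move_even hx h1 hσ (C' := fs O0) (F6' := ∅) (F8' := ∅) e h6
        (Finset.smul_finset_empty _) (Finset.smul_finset_empty _)
      exact a1.trans (case_E3 a1.mem_right a2)
    · have hF60 : F6 = ∅ := Finset.card_eq_zero.mp (by omega)
      have hF80 : F8 = ∅ := Finset.card_eq_zero.mp (by omega)
      have hF40 : F4 = ∅ := Finset.card_eq_zero.mp (by omega)
      obtain ⟨σ, hσ, e⟩ := H26.GolayMod.exists_smul_D0 (dodecad_of_supports hC h)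
      subst hF60 hF80 hF40
      obtain ⟨a1, a2⟩ := move_even hx h1 hσ (C' := fs H26.GolayMod.D0) (F4' := ∅) (F6' := ∅) (F8' := ∅) e
        (Finset.smul_finset_empty _) (Finset.smul_finset_empty _) (Finset.smul_finset_empty _)
      exact a1.trans ((case_E4 a1.mem_right a2).trans link_43)
    · omega
    · omega
  · obtain ⟨x', h1, h2, h3⟩ := odd_to_one hx ho
    obtain ⟨A, B, rfl, h4⟩ := odd_shape h2 (h3.trans hN) (by norm_num)
    have hcases : (A.card = 3 ∧ B.card = 0) ∨ (A.card = 0 ∧ B.card = 1) := by omega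
    rcases hcases with ⟨hA, hB⟩ | ⟨hA, hB⟩
    · obtain ⟨p, q, r, hpq, hpr, hqr, rfl⟩ := Finset.card_eq_three.mp hA
      have hB0 : B = ∅ := Finset.card_eq_zero.mp hB
      subst hB0
      obtain ⟨σ, hσ, e1, e2, e3⟩ := Gol.three_trans (p := pt 23) (q := pt 0) (r := pt 1) (p' := p) (q' := q) (r' := r)
        (by decide) (by decide) (by decide) hpq hpr hqr
      have h6 : σ • ({pt 23, pt 0, pt 1} : Finset GolayPt) = {p, q, r} := by
        rw [Finset.smul_finset_insert, Finset.smul_finset_insert, Finset.smul_finset_singleton]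
        show ({σ (pt 23), σ (pt 0), σ (pt 1)} : Finset GolayPt) = _
        rw [e1, e2, e3]
      exact h1.trans ((oddRep_move h1.mem_right hσ h6 (Finset.smul_finset_empty _)).trans link_33)
    · have hA0 : A = ∅ := Finset.card_eq_zero.mp hA
      obtain ⟨p, rfl⟩ := Finset.card_eq_one.mp hB
      subst hA0
      obtain ⟨σ, hσ, e⟩ := Gol.one_trans (pt 23) p
      have h6 : σ • ({pt 23} : Finset GolayPt) = {p} := by
        rw [Finset.smul_finset_singleton]
        show ({σ (pt 23)} : Finset GolayPt) = _
        rw [e]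
      exact h1.trans ((oddRep_move h1.mem_right hσ (Finset.smul_finset_empty _) h6).trans link_13)

theorem transitive48 (v w : leechLattice) (hv : sqNorm (v : GolayPt → ℤ) = 48) (hw : sqNorm (w : GolayPt → ℤ) = 48) :
    ∃ g : Co0, g • v = w :=
  exists_of_RR ((main48 v.2 (by exact_mod_cast hv)).trans (main48 w.2 (by exact_mod_cast hw)).symm)

end Cfsg.Agent.H02.CoE
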