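import Cfsg.Agent.Lib.H02.CoF

/-!
The stabiliser of a frame vector is monomial; the order of the automorphism group of the lattice.
-/

set_option autoImplicit false
set_option maxRecDepth 100000

namespace Cfsg.Agent.H02.CoG

open Cfsg Cfsg.Agent.H27.Golay Cfsg.Agent.H26.Leech Cfsg.Agent.H02.CoA Cfsg.Agent.H02.CoB Cfsg.Agent.H02.CoC
open scoped Pointwise

/-- The vectors `4 e_i + 4 s e_j`. -/
def f4v (i j : GolayPt) (s : ℤ) : GolayPt → ℤ := fun k => (if k = i then 4 else 0) + (if k = j then s * 4 else 0)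

theorem f4v_mem (i j : GolayPt) (s : ℤ) (hs : s = 1 ∨ s = -1) : f4v i j s ∈ leechLattice := by
  classical
  rw [mem_leechLattice_iff, mem_leechSet_iff]
  have hres : ∀ k, f4v i j s k % 4 = 0 := by
    intro k
    unfold f4v
    rcases hs with rfl | rfl <;> split_ifs <;> norm_num
  refine ⟨0, fun k => ?_, ?_, ?_⟩
  · have := hres k
    show f4v i j s k % 2 = 0 % 2
    omega
  · show (∑ k, f4v i j s k) % 8 = (4 * 0) % 8
    have : ∑ k, f4v i j s k = 4 + s * 4 := by
      unfold f4v
      rw [Finset.sum_add_distrib, Finset.sum_ite_eq' Finset.univ i, Finset.sum_ite_eq' Finset.univ j]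
      simp
    rw [this]
    rcases hs with rfl | rfl <;> norm_num
  · have : hi (f4v i j s) = 0 := by
      funext k
      have h1 := hres k
      show hiZ (f4v i j s k) = 0
      unfold hiZ
      rw [if_neg]
      omega
    rw [this]
    exact golayCode.zero_mem

/-- As lattice elements. -/
def f4 (i j : GolayPt) (s : ℤ) (hs : s = 1 ∨ s = -1) : leechLattice := ⟨f4v i j s, f4v_mem i j s hs⟩

theorem two_f4 (i j : GolayPt) : (2 : ℤ) • f4 i j (-1) (Or.inr rfl) = e8 i - e8 j := by
  apply Subtype.ext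
  funext k
  show 2 * ((if k = i then 4 else 0) + (if k = j then -1 * 4 else 0)) = (if k = i then 8 else 0) - (if k = j then 8 else 0)
  split_ifs <;> norm_num

theorem two_f4' (i j : GolayPt) : (2 : ℤ) • f4 i j 1 (Or.inl rfl) = e8 i + e8 j := by
  apply Subtype.ext
  funext k
  show (2 : ℤ) * ((if k = i then 4 else 0) + (if k = j then 1 * 4 else 0)) = (if k = i then 8 else 0) + (if k = j then 8 else 0)
  split_ifs <;> norm_num

theorem sqNorm_two (a : leechLattice) : sqNorm ((2 : ℤ) • a).1 = 4 * sqNorm a.1 := by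
  unfold sqNorm
  rw [Finset.mul_sum]
  apply Finset.sum_congr rfl
  intro k _
  show (2 * a.1 k) ^ 2 = _
  ring

/-- Squared length of a sum with a frame vector. -/
theorem sqNorm_add_e8 (y : leechLattice) (j : GolayPt) (hy : sqNorm y.1 = 64) (s : ℤ) (hs : s = 1 ∨ s = -1) :
    sqNorm (fun k => y.1 k + s * (e8 j).1 k) = 128 + 16 * s * y.1 j := by
  unfold sqNorm at hy ⊢
  have h1 : ∀ k, (y.1 k + s * (e8 j).1 k) ^ 2 = y.1 k ^ 2 + (if k = j then 16 * s * y.1 j + 64 else 0) := by
    intro k
    rw [e8_apply]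
    by_cases hk : k = j
    · subst hk
      rw [if_pos rfl, if_pos rfl]
      rcases hs with rfl | rfl <;> ring
    · rw [if_neg hk, if_neg hk]
      ring
  simp only [h1]
  rw [Finset.sum_add_distrib, hy, Finset.sum_ite_eq' Finset.univ j]
  simp only [Finset.mem_univ, if_true]
  ring

theorem g_smul (g : Co0) (a : leechLattice) (n : ℤ) : g.1 (n • a) = n • g.1 a :=
  map_zsmul (addHom g) n a

theorem g_sub (g : Co0) (a b : leechLattice) : g.1 (a - b) = g.1 a - g.1 b :=
  map_sub (addHom g) a b

theorem g_add (g : Co0) (a b : leechLattice) : g.1 (a + b) = g.1 a + g.1 b :=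
  map_add (addHom g) a b

/-- The image of a frame vector under an automorphism fixing one frame vector. -/
theorem frame_image (g : Co0) (hg : g.1 (e8 none) = e8 none) (i j : GolayPt) :
    (g.1 (e8 i)).1 j = 0 ∨ g.1 (e8 i) = e8 j ∨ g.1 (e8 i) = -e8 j := by
  set y := g.1 (e8 i) with hy
  have hy64 : sqNorm y.1 = 64 := by
    rw [hy, g.2.2, sqNorm_e8]
  -- the vector `(y - e8 j) / 2`
  set a : leechLattice := g.1 (f4 i none (-1) (Or.inr rfl)) + f4 none j (-1) (Or.inr rfl) with ha
  have ha2 : (2 : ℤ) • a = y - e8 j := by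
    rw [ha, smul_add, ← g_smul, two_f4, two_f4, g_sub, hg]
    abel
  set b : leechLattice := g.1 (f4 i none (-1) (Or.inr rfl)) + f4 none j 1 (Or.inl rfl) with hb
  have hb2 : (2 : ℤ) • b = y + e8 j := by
    rw [hb, smul_add, ← g_smul, two_f4, two_f4', g_sub, hg]
    abel
  have hna : 4 * sqNorm a.1 = 128 - 16 * y.1 j := by
    rw [← sqNorm_two, ha2]
    have := sqNorm_add_e8 y j hy64 (-1) (Or.inr rfl)
    have e : ((y - e8 j : leechLattice) : GolayPt → ℤ) = fun k => y.1 k + -1 * (e8 j).1 k := by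
      funext k
      show y.1 k - (e8 j).1 k = _
      ring
    rw [e, this]
    ring
  have hnb : 4 * sqNorm b.1 = 128 + 16 * y.1 j := by
    rw [← sqNorm_two, hb2]
    have := sqNorm_add_e8 y j hy64 1 (Or.inl rfl)
    have e : ((y + e8 j : leechLattice) : GolayPt → ℤ) = fun k => y.1 k + 1 * (e8 j).1 k := by
      funext k
      show y.1 k + (e8 j).1 k = _
      ring
    rw [e, this]
    ring
  by_cases ha0 : a.1 = 0
  · right
    left
    have : a = 0 := Subtype.ext ha0
    rw [this, smul_zero] at ha2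
    exact (sub_eq_zero.mp ha2.symm)
  by_cases hb0 : b.1 = 0
  · right
    right
    have : b = 0 := Subtype.ext hb0
    rw [this, smul_zero] at hb2
    exact eq_neg_of_add_eq_zero_left hb2.symm
  left
  have h1 := min_norm a.2 ha0
  have h2 := min_norm b.2 hb0
  omega

theorem e8_ne_zero (i : GolayPt) : (e8 i : leechLattice) ≠ 0 := by
  intro h
  have := congrArg (fun w : leechLattice => w.1 i) h
  simp only [e8_apply, if_true] at this
  norm_num at this

/-- Frame vectors go to frame vectors. -/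
theorem frame_exists (g : Co0) (hg : g.1 (e8 none) = e8 none) (i : GolayPt) :
    ∃ j : GolayPt, g.1 (e8 i) = e8 j ∨ g.1 (e8 i) = -e8 j := by
  by_contra hcon
  push Not at hcon
  have h0 : ∀ j, (g.1 (e8 i)).1 j = 0 := by
    intro j
    rcases frame_image g hg i j with h | h | h
    · exact h
    · exact absurd h (hcon j).1
    · exact absurd h (hcon j).2
  have h1 : g.1 (e8 i) = 0 := Subtype.ext (funext h0)
  have h2 : sqNorm (g.1 (e8 i)).1 = 64 := by rw [g.2.2, sqNorm_e8]
  rw [h1] at h2
  unfold sqNorm at h2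
  simp at h2

end Cfsg.Agent.H02.CoG
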