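import Mathlib

/-!
A simplicity criterion: a transitive action with simple point stabiliser, such that the invariant
sets through the point of a size dividing the degree are trivial, and a degree which is not a prime
power and such that the groups of that order are solvable.
-/

set_option autoImplicit false

namespace Cfsg.Agent.H02.CoGen

open MulAction

section crit

variable {G X : Type*} [Group G] [Finite G] [MulAction G X]

theorem orbit_sub_ncard_dvd (b : X) (D : Subgroup G) [D.Normal] :
    (orbit (↥D) b).ncard ∣ (orbit G b).ncard := by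
  classical
  set S : Subgroup G := stabilizer G b with hS
  have h1 : (orbit G b).ncard = S.index := (index_stabilizer G b).symm
  have h2 : (orbit (↥D) b).ncard = (stabilizer (↥D) b).index := (index_stabilizer (↥D) b).symm
  have h3 : stabilizer (↥D) b = S.subgroupOf D := by
    ext d
    rfl
  have h4 : (orbit (↥D) b).ncard = S.relIndex D := by
    rw [h2, h3]
    rfl
  rw [h1, h4]
  have h5 : S.relIndex (D ⊔ S) = S.relIndex D := by
    have e1 : (S ⊓ D).relIndex S * S.relIndex (D ⊔ S) = (S ⊓ D).relIndex (D ⊔ S) :=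
      Subgroup.relIndex_mul_relIndex _ _ _ inf_le_left le_sup_right
    have e2 : (S ⊓ D).relIndex D * D.relIndex (D ⊔ S) = (S ⊓ D).relIndex (D ⊔ S) :=
      Subgroup.relIndex_mul_relIndex _ _ _ inf_le_right le_sup_left
    have e3 : (S ⊓ D).relIndex S = D.relIndex S := Subgroup.inf_relIndex_left _ _
    have e4 : (S ⊓ D).relIndex D = S.relIndex D := Subgroup.inf_relIndex_right _ _
    have e5 : D.relIndex (D ⊔ S) = D.relIndex S := Subgroup.relIndex_sup_left _ _
    have e6 : D.relIndex S ≠ 0 := Subgroup.index_ne_zero_of_finite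
    rw [e3] at e1
    rw [e4, e5] at e2
    have e7 : D.relIndex S * S.relIndex (D ⊔ S) = D.relIndex S * S.relIndex D := by
      rw [e1, ← e2, mul_comm]
    exact Nat.eq_of_mul_eq_mul_left (Nat.pos_of_ne_zero e6) e7
  rw [← h5]
  exact Subgroup.relIndex_dvd_index_of_le le_sup_right

theorem orbit_sub_subset (b : X) (D : Subgroup G) : orbit (↥D) b ⊆ orbit G b := by
  rintro _ ⟨d, rfl⟩
  exact ⟨d.1, rfl⟩

theorem orbit_sub_inv (b : X) (D : Subgroup G) [D.Normal] :
    ∀ g ∈ stabilizer G b, ∀ y ∈ orbit (↥D) b, g • y ∈ orbit (↥D) b := by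
  rintro g hg _ ⟨d, rfl⟩
  refine ⟨⟨g * d.1 * g⁻¹, Subgroup.Normal.conj_mem ‹_› d.1 d.2 g⟩, ?_⟩
  have hg' : g • b = b := hg
  show (g * d.1 * g⁻¹) • b = g • (d.1 • b)
  rw [mul_smul, mul_smul]
  congr 2
  rw [inv_smul_eq_iff, hg']

/-- The criterion. -/
theorem simple_crit (b : X) (hS : IsSimpleGroup (stabilizer G b))
    (hprim : ∀ B : Set X, B ⊆ orbit G b → b ∈ B → (∀ g ∈ stabilizer G b, ∀ y ∈ B, g • y ∈ B) →
      B.ncard ∣ (orbit G b).ncard → B = {b} ∨ B = orbit G b)
    (hmove : ∃ g ∈ stabilizer G b, ∃ y ∈ orbit G b, g • y ≠ y)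
    (hnp : ¬ IsPrimePow (orbit G b).ncard)
    (hsolv : ∀ N : Subgroup G, Nat.card N = (orbit G b).ncard → Group.IsSolvable N) : IsSimpleGroup G := by
  classical
  set S : Subgroup G := stabilizer G b with hSdef
  -- the key lemma
  have key : ∀ D : Subgroup G, D.Normal → D ≠ ⊥ → orbit (↥D) b = orbit G b := by
    intro D hD hne
    rcases hprim _ (orbit_sub_subset b D) (mem_orbit_self b) (orbit_sub_inv b D) (orbit_sub_ncard_dvd b D) with h | h
    · exfalso
      have hDS : D ≤ S := by
        intro d hd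
        have : d • b ∈ orbit (↥D) b := ⟨⟨d, hd⟩, rfl⟩
        rw [h] at this
        exact this
      have hnorm : (D.subgroupOf S).Normal := by
        constructor
        intro x hx g
        rw [Subgroup.mem_subgroupOf] at hx ⊢
        exact hD.conj_mem _ hx _
      rcases hS.eq_bot_or_eq_top_of_normal _ hnorm with h1 | h1
      · apply hne
        rw [eq_bot_iff]
        intro d hd
        have h2 : (⟨d, hDS hd⟩ : S) ∈ D.subgroupOf S := hd
        rw [h1, Subgroup.mem_bot] at h2
        exact congrArg Subtype.val h2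
      · obtain ⟨g, hg, y, hy, hne'⟩ := hmove
        apply hne'
        obtain ⟨a, rfl⟩ := hy
        have h3 : (⟨g, hg⟩ : S) ∈ D.subgroupOf S := by
          rw [h1]
          trivial
        have h4 : g ∈ D := h3
        have h5 : a⁻¹ * g * a ∈ D := by
          have := hD.conj_mem g h4 a⁻¹
          simpa using this
        have h6 : (a⁻¹ * g * a) • b = b := hDS h5
        show g • a • b = a • b
        rw [mul_smul, mul_smul, inv_smul_eq_iff] at h6
        exact h6
    · exact h
  haveI hnt : Nontrivial G := by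
    obtain ⟨g, -, y, -, hne'⟩ := hmove
    refine ⟨⟨g, 1, ?_⟩⟩
    rintro rfl
    exact hne' (one_smul _ _)
  refine ⟨?_⟩
  intro N hN
  by_cases hNb : N = ⊥
  · exact Or.inl hNb
  right
  have htr := key N hN hNb
  have hnorm : (N.subgroupOf S).Normal := by
    constructor
    intro x hx g
    rw [Subgroup.mem_subgroupOf] at hx ⊢
    exact hN.conj_mem _ hx _
  rcases hS.eq_bot_or_eq_top_of_normal _ hnorm with h | h
  · -- regular
    exfalso
    have hreg : ∀ n ∈ N, n • b = b → n = 1 := by
      intro n hn hnb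
      have h1 : (⟨n, hnb⟩ : S) ∈ N.subgroupOf S := hn
      rw [h, Subgroup.mem_bot] at h1
      exact congrArg Subtype.val h1
    have hcard : Nat.card N = (orbit G b).ncard := by
      rw [← htr]
      let f : N → orbit (↥N) b := fun n => ⟨n • b, mem_orbit _ _⟩
      have hf : Function.Bijective f := by
        constructor
        · intro m n hmn
          have h1 : m.1 • b = n.1 • b := congrArg Subtype.val hmn
          have h3 : n.1⁻¹ * m.1 = 1 := by
            apply hreg _ (N.mul_mem (N.inv_mem n.2) m.2)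
            rw [mul_smul, h1, inv_smul_smul]
          exact Subtype.ext (inv_mul_eq_one.mp h3).symm
        · rintro ⟨y, n, rfl⟩
          exact ⟨n, rfl⟩
      rw [Nat.card_congr (Equiv.ofBijective f hf)]
      rfl
    -- minimality
    have hmin : ∀ D : Subgroup G, D.Normal → D ≤ N → D ≠ ⊥ → D = N := by
      intro D hD hle hne
      apply le_antisymm hle
      intro n hn
      have h1 : n • b ∈ orbit (↥D) b := by
        rw [key D hD hne, ← htr]
        exact ⟨⟨n, hn⟩, rfl⟩
      obtain ⟨d, hd⟩ := h1
      have h2 : (n⁻¹ * d.1) • b = b := by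
        rw [mul_smul, inv_smul_eq_iff]
        exact hd
      have h3 := hreg _ (N.mul_mem (N.inv_mem hn) (hle d.2)) h2
      have h4 : d.1 = n := by
        have := inv_mul_eq_one.mp h3
        exact this.symm
      rw [← h4]
      exact d.2
    haveI hsol : Group.IsSolvable N := hsolv N hcard
    have hNnt : Nontrivial N := by
      rw [Subgroup.nontrivial_iff_ne_bot]
      exact hNb
    have hab : ⁅N, N⁆ = ⊥ := by
      by_contra hne
      have h1 := hmin ⁅N, N⁆ (Subgroup.commutator_normal N N) (Subgroup.commutator_le_left N N) hne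
      have h2 : commutator ↥N < ⊤ := Group.IsSolvable.commutator_lt_top_of_nontrivial _
      apply ne_of_lt h2
      have h3 : (commutator ↥N).map N.subtype = ⁅N, N⁆ := Subgroup.map_subtype_commutator N
      rw [h1] at h3
      apply Subgroup.map_injective N.subtype_injective
      rw [h3, ← MonoidHom.range_eq_map, Subgroup.range_subtype]
    have hcomm : ∀ m ∈ N, ∀ n ∈ N, m * n = n * m := by
      intro m hm n hn
      have := Subgroup.commutator_mem_commutator hm hn
      rw [hab, Subgroup.mem_bot, commutatorElement_eq_one_iff_mul_comm] at this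
      exact this
    obtain ⟨p, hp, hpd⟩ : ∃ p : ℕ, p.Prime ∧ p ∣ Nat.card N := by
      apply Nat.exists_prime_and_dvd
      exact Finite.one_lt_card.ne'
    haveI : Fact p.Prime := ⟨hp⟩
    let M : Subgroup G :=
      { carrier := {n | n ∈ N ∧ n ^ p = 1}
        one_mem' := ⟨N.one_mem, one_pow _⟩
        mul_mem' := by
          rintro a c ⟨ha, ha1⟩ ⟨hc, hc1⟩
          refine ⟨N.mul_mem ha hc, ?_⟩
          rw [(show Commute a c from hcomm a ha c hc).mul_pow, ha1, hc1, one_mul]
        inv_mem' := by
          rintro a ⟨ha, ha1⟩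
          exact ⟨N.inv_mem ha, by rw [inv_pow, ha1, inv_one]⟩ }
    have hMn : M.Normal := by
      constructor
      rintro n ⟨h1, h2⟩ g
      refine ⟨hN.conj_mem n h1 g, ?_⟩
      rw [conj_pow, h2, mul_one, mul_inv_cancel]
    have hMne : M ≠ ⊥ := by
      obtain ⟨x, hx⟩ := exists_prime_orderOf_dvd_card' p hpd
      intro hbot
      have h1 : (x : G) ∈ M := by
        refine ⟨x.2, ?_⟩
        have : x ^ p = 1 := by rw [← hx]; exact pow_orderOf_eq_one x
        exact congrArg Subtype.val this
      rw [hbot, Subgroup.mem_bot] at h1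
      have h2 : x = 1 := Subtype.ext h1
      rw [h2, orderOf_one] at hx
      exact hp.one_lt.ne hx
    have hMN := hmin M hMn (fun x hx => hx.1) hMne
    have hpg : IsPGroup p N := by
      intro x
      refine ⟨1, ?_⟩
      have h1 : x.1 ∈ M := by rw [hMN]; exact x.2
      rw [pow_one]
      exact Subtype.ext h1.2
    obtain ⟨k, hk⟩ := IsPGroup.iff_card.mp hpg
    have hk0 : 0 < k := by
      rcases Nat.eq_zero_or_pos k with e | e
      · rw [e, pow_zero] at hk
        exact absurd hk Finite.one_lt_card.ne'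
      · exact e
    apply hnp
    rw [← hcard, hk]
    exact ⟨p, k, hp.prime, hk0, rfl⟩
  · -- the stabiliser is inside
    rw [eq_top_iff]
    intro g _
    have h1 : g • b ∈ orbit (↥N) b := by
      rw [htr]
      exact ⟨g, rfl⟩
    obtain ⟨n, hn⟩ := h1
    have h2 : n.1⁻¹ * g ∈ S := by
      show (n.1⁻¹ * g) • b = b
      rw [mul_smul, inv_smul_eq_iff]
      exact hn.symm
    have h3 : (⟨_, h2⟩ : S) ∈ N.subgroupOf S := by
      rw [h]
      trivial
    have h4 : n.1⁻¹ * g ∈ N := h3
    have h5 : g = n.1 * (n.1⁻¹ * g) := by group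
    rw [h5]
    exact N.mul_mem n.2 h4

end crit

section prim

variable {G X : Type*} [Group G] [MulAction G X]

/-- Invariant sets from a decomposition into orbits. -/
theorem prim_of_orbits (b : X) {Y : Set X} (hY : Y.Finite) (r : ℕ) (O : ℕ → Set X) (s : ℕ → ℕ)
    (hb : b ∈ Y) (hO : ∀ i < r, O i ⊆ Y) (hbO : ∀ i < r, b ∉ O i)
    (hdisj : ∀ i < r, ∀ j < r, i ≠ j → Disjoint (O i) (O j))
    (hcov : ∀ y ∈ Y, y = b ∨ ∃ i < r, y ∈ O i)
    (htr : ∀ i < r, ∀ a ∈ O i, ∀ a' ∈ O i, ∃ g ∈ stabilizer G b, g • a = a')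
    (hs : ∀ i < r, (O i).ncard = s i)
    (hnum : ∀ I ∈ (Finset.range r).powerset, (1 + ∑ i ∈ I, s i) ∣ Y.ncard → I = ∅ ∨ I = Finset.range r) :
    ∀ B : Set X, B ⊆ Y → b ∈ B → (∀ g ∈ stabilizer G b, ∀ y ∈ B, g • y ∈ B) →
      B.ncard ∣ Y.ncard → B = {b} ∨ B = Y := by
  classical
  intro B hBY hbB hinv hdvd
  let I : Finset ℕ := (Finset.range r).filter (fun i => (O i ∩ B).Nonempty)
  have hI : ∀ i ∈ I, O i ⊆ B := by
    intro i hi
    rw [Finset.mem_filter, Finset.mem_range] at hi
    obtain ⟨hir, a, ha, haB⟩ := hi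
    intro a' ha'
    obtain ⟨g, hg, e⟩ := htr i hir a ha a' ha'
    rw [← e]
    exact hinv g hg a haB
  have hUn : ∀ J : Finset ℕ, J ⊆ Finset.range r →
      ((⋃ i ∈ J, O i).ncard = ∑ i ∈ J, s i) ∧ (⋃ i ∈ J, O i).Finite ∧ b ∉ (⋃ i ∈ J, O i) := by
    intro J
    induction J using Finset.induction_on with
    | empty =>
      intro _
      simp
    | insert a J ha ih =>
      intro hJ
      have haR : a < r := Finset.mem_range.mp (hJ (Finset.mem_insert_self _ _))
      obtain ⟨h1, h2, h3⟩ := ih (fun x hx => hJ (Finset.mem_insert_of_mem hx))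
      have e : (⋃ i ∈ insert a J, O i) = O a ∪ ⋃ i ∈ J, O i := by
        simp [Finset.set_biUnion_insert]
      have hfa : (O a).Finite := hY.subset (hO a haR)
      have hd : Disjoint (O a) (⋃ i ∈ J, O i) := by
        rw [Set.disjoint_iUnion₂_right]
        intro j hj
        apply hdisj a haR j (Finset.mem_range.mp (hJ (Finset.mem_insert_of_mem hj)))
        rintro rfl
        exact ha hj
      rw [e]
      refine ⟨?_, hfa.union h2, ?_⟩
      · rw [Set.ncard_union_eq hd hfa h2, h1, Finset.sum_insert ha, hs a haR]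
      · rintro (h | h)
        · exact hbO a haR h
        · exact h3 h
  obtain ⟨u1, u2, u3⟩ := hUn I (Finset.filter_subset _ _)
  have eB : B = insert b (⋃ i ∈ I, O i) := by
    ext y
    constructor
    · intro hy
      rcases hcov y (hBY hy) with e | ⟨i, hi, hyi⟩
      · exact Or.inl e
      · refine Or.inr ?_
        simp only [Set.mem_iUnion]
        refine ⟨i, ?_, hyi⟩
        rw [Finset.mem_filter, Finset.mem_range]
        exact ⟨hi, y, hyi, hy⟩
    · rintro (rfl | h)
      · exact hbB
      · simp only [Set.mem_iUnion] at h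
        obtain ⟨i, hi, hyi⟩ := h
        exact hI i hi hyi
  have hc : B.ncard = 1 + ∑ i ∈ I, s i := by
    rw [eB, Set.ncard_insert_of_notMem u3 u2, u1, add_comm]
  rw [hc] at hdvd
  rcases hnum I (Finset.mem_powerset.mpr (Finset.filter_subset _ _)) hdvd with h | h
  · left
    rw [eB, h]
    simp
  · right
    apply Set.Subset.antisymm hBY
    intro y hy
    rcases hcov y hy with e | ⟨i, hi, hyi⟩
    · rw [e]
      exact hbB
    · apply hI i _ hyi
      rw [h]
      exact Finset.mem_range.mpr hi

end prim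

end Cfsg.Agent.H02.CoGen
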