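import Cfsg.Agent.Lib.H02.CoG

/-!
The stabiliser of a frame vector consists of monomial automorphisms; the order of the group.
-/

set_option autoImplicit false
set_option maxRecDepth 100000

namespace Cfsg.Agent.H02.CoH

open Cfsg Cfsg.Agent.H27.Golay Cfsg.Agent.H26.Leech Cfsg.Agent.H02.CoA Cfsg.Agent.H02.CoB Cfsg.Agent.H02.CoC
open Cfsg.Agent.H02.CoG
open scoped Pointwise

theorem e8_inj_cases {a b : GolayPt} (h : (e8 a : leechLattice) = e8 b ∨ (e8 a : leechLattice) = -e8 b) : a = b := by
  by_contra hab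
  rcases h with h | h
  · have := congrArg (fun w : leechLattice => w.1 a) h
    simp only [e8_apply, if_true, if_neg hab] at this
    norm_num at this
  · have h2 : (e8 a).1 a = (-e8 b : leechLattice).1 a := congrArg (fun w : leechLattice => w.1 a) h
    have h3 : (-e8 b : leechLattice).1 a = -(e8 b).1 a := rfl
    rw [h3] at h2
    simp only [e8_apply, if_true, if_neg hab] at h2
    norm_num at h2

theorem g_neg (g : Co0) (a : leechLattice) : g.1 (-a) = -g.1 a :=
  map_neg (addHom g) a

/-- The monomial shape of an element of the stabiliser of a frame vector. -/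
theorem exists_monomial (g : Co0) (hg : g.1 (e8 none) = e8 none) :
    ∃ (π : Equiv.Perm GolayPt) (s : GolayPt → ℤ), (∀ i, s i = 1 ∨ s i = -1) ∧
      ∀ i, g.1 (e8 i) = s i • e8 (π i) := by
  classical
  choose π hπ using frame_exists g hg
  have hinj : Function.Injective π := by
    intro a b hab
    apply e8_inj_cases
    have hginj : Function.Injective g.1 := g.1.injective
    rcases hπ a with h1 | h1 <;> rcases hπ b with h2 | h2
    · left
      apply hginj
      rw [h1, h2, hab]
    · right
      apply hginj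
      rw [g_neg, h1, h2, hab, neg_neg]
    · right
      apply hginj
      rw [g_neg, h1, h2, hab]
    · left
      apply hginj
      rw [h1, h2, hab]
  have hbij : Function.Bijective π := Finite.injective_iff_bijective.mp hinj
  refine ⟨Equiv.ofBijective π hbij, fun i => if g.1 (e8 i) = e8 (π i) then 1 else -1, ?_, ?_⟩
  · intro i
    by_cases h : g.1 (e8 i) = e8 (π i)
    · left; beta_reduce; rw [if_pos h]
    · right; beta_reduce; rw [if_neg h]
  · intro i
    show g.1 (e8 i) = _ • e8 (π i)
    beta_reduce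
    by_cases h : g.1 (e8 i) = e8 (π i)
    · rw [if_pos h, one_smul, h]
    · rw [if_neg h]
      rcases hπ i with h1 | h1
      · exact absurd h1 h
      · rw [h1, neg_smul, one_smul]

/-- Coordinates of the image in terms of the monomial data. -/
theorem monomial_apply (g : Co0) (π : Equiv.Perm GolayPt) (s : GolayPt → ℤ)
    (h : ∀ i, g.1 (e8 i) = s i • e8 (π i)) (v : leechLattice) (j : GolayPt) :
    (g.1 v).1 j = s (π.symm j) * v.1 (π.symm j) := by
  have h1 := congrArg (fun w : leechLattice => w.1 j) (eight_smul_map g v)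
  simp only [coe_sum_apply] at h1
  have h2 : ∀ i, (v.1 i • g.1 (e8 i) : leechLattice).1 j = v.1 i * (s i * (e8 (π i)).1 j) := by
    intro i
    rw [h i]
    rfl
  simp only [h2, e8_apply] at h1
  rw [Finset.sum_eq_single (π.symm j)] at h1
  · have h3 : ((8 : ℤ) • g.1 v : leechLattice).1 j = 8 * (g.1 v).1 j := rfl
    rw [h3] at h1
    simp only [Equiv.apply_symm_apply, if_true] at h1
    linarith
  · intro i _ hi
    have : j ≠ π i := by
      intro e
      apply hi
      rw [e, Equiv.symm_apply_apply]
    rw [if_neg this]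
    ring
  · simp

/-- The points are fixed. -/
theorem monomial_none (g : Co0) (hg : g.1 (e8 none) = e8 none) (π : Equiv.Perm GolayPt) (s : GolayPt → ℤ)
    (hs : ∀ i, s i = 1 ∨ s i = -1) (h : ∀ i, g.1 (e8 i) = s i • e8 (π i)) : π none = none ∧ s none = 1 := by
  have h1 := h none
  rw [hg] at h1
  have h2 : (e8 none : leechLattice).1 none = (s none • e8 (π none) : leechLattice).1 none :=
    congrArg (fun w : leechLattice => w.1 none) h1
  have h3 : (s none • e8 (π none) : leechLattice).1 none = s none * (e8 (π none)).1 none := rfl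
  rw [h3] at h2
  simp only [e8_apply, if_true] at h2
  have hp : none = π none := by
    by_contra hne
    rw [if_neg hne] at h2
    norm_num at h2
  rw [if_pos hp] at h2
  refine ⟨hp.symm, ?_⟩
  rcases hs none with h4 | h4
  · exact h4
  · rw [h4] at h2
    norm_num at h2

theorem hiZ_two : hiZ 2 = 1 := by decide
theorem hiZ_neg_two : hiZ (-2) = 1 := by decide
theorem hiZ_zero : hiZ 0 = 0 := by decide

/-- The lift of a code word as a lattice vector. -/
def liftV (w : GolayPt → ZMod 2) (hw : w ∈ golayCode) : leechLattice :=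
  ⟨lift2 w, by
    rw [mem_leechLattice_iff, mem_leechSet_iff]
    refine ⟨0, fun i => ?_, ?_, ?_⟩
    · show lift2 w i % 2 = 0 % 2
      unfold lift2
      split_ifs <;> rfl
    · show (∑ i, lift2 w i) % 8 = (4 * 0) % 8
      rw [sum_lift2 hw]
      rfl
    · have : hi (lift2 w) = w := by
        funext i
        show hiZ (lift2 w i) = w i
        unfold lift2
        by_cases h : w i ≠ 0
        · rw [if_pos h, hiZ_two]
          rcases zmod2_cases (w i) with h2 | h2
          · exact absurd h2 h
          · exact h2.symm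
        · rw [if_neg h, hiZ_zero]
          push Not at h
          exact h.symm
      rw [this]
      exact hw⟩

/-- The permutation belongs to the code group. -/
theorem perm_mem_M24 (g : Co0) (π : Equiv.Perm GolayPt) (s : GolayPt → ℤ)
    (hs : ∀ i, s i = 1 ∨ s i = -1) (h : ∀ i, g.1 (e8 i) = s i • e8 (π i)) : π.symm ∈ M24 := by
  classical
  have key : π ∈ M24 := by
    rw [mem_M24_iff_subset]
    rintro _ ⟨w, hw, rfl⟩
    set v := g.1 (liftV w hw) with hv
    have hmem := v.2
    rw [mem_leechLattice_iff, mem_leechSet_iff] at hmem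
    obtain ⟨m, _, _, hc⟩ := hmem
    refine ⟨hi v.1, hc, ?_⟩
    ext j
    rw [mem_support₂, Finset.mem_smul_finset]
    have h1 : v.1 j = s (π.symm j) * lift2 w (π.symm j) := by
      rw [hv, monomial_apply g π s h]
      rfl
    have h2 : hi v.1 j = hiZ (v.1 j) := rfl
    rw [h2, h1]
    constructor
    · intro h3
      refine ⟨π.symm j, ?_, by simp [Equiv.Perm.smul_def]⟩
      rw [mem_support₂]
      by_contra h4
      unfold lift2 at h3
      rw [if_neg (not_not.mpr h4), mul_zero] at h3
      exact h3 hiZ_zero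
    · rintro ⟨i, hi1, rfl⟩
      rw [mem_support₂] at hi1
      have e2 : π.symm (π • i) = i := by simp [Equiv.Perm.smul_def]
      rw [e2]
      unfold lift2
      rw [if_pos hi1]
      rcases hs i with h5 | h5 <;> rw [h5] <;> decide
  exact M24.inv_mem key

/-- The odd vector with all coordinates `1` modulo `4`. -/
def oddV : leechLattice := ⟨oddRep {pt 23} ∅, mem_of_test (by decide +kernel)⟩

theorem oddV_apply (i : GolayPt) : oddV.1 i % 4 = 1 := by
  revert i
  decide +kernel

/-- The sign pattern is a code word. -/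
theorem sign_word (g : Co0) (π : Equiv.Perm GolayPt) (s : GolayPt → ℤ)
    (hs : ∀ i, s i = 1 ∨ s i = -1) (h : ∀ i, g.1 (e8 i) = s i • e8 (π i)) :
    ∃ w ∈ golayCode, ∀ j, (w j ≠ 0 ↔ s (π.symm j) = -1) := by
  set v := g.1 oddV with hv
  have hmem := v.2
  rw [mem_leechLattice_iff, mem_leechSet_iff] at hmem
  obtain ⟨m, _, _, hc⟩ := hmem
  refine ⟨hi v.1, hc, fun j => ?_⟩
  have h1 : v.1 j = s (π.symm j) * oddV.1 (π.symm j) := by
    rw [hv, monomial_apply g π s h]
  have h2 : hi v.1 j = hiZ (v.1 j) := rfl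
  have h3 := oddV_apply (π.symm j)
  rw [h2, h1]
  unfold hiZ
  rcases hs (π.symm j) with h4 | h4
  · rw [h4, one_mul, if_neg (by omega)]
    simp
  · rw [h4, if_pos (by omega)]
    simp

theorem supp_mem {w : GolayPt → ZMod 2} (hw : w ∈ golayCode) :
    support₂ w ∈ supports (golayCode : Set (GolayPt → ZMod 2)) := ⟨w, hw, rfl⟩

/-- The monomial map attached to a permutation and a word. -/
def monoEl (σ : Equiv.Perm GolayPt) (hσ : σ ∈ M24) (w : GolayPt → ZMod 2) (hw : w ∈ golayCode) : Co0 :=
  sgn (support₂ w) (supp_mem hw) * prm σ hσ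

theorem monoEl_apply (σ : Equiv.Perm GolayPt) (hσ : σ ∈ M24) (w : GolayPt → ZMod 2) (hw : w ∈ golayCode)
    (v : leechLattice) (j : GolayPt) :
    ((monoEl σ hσ w hw).1 v).1 j = if w j ≠ 0 then -v.1 (σ j) else v.1 (σ j) := by
  show (((sgn (support₂ w) (supp_mem hw)).1 ((prm σ hσ).1 v)).1 j) = _
  rw [sgn_apply, prm_apply]
  simp only [mem_support₂]

/-- The stabiliser is exactly the set of monomial elements. -/
theorem stab_eq_mono (g : Co0) (hg : g.1 (e8 none) = e8 none) :
    ∃ (σ : Equiv.Perm GolayPt) (hσ : σ ∈ M24) (w : GolayPt → ZMod 2) (hw : w ∈ golayCode),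
      σ none = none ∧ w none = 0 ∧ g = monoEl σ hσ w hw := by
  obtain ⟨π, s, hs, h⟩ := exists_monomial g hg
  obtain ⟨h0, h1⟩ := monomial_none g hg π s hs h
  obtain ⟨w, hw, hwj⟩ := sign_word g π s hs h
  have hσ := perm_mem_M24 g π s hs h
  have hsn : π.symm none = none := by
    rw [Equiv.symm_apply_eq, h0]
  refine ⟨π.symm, hσ, w, hw, hsn, ?_, ?_⟩
  · by_contra hne
    have := (hwj none).1 hne
    rw [hsn, h1] at this
    norm_num at this
  · apply Subtype.ext
    ext v j
    show (g.1 v).1 j = ((monoEl π.symm hσ w hw).1 v).1 j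
    rw [monoEl_apply, monomial_apply g π s h]
    by_cases hwn : w j ≠ 0
    · rw [if_pos hwn, (hwj j).1 hwn]
      ring
    · rw [if_neg hwn]
      have : s (π.symm j) = 1 := by
        rcases hs (π.symm j) with h2 | h2
        · exact h2
        · exact absurd ((hwj j).2 h2) hwn
      rw [this, one_mul]

theorem mono_stab (σ : Equiv.Perm GolayPt) (hσ : σ ∈ M24) (w : GolayPt → ZMod 2) (hw : w ∈ golayCode)
    (h1 : σ none = none) (h2 : w none = 0) : (monoEl σ hσ w hw).1 (e8 none) = e8 none := by
  apply Subtype.ext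
  funext j
  rw [monoEl_apply]
  simp only [e8_apply]
  have h3 : σ j = none ↔ j = none := by
    constructor
    · intro e
      apply σ.injective
      rw [e, h1]
    · rintro rfl
      exact h1
  by_cases hj : j = none
  · subst hj
    rw [if_neg (not_not.mpr h2), if_pos h1, if_pos rfl]
  · rw [if_neg hj, if_neg (fun e => hj (h3.1 e))]
    simp

theorem mono_inj {σ σ' : Equiv.Perm GolayPt} {hσ : σ ∈ M24} {hσ' : σ' ∈ M24} {w w' : GolayPt → ZMod 2}
    {hw : w ∈ golayCode} {hw' : w' ∈ golayCode} (h : monoEl σ hσ w hw = monoEl σ' hσ' w' hw') :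
    σ = σ' ∧ w = w' := by
  have key : ∀ (v : leechLattice) (j : GolayPt),
      (if w j ≠ 0 then -v.1 (σ j) else v.1 (σ j)) = (if w' j ≠ 0 then -v.1 (σ' j) else v.1 (σ' j)) := by
    intro v j
    rw [← monoEl_apply σ hσ w hw, ← monoEl_apply σ' hσ' w' hw', h]
  have h1 : σ = σ' := by
    refine Equiv.ext fun j => ?_
    by_contra hne
    have := key (e8 (σ j)) j
    simp only [e8_apply, if_true] at this
    have hne' : σ' j ≠ σ j := fun e => hne e.symm
    rw [if_neg hne'] at this
    split_ifs at this <;> norm_num at this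
  subst h1
  refine ⟨rfl, ?_⟩
  funext j
  have := key (e8 (σ j)) j
  simp only [e8_apply, if_true] at this
  rcases zmod2_cases (w j) with h2 | h2 <;> rcases zmod2_cases (w' j) with h3 | h3
  · rw [h2, h3]
  · rw [h2, h3] at this
    norm_num at this
  · rw [h2, h3] at this
    norm_num at this
  · rw [h2, h3]

/-- Words avoiding the point at infinity. -/
noncomputable def codeN : Finset (GolayPt → ZMod 2) := LeechC.codeF.filter (fun w => w none = 0)

theorem card_codeF : LeechC.codeF.card = 4096 := by
  unfold LeechC.codeF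
  rw [Finset.card_image_of_injective _ LeechC.wd_cwF_inj]
  exact Finset.card_fin 4096

theorem card_half (F : Finset (GolayPt → ZMod 2)) (hF : ∀ w ∈ F, w + 1 ∈ F) :
    2 * (F.filter (fun w : GolayPt → ZMod 2 => w none = 0)).card = F.card := by
  have h1 := Finset.card_filter_add_card_filter_not (s := F) (fun w : GolayPt → ZMod 2 => w none = 0)
  have h2 : (F.filter (fun w : GolayPt → ZMod 2 => ¬ w none = 0)).card =
      (F.filter (fun w : GolayPt → ZMod 2 => w none = 0)).card := by
    apply Finset.card_bij (fun w _ => w + 1)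
    · intro w hw
      rw [Finset.mem_filter] at hw
      rw [Finset.mem_filter]
      refine ⟨hF w hw.1, ?_⟩
      have h3 : ∀ a : ZMod 2, ¬ a = 0 → a + 1 = 0 := by decide
      exact h3 _ hw.2
    · intro a _ b _ hab
      exact add_right_cancel hab
    · intro w hw
      rw [Finset.mem_filter] at hw
      refine ⟨w + 1, ?_, ?_⟩
      · rw [Finset.mem_filter]
        refine ⟨hF w hw.1, ?_⟩
        have h3 : ∀ a : ZMod 2, a = 0 → ¬ a + 1 = 0 := by decide
        exact h3 _ hw.2
      · funext j
        have h3 : ∀ a : ZMod 2, a + 1 + 1 = a := by decide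
        exact h3 _
  omega

theorem card_codeN : codeN.card = 2048 := by
  have h := card_half LeechC.codeF (fun w hw =>
    LeechC.mem_codeF.mpr (golayCode.add_mem (LeechC.mem_codeF.mp hw) H26.GolayMod.allOnes_mem))
  rw [card_codeF] at h
  unfold codeN
  omega

/-- The stabiliser of a frame vector. -/
theorem card_stab : Nat.card (MulAction.stabilizer Co0 (e8 none)) = 20891566080 := by
  classical
  have hA := Gol.card_point_stab none
  have hB : Nat.card (↥codeN) = 2048 := by
    rw [Nat.card_eq_fintype_card, Fintype.card_coe, card_codeN]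
  have hmemN : ∀ w : ↥codeN, w.1 ∈ golayCode ∧ w.1 none = 0 := by
    intro w
    have := w.2
    unfold codeN at this
    rw [Finset.mem_filter] at this
    exact ⟨LeechC.mem_codeF.mp this.1, this.2⟩
  let Φ : (MulAction.stabilizer M24 (none : GolayPt)) × ↥codeN → MulAction.stabilizer Co0 (e8 none) :=
    fun p => ⟨monoEl p.1.1.1 p.1.1.2 p.2.1 (hmemN p.2).1, mono_stab _ _ _ _ p.1.2 (hmemN p.2).2⟩
  have hΦ : Function.Bijective Φ := by
    constructor
    · rintro ⟨⟨σ, hσ⟩, ⟨w, hw⟩⟩ ⟨⟨σ', hσ'⟩, ⟨w', hw'⟩⟩ h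
      have h1 : monoEl σ.1 σ.2 w (hmemN ⟨w, hw⟩).1 = monoEl σ'.1 σ'.2 w' (hmemN ⟨w', hw'⟩).1 :=
        congrArg Subtype.val h
      obtain ⟨h2, h3⟩ := mono_inj h1
      have h4 : σ = σ' := Subtype.ext h2
      subst h4
      subst h3
      rfl
    · rintro ⟨g, hg⟩
      obtain ⟨σ, hσ, w, hw, h1, h2, h3⟩ := stab_eq_mono g hg
      refine ⟨(⟨⟨σ, hσ⟩, h1⟩, ⟨w, ?_⟩), ?_⟩
      · unfold codeN
        rw [Finset.mem_filter]
        exact ⟨LeechC.mem_codeF.mpr hw, h2⟩
      · apply Subtype.ext
        exact h3.symm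
  have h := Nat.card_congr (Equiv.ofBijective Φ hΦ)
  rw [Nat.card_prod, hA, hB] at h
  omega

/-- The orbit of a frame vector. -/
theorem orbit_e8 : MulAction.orbit Co0 (e8 none) = {v : leechLattice | sqNorm v.1 = 64} := by
  ext v
  constructor
  · rintro ⟨g, rfl⟩
    show sqNorm (g.1 (e8 none)).1 = 64
    rw [g.2.2, sqNorm_e8]
  · intro hv
    have h1 : RR v.1 (e8 none).1 := by
      have h2 := CoF.main64 (x := v.1) v.2 (by exact_mod_cast hv)
      have h3 : CoF.rE5 = (e8 none).1 := by
        decide +kernel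
      rwa [h3] at h2
    obtain ⟨g, hg⟩ := exists_of_RR h1.symm
    exact ⟨g, hg⟩

theorem card_orbit : (MulAction.orbit Co0 (e8 none)).ncard = 398034000 := by
  rw [orbit_e8, ← LeechC.count64, ← Set.ncard_image_of_injective _ Subtype.val_injective]
  congr 1
  ext x
  constructor
  · rintro ⟨v, hv, rfl⟩
    exact ⟨v.2, hv⟩
  · rintro ⟨h1, h2⟩
    exact ⟨⟨x, h1⟩, h2, rfl⟩

/-- The order of the group. -/
theorem card_Co0 : Nat.card Co0 = 8315553613086720000 := by
  have h := Subgroup.card_mul_index (MulAction.stabilizer Co0 (e8 none))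
  rw [MulAction.index_stabilizer, card_stab, card_orbit] at h
  rw [← h]

end Cfsg.Agent.H02.CoH
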