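import Cfsg.Agent.Lib.H02.CoH
import Cfsg.Prelude.Def_SporadicCombinatorics

/-!
Crosses of the lattice: the cross through a vector of sum of squares `64` has 48 members; the stabiliser of
the standard cross is the monomial group of the code.
-/

set_option autoImplicit false
set_option maxRecDepth 100000

namespace Cfsg.Agent.H02.CoI

open Cfsg Cfsg.Agent.H27.Golay Cfsg.Agent.H26.Leech Cfsg.Agent.H02.CoA Cfsg.Agent.H02.CoB Cfsg.Agent.H02.CoC
open Cfsg.Agent.H02.CoG Cfsg.Agent.H02.CoH
open scoped Pointwise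

/-- A vector congruent modulo twice the lattice to a frame vector. -/
theorem congr_frame (y a0 : leechLattice) (hy : sqNorm y.1 = 64) (h : (2 : ℤ) • a0 = y - e8 none) (j : GolayPt) :
    y.1 j = 0 ∨ y = e8 j ∨ y = -e8 j := by
  set a : leechLattice := a0 + f4 none j (-1) (Or.inr rfl) with ha
  have ha2 : (2 : ℤ) • a = y - e8 j := by
    rw [ha, smul_add, two_f4, h]
    abel
  set b : leechLattice := a0 + f4 none j 1 (Or.inl rfl) with hb
  have hb2 : (2 : ℤ) • b = y + e8 j := by
    rw [hb, smul_add, two_f4', h]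
    abel
  have hna : 4 * sqNorm a.1 = 128 - 16 * y.1 j := by
    rw [← sqNorm_two, ha2]
    have := sqNorm_add_e8 y j hy (-1) (Or.inr rfl)
    have e : ((y - e8 j : leechLattice) : GolayPt → ℤ) = fun k => y.1 k + -1 * (e8 j).1 k := by
      funext k
      show y.1 k - (e8 j).1 k = _
      ring
    rw [e, this]
    ring
  have hnb : 4 * sqNorm b.1 = 128 + 16 * y.1 j := by
    rw [← sqNorm_two, hb2]
    have := sqNorm_add_e8 y j hy 1 (Or.inl rfl)
    have e : ((y + e8 j : leechLattice) : GolayPt → ℤ) = fun k => y.1 k + 1 * (e8 j).1 k := by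
      funext k
      show y.1 k + (e8 j).1 k = _
      ring
    rw [e, this]
    ring
  by_cases ha0 : a.1 = 0
  · right
    left
    have : a = 0 := Subtype.ext ha0
    rw [this, smul_zero] at ha2
    exact (sub_eq_zero.mp ha2.symm)
  by_cases hb0 : b.1 = 0
  · right
    right
    have : b = 0 := Subtype.ext hb0
    rw [this, smul_zero] at hb2
    exact eq_neg_of_add_eq_zero_left hb2.symm
  left
  have h1 := min_norm a.2 ha0
  have h2 := min_norm b.2 hb0
  omega

theorem sqNorm_ne_zero_exists {y : GolayPt → ℤ} (hy : sqNorm y = 64) : ∃ j, y j ≠ 0 := by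
  by_contra h
  push Not at h
  unfold sqNorm at hy
  simp [h] at hy

/-- The frame vectors as the standard cross. -/
theorem mem_stdCross_iff (y : GolayPt → ℤ) :
    y ∈ stdCross ↔ ∃ j, y = (e8 j).1 ∨ y = -(e8 j).1 := by
  have h1 : ∀ j : GolayPt, Pi.single j (8 : ℤ) = (e8 j).1 := by
    intro j
    funext k
    rw [e8_apply, Pi.single_apply]
  have h2 : ∀ j : GolayPt, Pi.single j (-8 : ℤ) = -(e8 j).1 := by
    intro j
    funext k
    rw [Pi.neg_apply, e8_apply, Pi.single_apply]
    split_ifs <;> norm_num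
  constructor
  · rintro ⟨i, s, hs | hs, rfl⟩
    · subst hs
      exact ⟨i, Or.inl (h1 i)⟩
    · subst hs
      exact ⟨i, Or.inr (h2 i)⟩
  · rintro ⟨j, h | h⟩
    · exact ⟨j, 8, Or.inl rfl, h.trans (h1 j).symm⟩
    · exact ⟨j, -8, Or.inr rfl, h.trans (h2 j).symm⟩

/-- The cross through a frame vector is the standard cross. -/
theorem cross_e8 : cross (e8 none).1 = stdCross := by
  ext y
  rw [mem_stdCross_iff]
  constructor
  · rintro ⟨hy, hn, z, hz, h⟩
    rw [sqNorm_e8] at hn
    have hn' : sqNorm y = 64 := by exact_mod_cast hn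
    obtain ⟨j, hj⟩ := sqNorm_ne_zero_exists hn'
    have h2 : (2 : ℤ) • (-(⟨z, hz⟩ : leechLattice)) = (⟨y, hy⟩ : leechLattice) - e8 none := by
      apply Subtype.ext
      funext k
      have := congrFun h k
      simp only [Pi.sub_apply, Pi.smul_apply] at this
      show 2 * (-z k) = y k - (e8 none).1 k
      have h3 : (2 : ℕ) • z k = 2 * z k := by simp
      rw [h3] at this
      linarith
    rcases congr_frame ⟨y, hy⟩ _ hn' h2 j with h3 | h3 | h3
    · exact absurd h3 hj
    · exact ⟨j, Or.inl (congrArg Subtype.val h3)⟩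
    · exact ⟨j, Or.inr (congrArg Subtype.val h3)⟩
  · rintro ⟨j, rfl | rfl⟩
    · refine ⟨(e8 j).2, ?_, (f4 none j (-1) (Or.inr rfl)).1, (f4 none j (-1) (Or.inr rfl)).2, ?_⟩
      · rw [sqNorm_e8, sqNorm_e8]
      · have := two_f4 none j
        funext k
        have h3 : ((2 : ℤ) • f4 none j (-1) (Or.inr rfl) : leechLattice).1 k = (e8 none - e8 j : leechLattice).1 k :=
          congrArg (fun w : leechLattice => w.1 k) this
        show (e8 none).1 k - (e8 j).1 k = (2 : ℕ) • (f4 none j (-1) (Or.inr rfl)).1 k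
        have h4 : ((2 : ℤ) • f4 none j (-1) (Or.inr rfl) : leechLattice).1 k = 2 * (f4 none j (-1) (Or.inr rfl)).1 k := rfl
        have h5 : (e8 none - e8 j : leechLattice).1 k = (e8 none).1 k - (e8 j).1 k := rfl
        rw [h4, h5] at h3
        simp only [nsmul_eq_mul]
        push_cast
        linarith
    · refine ⟨(-e8 j).2, ?_, (f4 none j 1 (Or.inl rfl)).1, (f4 none j 1 (Or.inl rfl)).2, ?_⟩
      · rw [sqNorm_e8]
        have : sqNorm (-(e8 j).1) = sqNorm (e8 j).1 := by
          unfold sqNorm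
          apply Finset.sum_congr rfl
          intro i _
          simp
        rw [this, sqNorm_e8]
      · have := two_f4' none j
        funext k
        have h3 : ((2 : ℤ) • f4 none j 1 (Or.inl rfl) : leechLattice).1 k = (e8 none + e8 j : leechLattice).1 k :=
          congrArg (fun w : leechLattice => w.1 k) this
        show (e8 none).1 k - (-(e8 j).1) k = (2 : ℕ) • (f4 none j 1 (Or.inl rfl)).1 k
        have h4 : ((2 : ℤ) • f4 none j 1 (Or.inl rfl) : leechLattice).1 k = 2 * (f4 none j 1 (Or.inl rfl)).1 k := rfl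
        have h5 : (e8 none + e8 j : leechLattice).1 k = (e8 none).1 k + (e8 j).1 k := rfl
        rw [h4, h5] at h3
        simp only [nsmul_eq_mul, Pi.neg_apply]
        push_cast
        linarith

/-- The standard cross has 48 members. -/
theorem ncard_stdCross : stdCross.ncard = 48 := by
  classical
  have h : stdCross = (fun p : GolayPt × Bool => if p.2 then (e8 p.1).1 else -(e8 p.1).1) '' Set.univ := by
    ext y
    rw [mem_stdCross_iff]
    constructor
    · rintro ⟨j, h | h⟩
      · exact ⟨(j, true), Set.mem_univ _, by simpa using h.symm⟩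
      · exact ⟨(j, false), Set.mem_univ _, by simpa using h.symm⟩
    · rintro ⟨⟨j, b⟩, -, rfl⟩
      cases b
      · exact ⟨j, Or.inr (by simp)⟩
      · exact ⟨j, Or.inl (by simp)⟩
  rw [h, Set.ncard_image_of_injective]
  · rw [Set.ncard_univ, Nat.card_prod, Gol.card_pts, Nat.card_eq_fintype_card, Fintype.card_bool]
  · rintro ⟨a, s⟩ ⟨b, t⟩ hab
    have h1 : ∀ (s : Bool) (a k : GolayPt), (if s then (e8 a).1 else -(e8 a).1) k = if s then (e8 a).1 k else -(e8 a).1 k := by
      intro s a k
      cases s <;> simp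
    have hk : ∀ k, (if s then (e8 a).1 k else -(e8 a).1 k) = (if t then (e8 b).1 k else -(e8 b).1 k) := by
      intro k
      have := congrFun hab k
      simp only [h1] at this
      exact this
    have h2 := hk a
    simp only [e8_apply, if_true] at h2
    have hab' : a = b := by
      by_contra hne
      rw [if_neg hne] at h2
      split_ifs at h2 <;> norm_num at h2
    subst hab'
    simp only [if_true] at h2
    cases s <;> cases t <;> first | rfl | (norm_num at h2)

/-- Automorphisms carry crosses to crosses. -/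
theorem cross_smul (g : Co0) (x : leechLattice) :
    cross (g.1 x).1 = (fun y : leechLattice => (g.1 y).1) '' {y : leechLattice | y.1 ∈ cross x.1} := by
  have key : ∀ (g : Co0) (x : leechLattice) (y : leechLattice), y.1 ∈ cross x.1 → (g.1 y).1 ∈ cross (g.1 x).1 := by
    rintro g x y ⟨-, h1, z, hz, h2⟩
    refine ⟨(g.1 y).2, ?_, (g.1 ⟨z, hz⟩).1, (g.1 ⟨z, hz⟩).2, ?_⟩
    · rw [g.2.2, g.2.2]
      exact h1
    · have h3 : x - y = (2 : ℤ) • (⟨z, hz⟩ : leechLattice) := by
        apply Subtype.ext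
        funext k
        have := congrFun h2 k
        show x.1 k - y.1 k = 2 * z k
        simp only [Pi.sub_apply, Pi.smul_apply, nsmul_eq_mul] at this
        rw [this]
        push_cast
        ring
      have h4 := congrArg g.1 h3
      rw [g_smul, g_sub] at h4
      funext k
      have h5 := congrArg (fun w : leechLattice => w.1 k) h4
      show (g.1 x).1 k - (g.1 y).1 k = (2 : ℕ) • (g.1 ⟨z, hz⟩).1 k
      have h6 : (g.1 x - g.1 y : leechLattice).1 k = (g.1 x).1 k - (g.1 y).1 k := rfl
      have h7 : ((2 : ℤ) • g.1 ⟨z, hz⟩ : leechLattice).1 k = 2 * (g.1 ⟨z, hz⟩).1 k := rfl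
      simp only [h6, h7] at h5
      rw [h5]
      simp
  ext w
  constructor
  · intro hw
    have hw2 : w ∈ leechLattice := hw.1
    refine ⟨(g⁻¹).1 ⟨w, hw2⟩, ?_, ?_⟩
    · have h1 := key g⁻¹ (g.1 x) ⟨w, hw2⟩ hw
      have h2 : (g⁻¹).1 (g.1 x) = x := by
        show (g.1)⁻¹ (g.1 x) = _
        simp
      show ((g⁻¹).1 ⟨w, hw2⟩).1 ∈ cross x.1
      rwa [h2] at h1
    · show (g.1 ((g⁻¹).1 ⟨w, hw2⟩)).1 = w
      have h2 : g.1 ((g⁻¹).1 ⟨w, hw2⟩) = ⟨w, hw2⟩ := by
        show g.1 ((g.1)⁻¹ _) = _
        simp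
      rw [h2]
  · rintro ⟨y, hy, rfl⟩
    exact key g x y hy

/-- The cross through a vector of sum of squares `64` has 48 members. -/
theorem ncard_cross (x : GolayPt → ℤ) (hx : x ∈ leechLattice) (hxn : sqNorm x = 64) : (cross x).ncard = 48 := by
  have h1 := CoF.main64 hx (by exact_mod_cast hxn)
  have h3 : CoF.rE5 = (e8 none).1 := by decide +kernel
  rw [h3] at h1
  obtain ⟨g, hg⟩ := exists_of_RR (v := ⟨x, hx⟩) (w := e8 none) h1.symm.symm
  -- `g` sends `x` to `e8 none`
  have hg' : g.1 ⟨x, hx⟩ = e8 none := hg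
  have h4 := cross_smul g ⟨x, hx⟩
  rw [hg', cross_e8] at h4
  have hinj : Function.Injective (fun y : leechLattice => (g.1 y).1) := by
    intro a b hab
    exact g.1.injective (Subtype.ext hab)
  have h5 : stdCross.ncard = {y : leechLattice | y.1 ∈ cross x}.ncard := by
    rw [h4, Set.ncard_image_of_injective _ hinj]
  have h6 : (cross x).ncard = {y : leechLattice | y.1 ∈ cross x}.ncard := by
    have : cross x = Subtype.val '' {y : leechLattice | y.1 ∈ cross x} := by
      ext w
      constructor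
      · intro hw
        exact ⟨⟨w, hw.1⟩, hw, rfl⟩
      · rintro ⟨y, hy, rfl⟩
        exact hy
    conv_lhs => rw [this]
    exact Set.ncard_image_of_injective _ Subtype.val_injective
  rw [h6, ← h5, ncard_stdCross]

/-! ### The stabiliser of the standard cross -/

theorem e8_mem_stdCross (j : GolayPt) : (e8 j).1 ∈ stdCross :=
  (mem_stdCross_iff _).2 ⟨j, Or.inl rfl⟩

theorem neg_e8_mem_stdCross (j : GolayPt) : (-(e8 j).1) ∈ stdCross :=
  (mem_stdCross_iff _).2 ⟨j, Or.inr rfl⟩

/-- Stabilising the standard cross. -/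
def StabCross (g : Co0) : Prop :=
  ∀ v : leechLattice, (v : GolayPt → ℤ) ∈ stdCross → ((g • v : leechLattice) : GolayPt → ℤ) ∈ stdCross

/-- The monomial shape of an element of the stabiliser of the cross. -/
theorem exists_monomial_cross (g : Co0) (hg : StabCross g) :
    ∃ (π : Equiv.Perm GolayPt) (s : GolayPt → ℤ), (∀ i, s i = 1 ∨ s i = -1) ∧
      ∀ i, g.1 (e8 i) = s i • e8 (π i) := by
  classical
  have hex : ∀ i, ∃ j, g.1 (e8 i) = e8 j ∨ g.1 (e8 i) = -e8 j := by
    intro i
    obtain ⟨j, h⟩ := (mem_stdCross_iff _).1 (hg (e8 i) (e8_mem_stdCross i))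
    refine ⟨j, ?_⟩
    rcases h with h | h
    · exact Or.inl (Subtype.ext h)
    · exact Or.inr (Subtype.ext h)
  choose π hπ using hex
  have hinj : Function.Injective π := by
    intro a b hab
    apply e8_inj_cases
    have hginj : Function.Injective g.1 := g.1.injective
    rcases hπ a with h1 | h1 <;> rcases hπ b with h2 | h2
    · left
      apply hginj
      rw [h1, h2, hab]
    · right
      apply hginj
      rw [g_neg, h1, h2, hab, neg_neg]
    · right
      apply hginj
      rw [g_neg, h1, h2, hab]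
    · left
      apply hginj
      rw [h1, h2, hab]
  have hbij : Function.Bijective π := Finite.injective_iff_bijective.mp hinj
  refine ⟨Equiv.ofBijective π hbij, fun i => if g.1 (e8 i) = e8 (π i) then 1 else -1, ?_, ?_⟩
  · intro i
    by_cases h : g.1 (e8 i) = e8 (π i)
    · left; beta_reduce; rw [if_pos h]
    · right; beta_reduce; rw [if_neg h]
  · intro i
    show g.1 (e8 i) = _ • e8 (π i)
    beta_reduce
    by_cases h : g.1 (e8 i) = e8 (π i)
    · rw [if_pos h, one_smul, h]
    · rw [if_neg h]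
      rcases hπ i with h1 | h1
      · exact absurd h1 h
      · rw [h1, neg_smul, one_smul]

/-- The elements of the stabiliser of the cross are the monomial elements. -/
theorem stabCross_eq_mono (g : Co0) (hg : StabCross g) :
    ∃ (σ : Equiv.Perm GolayPt) (hσ : σ ∈ M24) (w : GolayPt → ZMod 2) (hw : w ∈ golayCode),
      g = monoEl σ hσ w hw := by
  obtain ⟨π, s, hs, h⟩ := exists_monomial_cross g hg
  obtain ⟨w, hw, hwj⟩ := sign_word g π s hs h
  have hσ := perm_mem_M24 g π s hs h
  refine ⟨π.symm, hσ, w, hw, ?_⟩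
  apply Subtype.ext
  ext v j
  show (g.1 v).1 j = ((monoEl π.symm hσ w hw).1 v).1 j
  rw [monoEl_apply, monomial_apply g π s h]
  by_cases hwn : w j ≠ 0
  · rw [if_pos hwn, (hwj j).1 hwn]
    ring
  · rw [if_neg hwn]
    have : s (π.symm j) = 1 := by
      rcases hs (π.symm j) with h2 | h2
      · exact h2
      · exact absurd ((hwj j).2 h2) hwn
    rw [this, one_mul]

theorem mono_e8 (σ : Equiv.Perm GolayPt) (hσ : σ ∈ M24) (w : GolayPt → ZMod 2) (hw : w ∈ golayCode)
    (j : GolayPt) : ((monoEl σ hσ w hw).1 (e8 j)).1 = if w (σ.symm j) ≠ 0 then -(e8 (σ.symm j)).1 else (e8 (σ.symm j)).1 := by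
  funext k
  rw [monoEl_apply]
  simp only [e8_apply]
  have h3 : σ k = j ↔ k = σ.symm j := by
    constructor
    · rintro rfl
      simp
    · rintro rfl
      simp
  by_cases hk : k = σ.symm j
  · subst hk
    have e1 : σ (σ.symm j) = j := by simp
    by_cases hw2 : w (σ.symm j) ≠ 0
    · rw [if_pos hw2, if_pos hw2, if_pos e1]
      show _ = -(if σ.symm j = σ.symm j then (8 : ℤ) else 0)
      rw [if_pos rfl]
    · rw [if_neg hw2, if_neg hw2, if_pos e1]
      show _ = (if σ.symm j = σ.symm j then (8 : ℤ) else 0)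
      rw [if_pos rfl]
  · rw [if_neg (fun e => hk (h3.1 e))]
    by_cases hw2 : w (σ.symm j) ≠ 0
    · rw [if_pos hw2]
      show _ = -(if k = σ.symm j then (8 : ℤ) else 0)
      rw [if_neg hk]
      simp
    · rw [if_neg hw2]
      show _ = (if k = σ.symm j then (8 : ℤ) else 0)
      rw [if_neg hk]
      simp

theorem mono_stabCross (σ : Equiv.Perm GolayPt) (hσ : σ ∈ M24) (w : GolayPt → ZMod 2) (hw : w ∈ golayCode) :
    StabCross (monoEl σ hσ w hw) := by
  intro v hv
  obtain ⟨j, h⟩ := (mem_stdCross_iff _).1 hv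
  have hsm : ∀ u : leechLattice, ((monoEl σ hσ w hw • u : leechLattice) : GolayPt → ℤ) = ((monoEl σ hσ w hw).1 u).1 := fun _ => rfl
  rw [hsm]
  rcases h with h | h
  · have : v = e8 j := Subtype.ext h
    rw [this, mono_e8]
    split_ifs
    · exact neg_e8_mem_stdCross _
    · exact e8_mem_stdCross _
  · have : v = -e8 j := Subtype.ext h
    rw [this, g_neg]
    have h2 : ((-(monoEl σ hσ w hw).1 (e8 j) : leechLattice) : GolayPt → ℤ) = -((monoEl σ hσ w hw).1 (e8 j)).1 := rfl
    rw [h2, mono_e8]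
    split_ifs
    · rw [neg_neg]
      exact e8_mem_stdCross _
    · exact neg_e8_mem_stdCross _

/-- The order of the stabiliser of the cross. -/
theorem card_stabCross : Nat.card {g : Co0 // StabCross g} = 4096 * 244823040 := by
  classical
  have hA : Nat.card M24 = 244823040 := card_M24
  have hB : Nat.card (↥LeechC.codeF) = 4096 := by
    rw [Nat.card_eq_fintype_card, Fintype.card_coe, card_codeF]
  have hmem : ∀ w : ↥LeechC.codeF, w.1 ∈ golayCode := fun w => LeechC.mem_codeF.mp w.2
  let Φ : M24 × ↥LeechC.codeF → {g : Co0 // StabCross g} :=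
    fun p => ⟨monoEl p.1.1 p.1.2 p.2.1 (hmem p.2), mono_stabCross _ _ _ _⟩
  have hΦ : Function.Bijective Φ := by
    constructor
    · rintro ⟨⟨σ, hσ⟩, ⟨w, hw⟩⟩ ⟨⟨σ', hσ'⟩, ⟨w', hw'⟩⟩ h
      have h1 : monoEl σ hσ w (hmem ⟨w, hw⟩) = monoEl σ' hσ' w' (hmem ⟨w', hw'⟩) :=
        congrArg Subtype.val h
      obtain ⟨h2, h3⟩ := mono_inj h1
      subst h2
      subst h3
      rfl
    · rintro ⟨g, hg⟩
      obtain ⟨σ, hσ, w, hw, h3⟩ := stabCross_eq_mono g hg
      refine ⟨(⟨σ, hσ⟩, ⟨w, LeechC.mem_codeF.mpr hw⟩), ?_⟩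
      apply Subtype.ext
      exact h3.symm
  have h := Nat.card_congr (Equiv.ofBijective Φ hΦ)
  rw [Nat.card_prod, hA, hB] at h
  omega

/-- A signed permutation form of the monomial elements. -/
theorem exists_map_of_stabCross (g : Co0) (hg : StabCross g) :
    ∃ f ∈ golayMonomialMaps, ∀ v : leechLattice, ((g • v : leechLattice) : GolayPt → ℤ) = f (v : GolayPt → ℤ) := by
  classical
  obtain ⟨σ, hσ, w, hw, rfl⟩ := stabCross_eq_mono g hg
  refine ⟨signedPerm σ⁻¹ (support₂ w), ⟨σ⁻¹, M24.inv_mem hσ, _, supp_mem hw, rfl⟩, fun v => ?_⟩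
  funext j
  show ((monoEl σ hσ w hw).1 v).1 j = _
  rw [monoEl_apply]
  unfold signedPerm
  simp only [mem_support₂]
  rfl

end Cfsg.Agent.H02.CoI
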