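import Cfsg.Agent.Lib.H02.CoI

/-!
The lattice is generated by its minimal vectors.
-/

set_option autoImplicit false
set_option maxRecDepth 100000

namespace Cfsg.Agent.H02.CoJ

open Cfsg Cfsg.Agent.H27.Golay Cfsg.Agent.H26.Leech Cfsg.Agent.H02.CoA Cfsg.Agent.H02.CoB Cfsg.Agent.H02.CoC
open Cfsg.Agent.H02.CoG

/-- Minimal vectors. -/
def MV : Set (GolayPt → ℤ) := {x | x ∈ leechLattice ∧ sqNorm x = 32}

theorem mem_MV {x : GolayPt → ℤ} (h : testL x ∧ sqNorm x = 32) : x ∈ AddSubgroup.closure MV :=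
  AddSubgroup.subset_closure ⟨mem_of_test h.1, h.2⟩

def vO (m : ℕ) : GolayPt → ℤ := lift2 (wd m)
def vP (a b : ℕ) : GolayPt → ℤ := f4v (pt a) (pt b) 1
def vQ : GolayPt → ℤ := f4v none (pt 0) (-1)

def qT : List (ℕ × ℕ × ℕ × ℕ) := [(3416079, 3216208, 20, 21), (6832158, 6432416, 21, 22), (843820, 1584464, 13, 19), (1687640, 3168928, 14, 20), (4415544, 1070536, 3, 14), (11952160, 9440193, 20, 23), (15515712, 10491778, 21, 23), (1302533, 675712, 14, 17), (2605066, 1351424, 15, 18), (5210132, 2702848, 16, 19), (11100169, 14949408, 21, 23), (9347075, 9721936, 18, 23), (1302533, 2494627, 0, 17), (1302533, 7864649, 0, 20), (1302533, 4465308, 2, 13), (9347075, 10560816, 13, 23), (10305542, 12733024, 14, 23), (12222476, 8688833, 15, 23), (3416079, 4721045, 0, 2), (6053905, 2372388, 13, 18), (3416079, 4490852, 2, 18), (12656663, 10513600, 13, 23), (8536111, 12638592, 14, 23)]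

theorem qT_ok : ∀ t : ZMod 23, ∀ e, e = qT.getD t.val (0, 0, 0, 0) →
    (testL (vO e.1) ∧ sqNorm (vO e.1) = 32) ∧ (testL (vO e.2.1) ∧ sqNorm (vO e.2.1) = 32) ∧
      (testL (vP e.2.2.1 e.2.2.2) ∧ sqNorm (vP e.2.2.1 e.2.2.2) = 32) ∧
      lift2 (qrWord t) = vO e.1 + vO e.2.1 - vP e.2.2.1 e.2.2.2 := by
  intro t e he
  subst he
  revert t
  decide +kernel

theorem e4_ok : ∀ j : ZMod 23, testL (e4 j) ∧ sqNorm (e4 j) = 32 := by decide +kernel

def vY : GolayPt → ℤ := fun i => if i = none then 3 else -1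

theorem vY_ok : testL vY ∧ sqNorm vY = 32 := by decide +kernel

theorem vV_eq : Spor.vecV = vY - (e4 0 + vQ) := by decide +kernel

theorem vQ_ok : testL vQ ∧ sqNorm vQ = 32 := by decide +kernel

theorem e8v_eq : e8v = e4 0 + vQ := by decide +kernel

theorem tA : testL (vO 9347075) ∧ sqNorm (vO 9347075) = 32 := by decide +kernel
theorem tB : testL (vO 3227948) ∧ sqNorm (vO 3227948) = 32 := by decide +kernel
theorem tC : testL (vO 4202192) ∧ sqNorm (vO 4202192) = 32 := by decide +kernel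

theorem one_eq : lift2 1 = vO 9347075 + vO 3227948 + vO 4202192 := by decide +kernel

theorem closure_MV : AddSubgroup.closure MV = leechLattice := by
  apply le_antisymm
  · rw [AddSubgroup.closure_le]
    intro x hx
    exact hx.1
  · apply leech_le (AddSubgroup.closure MV)
    · rw [vV_eq]
      exact sub_mem (mem_MV vY_ok) (add_mem (mem_MV (e4_ok 0)) (mem_MV vQ_ok))
    · rw [e8v_eq]
      exact add_mem (mem_MV (e4_ok 0)) (mem_MV vQ_ok)
    · intro j
      exact mem_MV (e4_ok j)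
    · intro t
      obtain ⟨h1, h2, h3, h4⟩ := qT_ok t _ rfl
      rw [h4]
      exact sub_mem (add_mem (mem_MV h1) (mem_MV h2)) (mem_MV h3)
    · rw [one_eq]
      exact add_mem (add_mem (mem_MV tA) (mem_MV tB)) (mem_MV tC)

end Cfsg.Agent.H02.CoJ
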