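import Cfsg.Agent.Lib.H02.CoH

/-!
Explicit automorphisms of the lattice as words, evaluated on packed vectors.
-/

set_option autoImplicit false
set_option maxRecDepth 100000

namespace Cfsg.Agent.H02.CoK

open Cfsg Cfsg.Agent.H27.Golay Cfsg.Agent.H26.Leech Cfsg.Agent.H02.CoA Cfsg.Agent.H02.CoB Cfsg.Agent.H02.CoC

/-- A field of a packed vector. -/
def fld (P i : ℕ) : ℕ := Nat.land (Nat.shiftRight P (Nat.mul 5 i)) 31

theorem fld_eq (P i : ℕ) : fld P i = P / 32 ^ i % 32 := by
  show ((P >>> (5 * i)) &&& 31) = _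
  rw [Nat.shiftRight_eq_div_pow, pow_mul]
  exact Nat.and_two_pow_sub_one_eq_mod _ 5

theorem fld_lt (P i : ℕ) : fld P i < 32 := by
  rw [fld_eq]
  exact Nat.mod_lt _ (by norm_num)

/-- The vector of a packed code. -/
def dec (P : ℕ) : GolayPt → ℤ := fun p => (fld P (idx p) : ℤ) - 16

theorem dec_pt (P : ℕ) {n : ℕ} (hn : n < 24) : dec P (pt n) = (fld P n : ℤ) - 16 := by
  unfold dec
  rw [idx_pt' hn]

/-- Building a packed vector. -/
def bld (f : ℕ → ℕ) : ℕ → ℕ → ℕ
  | _, 0 => 0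
  | a, n + 1 => Nat.add (f a) (Nat.mul 32 (bld f (a + 1) n))

theorem fld_bld (f : ℕ → ℕ) (n a j : ℕ) (hj : j < n) (hf : ∀ i, a ≤ i → i < a + n → f i < 32) :
    fld (bld f a n) j = f (a + j) := by
  induction n generalizing a j with
  | zero => omega
  | succ n ih =>
    have hb : bld f a (n + 1) = f a + 32 * bld f (a + 1) n := rfl
    have h0 : f a < 32 := hf a le_rfl (by omega)
    rw [hb]
    rcases j with _ | j
    · rw [fld_eq, pow_zero, Nat.div_one, Nat.add_mul_mod_self_left, Nat.mod_eq_of_lt h0]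
      rfl
    · have := ih (a + 1) j (by omega) (fun i h1 h2 => hf i (by omega) (by omega))
      rw [fld_eq] at this ⊢
      rw [pow_succ, mul_comm (32 ^ j) 32, ← Nat.div_div_eq_div_mul]
      have h2 : (f a + 32 * bld f (a + 1) n) / 32 = bld f (a + 1) n := by
        rw [Nat.add_mul_div_left _ _ (by norm_num), Nat.div_eq_of_lt h0, zero_add]
      rw [h2, this]
      congr 1
      omega

/-- The signed permutation on a packed vector. -/
def monoP (π m P : ℕ) : ℕ :=
  bld (fun j => cond (Nat.beq (Nat.land (Nat.shiftRight m j) 1) 1) (Nat.sub 32 (fld P (pa π j))) (fld P (pa π j))) 0 24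

theorem range_of (x : GolayPt → ℤ) (hn : sqNorm x ≤ 64) (i : GolayPt) : -8 ≤ x i ∧ x i ≤ 8 := by
  have h0 : 0 ≤ sqNorm x := by
    unfold sqNorm
    exact Finset.sum_nonneg (fun i _ => sq_nonneg (x i))
  have h1 : sqNorm x = ((sqNorm x).toNat : ℕ) := by
    rw [Int.toNat_of_nonneg h0]
  exact LeechC.le_of_sqNorm h1 (by omega) i

theorem dec_mono {π m P : ℕ} (hπ : permOK π = true) (hr : ∀ i, -8 ≤ dec P i ∧ dec P i ≤ 8) :
    dec (monoP π m P) = sv m (pv π (dec P)) := by
  funext p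
  have hF : ∀ j < 24, 8 ≤ fld P (pa π j) := by
    intro j hj
    have h1 := pa_lt hπ hj
    have h2 := (hr (pt (pa π j))).1
    rw [dec_pt _ h1] at h2
    omega
  have hb : ∀ i, 0 ≤ i → i < 0 + 24 → (fun j => cond (Nat.beq (Nat.land (Nat.shiftRight m j) 1) 1)
      (Nat.sub 32 (fld P (pa π j))) (fld P (pa π j))) i < 32 := by
    intro i _ hi
    have h1 := hF i (by omega)
    have h2 := fld_lt P (pa π i)
    show cond _ _ _ < 32
    cases Nat.beq (Nat.land (Nat.shiftRight m i) 1) 1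
    · exact h2
    · show 32 - fld P (pa π i) < 32
      omega
  have hp := idx_lt p
  unfold dec
  unfold monoP
  rw [fld_bld _ 24 0 (idx p) hp hb, zero_add]
  show (cond _ _ _ : ℕ) - (16 : ℤ) = _
  have e1 : sv m (pv π (fun p => (fld P (idx p) : ℤ) - 16)) p =
      if p ∈ fs m then -((fld P (idx (pt (pa π (idx p)))) : ℤ) - 16) else (fld P (idx (pt (pa π (idx p)))) : ℤ) - 16 := rfl
  rw [e1, idx_pt' (pa_lt hπ hp), bit_beq]
  have h1 := hF _ hp
  have h2 := fld_lt P (pa π (idx p))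
  cases h : m.testBit (idx p)
  · rw [if_neg (by rw [mem_fs, h]; simp)]
    rfl
  · rw [if_pos (mem_fs.mpr h)]
    show ((32 - fld P (pa π (idx p)) : ℕ) : ℤ) - 16 = _
    omega

/-! ### The non-monomial generator -/

/-- The tetrads of the indices. -/
def tauN : ℕ := 2149236263642015881435

/-- The tetrad of an index. -/
def tt (j : ℕ) : ℕ := Nat.land (Nat.shiftRight tauN (Nat.mul 3 j)) 7

/-- The members of the tetrads. -/
def tetN : ℕ := 935146538756832973495499212362235209

/-- A member of a tetrad. -/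
def ee (t r : ℕ) : ℕ := Nat.land (Nat.shiftRight tetN (Nat.mul 5 (Nat.add (Nat.mul 4 t) r))) 31

/-- The sum of the fields of a tetrad. -/
def Ss (P t : ℕ) : ℕ := Nat.add (fld P (ee t 0)) (Nat.add (fld P (ee t 1)) (Nat.add (fld P (ee t 2)) (fld P (ee t 3))))

/-- The field of the image. -/
def newF (P j : ℕ) : ℕ :=
  cond (Nat.beq (tt j) 3) (Nat.sub (Nat.div (Ss P (tt j)) 2) (fld P j))
    (Nat.sub (Nat.add (fld P j) 32) (Nat.div (Ss P (tt j)) 2))

/-- The non-monomial generator on packed vectors. -/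
def XIp (P : ℕ) : ℕ := bld (newF P) 0 24

theorem tt_tau : ∀ p : GolayPt, tt (idx p) = (tau p).val := by decide +kernel

theorem ee_spec : ∀ (t : Fin 6), (Finset.univ.filter fun i => tau i = t) =
    {pt (ee t.val 0), pt (ee t.val 1), pt (ee t.val 2), pt (ee t.val 3)} ∧
    pt (ee t.val 0) ∉ ({pt (ee t.val 1), pt (ee t.val 2), pt (ee t.val 3)} : Finset GolayPt) ∧
    pt (ee t.val 1) ∉ ({pt (ee t.val 2), pt (ee t.val 3)} : Finset GolayPt) ∧
    pt (ee t.val 2) ∉ ({pt (ee t.val 3)} : Finset GolayPt) ∧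
    ee t.val 0 < 24 ∧ ee t.val 1 < 24 ∧ ee t.val 2 < 24 ∧ ee t.val 3 < 24 := by
  decide +kernel

theorem tsum_eq (x : GolayPt → ℤ) (t : Fin 6) :
    CoB.tsum x t = x (pt (ee t.val 0)) + x (pt (ee t.val 1)) + x (pt (ee t.val 2)) + x (pt (ee t.val 3)) := by
  obtain ⟨h1, h2, h3, h4, -⟩ := ee_spec t
  unfold CoB.tsum
  rw [← Finset.sum_filter, h1, Finset.sum_insert h2, Finset.sum_insert h3, Finset.sum_insert h4, Finset.sum_singleton]
  ring

theorem tsum_dec (P : ℕ) (t : Fin 6) : CoB.tsum (dec P) t = (Ss P t.val : ℤ) - 64 := by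
  obtain ⟨-, -, -, -, h0, h1, h2, h3⟩ := ee_spec t
  rw [tsum_eq, dec_pt _ h0, dec_pt _ h1, dec_pt _ h2, dec_pt _ h3]
  show _ = ((fld P (ee t.val 0) + (fld P (ee t.val 1) + (fld P (ee t.val 2) + fld P (ee t.val 3))) : ℕ) : ℤ) - 64
  push_cast
  ring

theorem sg_val (t : Fin 6) : sg t = if t.val = 3 then -1 else 1 := by
  revert t
  decide

theorem newF_spec {P : ℕ} (hx : dec P ∈ leechLattice) (hn : sqNorm (dec P) ≤ 64) (p : GolayPt) :
    newF P (idx p) < 32 ∧ (newF P (idx p) : ℤ) - 16 = XI (dec P) p := by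
  have hy := XI_apply hx p
  have hr := range_of _ (by rw [sqNorm_XI hx]; exact hn) p
  have he := tsum_even hx (tau p)
  unfold aa at hy
  rw [tsum_dec] at he hy
  rw [hy] at hr
  have hF : dec P p = (fld P (idx p) : ℤ) - 16 := rfl
  rw [hF] at hy hr
  unfold newF
  rw [tt_tau]
  rw [sg_val] at hy hr
  generalize Ss P (tau p).val = S at *
  generalize fld P (idx p) = F at *
  cases h3 : Nat.beq (tau p).val 3
  · have h4 : (tau p).val ≠ 3 := by
      intro e
      rw [e] at h3
      simp at h3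
    rw [if_neg h4] at hy hr
    show (Nat.sub (Nat.add F 32) (Nat.div S 2)) < 32 ∧ ((Nat.sub (Nat.add F 32) (Nat.div S 2) : ℕ) : ℤ) - 16 = _
    show (F + 32 - S / 2) < 32 ∧ ((F + 32 - S / 2 : ℕ) : ℤ) - 16 = _
    rw [hy]
    omega
  · have h4 : (tau p).val = 3 := Nat.eq_of_beq_eq_true h3
    rw [if_pos h4] at hy hr
    show (Nat.sub (Nat.div S 2) F) < 32 ∧ ((Nat.sub (Nat.div S 2) F : ℕ) : ℤ) - 16 = _
    show (S / 2 - F) < 32 ∧ ((S / 2 - F : ℕ) : ℤ) - 16 = _
    rw [hy]
    omega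

theorem dec_XI {P : ℕ} (hx : dec P ∈ leechLattice) (hn : sqNorm (dec P) ≤ 64) : dec (XIp P) = XI (dec P) := by
  funext p
  have hb : ∀ i, 0 ≤ i → i < 0 + 24 → newF P i < 32 := by
    intro i _ hi
    have := (newF_spec hx hn (pt i)).1
    rwa [idx_pt' (by omega)] at this
  have h := (newF_spec hx hn p).2
  unfold dec at h ⊢
  unfold XIp
  rw [fld_bld _ 24 0 (idx p) (idx_lt p) hb, zero_add]
  exact h

/-! ### Words -/

/-- A step of a word. -/
inductive Stp where
  | xi : Stp
  | mono (π m : ℕ) : Stp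

/-- The action of a step on vectors. -/
def actS : Stp → (GolayPt → ℤ) → (GolayPt → ℤ)
  | .xi, x => XI x
  | .mono π m, x => sv m (pv π x)

/-- The action of a step on packed vectors. -/
def evalS : Stp → ℕ → ℕ
  | .xi, P => XIp P
  | .mono π m, P => monoP π m P

/-- Validity of a step. -/
def okS : Stp → Bool
  | .xi => true
  | .mono π m => isM24 π && Nat.blt m 16777216 && inCode m

/-- The action of a word on vectors. -/
def actW (W : List Stp) (x : GolayPt → ℤ) : GolayPt → ℤ := W.foldl (fun y s => actS s y) x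

/-- The action of a word on packed vectors. -/
def evalW (W : List Stp) (P : ℕ) : ℕ := W.foldl (fun Q s => evalS s Q) P

/-- Validity of a word. -/
def okW (W : List Stp) : Bool := W.all okS

theorem exists_S {s : Stp} (h : okS s = true) : ∃ g : Co0, ∀ x : leechLattice, (g.1 x).1 = actS s x.1 := by
  cases s with
  | xi => exact ⟨xiC, fun x => rfl⟩
  | mono π m =>
    simp only [okS, Bool.and_eq_true] at h
    obtain ⟨⟨h1, h2⟩, h3⟩ := h
    have hm : m < 2 ^ 24 := by
      have : Nat.ble (m + 1) 16777216 = true := h2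
      have := Nat.le_of_ble_eq_true this
      norm_num
      omega
    refine ⟨sgn (fs m) ((fs_mem_supports_iff hm).mpr h3) * prm (P π) (P_mem_M24 h1), fun x => ?_⟩
    have hp : permOK π = true := by
      rw [isM24, Bool.and_eq_true] at h1
      exact h1.1
    funext i
    show (((sgn (fs m) ((fs_mem_supports_iff hm).mpr h3)).1 ((prm (P π) (P_mem_M24 h1)).1 x)).1 i) = _
    rw [sgn_apply]
    show (if i ∈ fs m then -x.1 (P π i) else x.1 (P π i)) = (if i ∈ fs m then -x.1 (pt (pa π (idx i))) else x.1 (pt (pa π (idx i))))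
    rw [P_apply hp]

theorem exists_W {W : List Stp} (h : okW W = true) : ∃ g : Co0, ∀ x : leechLattice, (g.1 x).1 = actW W x.1 := by
  induction W with
  | nil => exact ⟨1, fun x => rfl⟩
  | cons s W ih =>
    simp only [okW, List.all_cons, Bool.and_eq_true] at h
    obtain ⟨g1, h1⟩ := exists_S h.1
    obtain ⟨g2, h2⟩ := ih h.2
    refine ⟨g2 * g1, fun x => ?_⟩
    show (g2.1 (g1.1 x)).1 = _
    rw [h2, h1]
    rfl

theorem sqNorm_g (g : Co0) (x : leechLattice) : sqNorm (g.1 x).1 = sqNorm x.1 := g.2.2 x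

theorem actS_mem {s : Stp} (h : okS s = true) {x : GolayPt → ℤ} (hx : x ∈ leechLattice) :
    actS s x ∈ leechLattice ∧ sqNorm (actS s x) = sqNorm x := by
  obtain ⟨g, hg⟩ := exists_S h
  have := hg ⟨x, hx⟩
  simp only at this
  rw [← this]
  exact ⟨(g.1 ⟨x, hx⟩).2, sqNorm_g g ⟨x, hx⟩⟩

theorem dec_S {s : Stp} (h : okS s = true) {P : ℕ} (hx : dec P ∈ leechLattice) (hn : sqNorm (dec P) ≤ 64) :
    dec (evalS s P) = actS s (dec P) := by
  cases s with
  | xi => exact dec_XI hx hn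
  | mono π m =>
    simp only [okS, Bool.and_eq_true] at h
    have hp : permOK π = true := by
      have h1 := h.1.1
      rw [isM24, Bool.and_eq_true] at h1
      exact h1.1
    exact dec_mono hp (range_of _ hn)

theorem dec_W {W : List Stp} (h : okW W = true) {P : ℕ} (hx : dec P ∈ leechLattice) (hn : sqNorm (dec P) ≤ 64) :
    dec (evalW W P) = actW W (dec P) := by
  induction W generalizing P with
  | nil => rfl
  | cons s W ih =>
    simp only [okW, List.all_cons, Bool.and_eq_true] at h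
    have e := dec_S h.1 hx hn
    obtain ⟨a, b⟩ := actS_mem h.1 hx
    show dec (evalW W (evalS s P)) = actW W (actS s (dec P))
    rw [← e]
    exact ih h.2 (e ▸ a) (by rw [e, b]; exact hn)

/-- A word as an automorphism. -/
theorem exists_word {W : List Stp} (h : okW W = true) : ∃ g : Co0, ∀ (x : leechLattice) (P : ℕ), dec P = x.1 →
    sqNorm x.1 ≤ 64 → (g.1 x).1 = dec (evalW W P) := by
  obtain ⟨g, hg⟩ := exists_W h
  refine ⟨g, fun x P hP hn => ?_⟩
  rw [hg, dec_W h (hP ▸ x.2) (hP ▸ hn), hP]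

/-! ### Inner products -/

theorem sqNorm_add (a b : GolayPt → ℤ) : sqNorm (a + b) = sqNorm a + sqNorm b + 2 * dotInt a b := by
  unfold sqNorm dotInt
  rw [Finset.mul_sum, ← Finset.sum_add_distrib, ← Finset.sum_add_distrib]
  apply Finset.sum_congr rfl
  intro i _
  simp only [Pi.add_apply]
  ring

theorem dot_g (g : Co0) (a b : leechLattice) : dotInt (g.1 a).1 (g.1 b).1 = dotInt a.1 b.1 := by
  have h1 := sqNorm_add (g.1 a).1 (g.1 b).1
  have h2 := sqNorm_add a.1 b.1
  have h3 := sqNorm_g g (a + b)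
  rw [g.2.1 a b] at h3
  have h4 : ((g.1 a + g.1 b : leechLattice) : GolayPt → ℤ) = (g.1 a).1 + (g.1 b).1 := rfl
  have h5 : ((a + b : leechLattice) : GolayPt → ℤ) = a.1 + b.1 := rfl
  rw [h4, h5, h1, h2, sqNorm_g, sqNorm_g] at h3
  linarith

end Cfsg.Agent.H02.CoK
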