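import Cfsg.Agent.Lib.H02.CoK
import Cfsg.Agent.Lib.H02.CoL

/-!
The tests for the table of minimal vectors.
-/

set_option autoImplicit false
set_option maxRecDepth 100000

namespace Cfsg.Agent.H02.CoM

open Cfsg Cfsg.Agent.H26.Leech Cfsg.Agent.H02.CoA Cfsg.Agent.H02.CoB Cfsg.Agent.H02.CoC
  Cfsg.Agent.H02.CoK Cfsg.Agent.H02.CoL
open Cfsg.Agent.H27.Golay hiding fld

/-- A sum over a range. -/
def bsum (f : ℕ → ℕ) : ℕ → ℕ → ℕ
  | _, 0 => 0
  | a, n + 1 => Nat.add (f a) (bsum f (a + 1) n)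

theorem bsum_eq (f : ℕ → ℕ) (a n : ℕ) : bsum f a n = ∑ j ∈ Finset.range n, f (a + j) := by
  induction n generalizing a with
  | zero => rfl
  | succ n ih =>
    rw [Finset.sum_range_succ']
    show f a + bsum f (a + 1) n = _
    rw [ih, add_comm]
    congr 1
    apply Finset.sum_congr rfl
    intro j _
    congr 1
    omega

/-- A conjunction over a range. -/
def allB (f : ℕ → Bool) : ℕ → ℕ → Bool
  | _, 0 => true
  | a, n + 1 => f a && allB f (a + 1) n

theorem allB_spec {f : ℕ → Bool} {a n : ℕ} (h : allB f a n = true) (i : ℕ) (h1 : a ≤ i) (h2 : i < a + n) : f i = true := by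
  induction n generalizing a with
  | zero => omega
  | succ n ih =>
    simp only [allB, Bool.and_eq_true] at h
    rcases Nat.eq_or_lt_of_le h1 with e | e
    · rw [← e]
      exact h.1
    · exact ih h.2 e (by omega)

/-- A binary number from its digits. -/
def mk2 (f : ℕ → ℕ) : ℕ → ℕ → ℕ
  | _, 0 => 0
  | a, n + 1 => Nat.add (f a) (Nat.mul 2 (mk2 f (a + 1) n))

theorem mk2_lt (f : ℕ → ℕ) (hf : ∀ i, f i < 2) (a n : ℕ) : mk2 f a n < 2 ^ n := by
  induction n generalizing a with
  | zero => show 0 < 1; norm_num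
  | succ n ih =>
    have h1 := ih (a + 1)
    have h2 := hf a
    show f a + 2 * mk2 f (a + 1) n < _
    rw [pow_succ]
    omega

theorem mk2_bit (f : ℕ → ℕ) (hf : ∀ i, f i < 2) (a n j : ℕ) (hj : j < n) : (mk2 f a n).testBit j = decide (f (a + j) = 1) := by
  induction n generalizing a j with
  | zero => omega
  | succ n ih =>
    have h2 := hf a
    have hb : mk2 f a (n + 1) = f a + 2 * mk2 f (a + 1) n := rfl
    rw [hb]
    rcases j with _ | j
    · rw [Nat.testBit_zero, add_zero]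
      have : (f a + 2 * mk2 f (a + 1) n) % 2 = f a := by omega
      rw [this]
    · rw [Nat.testBit_succ]
      have : (f a + 2 * mk2 f (a + 1) n) / 2 = mk2 f (a + 1) n := by omega
      rw [this, ih (a + 1) j (by omega)]
      rw [show a + (j + 1) = a + 1 + j by omega]

/-- The sum of the fields. -/
def sF (P : ℕ) : ℕ := bsum (fld P) 0 24

/-- The sum of the squares of the fields. -/
def sQ (P : ℕ) : ℕ := bsum (fun j => Nat.mul (fld P j) (fld P j)) 0 24

/-- The high bit at a field. -/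
def hb (P j : ℕ) : ℕ := Nat.land (Nat.shiftRight (fld P j) 1) 1

/-- The mask of the high bits. -/
def mP (P : ℕ) : ℕ := mk2 (hb P) 0 24

/-- The low bit at a field. -/
def lb (P j : ℕ) : ℕ := Nat.land (fld P j) 1

/-- A packed minimal vector. -/
def okP (P : ℕ) : Bool :=
  allB (fun j => Nat.beq (lb P j) (lb P 23)) 0 24 &&
  Nat.beq (Nat.mod (sF P) 8) (Nat.mod (Nat.mul 4 (lb P 23)) 8) &&
  inCode (mP P) &&
  Nat.beq (Nat.add (sQ P) 6144) (Nat.add 32 (Nat.mul 32 (sF P)))

/-- The test on the table. -/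
def testT (k : ℕ) : Bool :=
  okP (Tp k) && (Nat.beq k 196559 || Nat.blt (Tp k) (Tp (k + 1)))

theorem image_idx : Finset.range 24 = (Finset.univ : Finset GolayPt).image idx := by decide

theorem sum_idx {β : Type*} [AddCommMonoid β] (f : ℕ → β) : ∑ p : GolayPt, f (idx p) = ∑ j ∈ Finset.range 24, f j := by
  rw [image_idx, Finset.sum_image]
  intro a _ b _ h
  exact idx_injective h

theorem sum_dec (P : ℕ) : ∑ p, dec P p = (sF P : ℤ) - 384 := by
  unfold dec
  rw [sum_idx (fun j => (fld P j : ℤ) - 16), Finset.sum_sub_distrib]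
  unfold sF
  rw [bsum_eq]
  simp only [zero_add]
  push_cast
  simp

theorem sq_dec (P : ℕ) : sqNorm (dec P) = (sQ P : ℤ) - 32 * (sF P : ℤ) + 6144 := by
  unfold sqNorm dec sQ sF
  rw [sum_idx (fun j => ((fld P j : ℤ) - 16) ^ 2), bsum_eq, bsum_eq]
  simp only [zero_add]
  have e : ∀ j, ((fld P j : ℤ) - 16) ^ 2 = ((Nat.mul (fld P j) (fld P j) : ℕ) : ℤ) - 32 * (fld P j : ℤ) + 256 := by
    intro j
    show _ = ((fld P j * fld P j : ℕ) : ℤ) - _ + _
    push_cast
    ring
  simp only [e]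
  rw [Finset.sum_add_distrib, Finset.sum_sub_distrib, ← Finset.mul_sum]
  push_cast
  simp

theorem hb_lt (P j : ℕ) : hb P j < 2 := by
  show ((fld P j >>> 1) &&& 1) < 2
  exact Nat.lt_of_le_of_lt Nat.and_le_right (by norm_num)

theorem hb_eq (P j : ℕ) : hb P j = fld P j / 2 % 2 := by
  show ((fld P j >>> 1) &&& 1) = _
  rw [Nat.shiftRight_one, Nat.and_one_is_mod]

theorem lb_eq (P j : ℕ) : lb P j = fld P j % 2 := by
  show (fld P j &&& 1) = _
  rw [Nat.and_one_is_mod]

theorem hi_dec (P : ℕ) : hi (dec P) = wd (mP P) := by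
  funext p
  have hp := idx_lt p
  rw [wd_apply]
  unfold mP
  rw [mk2_bit _ (hb_lt P) 0 24 _ hp, zero_add, hb_eq]
  show hiZ (dec P p) = _
  unfold hiZ dec
  generalize fld P (idx p) = F
  have h1 : ((F : ℤ) - 16) % 4 = 2 ∨ ((F : ℤ) - 16) % 4 = 3 ↔ F / 2 % 2 = 1 := by omega
  by_cases h : F / 2 % 2 = 1
  · rw [if_pos (h1.mpr h)]
    simp [h]
  · rw [if_neg (fun e => h (h1.mp e))]
    simp [h]

theorem ok_mem {P : ℕ} (h : okP P = true) : dec P ∈ leechLattice ∧ sqNorm (dec P) = 32 := by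
  simp only [okP, Bool.and_eq_true] at h
  obtain ⟨⟨⟨h1, h2⟩, h3⟩, h4⟩ := h
  have h1' : ∀ j < 24, lb P j = lb P 23 := by
    intro j hj
    exact Nat.eq_of_beq_eq_true (allB_spec h1 j (by omega) (by omega))
  have h2' : sF P % 8 = (4 * lb P 23) % 8 := Nat.eq_of_beq_eq_true h2
  have h4' : sQ P + 6144 = 32 + 32 * sF P := Nat.eq_of_beq_eq_true h4
  constructor
  · rw [mem_leechLattice_iff, mem_leechSet_iff]
    refine ⟨(lb P 23 : ℤ), fun i => ?_, ?_, ?_⟩
    · have h5 := h1' _ (idx_lt i)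
      rw [lb_eq, lb_eq] at h5
      have h6 : dec P i = (fld P (idx i) : ℤ) - 16 := rfl
      rw [h6, lb_eq]
      show _ % 2 = _ % 2
      omega
    · rw [sum_dec]
      show _ % 8 = _ % 8
      omega
    · rw [hi_dec]
      exact (wd_mem_iff (show mP P < 2 ^ 24 from mk2_lt _ (hb_lt P) 0 24)).mpr h3
  · rw [sq_dec]
    omega

theorem fld_inj {P Q : ℕ} (hP : P < 2 ^ 120) (hQ : Q < 2 ^ 120) (h : ∀ j < 24, fld P j = fld Q j) : P = Q := by
  apply Nat.eq_of_testBit_eq
  intro i
  by_cases hi : i < 120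
  · have hj : i / 5 < 24 := by omega
    have h1 := h _ hj
    have e : i = 5 * (i / 5) + i % 5 := by omega
    have key : ∀ R : ℕ, (fld R (i / 5)).testBit (i % 5) = R.testBit i := by
      intro R
      show (((R >>> (5 * (i / 5))) &&& 31).testBit (i % 5)) = _
      rw [Nat.testBit_land, Nat.testBit_shiftRight]
      have h31 : (31 : ℕ).testBit (i % 5) = true := by
        have : i % 5 < 5 := Nat.mod_lt _ (by norm_num)
        interval_cases (i % 5) <;> rfl
      rw [h31, Bool.and_true, show 5 * (i / 5) + i % 5 = i by omega]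
    rw [← key P, ← key Q, h1]
  · have h2 : (2 : ℕ) ^ 120 ≤ 2 ^ i := Nat.pow_le_pow_right (by norm_num) (by omega)
    rw [Nat.testBit_lt_two_pow (by omega), Nat.testBit_lt_two_pow (by omega)]

theorem dec_inj {P Q : ℕ} (hP : P < 2 ^ 120) (hQ : Q < 2 ^ 120) (h : dec P = dec Q) : P = Q := by
  apply fld_inj hP hQ
  intro j hj
  have := congrFun h (pt j)
  rw [dec_pt _ hj, dec_pt _ hj] at this
  omega

theorem Tp_lt (k : ℕ) : Tp k < 2 ^ 120 := by
  show (Nat.land _ 1329227995784915872903807060280344575) < 2 ^ 120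
  exact Nat.lt_of_le_of_lt (Nat.and_le_right) (by norm_num)

/-- A count over a range. -/
def cntR (t : ℕ → Bool) : ℕ → ℕ → ℕ
  | _, 0 => 0
  | a, n + 1 => Nat.add (cond (t a) 1 0) (cntR t (a + 1) n)

theorem cntR_eq (t : ℕ → Bool) (a n : ℕ) : cntR t a n = ((Finset.range n).filter (fun j => t (a + j) = true)).card := by
  rw [Finset.card_filter]
  induction n generalizing a with
  | zero => rfl
  | succ n ih =>
    rw [Finset.sum_range_succ']
    show cond (t a) 1 0 + cntR t (a + 1) n = _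
    rw [ih, add_comm]
    congr 1
    · apply Finset.sum_congr rfl
      intro j _
      rw [show a + (j + 1) = a + 1 + j by omega]
    · rw [add_zero]
      cases t a <;> rfl

theorem cnt_join {t : ℕ → Bool} {a m b n x y : ℕ} (h1 : cntR t a m = x) (h2 : cntR t b n = y) (hb : a + m = b) :
    cntR t a (m + n) = x + y := by
  subst hb
  induction m generalizing a x with
  | zero =>
    rw [zero_add, ← h1]
    have : cntR t a 0 = 0 := rfl
    rw [this, zero_add]
    exact h2
  | succ m ih =>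
    have e : m + 1 + n = (m + n) + 1 := by omega
    rw [e]
    show cond (t a) 1 0 + cntR t (a + 1) (m + n) = _
    rw [← h1]
    show _ = cond (t a) 1 0 + cntR t (a + 1) m + _
    rw [add_assoc]
    congr 1
    exact ih rfl (by rw [show a + 1 + m = a + (m + 1) by omega]; exact h2)

end Cfsg.Agent.H02.CoM
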