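import Cfsg.Agent.Lib.H02.CoU

/-!
Transitivity from trees, on the sets of minimal vectors.
-/

set_option autoImplicit false
set_option maxRecDepth 100000

namespace Cfsg.Agent.H02.CoW

open Cfsg Cfsg.Agent.H26.Leech Cfsg.Agent.H02.CoA Cfsg.Agent.H02.CoB Cfsg.Agent.H02.CoC
  Cfsg.Agent.H02.CoK Cfsg.Agent.H02.CoL Cfsg.Agent.H02.CoM Cfsg.Agent.H02.CoP Cfsg.Agent.H02.CoR
  Cfsg.Agent.H02.CoD Cfsg.Agent.H02.CoE Cfsg.Agent.H02.CoU
open Cfsg.Agent.H27.Golay hiding fld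

/-- A lattice vector from a packed code. -/
def mkL (P : ℕ) (h : okP P = true) : leechLattice := ⟨dec P, (ok_mem h).1⟩

theorem sq_mkL (P : ℕ) (h : okP P = true) : sqNorm (mkL P h).1 = 32 := (ok_mem h).2

/-- The packed base vector of norm 4. -/
def PA : ℕ := 852206658587909773353650494292640276

/-- The packed base vector of norm 6. -/
def PE : ℕ := 769129908928726144935740255100291662

theorem dec_PA : dec PA = uA.1 := by
  funext p
  revert p
  decide +kernel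

theorem dec_PE : dec PE = uE.1 := by
  funext p
  revert p
  decide +kernel

theorem sq_uA : sqNorm uA.1 = 32 := by
  show sqNorm rA = 32
  decide +kernel

theorem sq_uE : sqNorm uE.1 = 48 := by
  show sqNorm rE3 = 48
  decide +kernel

theorem trans_of_orb {Us : List ℕ} {b : leechLattice} {S : Set leechLattice}
    (h : ∀ x ∈ S, ∃ g : Co0, Fix Us g ∧ g • b = x) :
    ∀ x ∈ S, ∀ y ∈ S, ∃ g : Co0, Fix Us g ∧ g • x = y := by
  intro x hx y hy
  obtain ⟨g1, h1, rfl⟩ := h x hx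
  obtain ⟨g2, h2, rfl⟩ := h y hy
  refine ⟨g2 * g1⁻¹, h2.mul h1.inv, ?_⟩
  rw [mul_smul, inv_smul_smul]

/-- Moving a transitivity on a set of minimal vectors. -/
theorem conj_Dv {u v : leechLattice} {g0 : Co0} (hg0 : g0 • v = u) {d : ℤ}
    (hbase : ∀ x ∈ Dv u d, ∀ y ∈ Dv u d, ∃ g : Co0, g • u = u ∧ g • x = y)
    {w w' : leechLattice} (hw : w ∈ Dv v d) (hw' : w' ∈ Dv v d) :
    ∃ g : Co0, g • v = v ∧ g • w = w' := by
  have h1 := (mem_Dv_smul g0 v w d).mp hw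
  have h2 := (mem_Dv_smul g0 v w' d).mp hw'
  rw [hg0] at h1 h2
  obtain ⟨h, hu, he⟩ := hbase _ h1 _ h2
  refine ⟨g0⁻¹ * h * g0, ?_, ?_⟩
  · rw [mul_smul, mul_smul, hg0, hu, ← hg0, inv_smul_smul]
  · rw [mul_smul, mul_smul, he, inv_smul_smul]

/-- The transitivity on a set `Dv u d` from a tree. -/
theorem orb_Dv {Us : List ℕ} {u b : leechLattice} {d : ℤ}
    (hfix : ∀ g : Co0, Fix Us g → g • u = u) (hb : b ∈ Dv u d)
    (hmain : (∀ g : Co0, Fix Us g → g • b ∈ Dv u d) → ∀ x ∈ Dv u d, ∃ g : Co0, Fix Us g ∧ g • b = x) :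
    ∀ x ∈ Dv u d, ∀ y ∈ Dv u d, ∃ g : Co0, g • u = u ∧ g • x = y := by
  have hinv : ∀ g : Co0, Fix Us g → g • b ∈ Dv u d := by
    intro g hg
    have := (mem_Dv_smul g u b d).mp hb
    rwa [hfix g hg] at this
  intro x hx y hy
  obtain ⟨g, hg, e⟩ := trans_of_orb (hmain hinv) x hx y hy
  exact ⟨g, hfix g hg, e⟩

theorem fix_one {P : ℕ} {u : leechLattice} (hP : dec P = u.1) (hn : sqNorm u.1 ≤ 64) (g : Co0) (hg : Fix [P] g) : g • u = u :=
  hg u ⟨P, by simp, hP⟩ hn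

end Cfsg.Agent.H02.CoW
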