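import Cfsg.Agent.S1575
import Cfsg.Agent.S1640
import Cfsg.Agent.Lib.H02.CoGen

/-!
Orders of stabilisers of vectors in the automorphism group of the lattice.
-/

set_option autoImplicit false
set_option maxRecDepth 100000

namespace Cfsg.Agent.H02.CoOrd

open Cfsg Cfsg.Agent.H26.Leech Cfsg.Agent.H02.CoA Cfsg.Agent.H02.CoB Cfsg.Agent.H02.CoK Cfsg.Agent.H02.CoM
  Cfsg.Agent.H02.CoP Cfsg.Agent.H02.CoR Cfsg.Agent.H02.CoD Cfsg.Agent.H02.CoE Cfsg.Agent.H02.CoU Cfsg.Agent.H02.CoW
open Cfsg.Agent.H27.Golay hiding fld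
open MulAction

abbrev St (v : leechLattice) : Subgroup Co0 := stabilizer Co0 v

theorem mem_St {g : Co0} {v : leechLattice} : g ∈ St v ↔ g • v = v := Iff.rfl

/-- The stabiliser in a subgroup, as a subgroup of the group. -/
def stabEquiv (H : Subgroup Co0) (y : leechLattice) : stabilizer (↥H) y ≃* ↥(H ⊓ St y) where
  toFun h := ⟨h.1.1, h.1.2, h.2⟩
  invFun h := ⟨⟨h.1, h.2.1⟩, h.2.2⟩
  left_inv _ := rfl
  right_inv _ := rfl
  map_mul' _ _ := rfl

theorem card_inf (H : Subgroup Co0) (y : leechLattice) :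
    Nat.card H = (orbit (↥H) y).ncard * Nat.card ↥(H ⊓ St y) := by
  rw [← index_stabilizer (↥H) y, ← Nat.card_congr (stabEquiv H y).toEquiv, mul_comm]
  exact (Subgroup.card_mul_index _).symm

/-- An orbit described by a set. -/
theorem orbit_eq {H : Subgroup Co0} {y : leechLattice} {B : Set leechLattice}
    (h1 : ∀ h ∈ H, h • y ∈ B) (h2 : ∀ y' ∈ B, ∃ h ∈ H, h • y = y') : orbit H y = B := by
  ext y'
  constructor
  · rintro ⟨⟨h, hh⟩, rfl⟩
    exact h1 h hh
  · intro hy
    obtain ⟨h, hh, e⟩ := h2 y' hy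
    exact ⟨⟨h, hh⟩, e⟩

theorem ncard_sq (d : ℤ) : {x : leechLattice | sqNorm x.1 = d}.ncard =
    {x : GolayPt → ℤ | x ∈ leechLattice ∧ sqNorm x = d}.ncard := by
  have e : {x : GolayPt → ℤ | x ∈ leechLattice ∧ sqNorm x = d} =
      Subtype.val '' {x : leechLattice | sqNorm x.1 = d} := by
    ext x
    constructor
    · rintro ⟨a, b⟩
      exact ⟨⟨x, a⟩, b, rfl⟩
    · rintro ⟨y, b, rfl⟩
      exact ⟨y.2, b⟩
  rw [e]
  exact (Set.ncard_image_of_injective _ Subtype.val_injective).symm

theorem trans32 (v w : leechLattice) (hv : sqNorm v.1 = 32) (hw : sqNorm w.1 = 32) : ∃ g : Co0, g • v = w := by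
  obtain ⟨g1, h1⟩ := exists_to_uA v hv
  obtain ⟨g2, h2⟩ := exists_to_uA w hw
  exact ⟨g2⁻¹ * g1, by rw [mul_smul, h1, ← h2, inv_smul_smul]⟩

theorem trans48 (v w : leechLattice) (hv : sqNorm v.1 = 48) (hw : sqNorm w.1 = 48) : ∃ g : Co0, g • v = w := by
  obtain ⟨g1, h1⟩ := exists_to_uE v hv
  obtain ⟨g2, h2⟩ := exists_to_uE w hw
  exact ⟨g2⁻¹ * g1, by rw [mul_smul, h1, ← h2, inv_smul_smul]⟩

theorem card_top : Nat.card ↥(⊤ : Subgroup Co0) = 8315553613086720000 := by
  rw [Nat.card_congr Subgroup.topEquiv.toEquiv]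
  exact CoH.card_Co0

theorem top_inf (y : leechLattice) : (⊤ : Subgroup Co0) ⊓ St y = St y := top_inf_eq _

/-- The order of the stabiliser of a vector of norm 4. -/
theorem card_St32 (v : leechLattice) (hv : sqNorm v.1 = 32) : Nat.card (St v) = 42305421312000 := by
  have h := card_inf ⊤ v
  rw [top_inf, card_top] at h
  have ho : orbit (↥(⊤ : Subgroup Co0)) v = {x : leechLattice | sqNorm x.1 = 32} := by
    apply orbit_eq
    · intro h _
      show sqNorm (h • v).1 = 32
      rw [sqNorm_smul, hv]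
    · intro y hy
      obtain ⟨g, hg⟩ := trans32 v y hv hy
      exact ⟨g, trivial, hg⟩
  rw [ho, ncard_sq, LeechC.count32] at h
  omega

/-- The order of the stabiliser of a vector of norm 6. -/
theorem card_St48 (v : leechLattice) (hv : sqNorm v.1 = 48) : Nat.card (St v) = 495766656000 := by
  have h := card_inf ⊤ v
  rw [top_inf, card_top] at h
  have ho : orbit (↥(⊤ : Subgroup Co0)) v = {x : leechLattice | sqNorm x.1 = 48} := by
    apply orbit_eq
    · intro h _
      show sqNorm (h • v).1 = 48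
      rw [sqNorm_smul, hv]
    · intro y hy
      obtain ⟨g, hg⟩ := trans48 v y hv hy
      exact ⟨g, trivial, hg⟩
  rw [ho, ncard_sq, LeechC.count48] at h
  omega

/-- The orbit of the stabiliser on a set `Dv`. -/
theorem orbit_Dv {u x : leechLattice} {d : ℤ} (hx : x ∈ Dv u d)
    (ht : ∀ y ∈ Dv u d, ∃ g : Co0, g • u = u ∧ g • x = y) : orbit (↥(St u)) x = Dv u d := by
  apply orbit_eq
  · intro h hh
    have := (mem_Dv_smul h u x d).mp hx
    rwa [show h • u = u from hh] at this
  · intro y hy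
    obtain ⟨g, h1, h2⟩ := ht y hy
    exact ⟨g, h1, h2⟩

/-- The order of the joint stabiliser of two vectors of norm 4 with inner product `-8`. -/
theorem card_mcl (v w : leechLattice) (hv : sqNorm v.1 = 32) (hw : sqNorm w.1 = 32) (hvw : dotInt v.1 w.1 = -8) :
    Nat.card ↥(St v ⊓ St w) = 898128000 := by
  have h := card_inf (St v) w
  rw [card_St32 v hv] at h
  have hx : w ∈ Dv v (-8) := ⟨hw, hvw⟩
  rw [orbit_Dv hx (fun y hy => Cfsg.Agent.S1575.result v w y hv hw hy.1 hvw hy.2), ncard_v8 v hv] at h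
  omega

theorem g_add (g : Co0) (a b : leechLattice) : g • (a + b) = g • a + g • b := g.2.1 a b

theorem g_zero (g : Co0) : g • (0 : leechLattice) = 0 := by
  have := g_add g 0 0
  rw [add_zero] at this
  exact left_eq_add.mp this

theorem g_neg (g : Co0) (a : leechLattice) : g • (-a) = -(g • a) := by
  have := g_add g a (-a)
  rw [add_neg_cancel, g_zero] at this
  exact (neg_eq_of_add_eq_zero_right this.symm).symm

theorem g_sub (g : Co0) (a b : leechLattice) : g • (a - b) = g • a - g • b := by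
  rw [sub_eq_add_neg, g_add, g_neg, ← sub_eq_add_neg]

theorem sq_neg_sub (a b : leechLattice) :
    sqNorm (-a - b : leechLattice).1 = sqNorm a.1 + sqNorm b.1 + 2 * dotInt a.1 b.1 := by
  have e : ((-a - b : leechLattice) : GolayPt → ℤ) = -(a.1 + b.1) := by
    funext i
    show -a.1 i - b.1 i = -(a.1 i + b.1 i)
    ring
  rw [e]
  have : sqNorm (-(a.1 + b.1)) = sqNorm (a.1 + b.1) := by
    unfold sqNorm
    apply Finset.sum_congr rfl
    intro i _
    simp only [Pi.neg_apply]
    ring
  rw [this, sqNorm_add]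

theorem dot_add_right (a b c : GolayPt → ℤ) : dotInt a (b + c) = dotInt a b + dotInt a c := by
  unfold dotInt
  rw [← Finset.sum_add_distrib]
  apply Finset.sum_congr rfl
  intro i _
  simp only [Pi.add_apply]
  ring

theorem dot_neg_right (a b : GolayPt → ℤ) : dotInt a (-b) = -dotInt a b := by
  unfold dotInt
  rw [← Finset.sum_neg_distrib]
  apply Finset.sum_congr rfl
  intro i _
  simp

theorem dot_self (a : GolayPt → ℤ) : dotInt a a = sqNorm a := by
  unfold dotInt sqNorm
  apply Finset.sum_congr rfl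
  intro i _
  ring

theorem dot_comm (a b : GolayPt → ℤ) : dotInt a b = dotInt b a := by
  unfold dotInt
  apply Finset.sum_congr rfl
  intro i _
  ring

theorem dot_neg_sub (a b : leechLattice) :
    dotInt a.1 (-a - b : leechLattice).1 = -sqNorm a.1 - dotInt a.1 b.1 := by
  have e : ((-a - b : leechLattice) : GolayPt → ℤ) = -(a.1) + -(b.1) := by
    funext i
    show -a.1 i - b.1 i = -a.1 i + -b.1 i
    ring
  rw [e, dot_add_right, dot_neg_right, dot_neg_right, dot_self]
  ring

/-- The joint stabiliser of `v` and `w` is that of `v` and `-v - w`. -/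
theorem St_inf_neg (v w : leechLattice) : St v ⊓ St w = St v ⊓ St (-v - w) := by
  ext g
  constructor
  · rintro ⟨h1, h2⟩
    refine ⟨h1, ?_⟩
    have h1' : g • v = v := h1
    have h2' : g • w = w := h2
    show g • (-v - w) = -v - w
    rw [g_sub, g_neg, h1', h2']
  · rintro ⟨h1, h2⟩
    refine ⟨h1, ?_⟩
    have h1' : g • v = v := h1
    have h2' : g • (-v - w) = -v - w := h2
    rw [g_sub, g_neg, h1'] at h2'
    exact neg_inj.mp (by simpa [sub_eq_add_neg] using h2')

/-- The order of the joint stabiliser of two vectors of norm 6 with inner product `-32`. -/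
theorem card_hs (v w : leechLattice) (hv : sqNorm v.1 = 48) (hw : sqNorm w.1 = 48) (hvw : dotInt v.1 w.1 = -32) :
    Nat.card ↥(St v ⊓ St w) = 44352000 := by
  have hz : -v - w ∈ Dv v (-16) := by
    refine ⟨?_, ?_⟩
    · rw [sq_neg_sub, hv, hw, hvw]
      norm_num
    · rw [dot_neg_sub, hv, hvw]
      norm_num
  have h := card_inf (St v) (-v - w)
  rw [card_St48 v hv, ← St_inf_neg] at h
  have h2 := Cfsg.Agent.S1640.result v hv
  rw [orbit_Dv hz (fun y hy => (h2.2 _ hz _ hy)), ncard_u16 v hv] at h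
  omega

end Cfsg.Agent.H02.CoOrd
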