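import Cfsg.Agent.Lib.H02.CoM

/-!
The check of the table of minimal vectors, a part.
-/

set_option autoImplicit false
set_option Elab.async false
set_option maxRecDepth 100000

namespace Cfsg.Agent.H02.CoQ1

open Cfsg.Agent.H02.CoK Cfsg.Agent.H02.CoL Cfsg.Agent.H02.CoM

theorem c32 : allB testT 32768 1024 = true := by decide +kernel
theorem c33 : allB testT 33792 1024 = true := by decide +kernel
theorem c34 : allB testT 34816 1024 = true := by decide +kernel
theorem c35 : allB testT 35840 1024 = true := by decide +kernel
theorem c36 : allB testT 36864 1024 = true := by decide +kernel
theorem c37 : allB testT 37888 1024 = true := by decide +kernel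
theorem c38 : allB testT 38912 1024 = true := by decide +kernel
theorem c39 : allB testT 39936 1024 = true := by decide +kernel
theorem c40 : allB testT 40960 1024 = true := by decide +kernel
theorem c41 : allB testT 41984 1024 = true := by decide +kernel
theorem c42 : allB testT 43008 1024 = true := by decide +kernel
theorem c43 : allB testT 44032 1024 = true := by decide +kernel
theorem c44 : allB testT 45056 1024 = true := by decide +kernel
theorem c45 : allB testT 46080 1024 = true := by decide +kernel
theorem c46 : allB testT 47104 1024 = true := by decide +kernel
theorem c47 : allB testT 48128 1024 = true := by decide +kernel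
theorem c48 : allB testT 49152 1024 = true := by decide +kernel
theorem c49 : allB testT 50176 1024 = true := by decide +kernel
theorem c50 : allB testT 51200 1024 = true := by decide +kernel
theorem c51 : allB testT 52224 1024 = true := by decide +kernel
theorem c52 : allB testT 53248 1024 = true := by decide +kernel
theorem c53 : allB testT 54272 1024 = true := by decide +kernel
theorem c54 : allB testT 55296 1024 = true := by decide +kernel
theorem c55 : allB testT 56320 1024 = true := by decide +kernel
theorem c56 : allB testT 57344 1024 = true := by decide +kernel
theorem c57 : allB testT 58368 1024 = true := by decide +kernel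
theorem c58 : allB testT 59392 1024 = true := by decide +kernel
theorem c59 : allB testT 60416 1024 = true := by decide +kernel
theorem c60 : allB testT 61440 1024 = true := by decide +kernel
theorem c61 : allB testT 62464 1024 = true := by decide +kernel
theorem c62 : allB testT 63488 1024 = true := by decide +kernel
theorem c63 : allB testT 64512 1024 = true := by decide +kernel

end Cfsg.Agent.H02.CoQ1
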