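import Cfsg.Agent.Lib.H02.CoM

/-!
The check of the table of minimal vectors, a part.
-/

set_option autoImplicit false
set_option Elab.async false
set_option maxRecDepth 100000

namespace Cfsg.Agent.H02.CoQ2

open Cfsg.Agent.H02.CoK Cfsg.Agent.H02.CoL Cfsg.Agent.H02.CoM

theorem c64 : allB testT 65536 1024 = true := by decide +kernel
theorem c65 : allB testT 66560 1024 = true := by decide +kernel
theorem c66 : allB testT 67584 1024 = true := by decide +kernel
theorem c67 : allB testT 68608 1024 = true := by decide +kernel
theorem c68 : allB testT 69632 1024 = true := by decide +kernel
theorem c69 : allB testT 70656 1024 = true := by decide +kernel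
theorem c70 : allB testT 71680 1024 = true := by decide +kernel
theorem c71 : allB testT 72704 1024 = true := by decide +kernel
theorem c72 : allB testT 73728 1024 = true := by decide +kernel
theorem c73 : allB testT 74752 1024 = true := by decide +kernel
theorem c74 : allB testT 75776 1024 = true := by decide +kernel
theorem c75 : allB testT 76800 1024 = true := by decide +kernel
theorem c76 : allB testT 77824 1024 = true := by decide +kernel
theorem c77 : allB testT 78848 1024 = true := by decide +kernel
theorem c78 : allB testT 79872 1024 = true := by decide +kernel
theorem c79 : allB testT 80896 1024 = true := by decide +kernel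
theorem c80 : allB testT 81920 1024 = true := by decide +kernel
theorem c81 : allB testT 82944 1024 = true := by decide +kernel
theorem c82 : allB testT 83968 1024 = true := by decide +kernel
theorem c83 : allB testT 84992 1024 = true := by decide +kernel
theorem c84 : allB testT 86016 1024 = true := by decide +kernel
theorem c85 : allB testT 87040 1024 = true := by decide +kernel
theorem c86 : allB testT 88064 1024 = true := by decide +kernel
theorem c87 : allB testT 89088 1024 = true := by decide +kernel
theorem c88 : allB testT 90112 1024 = true := by decide +kernel
theorem c89 : allB testT 91136 1024 = true := by decide +kernel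
theorem c90 : allB testT 92160 1024 = true := by decide +kernel
theorem c91 : allB testT 93184 1024 = true := by decide +kernel
theorem c92 : allB testT 94208 1024 = true := by decide +kernel
theorem c93 : allB testT 95232 1024 = true := by decide +kernel
theorem c94 : allB testT 96256 1024 = true := by decide +kernel
theorem c95 : allB testT 97280 1024 = true := by decide +kernel

end Cfsg.Agent.H02.CoQ2
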