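import Cfsg.Agent.Lib.H02.CoM

/-!
The check of the table of minimal vectors, a part.
-/

set_option autoImplicit false
set_option Elab.async false
set_option maxRecDepth 100000

namespace Cfsg.Agent.H02.CoQ3

open Cfsg.Agent.H02.CoK Cfsg.Agent.H02.CoL Cfsg.Agent.H02.CoM

theorem c96 : allB testT 98304 1024 = true := by decide +kernel
theorem c97 : allB testT 99328 1024 = true := by decide +kernel
theorem c98 : allB testT 100352 1024 = true := by decide +kernel
theorem c99 : allB testT 101376 1024 = true := by decide +kernel
theorem c100 : allB testT 102400 1024 = true := by decide +kernel
theorem c101 : allB testT 103424 1024 = true := by decide +kernel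
theorem c102 : allB testT 104448 1024 = true := by decide +kernel
theorem c103 : allB testT 105472 1024 = true := by decide +kernel
theorem c104 : allB testT 106496 1024 = true := by decide +kernel
theorem c105 : allB testT 107520 1024 = true := by decide +kernel
theorem c106 : allB testT 108544 1024 = true := by decide +kernel
theorem c107 : allB testT 109568 1024 = true := by decide +kernel
theorem c108 : allB testT 110592 1024 = true := by decide +kernel
theorem c109 : allB testT 111616 1024 = true := by decide +kernel
theorem c110 : allB testT 112640 1024 = true := by decide +kernel
theorem c111 : allB testT 113664 1024 = true := by decide +kernel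
theorem c112 : allB testT 114688 1024 = true := by decide +kernel
theorem c113 : allB testT 115712 1024 = true := by decide +kernel
theorem c114 : allB testT 116736 1024 = true := by decide +kernel
theorem c115 : allB testT 117760 1024 = true := by decide +kernel
theorem c116 : allB testT 118784 1024 = true := by decide +kernel
theorem c117 : allB testT 119808 1024 = true := by decide +kernel
theorem c118 : allB testT 120832 1024 = true := by decide +kernel
theorem c119 : allB testT 121856 1024 = true := by decide +kernel
theorem c120 : allB testT 122880 1024 = true := by decide +kernel
theorem c121 : allB testT 123904 1024 = true := by decide +kernel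
theorem c122 : allB testT 124928 1024 = true := by decide +kernel
theorem c123 : allB testT 125952 1024 = true := by decide +kernel
theorem c124 : allB testT 126976 1024 = true := by decide +kernel
theorem c125 : allB testT 128000 1024 = true := by decide +kernel
theorem c126 : allB testT 129024 1024 = true := by decide +kernel
theorem c127 : allB testT 130048 1024 = true := by decide +kernel

end Cfsg.Agent.H02.CoQ3
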