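import Cfsg.Agent.Lib.H02.CoM

/-!
The check of the table of minimal vectors, a part.
-/

set_option autoImplicit false
set_option Elab.async false
set_option maxRecDepth 100000

namespace Cfsg.Agent.H02.CoQ4

open Cfsg.Agent.H02.CoK Cfsg.Agent.H02.CoL Cfsg.Agent.H02.CoM

theorem c128 : allB testT 131072 1024 = true := by decide +kernel
theorem c129 : allB testT 132096 1024 = true := by decide +kernel
theorem c130 : allB testT 133120 1024 = true := by decide +kernel
theorem c131 : allB testT 134144 1024 = true := by decide +kernel
theorem c132 : allB testT 135168 1024 = true := by decide +kernel
theorem c133 : allB testT 136192 1024 = true := by decide +kernel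
theorem c134 : allB testT 137216 1024 = true := by decide +kernel
theorem c135 : allB testT 138240 1024 = true := by decide +kernel
theorem c136 : allB testT 139264 1024 = true := by decide +kernel
theorem c137 : allB testT 140288 1024 = true := by decide +kernel
theorem c138 : allB testT 141312 1024 = true := by decide +kernel
theorem c139 : allB testT 142336 1024 = true := by decide +kernel
theorem c140 : allB testT 143360 1024 = true := by decide +kernel
theorem c141 : allB testT 144384 1024 = true := by decide +kernel
theorem c142 : allB testT 145408 1024 = true := by decide +kernel
theorem c143 : allB testT 146432 1024 = true := by decide +kernel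
theorem c144 : allB testT 147456 1024 = true := by decide +kernel
theorem c145 : allB testT 148480 1024 = true := by decide +kernel
theorem c146 : allB testT 149504 1024 = true := by decide +kernel
theorem c147 : allB testT 150528 1024 = true := by decide +kernel
theorem c148 : allB testT 151552 1024 = true := by decide +kernel
theorem c149 : allB testT 152576 1024 = true := by decide +kernel
theorem c150 : allB testT 153600 1024 = true := by decide +kernel
theorem c151 : allB testT 154624 1024 = true := by decide +kernel
theorem c152 : allB testT 155648 1024 = true := by decide +kernel
theorem c153 : allB testT 156672 1024 = true := by decide +kernel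
theorem c154 : allB testT 157696 1024 = true := by decide +kernel
theorem c155 : allB testT 158720 1024 = true := by decide +kernel
theorem c156 : allB testT 159744 1024 = true := by decide +kernel
theorem c157 : allB testT 160768 1024 = true := by decide +kernel
theorem c158 : allB testT 161792 1024 = true := by decide +kernel
theorem c159 : allB testT 162816 1024 = true := by decide +kernel

end Cfsg.Agent.H02.CoQ4
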