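import Cfsg.Agent.Lib.H02.CoM

/-!
The check of the table of minimal vectors, a part.
-/

set_option autoImplicit false
set_option Elab.async false
set_option maxRecDepth 100000

namespace Cfsg.Agent.H02.CoQ5

open Cfsg.Agent.H02.CoK Cfsg.Agent.H02.CoL Cfsg.Agent.H02.CoM

theorem c160 : allB testT 163840 1024 = true := by decide +kernel
theorem c161 : allB testT 164864 1024 = true := by decide +kernel
theorem c162 : allB testT 165888 1024 = true := by decide +kernel
theorem c163 : allB testT 166912 1024 = true := by decide +kernel
theorem c164 : allB testT 167936 1024 = true := by decide +kernel
theorem c165 : allB testT 168960 1024 = true := by decide +kernel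
theorem c166 : allB testT 169984 1024 = true := by decide +kernel
theorem c167 : allB testT 171008 1024 = true := by decide +kernel
theorem c168 : allB testT 172032 1024 = true := by decide +kernel
theorem c169 : allB testT 173056 1024 = true := by decide +kernel
theorem c170 : allB testT 174080 1024 = true := by decide +kernel
theorem c171 : allB testT 175104 1024 = true := by decide +kernel
theorem c172 : allB testT 176128 1024 = true := by decide +kernel
theorem c173 : allB testT 177152 1024 = true := by decide +kernel
theorem c174 : allB testT 178176 1024 = true := by decide +kernel
theorem c175 : allB testT 179200 1024 = true := by decide +kernel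
theorem c176 : allB testT 180224 1024 = true := by decide +kernel
theorem c177 : allB testT 181248 1024 = true := by decide +kernel
theorem c178 : allB testT 182272 1024 = true := by decide +kernel
theorem c179 : allB testT 183296 1024 = true := by decide +kernel
theorem c180 : allB testT 184320 1024 = true := by decide +kernel
theorem c181 : allB testT 185344 1024 = true := by decide +kernel
theorem c182 : allB testT 186368 1024 = true := by decide +kernel
theorem c183 : allB testT 187392 1024 = true := by decide +kernel
theorem c184 : allB testT 188416 1024 = true := by decide +kernel
theorem c185 : allB testT 189440 1024 = true := by decide +kernel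
theorem c186 : allB testT 190464 1024 = true := by decide +kernel
theorem c187 : allB testT 191488 1024 = true := by decide +kernel
theorem c188 : allB testT 192512 1024 = true := by decide +kernel
theorem c189 : allB testT 193536 1024 = true := by decide +kernel
theorem c190 : allB testT 194560 1024 = true := by decide +kernel
theorem c191 : allB testT 195584 976 = true := by decide +kernel

end Cfsg.Agent.H02.CoQ5
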