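import Cfsg.Agent.Lib.H02.CoP0
import Cfsg.Agent.Lib.H02.CoP1
import Cfsg.Agent.Lib.H02.CoP2
import Cfsg.Agent.Lib.H02.CoP3
import Cfsg.Agent.Lib.H02.CoP4
import Cfsg.Agent.Lib.H02.CoP5

/-!
The check of the table of minimal vectors, and completeness.
-/

set_option autoImplicit false
set_option Elab.async false
set_option maxRecDepth 100000

namespace Cfsg.Agent.H02.CoP

open Cfsg Cfsg.Agent.H26.Leech Cfsg.Agent.H02.CoK Cfsg.Agent.H02.CoL Cfsg.Agent.H02.CoM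
open Cfsg.Agent.H27.Golay hiding fld


theorem T_all {i : ℕ} (hi : i < 196560) : testT i = true := by
  have h : ∀ q < 192, allB testT (1024 * q) (min 1024 (196560 - 1024 * q)) = true := by
    intro q hq
    interval_cases q
    exacts [CoQ0.c0, CoQ0.c1, CoQ0.c2, CoQ0.c3, CoQ0.c4, CoQ0.c5, CoQ0.c6, CoQ0.c7, CoQ0.c8, CoQ0.c9, CoQ0.c10, CoQ0.c11, CoQ0.c12, CoQ0.c13, CoQ0.c14, CoQ0.c15, CoQ0.c16, CoQ0.c17, CoQ0.c18, CoQ0.c19, CoQ0.c20, CoQ0.c21, CoQ0.c22, CoQ0.c23, CoQ0.c24, CoQ0.c25, CoQ0.c26, CoQ0.c27, CoQ0.c28, CoQ0.c29, CoQ0.c30, CoQ0.c31, CoQ1.c32, CoQ1.c33, CoQ1.c34, CoQ1.c35, CoQ1.c36, CoQ1.c37, CoQ1.c38, CoQ1.c39, CoQ1.c40, CoQ1.c41, CoQ1.c42, CoQ1.c43, CoQ1.c44, CoQ1.c45, CoQ1.c46, CoQ1.c47, CoQ1.c48, CoQ1.c49, CoQ1.c50, CoQ1.c51, CoQ1.c52, CoQ1.c53, CoQ1.c54, CoQ1.c55, CoQ1.c56, CoQ1.c57, CoQ1.c58, CoQ1.c59, CoQ1.c60, CoQ1.c61, CoQ1.c62, CoQ1.c63, CoQ2.c64,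 CoQ2.c65, CoQ2.c66, CoQ2.c67, CoQ2.c68, CoQ2.c69, CoQ2.c70, CoQ2.c71, CoQ2.c72, CoQ2.c73, CoQ2.c74, CoQ2.c75, CoQ2.c76, CoQ2.c77, CoQ2.c78, CoQ2.c79, CoQ2.c80, CoQ2.c81, CoQ2.c82, CoQ2.c83, CoQ2.c84, CoQ2.c85, CoQ2.c86, CoQ2.c87, CoQ2.c88, CoQ2.c89, CoQ2.c90, CoQ2.c91, CoQ2.c92, CoQ2.c93, CoQ2.c94, CoQ2.c95, CoQ3.c96, CoQ3.c97, CoQ3.c98, CoQ3.c99, CoQ3.c100, CoQ3.c101, CoQ3.c102, CoQ3.c103, CoQ3.c104, CoQ3.c105, CoQ3.c106, CoQ3.c107, CoQ3.c108, CoQ3.c109, CoQ3.c110, CoQ3.c111, CoQ3.c112, CoQ3.c113, CoQ3.c114, CoQ3.c115, CoQ3.c116, CoQ3.c117, CoQ3.c118, CoQ3.c119, CoQ3.c120, CoQ3.c121, CoQ3.c122, CoQ3.c123, CoQ3.c124, CoQ3.c125, CoQ3.c126, CoQ3.c127, CoQ4.c128, CoQ4.c129, CoQ4.c130, CoQ4.c131, CoQ4.c132, CoQ4.c133, CoQ4.c134, CoQ4.c135, CoQ4.c136, CoQ4.c137, CoQ4.c138, CoQ4.c139, CoQ4.c140, CoQ4.c141, CoQ4.c142, CoQ4.c143, CoQ4.c144, CoQ4.c145, CoQ4.c146, CoQ4.c147,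 CoQ4.c148, CoQ4.c149, CoQ4.c150, CoQ4.c151, CoQ4.c152, CoQ4.c153, CoQ4.c154, CoQ4.c155, CoQ4.c156, CoQ4.c157, CoQ4.c158, CoQ4.c159, CoQ5.c160, CoQ5.c161, CoQ5.c162, CoQ5.c163, CoQ5.c164, CoQ5.c165, CoQ5.c166, CoQ5.c167, CoQ5.c168, CoQ5.c169, CoQ5.c170, CoQ5.c171, CoQ5.c172, CoQ5.c173, CoQ5.c174, CoQ5.c175, CoQ5.c176, CoQ5.c177, CoQ5.c178, CoQ5.c179, CoQ5.c180, CoQ5.c181, CoQ5.c182, CoQ5.c183, CoQ5.c184, CoQ5.c185, CoQ5.c186, CoQ5.c187, CoQ5.c188, CoQ5.c189, CoQ5.c190, CoQ5.c191]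
  have hq : i / 1024 < 192 := by omega
  refine allB_spec (h _ hq) i (Nat.mul_div_le i 1024) ?_
  omega

theorem Tp_mono {a b : ℕ} (hab : a < b) (hb : b < 196560) : Tp a < Tp b := by
  induction b, hab using Nat.le_induction with
  | base =>
    have h := T_all (show a < 196560 by omega)
    simp only [testT, Bool.and_eq_true, Bool.or_eq_true] at h
    rcases h.2 with h2 | h2
    · have := Nat.eq_of_beq_eq_true h2
      omega
    · exact Nat.le_of_ble_eq_true h2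
  | succ m hm ih =>
    have h := T_all (show m < 196560 by omega)
    simp only [testT, Bool.and_eq_true, Bool.or_eq_true] at h
    rcases h.2 with h2 | h2
    · have := Nat.eq_of_beq_eq_true h2
      omega
    · exact lt_trans (ih (by omega)) (Nat.le_of_ble_eq_true h2)

theorem Tp_inj {a b : ℕ} (ha : a < 196560) (hb : b < 196560) (h : dec (Tp a) = dec (Tp b)) : a = b := by
  have h1 := dec_inj (Tp_lt a) (Tp_lt b) h
  rcases Nat.lt_trichotomy a b with l | l | l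
  · exact absurd h1 (ne_of_lt (Tp_mono l hb))
  · exact l
  · exact absurd h1.symm (ne_of_lt (Tp_mono l ha))

theorem Tp_mem {k : ℕ} (hk : k < 196560) : dec (Tp k) ∈ leechLattice ∧ sqNorm (dec (Tp k)) = 32 := by
  have h := T_all hk
  simp only [testT, Bool.and_eq_true] at h
  exact ok_mem h.1

theorem injOn_dec : Set.InjOn (fun k => dec (Tp k)) (↑(Finset.range 196560) : Set ℕ) := by
  intro a ha b hb h
  exact Tp_inj (by simpa using ha) (by simpa using hb) h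

/-- Completeness of the table. -/
theorem min_exists {x : GolayPt → ℤ} (hx : x ∈ leechLattice) (hn : sqNorm x = 32) : ∃ k < 196560, x = dec (Tp k) := by
  have hs : (fun k => dec (Tp k)) '' (↑(Finset.range 196560) : Set ℕ) ⊆ {x : GolayPt → ℤ | x ∈ leechLattice ∧ sqNorm x = 32} := by
    rintro _ ⟨k, hk, rfl⟩
    exact Tp_mem (by simpa using hk)
  have hc := LeechC.count32
  have hfin : {x : GolayPt → ℤ | x ∈ leechLattice ∧ sqNorm x = 32}.Finite := by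
    apply Set.finite_of_ncard_ne_zero
    rw [hc]
    norm_num
  have hc2 : ((fun k => dec (Tp k)) '' (↑(Finset.range 196560) : Set ℕ)).ncard = 196560 := by
    rw [Set.ncard_image_of_injOn injOn_dec, Set.ncard_coe_finset, Finset.card_range]
  have e := Set.eq_of_subset_of_ncard_le hs (by rw [hc, hc2]) hfin
  have hm : x ∈ {x : GolayPt → ℤ | x ∈ leechLattice ∧ sqNorm x = 32} := ⟨hx, hn⟩
  rw [← e] at hm
  obtain ⟨k, hk, rfl⟩ := hm
  exact ⟨k, by simpa using hk, rfl⟩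

/-- Counting by a test. -/
theorem ncard_min (T : ℕ → Bool) (C : (GolayPt → ℤ) → Prop) (hC : ∀ P, C (dec P) ↔ T P = true) :
    {x : GolayPt → ℤ | x ∈ leechLattice ∧ sqNorm x = 32 ∧ C x}.ncard = cntR (fun k => T (Tp k)) 0 196560 := by
  classical
  have e : {x : GolayPt → ℤ | x ∈ leechLattice ∧ sqNorm x = 32 ∧ C x} =
      (fun k => dec (Tp k)) '' (↑((Finset.range 196560).filter (fun j => T (Tp (0 + j)) = true)) : Set ℕ) := by
    ext x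
    constructor
    · rintro ⟨h1, h2, h3⟩
      obtain ⟨k, hk, rfl⟩ := min_exists h1 h2
      refine ⟨k, ?_, rfl⟩
      simp only [Finset.coe_filter, Finset.mem_range, Set.mem_setOf_eq, zero_add]
      exact ⟨hk, (hC _).mp h3⟩
    · rintro ⟨k, hk, rfl⟩
      simp only [Finset.coe_filter, Finset.mem_range, Set.mem_setOf_eq, zero_add] at hk
      obtain ⟨a, b⟩ := Tp_mem hk.1
      exact ⟨a, b, (hC _).mpr hk.2⟩
  rw [e, Set.ncard_image_of_injOn, Set.ncard_coe_finset, cntR_eq]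
  intro a ha b hb h
  simp only [Finset.coe_filter, Finset.mem_range, Set.mem_setOf_eq] at ha hb
  exact Tp_inj ha.1 hb.1 h

end Cfsg.Agent.H02.CoP
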