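import Cfsg.Agent.Lib.H02.CoM

/-!
The check of the table of minimal vectors, a part.
-/

set_option autoImplicit false
set_option Elab.async false
set_option maxRecDepth 100000

namespace Cfsg.Agent.H02.CoQ0

open Cfsg.Agent.H02.CoK Cfsg.Agent.H02.CoL Cfsg.Agent.H02.CoM

theorem c0 : allB testT 0 1024 = true := by decide +kernel
theorem c1 : allB testT 1024 1024 = true := by decide +kernel
theorem c2 : allB testT 2048 1024 = true := by decide +kernel
theorem c3 : allB testT 3072 1024 = true := by decide +kernel
theorem c4 : allB testT 4096 1024 = true := by decide +kernel
theorem c5 : allB testT 5120 1024 = true := by decide +kernel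
theorem c6 : allB testT 6144 1024 = true := by decide +kernel
theorem c7 : allB testT 7168 1024 = true := by decide +kernel
theorem c8 : allB testT 8192 1024 = true := by decide +kernel
theorem c9 : allB testT 9216 1024 = true := by decide +kernel
theorem c10 : allB testT 10240 1024 = true := by decide +kernel
theorem c11 : allB testT 11264 1024 = true := by decide +kernel
theorem c12 : allB testT 12288 1024 = true := by decide +kernel
theorem c13 : allB testT 13312 1024 = true := by decide +kernel
theorem c14 : allB testT 14336 1024 = true := by decide +kernel
theorem c15 : allB testT 15360 1024 = true := by decide +kernel
theorem c16 : allB testT 16384 1024 = true := by decide +kernel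
theorem c17 : allB testT 17408 1024 = true := by decide +kernel
theorem c18 : allB testT 18432 1024 = true := by decide +kernel
theorem c19 : allB testT 19456 1024 = true := by decide +kernel
theorem c20 : allB testT 20480 1024 = true := by decide +kernel
theorem c21 : allB testT 21504 1024 = true := by decide +kernel
theorem c22 : allB testT 22528 1024 = true := by decide +kernel
theorem c23 : allB testT 23552 1024 = true := by decide +kernel
theorem c24 : allB testT 24576 1024 = true := by decide +kernel
theorem c25 : allB testT 25600 1024 = true := by decide +kernel
theorem c26 : allB testT 26624 1024 = true := by decide +kernel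
theorem c27 : allB testT 27648 1024 = true := by decide +kernel
theorem c28 : allB testT 28672 1024 = true := by decide +kernel
theorem c29 : allB testT 29696 1024 = true := by decide +kernel
theorem c30 : allB testT 30720 1024 = true := by decide +kernel
theorem c31 : allB testT 31744 1024 = true := by decide +kernel

end Cfsg.Agent.H02.CoQ0
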