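import Cfsg.Agent.Lib.H02.CoQc

/-!
The orbit of 22275 minimal vectors., a part
-/

set_option autoImplicit false
set_option Elab.async false
set_option maxRecDepth 100000

namespace Cfsg.Agent.H02.CoQcP1

open Cfsg Cfsg.Agent.H02.CoK Cfsg.Agent.H02.CoM Cfsg.Agent.H02.CoR

open Cfsg.Agent.H02.CoQc


theorem c16 : allB (tchk2 Gs O par gen lev b0 N) 16384 1024 = true := by decide +kernel
theorem c17 : allB (tchk2 Gs O par gen lev b0 N) 17408 1024 = true := by decide +kernel
theorem c18 : allB (tchk2 Gs O par gen lev b0 N) 18432 1024 = true := by decide +kernel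
theorem c19 : allB (tchk2 Gs O par gen lev b0 N) 19456 1024 = true := by decide +kernel
theorem c20 : allB (tchk2 Gs O par gen lev b0 N) 20480 1024 = true := by decide +kernel
theorem c21 : allB (tchk2 Gs O par gen lev b0 N) 21504 771 = true := by decide +kernel

end Cfsg.Agent.H02.CoQcP1
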