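import Cfsg.Agent.Lib.H02.CoQcP0
import Cfsg.Agent.Lib.H02.CoQcP1

/-!
The orbit of 22275 minimal vectors., the conclusion
-/

set_option autoImplicit false
set_option Elab.async false
set_option maxRecDepth 100000

namespace Cfsg.Agent.H02.CoQcZ

open Cfsg Cfsg.Agent.H02.CoK Cfsg.Agent.H02.CoM Cfsg.Agent.H02.CoR

open Cfsg.Agent.H02.CoQc



theorem all_ok : ∀ j < N, tchk2 Gs O par gen lev b0 N j = true := by
  intro i hi
  have hi' : i < 22275 := hi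
  have h : ∀ q < 22, allB (tchk2 Gs O par gen lev b0 N) (1024 * q) (min 1024 (22275 - 1024 * q)) = true := by
    intro q hq
    interval_cases q
    exacts [CoQcP0.c0, CoQcP0.c1, CoQcP0.c2, CoQcP0.c3, CoQcP0.c4, CoQcP0.c5, CoQcP0.c6, CoQcP0.c7, CoQcP0.c8, CoQcP0.c9, CoQcP0.c10, CoQcP0.c11, CoQcP0.c12, CoQcP0.c13, CoQcP0.c14, CoQcP0.c15, CoQcP1.c16, CoQcP1.c17, CoQcP1.c18, CoQcP1.c19, CoQcP1.c20, CoQcP1.c21]
  have hq : i / 1024 < 22 := by omega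
  refine allB_spec (h _ hq) i (Nat.mul_div_le i 1024) ?_
  omega

theorem main (b : Cfsg.leechLattice) (hb : Cfsg.Agent.H02.CoK.dec b0 = b.1) (hbn : Cfsg.sqNorm b.1 ≤ 64)
    (S : Set Cfsg.leechLattice) (hS : S.ncard = N) (hinv : ∀ g : Cfsg.Co0, Fix Us g → g • b ∈ S) :
    Tab S O N ∧ ∀ x ∈ S, ∃ g : Cfsg.Co0, Fix Us g ∧ g • b = x :=
  tree_main okG (by decide) (of_tchk2 all_ok).1 (of_tchk2 all_ok).2 O_lt b hb hbn S hS hinv

end Cfsg.Agent.H02.CoQcZ
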