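import Cfsg.Agent.Lib.H02.CoQf

/-!
A count on a table.
-/

set_option autoImplicit false
set_option Elab.async false
set_option maxRecDepth 100000

namespace Cfsg.Agent.H02.CoQg

open Cfsg.Agent.H02.CoK Cfsg.Agent.H02.CoL Cfsg.Agent.H02.CoM Cfsg.Agent.H02.CoR

open Cfsg.Agent.H02.CoQf

theorem c0 : allB (fun j => Ta (CoVb.O j) || Tb (CoVb.O j) || Tc (CoVb.O j) || Td (CoVb.O j) || Te (CoVb.O j) || Nat.beq (CoVb.O j) 728931481559469994818216774992447021) 0 4096 = true := by decide +kernel
theorem c1 : allB (fun j => Ta (CoVb.O j) || Tb (CoVb.O j) || Tc (CoVb.O j) || Td (CoVb.O j) || Te (CoVb.O j) || Nat.beq (CoVb.O j) 728931481559469994818216774992447021) 4096 4096 = true := by decide +kernel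
theorem c2 : allB (fun j => Ta (CoVb.O j) || Tb (CoVb.O j) || Tc (CoVb.O j) || Td (CoVb.O j) || Te (CoVb.O j) || Nat.beq (CoVb.O j) 728931481559469994818216774992447021) 8192 4096 = true := by decide +kernel
theorem c3 : allB (fun j => Ta (CoVb.O j) || Tb (CoVb.O j) || Tc (CoVb.O j) || Td (CoVb.O j) || Te (CoVb.O j) || Nat.beq (CoVb.O j) 728931481559469994818216774992447021) 12288 4096 = true := by decide +kernel
theorem c4 : allB (fun j => Ta (CoVb.O j) || Tb (CoVb.O j) || Tc (CoVb.O j) || Td (CoVb.O j) || Te (CoVb.O j) || Nat.beq (CoVb.O j) 728931481559469994818216774992447021) 16384 4096 = true := by decide +kernel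
theorem c5 : allB (fun j => Ta (CoVb.O j) || Tb (CoVb.O j) || Tc (CoVb.O j) || Td (CoVb.O j) || Te (CoVb.O j) || Nat.beq (CoVb.O j) 728931481559469994818216774992447021) 20480 4096 = true := by decide +kernel
theorem c6 : allB (fun j => Ta (CoVb.O j) || Tb (CoVb.O j) || Tc (CoVb.O j) || Td (CoVb.O j) || Te (CoVb.O j) || Nat.beq (CoVb.O j) 728931481559469994818216774992447021) 24576 4096 = true := by decide +kernel
theorem c7 : allB (fun j => Ta (CoVb.O j) || Tb (CoVb.O j) || Tc (CoVb.O j) || Td (CoVb.O j) || Te (CoVb.O j) || Nat.beq (CoVb.O j) 728931481559469994818216774992447021) 28672 4096 = true := by decide +kernel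
theorem c8 : allB (fun j => Ta (CoVb.O j) || Tb (CoVb.O j) || Tc (CoVb.O j) || Td (CoVb.O j) || Te (CoVb.O j) || Nat.beq (CoVb.O j) 728931481559469994818216774992447021) 32768 4096 = true := by decide +kernel
theorem c9 : allB (fun j => Ta (CoVb.O j) || Tb (CoVb.O j) || Tc (CoVb.O j) || Td (CoVb.O j) || Te (CoVb.O j) || Nat.beq (CoVb.O j) 728931481559469994818216774992447021) 36864 4096 = true := by decide +kernel
theorem c10 : allB (fun j => Ta (CoVb.O j) || Tb (CoVb.O j) || Tc (CoVb.O j) || Td (CoVb.O j) || Te (CoVb.O j) || Nat.beq (CoVb.O j) 728931481559469994818216774992447021) 40960 4096 = true := by decide +kernel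
theorem c11 : allB (fun j => Ta (CoVb.O j) || Tb (CoVb.O j) || Tc (CoVb.O j) || Td (CoVb.O j) || Te (CoVb.O j) || Nat.beq (CoVb.O j) 728931481559469994818216774992447021) 45056 2048 = true := by decide +kernel

theorem cover_all : ∀ j < 47104, (Ta (CoVb.O j) || Tb (CoVb.O j) || Tc (CoVb.O j) || Td (CoVb.O j) || Te (CoVb.O j) || Nat.beq (CoVb.O j) 728931481559469994818216774992447021) = true := by
  intro i hi
  have h : ∀ q < 12, allB (fun j => Ta (CoVb.O j) || Tb (CoVb.O j) || Tc (CoVb.O j) || Td (CoVb.O j) || Te (CoVb.O j) || Nat.beq (CoVb.O j) 728931481559469994818216774992447021) (4096 * q) (min 4096 (47104 - 4096 * q)) = true := by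
    intro q hq
    interval_cases q
    exacts [c0, c1, c2, c3, c4, c5, c6, c7, c8, c9, c10, c11]
  have hq : i / 4096 < 12 := by omega
  exact allB_spec (h _ hq) i (Nat.mul_div_le i 4096) (by omega)

end Cfsg.Agent.H02.CoQg
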