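import Cfsg.Agent.Lib.H02.CoP
import Cfsg.Agent.Lib.H02.CoE

/-!
Counting by inner products, transfer along automorphisms, and orbits from trees.
-/

set_option autoImplicit false
set_option maxRecDepth 100000

namespace Cfsg.Agent.H02.CoR

open Cfsg Cfsg.Agent.H26.Leech Cfsg.Agent.H02.CoA Cfsg.Agent.H02.CoB Cfsg.Agent.H02.CoC
  Cfsg.Agent.H02.CoK Cfsg.Agent.H02.CoL Cfsg.Agent.H02.CoM Cfsg.Agent.H02.CoP
open Cfsg.Agent.H27.Golay hiding fld

/-! ### Sparse inner products -/

/-- A sparse sum of fields. -/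
def sp (A : List (ℕ × ℕ)) (P : ℕ) : ℕ :=
  match A with
  | [] => 0
  | a :: A => Nat.add (Nat.mul a.2 (fld P a.1)) (sp A P)

/-- The value of a sparse list at an index. -/
def look (A : List (ℕ × ℕ)) (j : ℕ) : ℕ :=
  match A with
  | [] => 0
  | a :: A => Nat.add (cond (Nat.beq a.1 j) a.2 0) (look A j)

/-- The total of a sparse list. -/
def tot (A : List (ℕ × ℕ)) : ℕ :=
  match A with
  | [] => 0
  | a :: A => a.2 + tot A

theorem sum_look (A : List (ℕ × ℕ)) (hA : A.all (fun a => Nat.blt a.1 24) = true) (P : ℕ) :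
    ∑ j ∈ Finset.range 24, (look A j : ℤ) * ((fld P j : ℤ) - 16) = (sp A P : ℤ) - 16 * (tot A : ℤ) := by
  induction A with
  | nil => simp [look, sp, tot]
  | cons a A ih =>
    simp only [List.all_cons, Bool.and_eq_true] at hA
    have h1 : a.1 < 24 := Nat.le_of_ble_eq_true hA.1
    have e : ∀ j, (look (a :: A) j : ℤ) * ((fld P j : ℤ) - 16) =
        (if j = a.1 then (a.2 : ℤ) * ((fld P a.1 : ℤ) - 16) else 0) + (look A j : ℤ) * ((fld P j : ℤ) - 16) := by
      intro j
      show ((cond (Nat.beq a.1 j) a.2 0 + look A j : ℕ) : ℤ) * _ = _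
      by_cases h : j = a.1
      · subst h
        rw [if_pos rfl]
        simp
        ring
      · rw [if_neg h]
        have : Nat.beq a.1 j = false :=
          Bool.eq_false_iff.mpr (fun e => h (Nat.eq_of_beq_eq_true e).symm)
        rw [this]
        simp
    simp only [e]
    rw [Finset.sum_add_distrib, ih hA.2, Finset.sum_ite_eq' (Finset.range 24) a.1]
    rw [if_pos (Finset.mem_range.mpr h1)]
    show _ = ((a.2 * fld P a.1 + sp A P : ℕ) : ℤ) - 16 * ((a.2 + tot A : ℕ) : ℤ)
    push_cast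
    ring

/-- An inner product through sparse lists. -/
theorem dot_sp {B : GolayPt → ℤ} {Ap An : List (ℕ × ℕ)}
    (hB : ∀ p, B p = (look Ap (idx p) : ℤ) - (look An (idx p) : ℤ))
    (hp : Ap.all (fun a => Nat.blt a.1 24) = true) (hn : An.all (fun a => Nat.blt a.1 24) = true) (P : ℕ) :
    dotInt B (dec P) = (sp Ap P : ℤ) - (sp An P : ℤ) - 16 * (tot Ap : ℤ) + 16 * (tot An : ℤ) := by
  unfold dotInt
  have e : ∀ p, B p * dec P p = (look Ap (idx p) : ℤ) * ((fld P (idx p) : ℤ) - 16) - (look An (idx p) : ℤ) * ((fld P (idx p) : ℤ) - 16) := by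
    intro p
    rw [hB]
    show _ * ((fld P (idx p) : ℤ) - 16) = _
    ring
  simp only [e]
  rw [Finset.sum_sub_distrib,
    sum_idx (fun j => (look Ap j : ℤ) * ((fld P j : ℤ) - 16)),
    sum_idx (fun j => (look An j : ℤ) * ((fld P j : ℤ) - 16)), sum_look Ap hp, sum_look An hn]
  ring

/-- The test for a value of an inner product. -/
def tEq (Ap An : List (ℕ × ℕ)) (K1 K2 : ℕ) (P : ℕ) : Bool :=
  Nat.beq (Nat.add (sp Ap P) K1) (Nat.add (sp An P) K2)

theorem tEq_iff {B : GolayPt → ℤ} {Ap An : List (ℕ × ℕ)} {K1 K2 : ℕ} {d : ℤ}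
    (hB : ∀ p, B p = (look Ap (idx p) : ℤ) - (look An (idx p) : ℤ))
    (hp : Ap.all (fun a => Nat.blt a.1 24) = true) (hn : An.all (fun a => Nat.blt a.1 24) = true)
    (hd : d - (K2 : ℤ) + (K1 : ℤ) = - 16 * (tot Ap : ℤ) + 16 * (tot An : ℤ)) (P : ℕ) :
    dotInt B (dec P) = d ↔ tEq Ap An K1 K2 P = true := by
  rw [dot_sp hB hp hn]
  show _ ↔ Nat.beq (sp Ap P + K1) (sp An P + K2) = true
  constructor
  · intro h
    have : sp Ap P + K1 = sp An P + K2 := by omega
    rw [this]
    exact Nat.beq_refl _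
  · intro h
    have := Nat.eq_of_beq_eq_true h
    omega

/-! ### Sets of lattice vectors -/

theorem ncard_val (C : (GolayPt → ℤ) → Prop) :
    {x : GolayPt → ℤ | x ∈ leechLattice ∧ sqNorm x = 32 ∧ C x}.ncard =
      {x : leechLattice | sqNorm x.1 = 32 ∧ C x.1}.ncard := by
  have e : {x : GolayPt → ℤ | x ∈ leechLattice ∧ sqNorm x = 32 ∧ C x} =
      Subtype.val '' {x : leechLattice | sqNorm x.1 = 32 ∧ C x.1} := by
    ext x
    constructor
    · rintro ⟨a, b, c⟩
      exact ⟨⟨x, a⟩, ⟨b, c⟩, rfl⟩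
    · rintro ⟨y, ⟨b, c⟩, rfl⟩
      exact ⟨y.2, b, c⟩
  rw [e]
  exact Set.ncard_image_of_injective _ Subtype.val_injective

/-- The count of minimal vectors with a condition. -/
theorem ncard_minS (T : ℕ → Bool) (C : (GolayPt → ℤ) → Prop) (hC : ∀ P, C (dec P) ↔ T P = true) :
    {x : leechLattice | sqNorm x.1 = 32 ∧ C x.1}.ncard = cntR (fun k => T (Tp k)) 0 196560 := by
  rw [← ncard_val]
  exact ncard_min T C hC

theorem smul_val (g : Co0) (x : leechLattice) : (g • x).1 = (g.1 x).1 := rfl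

theorem sqNorm_smul (g : Co0) (x : leechLattice) : sqNorm (g • x).1 = sqNorm x.1 := sqNorm_g g x

theorem dot_smul (g : Co0) (a b : leechLattice) : dotInt (g • a).1 (g • b).1 = dotInt a.1 b.1 := dot_g g a b

theorem ncard_g (g : Co0) (A B : Set leechLattice) (h : ∀ x, x ∈ A ↔ g • x ∈ B) : A.ncard = B.ncard := by
  have e : B = (fun x => g • x) '' A := by
    ext y
    constructor
    · intro hy
      refine ⟨g⁻¹ • y, (h _).mpr ?_, ?_⟩
      · simpa using hy
      · simp
    · rintro ⟨x, hx, rfl⟩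
      exact (h x).mp hx
  rw [e, Set.ncard_image_of_injective _ (MulAction.injective g)]

/-- The minimal vectors with a given inner product with a given vector. -/
def Dv (v : leechLattice) (d : ℤ) : Set leechLattice := {x | sqNorm x.1 = 32 ∧ dotInt v.1 x.1 = d}

theorem mem_Dv_smul (g : Co0) (v x : leechLattice) (d : ℤ) : x ∈ Dv v d ↔ g • x ∈ Dv (g • v) d := by
  show (_ ∧ _) ↔ (_ ∧ _)
  rw [sqNorm_smul, dot_smul]

theorem ncard_Dv_smul (g : Co0) (v : leechLattice) (d : ℤ) : (Dv (g • v) d).ncard = (Dv v d).ncard :=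
  (ncard_g g _ _ (fun x => mem_Dv_smul g v x d)).symm

/-! ### Automorphisms from words -/

/-- An automorphism fixes vectors given by packed codes. -/
def Fix (Us : List ℕ) (g : Co0) : Prop :=
  ∀ u : leechLattice, (∃ U ∈ Us, dec U = u.1) → sqNorm u.1 ≤ 64 → g • u = u

theorem Fix.one (Us : List ℕ) : Fix Us (1 : Co0) := fun _ _ _ => one_smul _ _

theorem Fix.mul {Us : List ℕ} {g h : Co0} (hg : Fix Us g) (hh : Fix Us h) : Fix Us (g * h) := by
  intro u hu hn
  rw [mul_smul, hh u hu hn, hg u hu hn]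

theorem Fix.inv {Us : List ℕ} {g : Co0} (hg : Fix Us g) : Fix Us g⁻¹ := by
  intro u hu hn
  rw [inv_smul_eq_iff, hg u hu hn]

/-- Validity of a list of generators. -/
def okGs (Gs : List (List Stp)) (Us : List ℕ) : Bool :=
  Gs.all (fun W => okW W && Us.all (fun U => Nat.beq (evalW W U) U))

theorem word_of_word {W : List Stp} {Us : List ℕ} (h1 : okW W = true)
    (h2 : Us.all (fun U => Nat.beq (evalW W U) U) = true) :
    ∃ g : Co0, Fix Us g ∧ ∀ (x : leechLattice) (P : ℕ), dec P = x.1 → sqNorm x.1 ≤ 64 → (g • x).1 = dec (evalW W P) := by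
  obtain ⟨g, hg⟩ := exists_word h1
  refine ⟨g, ?_, fun x P hP hn => hg x P hP hn⟩
  rintro u ⟨U, hU, he⟩ hn
  apply Subtype.ext
  have h3 := hg u U he hn
  rw [List.all_eq_true] at h2
  have h4 : evalW W U = U := Nat.eq_of_beq_eq_true (h2 U hU)
  rw [h4, he] at h3
  exact h3

theorem word_of_gs {Gs : List (List Stp)} {Us : List ℕ} (h : okGs Gs Us = true) (i : ℕ) :
    ∃ g : Co0, Fix Us g ∧ ∀ (x : leechLattice) (P : ℕ), dec P = x.1 → sqNorm x.1 ≤ 64 →
      (g • x).1 = dec (evalW (Gs.getD i []) P) := by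
  induction Gs generalizing i with
  | nil =>
    refine ⟨1, Fix.one Us, fun x P hP _ => ?_⟩
    have e : ([] : List (List Stp)).getD i [] = [] := by simp
    rw [e, one_smul]
    exact hP.symm
  | cons W Gs ih =>
    simp only [okGs, List.all_cons, Bool.and_eq_true] at h
    rcases i with _ | i
    · exact word_of_word h.1.1 h.1.2
    · have h' : okGs Gs Us = true := by
        simp only [okGs, List.all_eq_true, Bool.and_eq_true]
        simpa [List.all_eq_true] using h.2
      simpa using ih h' i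

/-! ### Orbits from trees -/

/-- The check of one entry of a tree. -/
def tchk (Gs : List (List Stp)) (O par gen lev : ℕ → ℕ) (b N j : ℕ) : Bool :=
  Nat.blt (par j) N &&
  ((Nat.beq (lev j) 0 && Nat.beq (O j) b) ||
    (Nat.beq (lev j) (Nat.add (lev (par j)) 1) && Nat.beq (evalW (Gs.getD (gen j) []) (O (par j))) (O j)))

theorem tree_reach {Gs : List (List Stp)} {Us : List ℕ} (hG : okGs Gs Us = true)
    {O par gen lev : ℕ → ℕ} {b0 N : ℕ} (hall : ∀ j < N, tchk Gs O par gen lev b0 N j = true)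
    (b : leechLattice) (hb : dec b0 = b.1) (hbn : sqNorm b.1 ≤ 64) :
    ∀ j < N, ∃ g : Co0, Fix Us g ∧ (g • b).1 = dec (O j) := by
  have key : ∀ n j, lev j = n → j < N → ∃ g : Co0, Fix Us g ∧ (g • b).1 = dec (O j) := by
    intro n
    induction n using Nat.strong_induction_on with
    | _ n ih =>
      intro j hj hjN
      have h := hall j hjN
      simp only [tchk, Bool.and_eq_true, Bool.or_eq_true] at h
      obtain ⟨h1, h2⟩ := h
      have hpar : par j < N := Nat.le_of_ble_eq_true h1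
      rcases h2 with ⟨_, h3⟩ | ⟨h3, h4⟩
      · have e := Nat.eq_of_beq_eq_true h3
        exact ⟨1, Fix.one Us, by rw [one_smul, e, hb]⟩
      · have e1 : lev j = lev (par j) + 1 := Nat.eq_of_beq_eq_true h3
        obtain ⟨g, hg, hgb⟩ := ih (lev (par j)) (by omega) (par j) rfl hpar
        obtain ⟨w, hw, hwx⟩ := word_of_gs hG (gen j)
        refine ⟨w * g, hw.mul hg, ?_⟩
        rw [mul_smul]
        have e2 := hwx (g • b) (O (par j)) hgb.symm (by rw [sqNorm_smul]; exact hbn)
        rw [e2, Nat.eq_of_beq_eq_true h4]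
  exact fun j hj => key _ j rfl hj

theorem lt_of_mono {O : ℕ → ℕ} {N : ℕ} (hm : ∀ j, j + 1 < N → O j < O (j + 1)) {a b : ℕ} (hab : a < b) (hb : b < N) :
    O a < O b := by
  induction b, hab using Nat.le_induction with
  | base => exact hm a hb
  | succ m hm' ih => exact lt_trans (ih (by omega)) (hm m hb)

theorem inj_of_mono {O : ℕ → ℕ} {N : ℕ} (hm : ∀ j, j + 1 < N → O j < O (j + 1)) (hlt : ∀ j, O j < 2 ^ 120)
    {a b : ℕ} (ha : a < N) (hb : b < N) (h : dec (O a) = dec (O b)) : a = b := by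
  have h1 := dec_inj (hlt a) (hlt b) h
  rcases Nat.lt_trichotomy a b with l | l | l
  · exact absurd h1 (ne_of_lt (lt_of_mono hm l hb))
  · exact l
  · exact absurd h1.symm (ne_of_lt (lt_of_mono hm l ha))

/-- A set of lattice vectors listed by a table. -/
def Tab (S : Set leechLattice) (O : ℕ → ℕ) (N : ℕ) : Prop :=
  (∀ x ∈ S, ∃ j < N, x.1 = dec (O j)) ∧ (∀ j < N, ∃ x ∈ S, x.1 = dec (O j))

/-- A tree and a count give the orbit. -/
theorem tree_main {Gs : List (List Stp)} {Us : List ℕ} (hG : okGs Gs Us = true)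
    {O par gen lev : ℕ → ℕ} {b0 N : ℕ} (hN : 0 < N) (hall : ∀ j < N, tchk Gs O par gen lev b0 N j = true)
    (hm : ∀ j, j + 1 < N → O j < O (j + 1)) (hlt : ∀ j, O j < 2 ^ 120)
    (b : leechLattice) (hb : dec b0 = b.1) (hbn : sqNorm b.1 ≤ 64)
    (S : Set leechLattice) (hS : S.ncard = N) (hinv : ∀ g : Co0, Fix Us g → g • b ∈ S) :
    Tab S O N ∧ ∀ x ∈ S, ∃ g : Co0, Fix Us g ∧ g • b = x := by
  classical
  have hr := tree_reach hG hall b hb hbn
  choose! g hg hgb using hr
  have hfin : S.Finite := Set.finite_of_ncard_ne_zero (by omega)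
  let Z : Set leechLattice := (fun j => g j • b) '' (↑(Finset.range N) : Set ℕ)
  have hZ : Z ⊆ S := by
    rintro _ ⟨j, hj, rfl⟩
    exact hinv _ (hg j (by simpa using hj))
  have hinj : Set.InjOn (fun j => g j • b) (↑(Finset.range N) : Set ℕ) := by
    intro a ha c hc h
    have ha' : a < N := by simpa using ha
    have hc' : c < N := by simpa using hc
    apply inj_of_mono hm hlt ha' hc'
    rw [← hgb a ha', ← hgb c hc']
    exact congrArg Subtype.val h
  have hcard : Z.ncard = N := by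
    show ((fun j => g j • b) '' (↑(Finset.range N) : Set ℕ)).ncard = N
    rw [hinj.ncard_image, Set.ncard_coe_finset, Finset.card_range]
  have e : Z = S := Set.eq_of_subset_of_ncard_le hZ (by rw [hS, hcard]) hfin
  refine ⟨⟨?_, ?_⟩, ?_⟩
  · intro x hx
    rw [← e] at hx
    obtain ⟨j, hj, rfl⟩ := hx
    have hj' : j < N := by simpa using hj
    exact ⟨j, hj', hgb j hj'⟩
  · intro j hj
    exact ⟨g j • b, hinv _ (hg j hj), hgb j hj⟩
  · intro x hx
    rw [← e] at hx
    obtain ⟨j, hj, rfl⟩ := hx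
    exact ⟨g j, hg j (by simpa using hj), rfl⟩

/-- Counting inside a set listed by a table. -/
theorem Tab.ncard_filter {S : Set leechLattice} {O : ℕ → ℕ} {N : ℕ} (h : Tab S O N)
    (hm : ∀ j, j + 1 < N → O j < O (j + 1)) (hlt : ∀ j, O j < 2 ^ 120)
    (T : ℕ → Bool) (C : leechLattice → Prop) (hC : ∀ (x : leechLattice) (P : ℕ), x.1 = dec P → (C x ↔ T P = true)) :
    {x | x ∈ S ∧ C x}.ncard = cntR (fun j => T (O j)) 0 N := by
  classical
  have h2 := h.2
  choose! f hf hfv using h2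
  have e : {x | x ∈ S ∧ C x} = f '' (↑((Finset.range N).filter (fun j => T (O (0 + j)) = true)) : Set ℕ) := by
    ext x
    constructor
    · rintro ⟨hx, hc⟩
      obtain ⟨j, hj, hjx⟩ := h.1 x hx
      refine ⟨j, ?_, ?_⟩
      · simp only [Finset.coe_filter, Finset.mem_range, zero_add]
        exact ⟨hj, (hC x _ hjx).mp hc⟩
      · apply Subtype.ext
        rw [hfv j hj, hjx]
    · rintro ⟨j, hj, rfl⟩
      simp only [Finset.coe_filter, Finset.mem_range, zero_add] at hj
      exact ⟨hf j hj.1, (hC _ _ (hfv j hj.1)).mpr hj.2⟩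
  rw [e, Set.InjOn.ncard_image, Set.ncard_coe_finset, cntR_eq]
  intro a ha c hc hac
  simp only [Finset.coe_filter, Finset.mem_range] at ha hc
  apply inj_of_mono hm hlt ha.1 hc.1
  rw [← hfv a ha.1, ← hfv c hc.1, hac]

/-- The check of one entry of a tree, with the order. -/
def tchk2 (Gs : List (List Stp)) (O par gen lev : ℕ → ℕ) (b N j : ℕ) : Bool :=
  tchk Gs O par gen lev b N j && (Nat.beq (j + 1) N || Nat.blt (O j) (O (j + 1)))

theorem of_tchk2 {Gs : List (List Stp)} {O par gen lev : ℕ → ℕ} {b N : ℕ} (h : ∀ j < N, tchk2 Gs O par gen lev b N j = true) :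
    (∀ j < N, tchk Gs O par gen lev b N j = true) ∧ ∀ j, j + 1 < N → O j < O (j + 1) := by
  constructor
  · intro j hj
    have := h j hj
    simp only [tchk2, Bool.and_eq_true] at this
    exact this.1
  · intro j hj
    have := h j (by omega)
    simp only [tchk2, Bool.and_eq_true, Bool.or_eq_true] at this
    rcases this.2 with e | e
    · have := Nat.eq_of_beq_eq_true e
      omega
    · exact Nat.le_of_ble_eq_true e

end Cfsg.Agent.H02.CoR
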