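import Cfsg.Agent.Lib.H02.CoYL
import Cfsg.Agent.Lib.H02.CoYd
import Cfsg.Agent.Lib.H02.CoYe
import Cfsg.Agent.Lib.H02.CoYf
import Cfsg.Agent.Lib.H02.CoYg

/-!
The action on the 11178 minimal vectors with rank five.
-/

set_option autoImplicit false
set_option maxRecDepth 100000

namespace Cfsg.Agent.H02.CoYO

open Cfsg Cfsg.Agent.H26.Leech Cfsg.Agent.H02.CoK Cfsg.Agent.H02.CoM Cfsg.Agent.H02.CoP Cfsg.Agent.H02.CoR
  Cfsg.Agent.H02.CoD Cfsg.Agent.H02.CoE Cfsg.Agent.H02.CoU Cfsg.Agent.H02.CoW Cfsg.Agent.H02.CoXL Cfsg.Agent.H02.CoYL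
open Cfsg.Agent.H27.Golay hiding fld

/-- An orbit described by an inner product. -/
theorem orbit_eq {H : Subgroup Co0} {y : leechLattice} {B : Set leechLattice}
    (h1 : ∀ h ∈ H, h • y ∈ B) (h2 : ∀ y' ∈ B, ∃ h ∈ H, h • y = y') : MulAction.orbit H y = B := by
  ext y'
  constructor
  · rintro ⟨⟨h, hh⟩, rfl⟩
    exact h1 h hh
  · intro hy
    obtain ⟨h, hh, e⟩ := h2 y' hy
    exact ⟨⟨h, hh⟩, e⟩

/-- The sets of vectors by inner product with `z`. -/
def AA (d : ℤ) : Set leechLattice := {y | y ∈ Dv uE (-16) ∧ dotInt zL.1 y.1 = d}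

theorem AA_inv {k : Co0} (h1 : k • uE = uE) (h2 : k • zL = zL) {d : ℤ} {y : leechLattice} (hy : y ∈ AA d) : k • y ∈ AA d := by
  refine ⟨?_, ?_⟩
  · have := (mem_Dv_smul k uE y (-16)).mp hy.1
    rwa [h1] at this
  · have := dot_smul k zL y
    rw [h2] at this
    rw [this]
    exact hy.2

theorem tab11178 : Tab (Dv uE (-16)) CoVe.O 11178 := by
  have hb : mkL CoVe.b0 Cfsg.Agent.S1640.hb ∈ Dv uE (-16) :=
    ⟨sq_mkL _ _, (tEq_iff hBE rfl rfl (by norm_num [tot]) _).mpr Cfsg.Agent.S1640.hd0⟩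
  have hinv : ∀ g : Co0, Fix CoVe.Us g → g • mkL CoVe.b0 Cfsg.Agent.S1640.hb ∈ Dv uE (-16) := by
    intro g hg
    have := (mem_Dv_smul g uE _ (-16)).mp hb
    rwa [fix_one dec_PE (by rw [sq_uE]; norm_num) g hg] at this
  exact (CoVe.main (mkL _ Cfsg.Agent.S1640.hb) rfl (by rw [sq_mkL]; norm_num) _ ncard_E16 hinv).1

/-- The test of the inner product -8 with `z`. -/
def Ta (P : ℕ) : Bool := tEq [] [(4, 4), (18, 4)] 136 0 P

theorem iffa (x : leechLattice) (P : ℕ) (hx : x.1 = dec P) : dotInt zL.1 x.1 = (-8) ↔ Ta P = true := by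
  rw [hx]
  exact tEq_iff hBz rfl rfl (by norm_num [tot]) P

theorem cnta : cntR (fun j => Ta (CoVe.O j)) 0 11178 = 352 := by
  have h : ∀ a m v, cntR (fun j => Ta (CoVe.O j)) a m = v → cntR (fun j => Ta (CoVe.O j)) a m = v := fun _ _ _ h => h
  decide +kernel

theorem ncarda : (AA (-8)).ncard = 352 := by
  have h := Tab.ncard_filter tab11178 (of_tchk2 CoVe.all_ok).2 CoVe.O_lt Ta (fun x => dotInt zL.1 x.1 = (-8)) iffa
  rw [cnta] at h
  exact h

theorem oka : okP CoYd.b0 = true := by decide +kernel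

/-- A root. -/
def ra : leechLattice := mkL CoYd.b0 oka

theorem ra_mem : ra ∈ AA (-8) :=
  ⟨⟨sq_mkL _ _, (tEq_iff hBE rfl rfl (by norm_num [tot]) _).mpr (by decide +kernel : CoT.TE16 CoYd.b0 = true)⟩,
    (iffa _ _ rfl).mpr (by decide +kernel)⟩

theorem orba : ∀ a ∈ AA (-8), ∃ k : Co0, k • uE = uE ∧ k • zL = zL ∧ k • ra = a := by
  have hm := (CoYd.main ra rfl (by rw [show sqNorm ra.1 = 32 from sq_mkL _ _]; norm_num) (AA (-8)) ncarda ?_).2
  · intro a ha
    obtain ⟨k, hk, e⟩ := hm a ha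
    obtain ⟨f1, -, f3⟩ := fixUs _ (by decide) (by decide) (by decide) hk
    exact ⟨k, f1, f3, e⟩
  · intro g hg
    obtain ⟨f1, -, f3⟩ := fixUs _ (by decide) (by decide) (by decide) hg
    exact AA_inv f1 f3 ra_mem

/-- The test of the inner product 16 with `z`. -/
def Tb (P : ℕ) : Bool := tEq [] [(4, 4), (18, 4)] 112 0 P

theorem iffb (x : leechLattice) (P : ℕ) (hx : x.1 = dec P) : dotInt zL.1 x.1 = (16) ↔ Tb P = true := by
  rw [hx]
  exact tEq_iff hBz rfl rfl (by norm_num [tot]) P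

theorem cntb : cntR (fun j => Tb (CoVe.O j)) 0 11178 = 1100 := by
  have h : ∀ a m v, cntR (fun j => Tb (CoVe.O j)) a m = v → cntR (fun j => Tb (CoVe.O j)) a m = v := fun _ _ _ h => h
  decide +kernel

theorem ncardb : (AA (16)).ncard = 1100 := by
  have h := Tab.ncard_filter tab11178 (of_tchk2 CoVe.all_ok).2 CoVe.O_lt Tb (fun x => dotInt zL.1 x.1 = (16)) iffb
  rw [cntb] at h
  exact h

theorem okb : okP CoYe.b0 = true := by decide +kernel

/-- A root. -/
def rb : leechLattice := mkL CoYe.b0 okb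

theorem rb_mem : rb ∈ AA (16) :=
  ⟨⟨sq_mkL _ _, (tEq_iff hBE rfl rfl (by norm_num [tot]) _).mpr (by decide +kernel : CoT.TE16 CoYe.b0 = true)⟩,
    (iffb _ _ rfl).mpr (by decide +kernel)⟩

theorem orbb : ∀ a ∈ AA (16), ∃ k : Co0, k • uE = uE ∧ k • zL = zL ∧ k • rb = a := by
  have hm := (CoYe.main rb rfl (by rw [show sqNorm rb.1 = 32 from sq_mkL _ _]; norm_num) (AA (16)) ncardb ?_).2
  · intro a ha
    obtain ⟨k, hk, e⟩ := hm a ha
    obtain ⟨f1, -, f3⟩ := fixUs _ (by decide) (by decide) (by decide) hk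
    exact ⟨k, f1, f3, e⟩
  · intro g hg
    obtain ⟨f1, -, f3⟩ := fixUs _ (by decide) (by decide) (by decide) hg
    exact AA_inv f1 f3 rb_mem

/-- The test of the inner product 0 with `z`. -/
def Tc (P : ℕ) : Bool := tEq [] [(4, 4), (18, 4)] 128 0 P

theorem iffc (x : leechLattice) (P : ℕ) (hx : x.1 = dec P) : dotInt zL.1 x.1 = (0) ↔ Tc P = true := by
  rw [hx]
  exact tEq_iff hBz rfl rfl (by norm_num [tot]) P

theorem cntc : cntR (fun j => Tc (CoVe.O j)) 0 11178 = 4125 := by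
  have h : ∀ a m v, cntR (fun j => Tc (CoVe.O j)) a m = v → cntR (fun j => Tc (CoVe.O j)) a m = v := fun _ _ _ h => h
  decide +kernel

theorem ncardc : (AA (0)).ncard = 4125 := by
  have h := Tab.ncard_filter tab11178 (of_tchk2 CoVe.all_ok).2 CoVe.O_lt Tc (fun x => dotInt zL.1 x.1 = (0)) iffc
  rw [cntc] at h
  exact h

theorem okc : okP CoYf.b0 = true := by decide +kernel

/-- A root. -/
def rc : leechLattice := mkL CoYf.b0 okc

theorem rc_mem : rc ∈ AA (0) :=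
  ⟨⟨sq_mkL _ _, (tEq_iff hBE rfl rfl (by norm_num [tot]) _).mpr (by decide +kernel : CoT.TE16 CoYf.b0 = true)⟩,
    (iffc _ _ rfl).mpr (by decide +kernel)⟩

theorem orbc : ∀ a ∈ AA (0), ∃ k : Co0, k • uE = uE ∧ k • zL = zL ∧ k • rc = a := by
  have hm := (CoYf.main rc rfl (by rw [show sqNorm rc.1 = 32 from sq_mkL _ _]; norm_num) (AA (0)) ncardc ?_).2
  · intro a ha
    obtain ⟨k, hk, e⟩ := hm a ha
    obtain ⟨f1, -, f3⟩ := fixUs _ (by decide) (by decide) (by decide) hk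
    exact ⟨k, f1, f3, e⟩
  · intro g hg
    obtain ⟨f1, -, f3⟩ := fixUs _ (by decide) (by decide) (by decide) hg
    exact AA_inv f1 f3 rc_mem

/-- The test of the inner product 8 with `z`. -/
def Td (P : ℕ) : Bool := tEq [] [(4, 4), (18, 4)] 120 0 P

theorem iffd (x : leechLattice) (P : ℕ) (hx : x.1 = dec P) : dotInt zL.1 x.1 = (8) ↔ Td P = true := by
  rw [hx]
  exact tEq_iff hBz rfl rfl (by norm_num [tot]) P

theorem cntd : cntR (fun j => Td (CoVe.O j)) 0 11178 = 5600 := by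
  have h : ∀ a m v, cntR (fun j => Td (CoVe.O j)) a m = v → cntR (fun j => Td (CoVe.O j)) a m = v := fun _ _ _ h => h
  decide +kernel

theorem ncardd : (AA (8)).ncard = 5600 := by
  have h := Tab.ncard_filter tab11178 (of_tchk2 CoVe.all_ok).2 CoVe.O_lt Td (fun x => dotInt zL.1 x.1 = (8)) iffd
  rw [cntd] at h
  exact h

theorem okd : okP CoYg.b0 = true := by decide +kernel

/-- A root. -/
def rd : leechLattice := mkL CoYg.b0 okd

theorem rd_mem : rd ∈ AA (8) :=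
  ⟨⟨sq_mkL _ _, (tEq_iff hBE rfl rfl (by norm_num [tot]) _).mpr (by decide +kernel : CoT.TE16 CoYg.b0 = true)⟩,
    (iffd _ _ rfl).mpr (by decide +kernel)⟩

theorem orbd : ∀ a ∈ AA (8), ∃ k : Co0, k • uE = uE ∧ k • zL = zL ∧ k • rd = a := by
  have hm := (CoYg.main rd rfl (by rw [show sqNorm rd.1 = 32 from sq_mkL _ _]; norm_num) (AA (8)) ncardd ?_).2
  · intro a ha
    obtain ⟨k, hk, e⟩ := hm a ha
    obtain ⟨f1, -, f3⟩ := fixUs _ (by decide) (by decide) (by decide) hk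
    exact ⟨k, f1, f3, e⟩
  · intro g hg
    obtain ⟨f1, -, f3⟩ := fixUs _ (by decide) (by decide) (by decide) hg
    exact AA_inv f1 f3 rd_mem

theorem coverT : allB (fun j => Ta (CoVe.O j) || Tb (CoVe.O j) || Tc (CoVe.O j) || Td (CoVe.O j) || Nat.beq (CoVe.O j) Pz) 0 11178 = true := by
  decide +kernel

theorem cover {y : leechLattice} (hy : y ∈ Dv uE (-16)) :
    y = zL ∨ y ∈ AA (-8) ∨ y ∈ AA 16 ∨ y ∈ AA 0 ∨ y ∈ AA 8 := by
  obtain ⟨j, hj, e⟩ := tab11178.1 y hy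
  have h := allB_spec coverT j (by omega) (by omega)
  simp only [Bool.or_eq_true] at h
  rcases h with (((h | h) | h) | h) | h
  · exact Or.inr (Or.inl ⟨hy, (iffa y _ e).mpr h⟩)
  · exact Or.inr (Or.inr (Or.inl ⟨hy, (iffb y _ e).mpr h⟩))
  · exact Or.inr (Or.inr (Or.inr (Or.inl ⟨hy, (iffc y _ e).mpr h⟩)))
  · exact Or.inr (Or.inr (Or.inr (Or.inr ⟨hy, (iffd y _ e).mpr h⟩)))
  · left
    apply Subtype.ext
    rw [e, Nat.eq_of_beq_eq_true h]
    rfl

/-- The orbit of the image of a root. -/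
theorem orbit_gen (u x : leechLattice) {g : Co0} (hu : g • u = uE) (hx : g • x = zL) {d : ℤ} {r : leechLattice}
    (hr : r ∈ AA d) (ho : ∀ a ∈ AA d, ∃ k : Co0, k • uE = uE ∧ k • zL = zL ∧ k • r = a) :
    MulAction.orbit (↥(MulAction.stabilizer Co0 u ⊓ MulAction.stabilizer Co0 x)) (g⁻¹ • r) =
      {y | y ∈ Dv u (-16) ∧ dotInt x.1 y.1 = d} := by
  have hm : ∀ y, y ∈ {y | y ∈ Dv u (-16) ∧ dotInt x.1 y.1 = d} ↔ g • y ∈ AA d := by
    intro y
    show (_ ∧ _) ↔ (_ ∧ _)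
    have := mem_Dv_smul g u y (-16)
    rw [hu] at this
    rw [this, ← hx, dot_smul]
  have hr' : g⁻¹ • r ∈ {y | y ∈ Dv u (-16) ∧ dotInt x.1 y.1 = d} := by
    rw [hm, smul_inv_smul]
    exact hr
  apply orbit_eq
  · rintro h ⟨h1, h2⟩
    have h1' : h • u = u := h1
    have h2' : h • x = x := h2
    refine ⟨?_, ?_⟩
    · have := (mem_Dv_smul h u _ (-16)).mp hr'.1
      rwa [h1'] at this
    · have := dot_smul h x (g⁻¹ • r)
      rw [h2'] at this
      rw [this]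
      exact hr'.2
  · intro y' hy'
    obtain ⟨k, k1, k2, k3⟩ := ho _ ((hm y').mp hy')
    refine ⟨g⁻¹ * k * g, ⟨conj_fix hu k1, conj_fix hx k2⟩, ?_⟩
    rw [mul_smul, mul_smul, smul_inv_smul, k3, inv_smul_smul]

/-- The rank five action. -/
theorem main (u x : leechLattice) (hu : sqNorm u.1 = 48) (hx : x ∈ Dv u (-16)) :
    ∃ y₁ ∈ Dv u (-16), ∃ y₂ ∈ Dv u (-16), ∃ y₃ ∈ Dv u (-16), ∃ y₄ ∈ Dv u (-16),
      (MulAction.orbit (↥(MulAction.stabilizer Co0 u ⊓ MulAction.stabilizer Co0 x)) y₁).ncard = 352 ∧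
      (MulAction.orbit (↥(MulAction.stabilizer Co0 u ⊓ MulAction.stabilizer Co0 x)) y₂).ncard = 1100 ∧
      (MulAction.orbit (↥(MulAction.stabilizer Co0 u ⊓ MulAction.stabilizer Co0 x)) y₃).ncard = 4125 ∧
      (MulAction.orbit (↥(MulAction.stabilizer Co0 u ⊓ MulAction.stabilizer Co0 x)) y₄).ncard = 5600 ∧
      Dv u (-16) = {x} ∪ MulAction.orbit (↥(MulAction.stabilizer Co0 u ⊓ MulAction.stabilizer Co0 x)) y₁ ∪
        MulAction.orbit (↥(MulAction.stabilizer Co0 u ⊓ MulAction.stabilizer Co0 x)) y₂ ∪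
        MulAction.orbit (↥(MulAction.stabilizer Co0 u ⊓ MulAction.stabilizer Co0 x)) y₃ ∪
        MulAction.orbit (↥(MulAction.stabilizer Co0 u ⊓ MulAction.stabilizer Co0 x)) y₄ := by
  obtain ⟨g0, hg0⟩ := exists_to_uE u hu
  have h1 := (mem_Dv_smul g0 u x (-16)).mp hx
  rw [hg0] at h1
  obtain ⟨h, hf, he⟩ := Cfsg.Agent.S1640.orb _ h1 _ z_mem
  let g : Co0 := h * g0
  have hu' : g • u = uE := by
    show (h * g0) • u = _
    rw [mul_smul, hg0, hf]
  have hx' : g • x = zL := by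
    show (h * g0) • x = _
    rw [mul_smul, he]
  have hm : ∀ y, y ∈ Dv u (-16) ↔ g • y ∈ Dv uE (-16) := by
    intro y
    have := mem_Dv_smul g u y (-16)
    rwa [hu'] at this
  have hB : ∀ d : ℤ, ∀ y, y ∈ {y | y ∈ Dv u (-16) ∧ dotInt x.1 y.1 = d} ↔ g • y ∈ AA d := by
    intro d y
    show (_ ∧ _) ↔ (_ ∧ _)
    rw [hm, ← hx', dot_smul]
  have ea := orbit_gen u x hu' hx' ra_mem orba
  have eb := orbit_gen u x hu' hx' rb_mem orbb
  have ec := orbit_gen u x hu' hx' rc_mem orbc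
  have ed := orbit_gen u x hu' hx' rd_mem orbd
  have hDv : ∀ d : ℤ, ∀ {r : leechLattice}, r ∈ AA d → g⁻¹ • r ∈ Dv u (-16) := by
    intro d r hr
    rw [hm, smul_inv_smul]
    exact hr.1
  refine ⟨g⁻¹ • ra, hDv _ ra_mem, g⁻¹ • rb, hDv _ rb_mem, g⁻¹ • rc, hDv _ rc_mem, g⁻¹ • rd, hDv _ rd_mem, ?_, ?_, ?_, ?_, ?_⟩
  · rw [ea]
    exact (ncard_g g _ _ (hB _)).trans ncarda
  · rw [eb]
    exact (ncard_g g _ _ (hB _)).trans ncardb
  · rw [ec]
    exact (ncard_g g _ _ (hB _)).trans ncardc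
  · rw [ed]
    exact (ncard_g g _ _ (hB _)).trans ncardd
  · rw [ea, eb, ec, ed]
    ext y
    constructor
    · intro hy
      rcases cover ((hm y).mp hy) with e | e | e | e | e
      · left; left; left; left
        rw [← hx'] at e
        exact MulAction.injective g e
      · left; left; left; right
        exact (hB _ y).mpr e
      · left; left; right
        exact (hB _ y).mpr e
      · left; right
        exact (hB _ y).mpr e
      · right
        exact (hB _ y).mpr e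
    · rintro (((( e | e) | e) | e) | e)
      · rw [Set.mem_singleton_iff.mp e]
        exact hx
      · exact e.1
      · exact e.1
      · exact e.1
      · exact e.1

end Cfsg.Agent.H02.CoYO
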