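import Cfsg.Agent.Lib.H02.CoSH
import Cfsg.Agent.Lib.H02.CoYO

/-!
Simplicity of the stabiliser of a vector of norm 6.
-/

set_option autoImplicit false
set_option maxRecDepth 100000

namespace Cfsg.Agent.H02.CoSC3

open Cfsg Cfsg.Agent.H26.Leech Cfsg.Agent.H02.CoA Cfsg.Agent.H02.CoB Cfsg.Agent.H02.CoK Cfsg.Agent.H02.CoM
  Cfsg.Agent.H02.CoP Cfsg.Agent.H02.CoR Cfsg.Agent.H02.CoD Cfsg.Agent.H02.CoE Cfsg.Agent.H02.CoU Cfsg.Agent.H02.CoW
  Cfsg.Agent.H02.CoOrd Cfsg.Agent.H02.CoSm Cfsg.Agent.H02.CoYL Cfsg.Agent.H02.CoYO Cfsg.Agent.H02.CoSH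
open Cfsg.Agent.H27.Golay hiding fld
open MulAction

/-- Groups of order `2 m` with `m` a product of powers of two odd primes are solvable. -/
theorem solv_two_mul {G : Type*} [Group G] [Finite G] {p q a b : ℕ} (hp : p.Prime) (hq : q.Prime) (hp2 : p ≠ 2) (hq2 : q ≠ 2)
    (hc : Nat.card G = 2 * (p ^ a * q ^ b)) : Group.IsSolvable G := by
  classical
  haveI : Fact (Nat.Prime 2) := ⟨Nat.prime_two⟩
  have hodd : ¬ 2 ∣ p ^ a * q ^ b := by
    rw [Nat.Prime.dvd_mul Nat.prime_two]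
    rintro (h | h)
    · exact hp2 ((Nat.prime_dvd_prime_iff_eq Nat.prime_two hp).mp (Nat.prime_two.dvd_of_dvd_pow h)).symm
    · exact hq2 ((Nat.prime_dvd_prime_iff_eq Nat.prime_two hq).mp (Nat.prime_two.dvd_of_dvd_pow h)).symm
  obtain ⟨P⟩ : Nonempty (Sylow 2 G) := inferInstance
  have hPc : Nat.card P = 2 := by
    rw [P.card_eq_multiplicity, hc, Nat.factorization_mul (by norm_num) (by
      intro h
      rw [h] at hodd
      exact hodd (dvd_zero _)), Finsupp.add_apply, Nat.Prime.factorization_self Nat.prime_two,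
      Nat.factorization_eq_zero_of_not_dvd hodd]
    norm_num
  have hP : Subgroup.normalizer (P : Set G) ≤ Subgroup.centralizer (P : Set G) := by
    intro g hg
    rw [Subgroup.mem_centralizer_iff]
    intro t ht
    by_cases ht1 : t = 1
    · simp [ht1]
    have h1 : g * t * g⁻¹ ∈ (P : Subgroup G) := (Subgroup.mem_normalizer_iff.mp hg t).mp ht
    have h2 : g * t * g⁻¹ ≠ 1 := by
      intro e
      apply ht1
      have := congrArg (fun z => g⁻¹ * z * g) e
      simpa [mul_assoc] using this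
    obtain ⟨x, y, hxy, hall⟩ := Nat.card_eq_two_iff.mp hPc
    have h3 : (⟨t, ht⟩ : (P : Subgroup G)) ≠ 1 := fun e => ht1 (congrArg Subtype.val e)
    have h4 : (⟨_, h1⟩ : (P : Subgroup G)) ≠ 1 := fun e => h2 (congrArg Subtype.val e)
    have h5 : (⟨t, ht⟩ : (P : Subgroup G)) = ⟨_, h1⟩ := by
      have h6 : ∀ z : (P : Subgroup G), z ≠ 1 → (x = 1 ∧ z = y) ∨ (y = 1 ∧ z = x) := by
        intro z hz
        have hz' : z ∈ ({x, y} : Set (P : Subgroup G)) := by rw [hall]; trivial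
        have h1' : (1 : (P : Subgroup G)) ∈ ({x, y} : Set (P : Subgroup G)) := by rw [hall]; trivial
        simp only [Set.mem_insert_iff, Set.mem_singleton_iff] at hz' h1'
        rcases hz' with e | e <;> rcases h1' with e' | e'
        · exact absurd (e.trans e'.symm) hz
        · exact Or.inr ⟨e'.symm, e⟩
        · exact Or.inl ⟨e'.symm, e⟩
        · exact absurd (e.trans e'.symm) hz
      rcases h6 _ h3 with ⟨a1, a2⟩ | ⟨a1, a2⟩ <;> rcases h6 _ h4 with ⟨b1, b2⟩ | ⟨b1, b2⟩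
      · rw [a2, b2]
      · exact absurd (a1.trans b1.symm) hxy
      · exact absurd (b1.trans a1.symm) hxy
      · rw [a2, b2]
    have h7 : t = g * t * g⁻¹ := congrArg Subtype.val h5
    rw [eq_mul_inv_iff_mul_eq] at h7
    exact h7
  let f := MonoidHom.transferSylow P hP
  have hcomp := MonoidHom.ker_transferSylow_isComplement' P hP
  have hK : Nat.card f.ker = p ^ a * q ^ b := by
    have h1 := hcomp.card_mul
    rw [hPc, hc] at h1
    have h2 : Nat.card f.ker * 2 = 2 * (p ^ a * q ^ b) := h1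
    omega
  haveI : Group.IsSolvable f.ker := Cfsg.Agent.Lead.burnside_two_prime p q a b hp hq hK
  haveI : Group.IsSolvable P := Cfsg.Agent.Lead.burnside_two_prime 2 3 1 0 (by norm_num) (by norm_num) (by rw [hPc]; norm_num)
  exact solvable_of_ker_le_range f.ker.subtype f (by rw [Subgroup.range_subtype])

/-- The values of the inner products. -/
def ds (i : ℕ) : ℤ := if i = 0 then -8 else if i = 1 then 16 else if i = 2 then 0 else 8

/-- The sizes. -/
def ss (i : ℕ) : ℕ := if i = 0 then 352 else if i = 1 then 1100 else if i = 2 then 4125 else 5600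

theorem ncardA (i : ℕ) (hi : i < 4) : (AA (ds i)).ncard = ss i := by
  interval_cases i
  · exact ncarda
  · exact ncardb
  · exact ncardc
  · exact ncardd

theorem transA (i : ℕ) (hi : i < 4) : ∀ a ∈ AA (ds i), ∀ a' ∈ AA (ds i), ∃ k : Co0, k • uE = uE ∧ k • zL = zL ∧ k • a = a' := by
  have key : ∀ (d : ℤ) (r : leechLattice), (∀ a ∈ AA d, ∃ k : Co0, k • uE = uE ∧ k • zL = zL ∧ k • r = a) →
      ∀ a ∈ AA d, ∀ a' ∈ AA d, ∃ k : Co0, k • uE = uE ∧ k • zL = zL ∧ k • a = a' := by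
    intro d r h a ha a' ha'
    obtain ⟨k1, p1, p2, rfl⟩ := h a ha
    obtain ⟨k2, q1, q2, rfl⟩ := h a' ha'
    refine ⟨k2 * k1⁻¹, ?_, ?_, ?_⟩
    · rw [mul_smul, inv_smul_eq_iff.mpr p1.symm, q1]
    · rw [mul_smul, inv_smul_eq_iff.mpr p2.symm, q2]
    · rw [mul_smul, inv_smul_smul]
  interval_cases i
  · exact key _ _ orba
  · exact key _ _ orbb
  · exact key _ _ orbc
  · exact key _ _ orbd

theorem co3_simple (u : leechLattice) (hu : sqNorm u.1 = 48) : IsSimpleGroup ↥(St u) := by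
  haveI : Finite Co0 := Nat.finite_of_card_ne_zero (by rw [CoH.card_Co0]; norm_num)
  have hn := ncard_u16 u hu
  have hfin : (Dv u (-16)).Finite := Set.finite_of_ncard_ne_zero (by rw [hn]; norm_num)
  obtain ⟨x, hx⟩ : (Dv u (-16)).Nonempty := Set.nonempty_of_ncard_ne_zero (by rw [hn]; norm_num)
  have htr := (Cfsg.Agent.S1640.result u hu).2
  obtain ⟨g0, hg0⟩ := exists_to_uE u hu
  have h1 := (mem_Dv_smul g0 u x (-16)).mp hx
  rw [hg0] at h1
  obtain ⟨h, hf, he⟩ := Cfsg.Agent.S1640.orb _ h1 _ z_mem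
  let g : Co0 := h * g0
  have hu' : g • u = uE := by
    show (h * g0) • u = _
    rw [mul_smul, hg0, hf]
  have hx' : g • x = zL := by
    show (h * g0) • x = _
    rw [mul_smul, he]
  have hm : ∀ y, y ∈ Dv u (-16) ↔ g • y ∈ Dv uE (-16) := by
    intro y
    have := mem_Dv_smul g u y (-16)
    rwa [hu'] at this
  have hB : ∀ d : ℤ, ∀ y, y ∈ {y | y ∈ Dv u (-16) ∧ dotInt x.1 y.1 = d} ↔ g • y ∈ AA d := by
    intro d y
    show (_ ∧ _) ↔ (_ ∧ _)
    rw [hm, ← hx', dot_smul]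
  have hxx : dotInt x.1 x.1 = 32 := by rw [CoOrd.dot_self, hx.1]
  have hw48 : sqNorm (-u - x : leechLattice).1 = 48 := by
    rw [CoOrd.sq_neg_sub, hu, hx.1, hx.2]
    norm_num
  have huw : dotInt u.1 (-u - x : leechLattice).1 = -32 := by
    rw [CoOrd.dot_neg_sub, hu, hx.2]
    norm_num
  have hS : IsSimpleGroup ↥(St u ⊓ St x) := by
    rw [St_inf_neg u x]
    exact hs_simple u _ hu hw48 huw
  refine simple_of_data (St u) x (Dv u (-16)) hx ?_ ?_ hfin hS 4
    (fun i => {y | y ∈ Dv u (-16) ∧ dotInt x.1 y.1 = ds i}) ss ?_ ?_ ?_ ?_ ?_ ?_ ?_ ⟨0, by norm_num, by decide⟩ ?_ ?_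
  · intro g hg
    have := (mem_Dv_smul g u x (-16)).mp hx
    rwa [show g • u = u from hg] at this
  · intro y hy
    obtain ⟨g, a, b⟩ := htr x hx y hy
    exact ⟨g, a, b⟩
  · intro i _ y hy
    exact hy.1
  · intro i hi
    rintro ⟨-, h⟩
    rw [hxx] at h
    interval_cases i <;> simp [ds] at h
  · intro i hi j hj hij
    rw [Set.disjoint_left]
    rintro a ⟨-, h1⟩ ⟨-, h2⟩
    rw [h1] at h2
    interval_cases i <;> interval_cases j <;> simp_all [ds]
  · intro y hy
    rcases cover ((hm y).mp hy) with e | e | e | e | e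
    · left
      rw [← hx'] at e
      exact MulAction.injective g e
    · exact Or.inr ⟨0, by norm_num, (hB _ y).mpr e⟩
    · exact Or.inr ⟨1, by norm_num, (hB _ y).mpr e⟩
    · exact Or.inr ⟨2, by norm_num, (hB _ y).mpr e⟩
    · exact Or.inr ⟨3, by norm_num, (hB _ y).mpr e⟩
  · intro i hi a ha a' ha'
    obtain ⟨k, k1, k2, k3⟩ := transA i hi _ ((hB _ a).mp ha) _ ((hB _ a').mp ha')
    refine ⟨g⁻¹ * k * g, ⟨?_, ?_⟩, ?_⟩
    · exact CoXL.conj_fix hu' k1
    · exact CoXL.conj_fix hx' k2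
    · exact CoXL.conj_map k3
  · intro i hi
    exact (ncard_g g _ _ (hB _)).trans (ncardA i hi)
  · rw [hn]
    decide +kernel
  · rw [hn]
    exact not_primePow (p := 2) (q := 3) (by norm_num) (by norm_num) (by norm_num) (by norm_num) (by norm_num)
  · intro N hN
    rw [hn] at hN
    exact solv_two_mul (p := 3) (q := 23) (a := 5) (b := 1) (by norm_num) (by norm_num) (by norm_num) (by norm_num) (by rw [hN]; norm_num)

/-- The group is simple of the stated order. -/
theorem main (u : leechLattice) (hu : sqNorm u.1 = 48) : IsCo3 ↥(St u) :=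
  ⟨co3_simple u hu, card_St48 u hu⟩

end Cfsg.Agent.H02.CoSC3
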