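import Cfsg.Agent.Lib.H02.CoYL
import Cfsg.Agent.Lib.H02.CoYb
import Cfsg.Agent.Lib.H02.CoYc

/-!
The rank three action on the 100 minimal vectors.
-/

set_option autoImplicit false
set_option maxRecDepth 100000

namespace Cfsg.Agent.H02.CoYM

open Cfsg Cfsg.Agent.H26.Leech Cfsg.Agent.H02.CoK Cfsg.Agent.H02.CoM Cfsg.Agent.H02.CoP Cfsg.Agent.H02.CoR
  Cfsg.Agent.H02.CoD Cfsg.Agent.H02.CoE Cfsg.Agent.H02.CoU Cfsg.Agent.H02.CoW Cfsg.Agent.H02.CoXL Cfsg.Agent.H02.CoYL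
open Cfsg.Agent.H27.Golay hiding fld

/-- A test. -/
def T8 (P : ℕ) : Bool := tEq [(1, 2), (2, 2), (3, 2), (5, 2), (14, 2), (17, 2)] [(0, 2), (23, 2)] 0 136 P

/-- A test. -/
def T16 (P : ℕ) : Bool := tEq [(1, 2), (2, 2), (3, 2), (5, 2), (14, 2), (17, 2)] [(0, 2), (23, 2)] 0 144 P

theorem hBx : ∀ p, x1.1 p = (look [(1, 2), (2, 2), (3, 2), (5, 2), (14, 2), (17, 2)] (idx p) : ℤ) - (look [(0, 2), (23, 2)] (idx p) : ℤ) := by
  decide +kernel

theorem iff8 (x : leechLattice) (P : ℕ) (hx : x.1 = dec P) : dotInt x1.1 x.1 = 8 ↔ T8 P = true := by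
  rw [hx]
  exact tEq_iff hBx rfl rfl (by norm_num [tot]) P

theorem iff16 (x : leechLattice) (P : ℕ) (hx : x.1 = dec P) : dotInt x1.1 x.1 = 16 ↔ T16 P = true := by
  rw [hx]
  exact tEq_iff hBx rfl rfl (by norm_num [tot]) P

theorem cnt8 : cntR (fun j => T8 (CoYa.O j)) 0 100 = 22 := by decide +kernel

theorem cnt16 : cntR (fun j => T16 (CoYa.O j)) 0 100 = 77 := by decide +kernel

theorem dichT : allB (fun j => T8 (CoYa.O j) || T16 (CoYa.O j) || Nat.beq (CoYa.O j) CoYa.b0) 0 100 = true := by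
  decide +kernel

theorem dich {y : leechLattice} (hy : y ∈ HH uE wL) (hne : y ≠ x1) : dotInt x1.1 y.1 = 8 ∨ dotInt x1.1 y.1 = 16 := by
  obtain ⟨j, hj, e⟩ := mainH.1.1 y hy
  have h := allB_spec dichT j (by omega) (by omega)
  simp only [Bool.or_eq_true] at h
  rcases h with (h | h) | h
  · exact Or.inl ((iff8 y _ e).mpr h)
  · exact Or.inr ((iff16 y _ e).mpr h)
  · exfalso
    apply hne
    apply Subtype.ext
    rw [e, Nat.eq_of_beq_eq_true h]
    rfl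

/-- The 22 vectors. -/
def Y8 : Set leechLattice := {y | y ∈ HH uE wL ∧ dotInt x1.1 y.1 = 8}

/-- The 77 vectors. -/
def Y16 : Set leechLattice := {y | y ∈ HH uE wL ∧ dotInt x1.1 y.1 = 16}

theorem ncard_Y8 : Y8.ncard = 22 := by
  have h := Tab.ncard_filter mainH.1 (of_tchk2 CoYa.all_ok).2 CoYa.O_lt T8 (fun x => dotInt x1.1 x.1 = 8) iff8
  rw [cnt8] at h
  exact h

theorem ncard_Y16 : Y16.ncard = 77 := by
  have h := Tab.ncard_filter mainH.1 (of_tchk2 CoYa.all_ok).2 CoYa.O_lt T16 (fun x => dotInt x1.1 x.1 = 16) iff16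
  rw [cnt16] at h
  exact h

theorem hb8 : okP CoYb.b0 = true := by decide +kernel

theorem hb16 : okP CoYc.b0 = true := by decide +kernel

theorem fixU3 (Us : List ℕ) (h1 : PE ∈ Us) (h2 : Pw ∈ Us) (h3 : CoYa.b0 ∈ Us) {g : Co0} (hg : Fix Us g) :
    g • uE = uE ∧ g • wL = wL ∧ g • x1 = x1 := by
  refine ⟨?_, ?_, ?_⟩
  · exact hg uE ⟨PE, h1, dec_PE⟩ (by rw [sq_uE]; norm_num)
  · exact hg wL ⟨Pw, h2, dec_Pw⟩ (by rw [sq_wL]; norm_num)
  · exact hg x1 ⟨CoYa.b0, h3, rfl⟩ (by rw [show sqNorm x1.1 = 32 from sq_mkL _ _]; norm_num)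

theorem orb8 : ∀ x ∈ Y8, ∀ y ∈ Y8, ∃ g : Co0, Fix CoYb.Us g ∧ g • x = y := by
  have hb : mkL CoYb.b0 hb8 ∈ Y8 :=
    ⟨mem_H_of hb8 (by decide +kernel) (by decide +kernel), (iff8 _ _ rfl).mpr (by decide +kernel)⟩
  refine trans_of_orb (CoYb.main (mkL _ hb8) rfl (by rw [sq_mkL]; norm_num) Y8 ncard_Y8 ?_).2
  intro g hg
  obtain ⟨f1, f2, f3⟩ := fixU3 _ (by decide) (by decide) (by decide) hg
  refine ⟨?_, ?_⟩
  · have := (mem_HH_smul g uE wL _).mp hb.1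
    rwa [f1, f2] at this
  · have := dot_smul g x1 (mkL CoYb.b0 hb8)
    rw [f3] at this
    rw [this]
    exact hb.2

theorem orb16 : ∀ x ∈ Y16, ∀ y ∈ Y16, ∃ g : Co0, Fix CoYc.Us g ∧ g • x = y := by
  have hb : mkL CoYc.b0 hb16 ∈ Y16 :=
    ⟨mem_H_of hb16 (by decide +kernel) (by decide +kernel), (iff16 _ _ rfl).mpr (by decide +kernel)⟩
  refine trans_of_orb (CoYc.main (mkL _ hb16) rfl (by rw [sq_mkL]; norm_num) Y16 ncard_Y16 ?_).2
  intro g hg
  obtain ⟨f1, f2, f3⟩ := fixU3 _ (by decide) (by decide) (by decide) hg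
  refine ⟨?_, ?_⟩
  · have := (mem_HH_smul g uE wL _).mp hb.1
    rwa [f1, f2] at this
  · have := dot_smul g x1 (mkL CoYc.b0 hb16)
    rw [f3] at this
    rw [this]
    exact hb.2

theorem dot_self_x1 : dotInt x1.1 x1.1 = 32 := by
  rw [dot_self]
  exact sq_mkL _ _

/-- The rank three action on the 100 vectors. -/
theorem main (v w x : leechLattice) (hv : sqNorm v.1 = 48) (hw : sqNorm w.1 = 48) (hvw : dotInt v.1 w.1 = -32)
    (hx : x ∈ HH v w) :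
    {y | y ∈ HH v w ∧ dotInt x.1 y.1 = 8}.ncard = 22 ∧
    {y | y ∈ HH v w ∧ y ≠ x ∧ dotInt x.1 y.1 ≠ 8}.ncard = 77 ∧
    ∀ y ∈ HH v w, ∀ y' ∈ HH v w, y ≠ x → y' ≠ x → (dotInt x.1 y.1 = 8 ↔ dotInt x.1 y'.1 = 8) →
      ∃ g : Co0, g • v = v ∧ g • w = w ∧ g • x = x ∧ g • y = y' := by
  obtain ⟨g1, hv1, hw1⟩ := to_base v w hv hw hvw
  have hm1 : ∀ x, x ∈ HH v w ↔ g1 • x ∈ HH uE wL := by
    intro x
    have := mem_HH_smul g1 v w x
    rwa [hv1, hw1] at this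
  obtain ⟨h, hf, he⟩ := transH _ ((hm1 x).mp hx) _ x1_mem
  obtain ⟨f1, f2, -⟩ := fixUs _ (by decide) (by decide) (by decide) hf
  let g : Co0 := h * g1
  have hv' : g • v = uE := by
    show (h * g1) • v = _
    rw [mul_smul, hv1, f1]
  have hw' : g • w = wL := by
    show (h * g1) • w = _
    rw [mul_smul, hw1, f2]
  have hx' : g • x = x1 := by
    show (h * g1) • x = _
    rw [mul_smul, he]
  have hm : ∀ y, y ∈ HH v w ↔ g • y ∈ HH uE wL := by
    intro y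
    have := mem_HH_smul g v w y
    rwa [hv', hw'] at this
  have hd : ∀ y : leechLattice, dotInt x.1 y.1 = dotInt x1.1 (g • y).1 := by
    intro y
    rw [← hx', dot_smul]
  have hne : ∀ y, y ≠ x → g • y ≠ x1 := by
    intro y hy e
    apply hy
    rw [← hx'] at e
    exact MulAction.injective g e
  refine ⟨?_, ?_, ?_⟩
  · refine (ncard_g g _ _ ?_).trans ncard_Y8
    intro y
    show (_ ∧ _) ↔ (_ ∧ _)
    rw [hm, hd]
  · refine (ncard_g g _ _ ?_).trans ncard_Y16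
    intro y
    show (_ ∧ _ ∧ _) ↔ (_ ∧ _)
    rw [hm, hd]
    constructor
    · rintro ⟨a, b, c⟩
      rcases dich a (hne y b) with e | e
      · exact absurd e c
      · exact ⟨a, e⟩
    · rintro ⟨a, b⟩
      refine ⟨a, ?_, by rw [b]; norm_num⟩
      rintro rfl
      rw [hx', dot_self_x1] at b
      norm_num at b
  · intro y hy y' hy' hne1 hne2 hdd
    have ha := (hm y).mp hy
    have ha' := (hm y').mp hy'
    rw [hd, hd] at hdd
    rcases dich ha (hne y hne1) with e | e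
    · obtain ⟨k, hk, he⟩ := orb8 _ ⟨ha, e⟩ _ ⟨ha', hdd.mp e⟩
      obtain ⟨f1, f2, f3⟩ := fixU3 _ (by decide) (by decide) (by decide) hk
      exact ⟨g⁻¹ * k * g, conj_fix hv' f1, conj_fix hw' f2, conj_fix hx' f3, conj_map he⟩
    · have e' : dotInt x1.1 (g • y').1 = 16 := by
        rcases dich ha' (hne y' hne2) with e2 | e2
        · rw [hdd.mpr e2] at e
          norm_num at e
        · exact e2
      obtain ⟨k, hk, he⟩ := orb16 _ ⟨ha, e⟩ _ ⟨ha', e'⟩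
      obtain ⟨f1, f2, f3⟩ := fixU3 _ (by decide) (by decide) (by decide) hk
      exact ⟨g⁻¹ * k * g, conj_fix hv' f1, conj_fix hw' f2, conj_fix hx' f3, conj_map he⟩

end Cfsg.Agent.H02.CoYM
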