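import Cfsg.Agent.Lib.H02.CoSm
import Cfsg.Agent.Lib.H02.CoYM
import Cfsg.Prelude.Def_Sporadic

/-!
Simplicity of the joint stabiliser of two vectors of norm 6 with inner product `-32`.
-/

set_option autoImplicit false
set_option maxRecDepth 100000

namespace Cfsg.Agent.H02.CoSH

open Cfsg Cfsg.Agent.H26.Leech Cfsg.Agent.H02.CoA Cfsg.Agent.H02.CoB Cfsg.Agent.H02.CoK Cfsg.Agent.H02.CoM
  Cfsg.Agent.H02.CoP Cfsg.Agent.H02.CoR Cfsg.Agent.H02.CoD Cfsg.Agent.H02.CoE Cfsg.Agent.H02.CoU Cfsg.Agent.H02.CoW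
  Cfsg.Agent.H02.CoOrd Cfsg.Agent.H02.CoSm Cfsg.Agent.H02.CoYL
open Cfsg.Agent.H27.Golay hiding fld
open MulAction

/-- A packed vector. -/
def Pv : ℕ := 643174836670120583663132448522747371

/-- A packed vector. -/
def Pw : ℕ := 895084981032584478931192657527490097

/-- A packed vector. -/
def Px : ℕ := 519899659641680805127698729222554124

theorem okv : okL Pv = true := by decide +kernel

theorem okw : okL Pw = true := by decide +kernel

theorem okx : okP Px = true := by decide +kernel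

/-- The base vector. -/
def vH : leechLattice := ⟨dec Pv, okL_mem okv⟩

/-- The base vector. -/
def wH : leechLattice := ⟨dec Pw, okL_mem okw⟩

/-- The base vector. -/
def xH : leechLattice := mkL Px okx

theorem sq_v : sqNorm vH.1 = 48 := by
  show sqNorm (dec Pv) = 48
  decide +kernel

theorem sq_w : sqNorm wH.1 = 48 := by
  show sqNorm (dec Pw) = 48
  decide +kernel

theorem sq_x : sqNorm xH.1 = 32 := sq_mkL _ _

theorem dot_vw : dotInt vH.1 wH.1 = -32 := by
  show dotInt (dec Pv) (dec Pw) = -32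
  decide +kernel

theorem x_mem : xH ∈ HH vH wH := by
  refine ⟨sq_x, ?_, ?_⟩
  · show dotInt (dec Pv) (dec Px) = 24
    decide +kernel
  · show dotInt (dec Pw) (dec Px) = -24
    decide +kernel

/-- The two points. -/
def p0 : GolayPt := pt 0

/-- The two points. -/
def q0 : GolayPt := pt 23

theorem hpq : p0 ≠ q0 := by decide

theorem cv : ∀ i j, i ≠ p0 → i ≠ q0 → j ≠ p0 → j ≠ q0 → dec Pv i = dec Pv j := by decide +kernel

theorem cw : ∀ i j, i ≠ p0 → i ≠ q0 → j ≠ p0 → j ≠ q0 → dec Pw i = dec Pw j := by decide +kernel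

theorem cx : ∀ i j, i ≠ p0 → i ≠ q0 → j ≠ p0 → j ≠ q0 → dec Px i = dec Px j := by decide +kernel

theorem card_base : Nat.card ↥(St vH ⊓ St wH ⊓ St xH) = 443520 := by
  have h := card_inf (St vH ⊓ St wH) xH
  rw [card_hs vH wH sq_v sq_w dot_vw] at h
  obtain ⟨h1, h2⟩ := Cfsg.Agent.H02.CoYL.main vH wH sq_v sq_w dot_vw
  have ho : orbit (↥(St vH ⊓ St wH)) xH = HH vH wH := by
    apply orbit_eq
    · rintro g ⟨g1, g2⟩
      have := (mem_HH_smul g vH wH xH).mp x_mem
      rwa [show g • vH = vH from g1, show g • wH = wH from g2] at this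
    · intro y hy
      obtain ⟨g, a, b, c⟩ := h2 xH x_mem y hy
      exact ⟨g, ⟨a, b⟩, c⟩
  rw [ho, h1] at h
  omega

theorem base_simple : IsSimpleGroup ↥(St vH ⊓ St wH ⊓ St xH) := by
  refine simple_T hpq _ card_base ?_
  intro σ
  exact ⟨⟨phi_fix _ _ σ _ cv, phi_fix _ _ σ _ cw⟩, phi_fix _ _ σ _ cx⟩

/-- The triple stabilisers are simple. -/
theorem triple_simple (v w x : leechLattice) (hv : sqNorm v.1 = 48) (hw : sqNorm w.1 = 48) (hvw : dotInt v.1 w.1 = -32)
    (hx : x ∈ HH v w) : IsSimpleGroup ↥(St v ⊓ St w ⊓ St x) := by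
  obtain ⟨g1, a1, a2⟩ := to_base v w hv hw hvw
  obtain ⟨g2, b1, b2⟩ := to_base vH wH sq_v sq_w dot_vw
  let g3 : Co0 := g2⁻¹ * g1
  have c1 : g3 • v = vH := by
    show (g2⁻¹ * g1) • v = _
    rw [mul_smul, a1, ← b1, inv_smul_smul]
  have c2 : g3 • w = wH := by
    show (g2⁻¹ * g1) • w = _
    rw [mul_smul, a2, ← b2, inv_smul_smul]
  have hx3 : g3 • x ∈ HH vH wH := by
    have := (mem_HH_smul g3 v w x).mp hx
    rwa [c1, c2] at this
  obtain ⟨h, d1, d2, d3⟩ := (Cfsg.Agent.H02.CoYL.main vH wH sq_v sq_w dot_vw).2 _ hx3 _ x_mem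
  let g : Co0 := h * g3
  have e1 : g • v = vH := by
    show (h * g3) • v = _
    rw [mul_smul, c1, d1]
  have e2 : g • w = wH := by
    show (h * g3) • w = _
    rw [mul_smul, c2, d2]
  have e3 : g • x = xH := by
    show (h * g3) • x = _
    rw [mul_smul, d3]
  haveI := base_simple
  refine (conjEq g _ (St vH ⊓ St wH ⊓ St xH) ?_).isSimpleGroup
  intro a
  have f1 := conj_St g a v
  have f2 := conj_St g a w
  have f3 := conj_St g a x
  rw [e1] at f1
  rw [e2] at f2
  rw [e3] at f3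
  simp only [Subgroup.mem_inf, f1, f2, f3]

theorem hs_simple (v w : leechLattice) (hv : sqNorm v.1 = 48) (hw : sqNorm w.1 = 48) (hvw : dotInt v.1 w.1 = -32) :
    IsSimpleGroup ↥(St v ⊓ St w) := by
  haveI : Finite Co0 := Nat.finite_of_card_ne_zero (by rw [CoH.card_Co0]; norm_num)
  obtain ⟨h100, htr⟩ := Cfsg.Agent.H02.CoYL.main v w hv hw hvw
  have hfin : (HH v w).Finite := Set.finite_of_ncard_ne_zero (by rw [h100]; norm_num)
  obtain ⟨x, hx⟩ : (HH v w).Nonempty := Set.nonempty_of_ncard_ne_zero (by rw [h100]; norm_num)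
  obtain ⟨n22, n77, hrk⟩ := Cfsg.Agent.H02.CoYM.main v w x hv hw hvw hx
  have hxx : dotInt x.1 x.1 = 32 := by rw [CoOrd.dot_self, hx.1]
  refine simple_of_data (St v ⊓ St w) x (HH v w) hx ?_ ?_ hfin (triple_simple v w x hv hw hvw hx) 2
    (fun i => if i = 0 then {y | y ∈ HH v w ∧ dotInt x.1 y.1 = 8} else {y | y ∈ HH v w ∧ y ≠ x ∧ dotInt x.1 y.1 ≠ 8})
    (fun i => if i = 0 then 22 else 77) ?_ ?_ ?_ ?_ ?_ ?_ ?_ ⟨0, by norm_num, by norm_num⟩ ?_ ?_
  · rintro g ⟨g1, g2⟩
    have := (mem_HH_smul g v w x).mp hx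
    rwa [show g • v = v from g1, show g • w = w from g2] at this
  · intro y hy
    obtain ⟨g, a, b, c⟩ := htr x hx y hy
    exact ⟨g, ⟨a, b⟩, c⟩
  · intro i hi
    interval_cases i
    · exact fun y hy => hy.1
    · exact fun y hy => hy.1
  · intro i hi
    interval_cases i
    · rintro ⟨-, h⟩
      rw [hxx] at h
      norm_num at h
    · rintro ⟨-, h, -⟩
      exact h rfl
  · intro i hi j hj hij
    rw [Set.disjoint_left]
    interval_cases i <;> interval_cases j
    · exact absurd rfl hij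
    · rintro a ⟨-, h1⟩ ⟨-, -, h2⟩
      exact h2 h1
    · rintro a ⟨-, -, h2⟩ ⟨-, h1⟩
      exact h2 h1
    · exact absurd rfl hij
  · intro y hy
    by_cases h1 : y = x
    · exact Or.inl h1
    right
    by_cases h2 : dotInt x.1 y.1 = 8
    · exact ⟨0, by norm_num, hy, h2⟩
    · exact ⟨1, by norm_num, hy, h1, h2⟩
  · intro i hi a ha a' ha'
    interval_cases i
    · obtain ⟨a1, a2⟩ := ha
      obtain ⟨b1, b2⟩ := ha'
      have hne : a ≠ x := by
        rintro rfl
        rw [hxx] at a2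
        norm_num at a2
      have hne' : a' ≠ x := by
        rintro rfl
        rw [hxx] at b2
        norm_num at b2
      obtain ⟨g, c1, c2, c3, c4⟩ := hrk a a1 a' b1 hne hne' (by rw [a2, b2])
      exact ⟨g, ⟨⟨c1, c2⟩, c3⟩, c4⟩
    · obtain ⟨a1, a2, a3⟩ := ha
      obtain ⟨b1, b2, b3⟩ := ha'
      obtain ⟨g, c1, c2, c3, c4⟩ := hrk a a1 a' b1 a2 b2 (by
        constructor
        · intro e
          exact absurd e a3
        · intro e
          exact absurd e b3)
      exact ⟨g, ⟨⟨c1, c2⟩, c3⟩, c4⟩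
  · intro i hi
    interval_cases i
    · exact n22
    · exact n77
  · rw [h100]
    decide +kernel
  · rw [h100]
    exact not_primePow (p := 2) (q := 5) (by norm_num) (by norm_num) (by norm_num) (by norm_num) (by norm_num)
  · intro N hN
    rw [h100] at hN
    exact Cfsg.Agent.Lead.burnside_two_prime 2 5 2 2 (by norm_num) (by norm_num) (by rw [hN]; norm_num)

/-- The group is simple of the stated order. -/
theorem main (v w : leechLattice) (hv : sqNorm v.1 = 48) (hw : sqNorm w.1 = 48) (hvw : dotInt v.1 w.1 = -32) :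
    IsHS ↥(St v ⊓ St w) :=
  ⟨hs_simple v w hv hw hvw, card_hs v w hv hw hvw⟩

end Cfsg.Agent.H02.CoSH
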