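import Cfsg.Agent.S1575
import Cfsg.Agent.Lib.H02.CoZa
import Cfsg.Agent.Lib.H02.CoZb
import Cfsg.Agent.Lib.H02.CoZc
import Cfsg.Agent.Lib.H02.CoZd
import Cfsg.Agent.Lib.H02.CoZf

/-!
The action on 2025 minimal vectors with rank four.
-/

set_option autoImplicit false
set_option maxRecDepth 100000

namespace Cfsg.Agent.H02.CoZL

open Cfsg Cfsg.Agent.H26.Leech Cfsg.Agent.H02.CoK Cfsg.Agent.H02.CoM Cfsg.Agent.H02.CoP Cfsg.Agent.H02.CoR
  Cfsg.Agent.H02.CoD Cfsg.Agent.H02.CoE Cfsg.Agent.H02.CoU Cfsg.Agent.H02.CoW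
  Cfsg.Agent.H02.CoZe Cfsg.Agent.H02.CoZf
open Cfsg.Agent.H27.Golay hiding fld

theorem conj_fix {g h : Co0} {a b : leechLattice} (hg : g • a = b) (hh : h • b = b) : (g⁻¹ * h * g) • a = a := by
  rw [mul_smul, mul_smul, hg, hh, ← hg, inv_smul_smul]

theorem conj_map {g h : Co0} {y y' : leechLattice} (hh : h • (g • y) = g • y') : (g⁻¹ * h * g) • y = y' := by
  rw [mul_smul, mul_smul, hh, inv_smul_smul]

theorem orbit_eq {H : Subgroup Co0} {y : leechLattice} {B : Set leechLattice}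
    (h1 : ∀ h ∈ H, h • y ∈ B) (h2 : ∀ y' ∈ B, ∃ h ∈ H, h • y = y') : MulAction.orbit H y = B := by
  ext y'
  constructor
  · rintro ⟨⟨h, hh⟩, rfl⟩
    exact h1 h hh
  · intro hy
    obtain ⟨h, hh, e⟩ := h2 y' hy
    exact ⟨⟨h, hh⟩, e⟩

/-- The packed `w`. -/
def Pw : ℕ := 728931481559469994818216774992447021

/-- The packed `x`. -/
def Px : ℕ := 852206658587909773353650494292640268

theorem okw : okP Pw = true := by decide +kernel

theorem okx : okP Px = true := by decide +kernel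

/-- The base `w`. -/
def wM : leechLattice := mkL Pw okw

/-- The base `x`. -/
def xM : leechLattice := mkL Px okx

theorem sq_w : sqNorm wM.1 = 32 := sq_mkL _ _

theorem sq_x : sqNorm xM.1 = 32 := sq_mkL _ _

/-- The 2025 vectors. -/
def XX (v w : leechLattice) : Set leechLattice :=
  {x | sqNorm x.1 = 32 ∧ dotInt v.1 x.1 = 0 ∧ dotInt w.1 x.1 = 16}

theorem mem_XX_smul (g : Co0) (v w x : leechLattice) : x ∈ XX v w ↔ g • x ∈ XX (g • v) (g • w) := by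
  show (_ ∧ _ ∧ _) ↔ (_ ∧ _ ∧ _)
  rw [sqNorm_smul, dot_smul, dot_smul]

theorem hBw : ∀ p, wM.1 p = (look [(1, 1), (2, 1), (3, 1), (4, 1), (5, 1), (6, 1), (7, 1), (8, 1), (9, 1), (10, 1), (11, 1), (12, 1), (13, 1), (14, 1), (15, 1), (16, 1), (17, 1), (18, 1), (19, 1), (20, 1), (21, 1), (22, 1), (23, 1)] (idx p) : ℤ) - (look [(0, 3)] (idx p) : ℤ) := by
  decide +kernel

theorem hBx : ∀ p, xM.1 p = (look [(23, 4)] (idx p) : ℤ) - (look [(0, 4)] (idx p) : ℤ) := by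
  decide +kernel

theorem iffZ (P : ℕ) : (dotInt rA (dec P) = 0 ∧ dotInt wM.1 (dec P) = 16) ↔ TZ P = true := by
  rw [tEq_iff (K1 := 0) (K2 := 128) hBA rfl rfl (by norm_num [tot]) P,
    tEq_iff (K1 := 0) (K2 := 336) hBw rfl rfl (by norm_num [tot]) P]
  simp only [TZ, Bool.and_eq_true]

theorem ncard_X0 : (XX uA wM).ncard = 2025 := by
  have := ncard_minS TZ (fun x => dotInt rA x = 0 ∧ dotInt wM.1 x = 16) iffZ
  rw [cntZ] at this
  exact this

theorem w_mem : wM ∈ Dv uA (-8) :=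
  ⟨sq_w, (tEq_iff hBA rfl rfl (by norm_num [tot]) _).mpr (by decide +kernel : CoS.TA8 Pw = true)⟩

theorem to_base (v w : leechLattice) (hv : sqNorm v.1 = 32) (hw : sqNorm w.1 = 32) (hvw : dotInt v.1 w.1 = -8) :
    ∃ g : Co0, g • v = uA ∧ g • w = wM := by
  obtain ⟨g0, hg0⟩ := exists_to_uA v hv
  have h1 := (mem_Dv_smul g0 v w (-8)).mp ⟨hw, hvw⟩
  rw [hg0] at h1
  obtain ⟨h, hf, he⟩ := Cfsg.Agent.S1575.orb _ h1 _ w_mem
  exact ⟨h * g0, by rw [mul_smul, hg0, hf], by rw [mul_smul, he]⟩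

theorem fix3 (Us : List ℕ) (h1 : PA ∈ Us) (h2 : Pw ∈ Us) (h3 : Px ∈ Us) {g : Co0} (hg : Fix Us g) :
    g • uA = uA ∧ g • wM = wM ∧ g • xM = xM := by
  refine ⟨?_, ?_, ?_⟩
  · exact hg uA ⟨PA, h1, dec_PA⟩ (by rw [sq_uA]; norm_num)
  · exact hg wM ⟨Pw, h2, rfl⟩ (by rw [sq_w]; norm_num)
  · exact hg xM ⟨Px, h3, rfl⟩ (by rw [sq_x]; norm_num)

theorem fix2 (Us : List ℕ) (h1 : PA ∈ Us) (h2 : Pw ∈ Us) {g : Co0} (hg : Fix Us g) :
    g • uA = uA ∧ g • wM = wM := by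
  refine ⟨?_, ?_⟩
  · exact hg uA ⟨PA, h1, dec_PA⟩ (by rw [sq_uA]; norm_num)
  · exact hg wM ⟨Pw, h2, rfl⟩ (by rw [sq_w]; norm_num)

theorem mem_X_of {P : ℕ} (h0 : okP P = true) (h1 : TZ P = true) : mkL P h0 ∈ XX uA wM := by
  obtain ⟨a, b⟩ := (iffZ P).mpr h1
  exact ⟨sq_mkL _ _, a, b⟩

theorem x_mem : xM ∈ XX uA wM := mem_X_of okx (by decide +kernel)

theorem mainX : Tab (XX uA wM) CoZa.O 2025 ∧ ∀ x ∈ XX uA wM, ∃ g : Co0, Fix CoZa.Us g ∧ g • xM = x := by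
  refine CoZa.main xM rfl (by rw [sq_x]; norm_num) _ ncard_X0 ?_
  intro g hg
  obtain ⟨f1, f2⟩ := fix2 _ (by decide) (by decide) hg
  have := (mem_XX_smul g uA wM xM).mp x_mem
  rwa [f1, f2] at this

theorem transX : ∀ x ∈ XX uA wM, ∀ y ∈ XX uA wM, ∃ g : Co0, Fix CoZa.Us g ∧ g • x = y :=
  trans_of_orb mainX.2

/-- The sets of vectors by inner product with `x`. -/
def AA (d : ℤ) : Set leechLattice := {y | y ∈ XX uA wM ∧ dotInt xM.1 y.1 = d}

theorem AA_inv {k : Co0} (h1 : k • uA = uA) (h2 : k • wM = wM) (h3 : k • xM = xM) {d : ℤ} {y : leechLattice} (hy : y ∈ AA d) : k • y ∈ AA d := by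
  refine ⟨?_, ?_⟩
  · have := (mem_XX_smul k uA wM y).mp hy.1
    rwa [h1, h2] at this
  · have := dot_smul k xM y
    rw [h3] at this
    rw [this]
    exact hy.2

/-- The test of the inner product 0 with `xM`. -/
def Ta (P : ℕ) : Bool := tEq [(23, 4)] [(0, 4)] 0 0 P

theorem iffa (x : leechLattice) (P : ℕ) (hx : x.1 = dec P) : dotInt xM.1 x.1 = (0) ↔ Ta P = true := by
  rw [hx]
  exact tEq_iff hBx rfl rfl (by norm_num [tot]) P

theorem cnta : cntR (fun j => Ta (CoZa.O j)) 0 2025 = 330 := by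
  decide +kernel

theorem ncarda : (AA (0)).ncard = 330 := by
  have h := Tab.ncard_filter mainX.1 (of_tchk2 CoZa.all_ok).2 CoZa.O_lt Ta (fun x => dotInt xM.1 x.1 = (0)) iffa
  rw [cnta] at h
  exact h

theorem oka : okP CoZb.b0 = true := by decide +kernel

/-- A root. -/
def ra : leechLattice := mkL CoZb.b0 oka

theorem ra_mem : ra ∈ AA (0) :=
  ⟨mem_X_of oka (by decide +kernel), (iffa _ _ rfl).mpr (by decide +kernel)⟩

theorem orba : ∀ a ∈ AA (0), ∃ k : Co0, k • uA = uA ∧ k • wM = wM ∧ k • xM = xM ∧ k • ra = a := by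
  have hm := (CoZb.main ra rfl (by rw [show sqNorm ra.1 = 32 from sq_mkL _ _]; norm_num) (AA (0)) ncarda ?_).2
  · intro a ha
    obtain ⟨k, hk, e⟩ := hm a ha
    obtain ⟨f1, f2, f3⟩ := fix3 _ (by decide) (by decide) (by decide) hk
    exact ⟨k, f1, f2, f3, e⟩
  · intro g hg
    obtain ⟨f1, f2, f3⟩ := fix3 _ (by decide) (by decide) (by decide) hg
    exact AA_inv f1 f2 f3 ra_mem

/-- The test of the inner product 16 with `xM`. -/
def Tb (P : ℕ) : Bool := tEq [(23, 4)] [(0, 4)] 0 16 P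

theorem iffb (x : leechLattice) (P : ℕ) (hx : x.1 = dec P) : dotInt xM.1 x.1 = (16) ↔ Tb P = true := by
  rw [hx]
  exact tEq_iff hBx rfl rfl (by norm_num [tot]) P

theorem cntb : cntR (fun j => Tb (CoZa.O j)) 0 2025 = 462 := by
  decide +kernel

theorem ncardb : (AA (16)).ncard = 462 := by
  have h := Tab.ncard_filter mainX.1 (of_tchk2 CoZa.all_ok).2 CoZa.O_lt Tb (fun x => dotInt xM.1 x.1 = (16)) iffb
  rw [cntb] at h
  exact h

theorem okb : okP CoZc.b0 = true := by decide +kernel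

/-- A root. -/
def rb : leechLattice := mkL CoZc.b0 okb

theorem rb_mem : rb ∈ AA (16) :=
  ⟨mem_X_of okb (by decide +kernel), (iffb _ _ rfl).mpr (by decide +kernel)⟩

theorem orbb : ∀ a ∈ AA (16), ∃ k : Co0, k • uA = uA ∧ k • wM = wM ∧ k • xM = xM ∧ k • rb = a := by
  have hm := (CoZc.main rb rfl (by rw [show sqNorm rb.1 = 32 from sq_mkL _ _]; norm_num) (AA (16)) ncardb ?_).2
  · intro a ha
    obtain ⟨k, hk, e⟩ := hm a ha
    obtain ⟨f1, f2, f3⟩ := fix3 _ (by decide) (by decide) (by decide) hk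
    exact ⟨k, f1, f2, f3, e⟩
  · intro g hg
    obtain ⟨f1, f2, f3⟩ := fix3 _ (by decide) (by decide) (by decide) hg
    exact AA_inv f1 f2 f3 rb_mem

/-- The test of the inner product 8 with `xM`. -/
def Tc (P : ℕ) : Bool := tEq [(23, 4)] [(0, 4)] 0 8 P

theorem iffc (x : leechLattice) (P : ℕ) (hx : x.1 = dec P) : dotInt xM.1 x.1 = (8) ↔ Tc P = true := by
  rw [hx]
  exact tEq_iff hBx rfl rfl (by norm_num [tot]) P

theorem cntc : cntR (fun j => Tc (CoZa.O j)) 0 2025 = 1232 := by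
  decide +kernel

theorem ncardc : (AA (8)).ncard = 1232 := by
  have h := Tab.ncard_filter mainX.1 (of_tchk2 CoZa.all_ok).2 CoZa.O_lt Tc (fun x => dotInt xM.1 x.1 = (8)) iffc
  rw [cntc] at h
  exact h

theorem okc : okP CoZd.b0 = true := by decide +kernel

/-- A root. -/
def rc : leechLattice := mkL CoZd.b0 okc

theorem rc_mem : rc ∈ AA (8) :=
  ⟨mem_X_of okc (by decide +kernel), (iffc _ _ rfl).mpr (by decide +kernel)⟩

theorem orbc : ∀ a ∈ AA (8), ∃ k : Co0, k • uA = uA ∧ k • wM = wM ∧ k • xM = xM ∧ k • rc = a := by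
  have hm := (CoZd.main rc rfl (by rw [show sqNorm rc.1 = 32 from sq_mkL _ _]; norm_num) (AA (8)) ncardc ?_).2
  · intro a ha
    obtain ⟨k, hk, e⟩ := hm a ha
    obtain ⟨f1, f2, f3⟩ := fix3 _ (by decide) (by decide) (by decide) hk
    exact ⟨k, f1, f2, f3, e⟩
  · intro g hg
    obtain ⟨f1, f2, f3⟩ := fix3 _ (by decide) (by decide) (by decide) hg
    exact AA_inv f1 f2 f3 rc_mem

/-- The orbit of the image of a root. -/
theorem orbit_gen (v w x : leechLattice) {g : Co0} (hv : g • v = uA) (hw : g • w = wM) (hx : g • x = xM) {d : ℤ} {r : leechLattice}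
    (hr : r ∈ AA d) (ho : ∀ a ∈ AA d, ∃ k : Co0, k • uA = uA ∧ k • wM = wM ∧ k • xM = xM ∧ k • r = a) :
    MulAction.orbit (↥(MulAction.stabilizer Co0 v ⊓ MulAction.stabilizer Co0 w ⊓ MulAction.stabilizer Co0 x)) (g⁻¹ • r) =
      {y | y ∈ XX v w ∧ dotInt x.1 y.1 = d} := by
  have hm : ∀ y, y ∈ {y | y ∈ XX v w ∧ dotInt x.1 y.1 = d} ↔ g • y ∈ AA d := by
    intro y
    show (_ ∧ _) ↔ (_ ∧ _)
    have := mem_XX_smul g v w y
    rw [hv, hw] at this
    rw [this, ← hx, dot_smul]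
  have hr' : g⁻¹ • r ∈ {y | y ∈ XX v w ∧ dotInt x.1 y.1 = d} := by
    rw [hm, smul_inv_smul]
    exact hr
  apply orbit_eq
  · rintro h ⟨⟨h1, h2⟩, h3⟩
    have h1' : h • v = v := h1
    have h2' : h • w = w := h2
    have h3' : h • x = x := h3
    refine ⟨?_, ?_⟩
    · have := (mem_XX_smul h v w _).mp hr'.1
      rwa [h1', h2'] at this
    · have := dot_smul h x (g⁻¹ • r)
      rw [h3'] at this
      rw [this]
      exact hr'.2
  · intro y' hy'
    obtain ⟨k, k1, k2, k3, k4⟩ := ho _ ((hm y').mp hy')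
    refine ⟨g⁻¹ * k * g, ⟨⟨conj_fix hv k1, conj_fix hw k2⟩, conj_fix hx k3⟩, ?_⟩
    rw [mul_smul, mul_smul, smul_inv_smul, k4, inv_smul_smul]

/-- The action on 2025 points. -/
theorem main (v w : leechLattice) (hv : sqNorm v.1 = 32) (hw : sqNorm w.1 = 32) (hvw : dotInt v.1 w.1 = -8) :
    (XX v w).ncard = 2025 ∧ (∀ x ∈ XX v w, ∀ x' ∈ XX v w, ∃ g : Co0, g • v = v ∧ g • w = w ∧ g • x = x') ∧
    ∀ x ∈ XX v w, ∃ y₁ ∈ XX v w, ∃ y₂ ∈ XX v w, ∃ y₃ ∈ XX v w,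
      (MulAction.orbit (↥(MulAction.stabilizer Co0 v ⊓ MulAction.stabilizer Co0 w ⊓ MulAction.stabilizer Co0 x)) y₁).ncard = 330 ∧
      (MulAction.orbit (↥(MulAction.stabilizer Co0 v ⊓ MulAction.stabilizer Co0 w ⊓ MulAction.stabilizer Co0 x)) y₂).ncard = 462 ∧
      (MulAction.orbit (↥(MulAction.stabilizer Co0 v ⊓ MulAction.stabilizer Co0 w ⊓ MulAction.stabilizer Co0 x)) y₃).ncard = 1232 := by
  obtain ⟨g1, hv1, hw1⟩ := to_base v w hv hw hvw
  have hm1 : ∀ x, x ∈ XX v w ↔ g1 • x ∈ XX uA wM := by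
    intro x
    have := mem_XX_smul g1 v w x
    rwa [hv1, hw1] at this
  refine ⟨(ncard_g g1 _ _ hm1).trans ncard_X0, ?_, ?_⟩
  · intro x hx x' hx'
    obtain ⟨h, hf, he⟩ := transX _ ((hm1 x).mp hx) _ ((hm1 x').mp hx')
    obtain ⟨f1, f2⟩ := fix2 _ (by decide) (by decide) hf
    exact ⟨g1⁻¹ * h * g1, conj_fix hv1 f1, conj_fix hw1 f2, conj_map he⟩
  · intro x hx
    obtain ⟨h, hf, he⟩ := transX _ ((hm1 x).mp hx) _ x_mem
    obtain ⟨f1, f2⟩ := fix2 _ (by decide) (by decide) hf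
    let g : Co0 := h * g1
    have hv' : g • v = uA := by
      show (h * g1) • v = _
      rw [mul_smul, hv1, f1]
    have hw' : g • w = wM := by
      show (h * g1) • w = _
      rw [mul_smul, hw1, f2]
    have hx' : g • x = xM := by
      show (h * g1) • x = _
      rw [mul_smul, he]
    have hm : ∀ y, y ∈ XX v w ↔ g • y ∈ XX uA wM := by
      intro y
      have := mem_XX_smul g v w y
      rwa [hv', hw'] at this
    have hB : ∀ d : ℤ, ∀ y, y ∈ {y | y ∈ XX v w ∧ dotInt x.1 y.1 = d} ↔ g • y ∈ AA d := by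
      intro d y
      show (_ ∧ _) ↔ (_ ∧ _)
      rw [hm, ← hx', dot_smul]
    have ea := orbit_gen v w x hv' hw' hx' ra_mem orba
    have eb := orbit_gen v w x hv' hw' hx' rb_mem orbb
    have ec := orbit_gen v w x hv' hw' hx' rc_mem orbc
    have hD : ∀ d : ℤ, ∀ {r : leechLattice}, r ∈ AA d → g⁻¹ • r ∈ XX v w := by
      intro d r hr
      rw [hm, smul_inv_smul]
      exact hr.1
    refine ⟨g⁻¹ • ra, hD _ ra_mem, g⁻¹ • rb, hD _ rb_mem, g⁻¹ • rc, hD _ rc_mem, ?_, ?_, ?_⟩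
    · rw [ea]
      exact (ncard_g g _ _ (hB _)).trans ncarda
    · rw [eb]
      exact (ncard_g g _ _ (hB _)).trans ncardb
    · rw [ec]
      exact (ncard_g g _ _ (hB _)).trans ncardc

end Cfsg.Agent.H02.CoZL
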