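import Cfsg.Agent.Lib.H02.CoSm
import Cfsg.Prelude.Def_Sporadic
import Cfsg.Agent.Lib.H02.CoZL

/-!
Simplicity of the joint stabiliser of two vectors of norm 4 with inner product `-8`.
-/

set_option autoImplicit false
set_option maxRecDepth 100000

namespace Cfsg.Agent.H02.CoSN

open Cfsg Cfsg.Agent.H26.Leech Cfsg.Agent.H02.CoA Cfsg.Agent.H02.CoB Cfsg.Agent.H02.CoK Cfsg.Agent.H02.CoM
  Cfsg.Agent.H02.CoP Cfsg.Agent.H02.CoR Cfsg.Agent.H02.CoD Cfsg.Agent.H02.CoE Cfsg.Agent.H02.CoU Cfsg.Agent.H02.CoW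
  Cfsg.Agent.H02.CoOrd Cfsg.Agent.H02.CoSm Cfsg.Agent.H02.CoZL
open Cfsg.Agent.H27.Golay hiding fld
open MulAction

/-- The two points. -/
def p0 : GolayPt := pt 0

/-- The two points. -/
def q0 : GolayPt := pt 23

theorem hpq : p0 ≠ q0 := by decide

theorem cv : ∀ i j, i ≠ p0 → i ≠ q0 → j ≠ p0 → j ≠ q0 → dec PA i = dec PA j := by decide +kernel

theorem cw : ∀ i j, i ≠ p0 → i ≠ q0 → j ≠ p0 → j ≠ q0 → dec Pw i = dec Pw j := by decide +kernel

theorem cx : ∀ i j, i ≠ p0 → i ≠ q0 → j ≠ p0 → j ≠ q0 → dec Px i = dec Px j := by decide +kernel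

theorem dot_uw : dotInt uA.1 wM.1 = -8 := w_mem.2

theorem card_base : Nat.card ↥(St uA ⊓ St wM ⊓ St xM) = 443520 := by
  have h := card_inf (St uA ⊓ St wM) xM
  rw [card_mcl uA wM sq_uA sq_w dot_uw] at h
  obtain ⟨h1, h2, -⟩ := Cfsg.Agent.H02.CoZL.main uA wM sq_uA sq_w dot_uw
  have ho : orbit (↥(St uA ⊓ St wM)) xM = XX uA wM := by
    apply CoOrd.orbit_eq
    · rintro g ⟨g1, g2⟩
      have := (mem_XX_smul g uA wM xM).mp x_mem
      rwa [show g • uA = uA from g1, show g • wM = wM from g2] at this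
    · intro y hy
      obtain ⟨g, a, b, c⟩ := h2 xM x_mem y hy
      exact ⟨g, ⟨a, b⟩, c⟩
  rw [ho, h1] at h
  omega

theorem base_simple : IsSimpleGroup ↥(St uA ⊓ St wM ⊓ St xM) := by
  refine simple_T hpq _ card_base ?_
  intro σ
  refine ⟨⟨?_, phi_fix _ _ σ _ cw⟩, phi_fix _ _ σ _ cx⟩
  have : ∀ i j, i ≠ p0 → i ≠ q0 → j ≠ p0 → j ≠ q0 → uA.1 i = uA.1 j := by
    rw [← dec_PA]
    exact cv
  exact phi_fix _ _ σ _ this

/-- Moving a triple to the base. -/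
theorem to_base3 (v w x : leechLattice) (hv : sqNorm v.1 = 32) (hw : sqNorm w.1 = 32) (hvw : dotInt v.1 w.1 = -8)
    (hx : x ∈ XX v w) : ∃ g : Co0, g • v = uA ∧ g • w = wM ∧ g • x = xM := by
  obtain ⟨g1, a1, a2⟩ := to_base v w hv hw hvw
  have hx3 : g1 • x ∈ XX uA wM := by
    have := (mem_XX_smul g1 v w x).mp hx
    rwa [a1, a2] at this
  obtain ⟨h, hf, he⟩ := transX _ hx3 _ x_mem
  obtain ⟨d1, d2⟩ := fix2 _ (by decide) (by decide) hf
  exact ⟨h * g1, by rw [mul_smul, a1, d1], by rw [mul_smul, a2, d2], by rw [mul_smul, he]⟩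

theorem triple_simple (v w x : leechLattice) (hv : sqNorm v.1 = 32) (hw : sqNorm w.1 = 32) (hvw : dotInt v.1 w.1 = -8)
    (hx : x ∈ XX v w) : IsSimpleGroup ↥(St v ⊓ St w ⊓ St x) := by
  obtain ⟨g, e1, e2, e3⟩ := to_base3 v w x hv hw hvw hx
  haveI := base_simple
  refine (conjEq g _ (St uA ⊓ St wM ⊓ St xM) ?_).isSimpleGroup
  intro a
  have f1 := conj_St g a v
  have f2 := conj_St g a w
  have f3 := conj_St g a x
  rw [e1] at f1
  rw [e2] at f2
  rw [e3] at f3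
  simp only [Subgroup.mem_inf, f1, f2, f3]

/-- The values of the inner products. -/
def ds (i : ℕ) : ℤ := if i = 0 then 0 else if i = 1 then 16 else 8

/-- The sizes. -/
def ss (i : ℕ) : ℕ := if i = 0 then 330 else if i = 1 then 462 else 1232

theorem ncardA (i : ℕ) (hi : i < 3) : (AA (ds i)).ncard = ss i := by
  interval_cases i
  · exact ncarda
  · exact ncardb
  · exact ncardc

theorem transA (i : ℕ) (hi : i < 3) : ∀ a ∈ AA (ds i), ∀ a' ∈ AA (ds i),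
    ∃ k : Co0, k • uA = uA ∧ k • wM = wM ∧ k • xM = xM ∧ k • a = a' := by
  have key : ∀ (d : ℤ) (r : leechLattice), (∀ a ∈ AA d, ∃ k : Co0, k • uA = uA ∧ k • wM = wM ∧ k • xM = xM ∧ k • r = a) →
      ∀ a ∈ AA d, ∀ a' ∈ AA d, ∃ k : Co0, k • uA = uA ∧ k • wM = wM ∧ k • xM = xM ∧ k • a = a' := by
    intro d r h a ha a' ha'
    obtain ⟨k1, p1, p2, p3, rfl⟩ := h a ha
    obtain ⟨k2, q1, q2, q3, rfl⟩ := h a' ha'
    refine ⟨k2 * k1⁻¹, ?_, ?_, ?_, ?_⟩
    · rw [mul_smul, inv_smul_eq_iff.mpr p1.symm, q1]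
    · rw [mul_smul, inv_smul_eq_iff.mpr p2.symm, q2]
    · rw [mul_smul, inv_smul_eq_iff.mpr p3.symm, q3]
    · rw [mul_smul, inv_smul_smul]
  interval_cases i
  · exact key _ _ orba
  · exact key _ _ orbb
  · exact key _ _ orbc

theorem coverT : allB (fun j => Ta (CoZa.O j) || Tb (CoZa.O j) || Tc (CoZa.O j) || Nat.beq (CoZa.O j) Px) 0 2025 = true := by
  decide +kernel

theorem cover {y : leechLattice} (hy : y ∈ XX uA wM) : y = xM ∨ y ∈ AA 0 ∨ y ∈ AA 16 ∨ y ∈ AA 8 := by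
  obtain ⟨j, hj, e⟩ := mainX.1.1 y hy
  have h := allB_spec coverT j (by omega) (by omega)
  simp only [Bool.or_eq_true] at h
  rcases h with ((h | h) | h) | h
  · exact Or.inr (Or.inl ⟨hy, (iffa y _ e).mpr h⟩)
  · exact Or.inr (Or.inr (Or.inl ⟨hy, (iffb y _ e).mpr h⟩))
  · exact Or.inr (Or.inr (Or.inr ⟨hy, (iffc y _ e).mpr h⟩))
  · left
    apply Subtype.ext
    rw [e, Nat.eq_of_beq_eq_true h]
    rfl

theorem mcl_simple (v w : leechLattice) (hv : sqNorm v.1 = 32) (hw : sqNorm w.1 = 32) (hvw : dotInt v.1 w.1 = -8) :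
    IsSimpleGroup ↥(St v ⊓ St w) := by
  haveI : Finite Co0 := Nat.finite_of_card_ne_zero (by rw [CoH.card_Co0]; norm_num)
  obtain ⟨hn, htr, -⟩ := Cfsg.Agent.H02.CoZL.main v w hv hw hvw
  have hfin : (XX v w).Finite := Set.finite_of_ncard_ne_zero (by rw [hn]; norm_num)
  obtain ⟨x, hx⟩ : (XX v w).Nonempty := Set.nonempty_of_ncard_ne_zero (by rw [hn]; norm_num)
  obtain ⟨g, hv', hw', hx'⟩ := to_base3 v w x hv hw hvw hx
  have hm : ∀ y, y ∈ XX v w ↔ g • y ∈ XX uA wM := by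
    intro y
    have := mem_XX_smul g v w y
    rwa [hv', hw'] at this
  have hB : ∀ d : ℤ, ∀ y, y ∈ {y | y ∈ XX v w ∧ dotInt x.1 y.1 = d} ↔ g • y ∈ AA d := by
    intro d y
    show (_ ∧ _) ↔ (_ ∧ _)
    rw [hm, ← hx', dot_smul]
  have hxx : dotInt x.1 x.1 = 32 := by rw [CoOrd.dot_self, hx.1]
  refine simple_of_data (St v ⊓ St w) x (XX v w) hx ?_ ?_ hfin (triple_simple v w x hv hw hvw hx) 3
    (fun i => {y | y ∈ XX v w ∧ dotInt x.1 y.1 = ds i}) ss ?_ ?_ ?_ ?_ ?_ ?_ ?_ ⟨0, by norm_num, by decide⟩ ?_ ?_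
  · rintro h ⟨g1, g2⟩
    have := (mem_XX_smul h v w x).mp hx
    rwa [show h • v = v from g1, show h • w = w from g2] at this
  · intro y hy
    obtain ⟨h, a, b, c⟩ := htr x hx y hy
    exact ⟨h, ⟨a, b⟩, c⟩
  · intro i _ y hy
    exact hy.1
  · intro i hi
    rintro ⟨-, h⟩
    rw [hxx] at h
    interval_cases i <;> simp [ds] at h
  · intro i hi j hj hij
    rw [Set.disjoint_left]
    rintro a ⟨-, h1⟩ ⟨-, h2⟩
    rw [h1] at h2
    interval_cases i <;> interval_cases j <;> simp_all [ds]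
  · intro y hy
    rcases cover ((hm y).mp hy) with e | e | e | e
    · left
      rw [← hx'] at e
      exact MulAction.injective g e
    · exact Or.inr ⟨0, by norm_num, (hB _ y).mpr e⟩
    · exact Or.inr ⟨1, by norm_num, (hB _ y).mpr e⟩
    · exact Or.inr ⟨2, by norm_num, (hB _ y).mpr e⟩
  · intro i hi a ha a' ha'
    obtain ⟨k, k1, k2, k3, k4⟩ := transA i hi _ ((hB _ a).mp ha) _ ((hB _ a').mp ha')
    refine ⟨g⁻¹ * k * g, ⟨⟨?_, ?_⟩, ?_⟩, ?_⟩
    · exact CoZL.conj_fix hv' k1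
    · exact CoZL.conj_fix hw' k2
    · exact CoZL.conj_fix hx' k3
    · exact CoZL.conj_map k4
  · intro i hi
    exact (ncard_g g _ _ (hB _)).trans (ncardA i hi)
  · rw [hn]
    decide +kernel
  · rw [hn]
    exact not_primePow (p := 3) (q := 5) (by norm_num) (by norm_num) (by norm_num) (by norm_num) (by norm_num)
  · intro N hN
    rw [hn] at hN
    exact Cfsg.Agent.Lead.burnside_two_prime 3 5 4 2 (by norm_num) (by norm_num) (by rw [hN]; norm_num)

/-- The group is simple of the stated order. -/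
theorem main (v w : leechLattice) (hv : sqNorm v.1 = 32) (hw : sqNorm w.1 = 32) (hvw : dotInt v.1 w.1 = -8) :
    IsMcL ↥(St v ⊓ St w) :=
  ⟨mcl_simple v w hv hw hvw, card_mcl v w hv hw hvw⟩

end Cfsg.Agent.H02.CoSN
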