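import Cfsg.Agent.Lib.H02.CoSN
import Cfsg.Agent.Lib.H02.CoQa
import Cfsg.Agent.Lib.H02.CoQb
import Cfsg.Agent.Lib.H02.CoQcZ
import Cfsg.Agent.Lib.H02.CoQd
import Cfsg.Agent.Lib.H02.CoQe
import Cfsg.Agent.Lib.H02.CoQg

/-!
Simplicity of the stabiliser of a vector of norm 4.
-/

set_option autoImplicit false
set_option maxRecDepth 100000

namespace Cfsg.Agent.H02.CoSO

open Cfsg Cfsg.Agent.H26.Leech Cfsg.Agent.H02.CoA Cfsg.Agent.H02.CoB Cfsg.Agent.H02.CoK Cfsg.Agent.H02.CoM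
  Cfsg.Agent.H02.CoP Cfsg.Agent.H02.CoR Cfsg.Agent.H02.CoD Cfsg.Agent.H02.CoE Cfsg.Agent.H02.CoU Cfsg.Agent.H02.CoW
  Cfsg.Agent.H02.CoOrd Cfsg.Agent.H02.CoSm Cfsg.Agent.H02.CoZL Cfsg.Agent.H02.CoSN Cfsg.Agent.H02.CoQf Cfsg.Agent.H02.CoQg
open Cfsg.Agent.H27.Golay hiding fld
open MulAction

/-- The sets of vectors by inner product with `w`. -/
def AA (d : ℤ) : Set leechLattice := {y | y ∈ Dv uA (-8) ∧ dotInt wM.1 y.1 = d}

theorem AA_inv {k : Co0} (h1 : k • uA = uA) (h2 : k • wM = wM) {d : ℤ} {y : leechLattice} (hy : y ∈ AA d) : k • y ∈ AA d := by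
  refine ⟨?_, ?_⟩
  · have := (mem_Dv_smul k uA y (-8)).mp hy.1
    rwa [h1] at this
  · have := dot_smul k wM y
    rw [h2] at this
    rw [this]
    exact hy.2

theorem tab47 : Tab (Dv uA (-8)) CoVb.O 47104 := by
  have hb : mkL CoVb.b0 Cfsg.Agent.S1575.hb ∈ Dv uA (-8) :=
    ⟨sq_mkL _ _, (tEq_iff hBA rfl rfl (by norm_num [tot]) _).mpr Cfsg.Agent.S1575.hd0⟩
  have hinv : ∀ g : Co0, Fix CoVb.Us g → g • mkL CoVb.b0 Cfsg.Agent.S1575.hb ∈ Dv uA (-8) := by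
    intro g hg
    have := (mem_Dv_smul g uA _ (-8)).mp hb
    rwa [fix_one dec_PA (by rw [sq_uA]; norm_num) g hg] at this
  exact (CoVbZ.main (mkL _ Cfsg.Agent.S1575.hb) rfl (by rw [sq_mkL]; norm_num) _ ncard_A8 hinv).1

theorem hB' : ∀ p, wM.1 p = (look [(1, 1), (2, 1), (3, 1), (4, 1), (5, 1), (6, 1), (7, 1), (8, 1), (9, 1), (10, 1), (11, 1), (12, 1), (13, 1), (14, 1), (15, 1), (16, 1), (17, 1), (18, 1), (19, 1), (20, 1), (21, 1), (22, 1), (23, 1)] (idx p) : ℤ) - (look [(0, 3)] (idx p) : ℤ) :=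
  hBw

theorem iffa (x : leechLattice) (P : ℕ) (hx : x.1 = dec P) : dotInt wM.1 x.1 = (-16) ↔ CoQf.Ta P = true := by
  rw [hx]
  exact tEq_iff hB' rfl rfl (by norm_num [tot]) P

theorem iffb (x : leechLattice) (P : ℕ) (hx : x.1 = dec P) : dotInt wM.1 x.1 = (-8) ↔ CoQf.Tb P = true := by
  rw [hx]
  exact tEq_iff hB' rfl rfl (by norm_num [tot]) P

theorem iffc (x : leechLattice) (P : ℕ) (hx : x.1 = dec P) : dotInt wM.1 x.1 = 0 ↔ CoQf.Tc P = true := by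
  rw [hx]
  exact tEq_iff hB' rfl rfl (by norm_num [tot]) P

theorem iffd (x : leechLattice) (P : ℕ) (hx : x.1 = dec P) : dotInt wM.1 x.1 = 16 ↔ CoQf.Td P = true := by
  rw [hx]
  exact tEq_iff hB' rfl rfl (by norm_num [tot]) P

theorem iffe (x : leechLattice) (P : ℕ) (hx : x.1 = dec P) : dotInt wM.1 x.1 = 8 ↔ CoQf.Te P = true := by
  rw [hx]
  exact tEq_iff hB' rfl rfl (by norm_num [tot]) P

theorem ncarda : (AA (-16)).ncard = 275 := by
  have h := Tab.ncard_filter tab47 (of_tchk2 CoVbZ.all_ok).2 CoVb.O_lt CoQf.Ta (fun x => dotInt wM.1 x.1 = (-16)) iffa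
  rw [CoQf.cnta] at h
  exact h

theorem ncardb : (AA (-8)).ncard = 7128 := by
  have h := Tab.ncard_filter tab47 (of_tchk2 CoVbZ.all_ok).2 CoVb.O_lt CoQf.Tb (fun x => dotInt wM.1 x.1 = (-8)) iffb
  rw [CoQf.cntb] at h
  exact h

theorem ncardc : (AA 0).ncard = 22275 := by
  have h := Tab.ncard_filter tab47 (of_tchk2 CoVbZ.all_ok).2 CoVb.O_lt CoQf.Tc (fun x => dotInt wM.1 x.1 = 0) iffc
  rw [CoQf.cntc] at h
  exact h

theorem ncardd : (AA 16).ncard = 2025 := by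
  have h := Tab.ncard_filter tab47 (of_tchk2 CoVbZ.all_ok).2 CoVb.O_lt CoQf.Td (fun x => dotInt wM.1 x.1 = 16) iffd
  rw [CoQf.cntd] at h
  exact h

theorem ncarde : (AA 8).ncard = 15400 := by
  have h := Tab.ncard_filter tab47 (of_tchk2 CoVbZ.all_ok).2 CoVb.O_lt CoQf.Te (fun x => dotInt wM.1 x.1 = 8) iffe
  rw [CoQf.cnte] at h
  exact h

theorem fixU (Us : List ℕ) (h1 : PA ∈ Us) (h2 : Pw ∈ Us) {g : Co0} (hg : Fix Us g) : g • uA = uA ∧ g • wM = wM :=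
  fix2 Us h1 h2 hg

theorem mem_AA_of {P : ℕ} (h0 : okP P = true) (h1 : CoS.TA8 P = true) : mkL P h0 ∈ Dv uA (-8) :=
  ⟨sq_mkL _ _, (tEq_iff hBA rfl rfl (by norm_num [tot]) _).mpr h1⟩

theorem orb_gen {d : ℤ} {n b0 : ℕ} (hok : okP b0 = true) (ht : CoS.TA8 b0 = true) (hd : dotInt wM.1 (dec b0) = d)
    {Us : List ℕ} (h1 : PA ∈ Us) (h2 : Pw ∈ Us) {O : ℕ → ℕ}
    (hmain : (∀ g : Co0, Fix Us g → g • mkL b0 hok ∈ AA d) → Tab (AA d) O n ∧ ∀ x ∈ AA d, ∃ g : Co0, Fix Us g ∧ g • mkL b0 hok = x) :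
    ∀ a ∈ AA d, ∀ a' ∈ AA d, ∃ k : Co0, k • uA = uA ∧ k • wM = wM ∧ k • a = a' := by
  have hb : mkL b0 hok ∈ AA d := ⟨mem_AA_of hok ht, hd⟩
  have h3 := (hmain (fun g hg => AA_inv (fixU Us h1 h2 hg).1 (fixU Us h1 h2 hg).2 hb)).2
  intro a ha a' ha'
  obtain ⟨k, hk, e⟩ := trans_of_orb h3 a ha a' ha'
  exact ⟨k, (fixU Us h1 h2 hk).1, (fixU Us h1 h2 hk).2, e⟩

theorem hoka : okP CoQa.b0 = true := by decide +kernel

theorem hokb : okP CoQb.b0 = true := by decide +kernel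

theorem hokc : okP CoQc.b0 = true := by decide +kernel

theorem hokd : okP CoQd.b0 = true := by decide +kernel

theorem hoke : okP CoQe.b0 = true := by decide +kernel

theorem transa : ∀ a ∈ AA (-16), ∀ a' ∈ AA (-16), ∃ k : Co0, k • uA = uA ∧ k • wM = wM ∧ k • a = a' := orb_gen (d := -16) hoka (by decide +kernel) ((iffa (mkL _ hoka) _ rfl).mpr (by decide +kernel))
  (Us := CoQa.Us) (by decide) (by decide)
  (fun hinv => CoQa.main (mkL _ hoka) rfl (by rw [sq_mkL]; norm_num) _ ncarda hinv)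

theorem transb : ∀ a ∈ AA (-8), ∀ a' ∈ AA (-8), ∃ k : Co0, k • uA = uA ∧ k • wM = wM ∧ k • a = a' := orb_gen (d := -8) hokb (by decide +kernel) ((iffb (mkL _ hokb) _ rfl).mpr (by decide +kernel))
  (Us := CoQb.Us) (by decide) (by decide)
  (fun hinv => CoQb.main (mkL _ hokb) rfl (by rw [sq_mkL]; norm_num) _ ncardb hinv)

theorem transc : ∀ a ∈ AA 0, ∀ a' ∈ AA 0, ∃ k : Co0, k • uA = uA ∧ k • wM = wM ∧ k • a = a' := orb_gen (d := 0) hokc (by decide +kernel) ((iffc (mkL _ hokc) _ rfl).mpr (by decide +kernel))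
  (Us := CoQc.Us) (by decide) (by decide)
  (fun hinv => CoQcZ.main (mkL _ hokc) rfl (by rw [sq_mkL]; norm_num) _ ncardc hinv)

theorem transd : ∀ a ∈ AA 16, ∀ a' ∈ AA 16, ∃ k : Co0, k • uA = uA ∧ k • wM = wM ∧ k • a = a' := orb_gen (d := 16) hokd (by decide +kernel) ((iffd (mkL _ hokd) _ rfl).mpr (by decide +kernel))
  (Us := CoQd.Us) (by decide) (by decide)
  (fun hinv => CoQd.main (mkL _ hokd) rfl (by rw [sq_mkL]; norm_num) _ ncardd hinv)

theorem transe : ∀ a ∈ AA 8, ∀ a' ∈ AA 8, ∃ k : Co0, k • uA = uA ∧ k • wM = wM ∧ k • a = a' := orb_gen (d := 8) hoke (by decide +kernel) ((iffe (mkL _ hoke) _ rfl).mpr (by decide +kernel))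
  (Us := CoQe.Us) (by decide) (by decide)
  (fun hinv => CoQe.main (mkL _ hoke) rfl (by rw [sq_mkL]; norm_num) _ ncarde hinv)

/-- The values of the inner products. -/
def ds (i : ℕ) : ℤ := if i = 0 then -16 else if i = 1 then -8 else if i = 2 then 0 else if i = 3 then 16 else 8

/-- The sizes. -/
def ss (i : ℕ) : ℕ := if i = 0 then 275 else if i = 1 then 7128 else if i = 2 then 22275 else if i = 3 then 2025 else 15400

theorem ncardA (i : ℕ) (hi : i < 5) : (AA (ds i)).ncard = ss i := by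
  interval_cases i
  · exact ncarda
  · exact ncardb
  · exact ncardc
  · exact ncardd
  · exact ncarde

theorem transA (i : ℕ) (hi : i < 5) : ∀ a ∈ AA (ds i), ∀ a' ∈ AA (ds i),
    ∃ k : Co0, k • uA = uA ∧ k • wM = wM ∧ k • a = a' := by
  interval_cases i
  · exact transa
  · exact transb
  · exact transc
  · exact transd
  · exact transe

theorem cover {y : leechLattice} (hy : y ∈ Dv uA (-8)) :
    y = wM ∨ y ∈ AA (-16) ∨ y ∈ AA (-8) ∨ y ∈ AA 0 ∨ y ∈ AA 16 ∨ y ∈ AA 8 := by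
  obtain ⟨j, hj, e⟩ := tab47.1 y hy
  have h := cover_all j hj
  simp only [Bool.or_eq_true] at h
  rcases h with ((((h | h) | h) | h) | h) | h
  · exact Or.inr (Or.inl ⟨hy, (iffa y _ e).mpr h⟩)
  · exact Or.inr (Or.inr (Or.inl ⟨hy, (iffb y _ e).mpr h⟩))
  · exact Or.inr (Or.inr (Or.inr (Or.inl ⟨hy, (iffc y _ e).mpr h⟩)))
  · exact Or.inr (Or.inr (Or.inr (Or.inr (Or.inl ⟨hy, (iffd y _ e).mpr h⟩))))
  · exact Or.inr (Or.inr (Or.inr (Or.inr (Or.inr ⟨hy, (iffe y _ e).mpr h⟩))))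
  · left
    apply Subtype.ext
    rw [e, Nat.eq_of_beq_eq_true h]
    rfl

theorem co2_simple (v : leechLattice) (hv : sqNorm v.1 = 32) : IsSimpleGroup ↥(St v) := by
  haveI : Finite Co0 := Nat.finite_of_card_ne_zero (by rw [CoH.card_Co0]; norm_num)
  have hn := ncard_v8 v hv
  have hfin : (Dv v (-8)).Finite := Set.finite_of_ncard_ne_zero (by rw [hn]; norm_num)
  obtain ⟨x, hx⟩ : (Dv v (-8)).Nonempty := Set.nonempty_of_ncard_ne_zero (by rw [hn]; norm_num)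
  have htr : ∀ y ∈ Dv v (-8), ∃ g : Co0, g • v = v ∧ g • x = y := fun y hy =>
    Cfsg.Agent.S1575.result v x y hv hx.1 hy.1 hx.2 hy.2
  obtain ⟨g, hv', hx'⟩ := to_base v x hv hx.1 hx.2
  have hm : ∀ y, y ∈ Dv v (-8) ↔ g • y ∈ Dv uA (-8) := by
    intro y
    have := mem_Dv_smul g v y (-8)
    rwa [hv'] at this
  have hB : ∀ d : ℤ, ∀ y, y ∈ {y | y ∈ Dv v (-8) ∧ dotInt x.1 y.1 = d} ↔ g • y ∈ AA d := by
    intro d y
    show (_ ∧ _) ↔ (_ ∧ _)
    rw [hm, ← hx', dot_smul]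
  have hxx : dotInt x.1 x.1 = 32 := by rw [CoOrd.dot_self, hx.1]
  refine simple_of_data (St v) x (Dv v (-8)) hx ?_ ?_ hfin (mcl_simple v x hv hx.1 hx.2) 5
    (fun i => {y | y ∈ Dv v (-8) ∧ dotInt x.1 y.1 = ds i}) ss ?_ ?_ ?_ ?_ ?_ ?_ ?_ ⟨0, by norm_num, by decide⟩ ?_ ?_
  · intro h hh
    have := (mem_Dv_smul h v x (-8)).mp hx
    rwa [show h • v = v from hh] at this
  · intro y hy
    obtain ⟨h, a, b⟩ := htr y hy
    exact ⟨h, a, b⟩
  · intro i _ y hy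
    exact hy.1
  · intro i hi
    rintro ⟨-, h⟩
    rw [hxx] at h
    interval_cases i <;> simp [ds] at h
  · intro i hi j hj hij
    rw [Set.disjoint_left]
    rintro a ⟨-, h1⟩ ⟨-, h2⟩
    rw [h1] at h2
    interval_cases i <;> interval_cases j <;> simp_all [ds]
  · intro y hy
    rcases cover ((hm y).mp hy) with e | e | e | e | e | e
    · left
      rw [← hx'] at e
      exact MulAction.injective g e
    · exact Or.inr ⟨0, by norm_num, (hB _ y).mpr e⟩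
    · exact Or.inr ⟨1, by norm_num, (hB _ y).mpr e⟩
    · exact Or.inr ⟨2, by norm_num, (hB _ y).mpr e⟩
    · exact Or.inr ⟨3, by norm_num, (hB _ y).mpr e⟩
    · exact Or.inr ⟨4, by norm_num, (hB _ y).mpr e⟩
  · intro i hi a ha a' ha'
    obtain ⟨k, k1, k2, k3⟩ := transA i hi _ ((hB _ a).mp ha) _ ((hB _ a').mp ha')
    refine ⟨g⁻¹ * k * g, ⟨?_, ?_⟩, ?_⟩
    · exact CoZL.conj_fix hv' k1
    · exact CoZL.conj_fix hx' k2
    · exact CoZL.conj_map k3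
  · intro i hi
    exact (ncard_g g _ _ (hB _)).trans (ncardA i hi)
  · rw [hn]
    decide +kernel
  · rw [hn]
    exact not_primePow (p := 2) (q := 23) (by norm_num) (by norm_num) (by norm_num) (by norm_num) (by norm_num)
  · intro N hN
    rw [hn] at hN
    exact Cfsg.Agent.Lead.burnside_two_prime 2 23 11 1 (by norm_num) (by norm_num) (by rw [hN]; norm_num)

/-- The group is simple of the stated order. -/
theorem main (v : leechLattice) (hv : sqNorm v.1 = 32) : IsCo2 ↥(St v) :=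
  ⟨co2_simple v hv, card_St32 v hv⟩

end Cfsg.Agent.H02.CoSO
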