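import Cfsg.Agent.Lib.H02.CoVc

/-!
The orbit of 93150 minimal vectors., a part
-/

set_option autoImplicit false
set_option Elab.async false
set_option maxRecDepth 100000

namespace Cfsg.Agent.H02.CoVcP2

open Cfsg Cfsg.Agent.H02.CoK Cfsg.Agent.H02.CoM Cfsg.Agent.H02.CoR

open Cfsg.Agent.H02.CoVc


theorem c64 : allB (tchk2 Gs O par gen lev b0 N) 65536 1024 = true := by decide +kernel
theorem c65 : allB (tchk2 Gs O par gen lev b0 N) 66560 1024 = true := by decide +kernel
theorem c66 : allB (tchk2 Gs O par gen lev b0 N) 67584 1024 = true := by decide +kernel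
theorem c67 : allB (tchk2 Gs O par gen lev b0 N) 68608 1024 = true := by decide +kernel
theorem c68 : allB (tchk2 Gs O par gen lev b0 N) 69632 1024 = true := by decide +kernel
theorem c69 : allB (tchk2 Gs O par gen lev b0 N) 70656 1024 = true := by decide +kernel
theorem c70 : allB (tchk2 Gs O par gen lev b0 N) 71680 1024 = true := by decide +kernel
theorem c71 : allB (tchk2 Gs O par gen lev b0 N) 72704 1024 = true := by decide +kernel
theorem c72 : allB (tchk2 Gs O par gen lev b0 N) 73728 1024 = true := by decide +kernel
theorem c73 : allB (tchk2 Gs O par gen lev b0 N) 74752 1024 = true := by decide +kernel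
theorem c74 : allB (tchk2 Gs O par gen lev b0 N) 75776 1024 = true := by decide +kernel
theorem c75 : allB (tchk2 Gs O par gen lev b0 N) 76800 1024 = true := by decide +kernel
theorem c76 : allB (tchk2 Gs O par gen lev b0 N) 77824 1024 = true := by decide +kernel
theorem c77 : allB (tchk2 Gs O par gen lev b0 N) 78848 1024 = true := by decide +kernel
theorem c78 : allB (tchk2 Gs O par gen lev b0 N) 79872 1024 = true := by decide +kernel
theorem c79 : allB (tchk2 Gs O par gen lev b0 N) 80896 1024 = true := by decide +kernel
theorem c80 : allB (tchk2 Gs O par gen lev b0 N) 81920 1024 = true := by decide +kernel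
theorem c81 : allB (tchk2 Gs O par gen lev b0 N) 82944 1024 = true := by decide +kernel
theorem c82 : allB (tchk2 Gs O par gen lev b0 N) 83968 1024 = true := by decide +kernel
theorem c83 : allB (tchk2 Gs O par gen lev b0 N) 84992 1024 = true := by decide +kernel
theorem c84 : allB (tchk2 Gs O par gen lev b0 N) 86016 1024 = true := by decide +kernel
theorem c85 : allB (tchk2 Gs O par gen lev b0 N) 87040 1024 = true := by decide +kernel
theorem c86 : allB (tchk2 Gs O par gen lev b0 N) 88064 1024 = true := by decide +kernel
theorem c87 : allB (tchk2 Gs O par gen lev b0 N) 89088 1024 = true := by decide +kernel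
theorem c88 : allB (tchk2 Gs O par gen lev b0 N) 90112 1024 = true := by decide +kernel
theorem c89 : allB (tchk2 Gs O par gen lev b0 N) 91136 1024 = true := by decide +kernel
theorem c90 : allB (tchk2 Gs O par gen lev b0 N) 92160 990 = true := by decide +kernel

end Cfsg.Agent.H02.CoVcP2
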