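import Cfsg.Agent.Lib.H02.CoVcP0
import Cfsg.Agent.Lib.H02.CoVcP1
import Cfsg.Agent.Lib.H02.CoVcP2

/-!
The orbit of 93150 minimal vectors., the conclusion
-/

set_option autoImplicit false
set_option Elab.async false
set_option maxRecDepth 100000

namespace Cfsg.Agent.H02.CoVcZ

open Cfsg Cfsg.Agent.H02.CoK Cfsg.Agent.H02.CoM Cfsg.Agent.H02.CoR

open Cfsg.Agent.H02.CoVc



theorem all_ok : ∀ j < N, tchk2 Gs O par gen lev b0 N j = true := by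
  intro i hi
  have hi' : i < 93150 := hi
  have h : ∀ q < 91, allB (tchk2 Gs O par gen lev b0 N) (1024 * q) (min 1024 (93150 - 1024 * q)) = true := by
    intro q hq
    interval_cases q
    exacts [CoVcP0.c0, CoVcP0.c1, CoVcP0.c2, CoVcP0.c3, CoVcP0.c4, CoVcP0.c5, CoVcP0.c6, CoVcP0.c7, CoVcP0.c8, CoVcP0.c9, CoVcP0.c10, CoVcP0.c11, CoVcP0.c12, CoVcP0.c13, CoVcP0.c14, CoVcP0.c15, CoVcP0.c16, CoVcP0.c17, CoVcP0.c18, CoVcP0.c19, CoVcP0.c20, CoVcP0.c21, CoVcP0.c22, CoVcP0.c23, CoVcP0.c24, CoVcP0.c25, CoVcP0.c26, CoVcP0.c27, CoVcP0.c28, CoVcP0.c29, CoVcP0.c30, CoVcP0.c31, CoVcP1.c32, CoVcP1.c33, CoVcP1.c34, CoVcP1.c35, CoVcP1.c36, CoVcP1.c37, CoVcP1.c38, CoVcP1.c39, CoVcP1.c40, CoVcP1.c41, CoVcP1.c42, CoVcP1.c43, CoVcP1.c44, CoVcP1.c45, CoVcP1.c46, CoVcP1.c47, CoVcP1.c48, CoVcP1.c49, CoVcP1.c50, CoVcP1.c51,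 CoVcP1.c52, CoVcP1.c53, CoVcP1.c54, CoVcP1.c55, CoVcP1.c56, CoVcP1.c57, CoVcP1.c58, CoVcP1.c59, CoVcP1.c60, CoVcP1.c61, CoVcP1.c62, CoVcP1.c63, CoVcP2.c64, CoVcP2.c65, CoVcP2.c66, CoVcP2.c67, CoVcP2.c68, CoVcP2.c69, CoVcP2.c70, CoVcP2.c71, CoVcP2.c72, CoVcP2.c73, CoVcP2.c74, CoVcP2.c75, CoVcP2.c76, CoVcP2.c77, CoVcP2.c78, CoVcP2.c79, CoVcP2.c80, CoVcP2.c81, CoVcP2.c82, CoVcP2.c83, CoVcP2.c84, CoVcP2.c85, CoVcP2.c86, CoVcP2.c87, CoVcP2.c88, CoVcP2.c89, CoVcP2.c90]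
  have hq : i / 1024 < 91 := by omega
  refine allB_spec (h _ hq) i (Nat.mul_div_le i 1024) ?_
  omega

theorem main (b : Cfsg.leechLattice) (hb : Cfsg.Agent.H02.CoK.dec b0 = b.1) (hbn : Cfsg.sqNorm b.1 ≤ 64)
    (S : Set Cfsg.leechLattice) (hS : S.ncard = N) (hinv : ∀ g : Cfsg.Co0, Fix Us g → g • b ∈ S) :
    Tab S O N ∧ ∀ x ∈ S, ∃ g : Cfsg.Co0, Fix Us g ∧ g • b = x :=
  tree_main okG (by decide) (of_tchk2 all_ok).1 (of_tchk2 all_ok).2 O_lt b hb hbn S hS hinv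

end Cfsg.Agent.H02.CoVcZ
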