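import Cfsg.Agent.Lib.H02.CoSO
import Cfsg.Agent.Lib.H02.CoJ
import Cfsg.Agent.S1574
import Cfsg.Agent.S1576
import Cfsg.Prelude.Def_Sporadic

/-!
Simplicity of the automorphism group of the lattice modulo its centre.
-/

set_option autoImplicit false
set_option maxRecDepth 100000

namespace Cfsg.Agent.H02.CoSP

open Cfsg Cfsg.Agent.H26.Leech Cfsg.Agent.H02.CoA Cfsg.Agent.H02.CoB Cfsg.Agent.H02.CoK Cfsg.Agent.H02.CoM
  Cfsg.Agent.H02.CoP Cfsg.Agent.H02.CoR Cfsg.Agent.H02.CoD Cfsg.Agent.H02.CoE Cfsg.Agent.H02.CoU Cfsg.Agent.H02.CoW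
  Cfsg.Agent.H02.CoOrd Cfsg.Agent.H02.CoSm
open Cfsg.Agent.H27.Golay hiding fld
open MulAction

/-- Sets from a decomposition. -/
theorem prim_core {X : Type*} (C Y B : Set X) (hY : Y.Finite) (r : ℕ) (O : ℕ → Set X) (s : ℕ → ℕ)
    (hO : ∀ i < r, O i ⊆ Y) (hC : ∀ i < r, Disjoint C (O i))
    (hdisj : ∀ i < r, ∀ j < r, i ≠ j → Disjoint (O i) (O j))
    (hcov : ∀ y ∈ Y, y ∈ C ∨ ∃ i < r, y ∈ O i)
    (hs : ∀ i < r, (O i).ncard = s i)
    (hCB : C ⊆ B) (hBY : B ⊆ Y)
    (hsat : ∀ i < r, ∀ a ∈ O i, ∀ a' ∈ O i, a ∈ B → a' ∈ B)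
    (hnum : ∀ I ∈ (Finset.range r).powerset, (C.ncard + ∑ i ∈ I, s i) ∣ Y.ncard → I = ∅ ∨ I = Finset.range r)
    (hdvd : B.ncard ∣ Y.ncard) : B = C ∨ B = Y := by
  classical
  have hCfin : C.Finite := hY.subset (hCB.trans hBY)
  let I : Finset ℕ := (Finset.range r).filter (fun i => (O i ∩ B).Nonempty)
  have hI : ∀ i ∈ I, O i ⊆ B := by
    intro i hi
    rw [Finset.mem_filter, Finset.mem_range] at hi
    obtain ⟨hir, a, ha, haB⟩ := hi
    intro a' ha'
    exact hsat i hir a ha a' ha' haB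
  have hUn : ∀ J : Finset ℕ, J ⊆ Finset.range r →
      ((⋃ i ∈ J, O i).ncard = ∑ i ∈ J, s i) ∧ (⋃ i ∈ J, O i).Finite ∧ Disjoint C (⋃ i ∈ J, O i) := by
    intro J
    induction J using Finset.induction_on with
    | empty =>
      intro _
      simp
    | insert a J ha ih =>
      intro hJ
      have haR : a < r := Finset.mem_range.mp (hJ (Finset.mem_insert_self _ _))
      obtain ⟨h1, h2, h3⟩ := ih (fun x hx => hJ (Finset.mem_insert_of_mem hx))
      have e : (⋃ i ∈ insert a J, O i) = O a ∪ ⋃ i ∈ J, O i := by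
        simp
      have hfa : (O a).Finite := hY.subset (hO a haR)
      have hd : Disjoint (O a) (⋃ i ∈ J, O i) := by
        rw [Set.disjoint_iUnion₂_right]
        intro j hj
        apply hdisj a haR j (Finset.mem_range.mp (hJ (Finset.mem_insert_of_mem hj)))
        rintro rfl
        exact ha hj
      rw [e]
      refine ⟨?_, hfa.union h2, ?_⟩
      · rw [Set.ncard_union_eq hd hfa h2, h1, Finset.sum_insert ha, hs a haR]
      · rw [Set.disjoint_union_right]
        exact ⟨hC a haR, h3⟩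
  obtain ⟨u1, u2, u3⟩ := hUn I (Finset.filter_subset _ _)
  have eB : B = C ∪ (⋃ i ∈ I, O i) := by
    ext y
    constructor
    · intro hy
      rcases hcov y (hBY hy) with e | ⟨i, hi, hyi⟩
      · exact Or.inl e
      · refine Or.inr ?_
        simp only [Set.mem_iUnion]
        refine ⟨i, ?_, hyi⟩
        rw [Finset.mem_filter, Finset.mem_range]
        exact ⟨hi, y, hyi, hy⟩
    · rintro (h | h)
      · exact hCB h
      · simp only [Set.mem_iUnion] at h
        obtain ⟨i, hi, hyi⟩ := h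
        exact hI i hi hyi
  have hc : B.ncard = C.ncard + ∑ i ∈ I, s i := by
    rw [eB, Set.ncard_union_eq u3 hCfin u2, u1]
  rw [hc] at hdvd
  rcases hnum I (Finset.mem_powerset.mpr (Finset.filter_subset _ _)) hdvd with h | h
  · left
    rw [eB, h]
    simp
  · right
    apply Set.Subset.antisymm hBY
    intro y hy
    rcases hcov y hy with e | ⟨i, hi, hyi⟩
    · exact hCB e
    · apply hI i _ hyi
      rw [h]
      exact Finset.mem_range.mpr hi

theorem fin_Co0 : Finite Co0 := Nat.finite_of_card_ne_zero (by rw [CoH.card_Co0]; norm_num)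

/-- The minimal vectors. -/
def MV : Set leechLattice := {x | sqNorm x.1 = 32}

theorem ncard_MV : MV.ncard = 196560 := by
  show {x : leechLattice | sqNorm x.1 = 32}.ncard = _
  rw [ncard_sq, LeechC.count32]

theorem finite_MV : MV.Finite := Set.finite_of_ncard_ne_zero (by rw [ncard_MV]; norm_num)

theorem neg_val (a : leechLattice) : ((-a : leechLattice) : GolayPt → ℤ) = -(a.1) := rfl

theorem sq_neg (a : leechLattice) : sqNorm (-a).1 = sqNorm a.1 := by
  rw [neg_val]
  unfold sqNorm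
  apply Finset.sum_congr rfl
  intro i _
  simp only [Pi.neg_apply]
  ring

theorem dot_neg (a b : leechLattice) : dotInt a.1 (-b).1 = -dotInt a.1 b.1 := by
  rw [neg_val, dot_neg_right]

theorem mem_Dv_neg {v x : leechLattice} {d : ℤ} : x ∈ Dv v d ↔ -x ∈ Dv v (-d) := by
  show (_ ∧ _) ↔ (_ ∧ _)
  rw [sq_neg, dot_neg]
  constructor
  · rintro ⟨a, b⟩
    exact ⟨a, by rw [b]⟩
  · rintro ⟨a, b⟩
    exact ⟨a, by linarith⟩

theorem ncard_Dv_neg (v : leechLattice) (d : ℤ) : (Dv v (-d)).ncard = (Dv v d).ncard := by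
  have e : Dv v (-d) = (fun x => -x) '' Dv v d := by
    ext y
    constructor
    · intro hy
      refine ⟨-y, ?_, neg_neg y⟩
      rw [mem_Dv_neg, neg_neg]
      exact hy
    · rintro ⟨x, hx, rfl⟩
      exact mem_Dv_neg.mp hx
  rw [e, Set.ncard_image_of_injective _ neg_injective]

theorem uneg_ne : uA ≠ -uA := by
  intro e
  have h := congrArg (fun z : leechLattice => dotInt uA.1 z.1) e
  simp only [dot_neg, CoOrd.dot_self, sq_uA] at h
  norm_num at h

/-- The core. -/
def CC : Set leechLattice := {uA, -uA}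

theorem ncard_CC : CC.ncard = 2 := Set.ncard_pair uneg_ne

/-- The three classes. -/
def OO (i : ℕ) : Set leechLattice :=
  if i = 0 then Dv uA 16 ∪ Dv uA (-16) else if i = 1 then Dv uA 8 ∪ Dv uA (-8) else Dv uA 0

/-- The sizes. -/
def sz (i : ℕ) : ℕ := if i = 0 then 9200 else if i = 1 then 94208 else 93150

theorem dot_u : dotInt uA.1 uA.1 = 32 := by rw [CoOrd.dot_self, sq_uA]

theorem dot_nu : dotInt uA.1 (-uA).1 = -32 := by rw [dot_neg, dot_u]

theorem CC_disj (i : ℕ) (hi : i < 3) : Disjoint CC (OO i) := by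
  rw [Set.disjoint_left]
  rintro a (rfl | rfl) h
  · interval_cases i
    · rcases h with ⟨-, h⟩ | ⟨-, h⟩ <;> rw [dot_u] at h <;> norm_num at h
    · rcases h with ⟨-, h⟩ | ⟨-, h⟩ <;> rw [dot_u] at h <;> norm_num at h
    · obtain ⟨-, h⟩ := h
      rw [dot_u] at h
      norm_num at h
  · interval_cases i
    · rcases h with ⟨-, h⟩ | ⟨-, h⟩ <;> rw [dot_nu] at h <;> norm_num at h
    · rcases h with ⟨-, h⟩ | ⟨-, h⟩ <;> rw [dot_nu] at h <;> norm_num at h
    · obtain ⟨-, h⟩ := h
      rw [dot_nu] at h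
      norm_num at h

theorem OO_disj (i : ℕ) (hi : i < 3) (j : ℕ) (hj : j < 3) (hij : i ≠ j) : Disjoint (OO i) (OO j) := by
  rw [Set.disjoint_left]
  intro a h1 h2
  interval_cases i <;> interval_cases j
  · exact hij rfl
  · rcases h1 with ⟨-, h1⟩ | ⟨-, h1⟩ <;> rcases h2 with ⟨-, h2⟩ | ⟨-, h2⟩ <;> rw [h1] at h2 <;> norm_num at h2
  · rcases h1 with ⟨-, h1⟩ | ⟨-, h1⟩ <;> obtain ⟨-, h2⟩ := h2 <;> rw [h1] at h2 <;> norm_num at h2
  · rcases h1 with ⟨-, h1⟩ | ⟨-, h1⟩ <;> rcases h2 with ⟨-, h2⟩ | ⟨-, h2⟩ <;> rw [h1] at h2 <;> norm_num at h2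
  · exact hij rfl
  · rcases h1 with ⟨-, h1⟩ | ⟨-, h1⟩ <;> obtain ⟨-, h2⟩ := h2 <;> rw [h1] at h2 <;> norm_num at h2
  · obtain ⟨-, h1⟩ := h1
    rcases h2 with ⟨-, h2⟩ | ⟨-, h2⟩ <;> rw [h1] at h2 <;> norm_num at h2
  · obtain ⟨-, h1⟩ := h1
    rcases h2 with ⟨-, h2⟩ | ⟨-, h2⟩ <;> rw [h1] at h2 <;> norm_num at h2
  · exact hij rfl

theorem Dv_disj {d e : ℤ} (h : d ≠ e) : Disjoint (Dv uA d) (Dv uA e) := by
  rw [Set.disjoint_left]
  rintro a ⟨-, h1⟩ ⟨-, h2⟩
  exact h (h1.symm.trans h2)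

theorem Dv_fin (d : ℤ) : (Dv uA d).Finite := finite_MV.subset (fun _ h => h.1)

theorem ncard_OO (i : ℕ) (hi : i < 3) : (OO i).ncard = sz i := by
  interval_cases i
  · show (Dv uA 16 ∪ Dv uA (-16)).ncard = 9200
    rw [Set.ncard_union_eq (Dv_disj (by norm_num)) (Dv_fin _) (Dv_fin _), ncard_v16 uA sq_uA]
    have := ncard_Dv_neg uA (-16)
    rw [neg_neg, ncard_v16 uA sq_uA] at this
    rw [this]
  · show (Dv uA 8 ∪ Dv uA (-8)).ncard = 94208
    rw [Set.ncard_union_eq (Dv_disj (by norm_num)) (Dv_fin _) (Dv_fin _), ncard_v8 uA sq_uA]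
    have := ncard_Dv_neg uA (-8)
    rw [neg_neg, ncard_v8 uA sq_uA] at this
    rw [this]
  · exact ncard_v0 uA sq_uA

theorem OO_sub (i : ℕ) (hi : i < 3) : OO i ⊆ MV := by
  interval_cases i
  · rintro a (h | h) <;> exact h.1
  · rintro a (h | h) <;> exact h.1
  · exact fun a h => h.1

theorem CC_sub : CC ⊆ MV := by
  rintro a (rfl | rfl)
  · exact sq_uA
  · show sqNorm (-uA).1 = 32
    rw [sq_neg, sq_uA]

/-- The decomposition of the minimal vectors. -/
theorem cover_MV : ∀ y ∈ MV, y ∈ CC ∨ ∃ i < 3, y ∈ OO i := by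
  classical
  let A : Set leechLattice := CC ∪ (OO 0 ∪ (OO 1 ∪ OO 2))
  have hA : A ⊆ MV := by
    rintro a (h | h | h | h)
    · exact CC_sub h
    · exact OO_sub 0 (by norm_num) h
    · exact OO_sub 1 (by norm_num) h
    · exact OO_sub 2 (by norm_num) h
  have hf : ∀ i < 3, (OO i).Finite := fun i hi => finite_MV.subset (OO_sub i hi)
  have hc12 := Set.ncard_union_eq (OO_disj 1 (by norm_num) 2 (by norm_num) (by norm_num)) (hf 1 (by norm_num)) (hf 2 (by norm_num))
  have hd0 : Disjoint (OO 0) (OO 1 ∪ OO 2) := by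
    rw [Set.disjoint_union_right]
    exact ⟨OO_disj 0 (by norm_num) 1 (by norm_num) (by norm_num), OO_disj 0 (by norm_num) 2 (by norm_num) (by norm_num)⟩
  have hc012 := Set.ncard_union_eq hd0 (hf 0 (by norm_num)) ((hf 1 (by norm_num)).union (hf 2 (by norm_num)))
  have hdC : Disjoint CC (OO 0 ∪ (OO 1 ∪ OO 2)) := by
    rw [Set.disjoint_union_right, Set.disjoint_union_right]
    exact ⟨CC_disj 0 (by norm_num), CC_disj 1 (by norm_num), CC_disj 2 (by norm_num)⟩
  have hcA := Set.ncard_union_eq hdC (finite_MV.subset CC_sub) ((hf 0 (by norm_num)).union ((hf 1 (by norm_num)).union (hf 2 (by norm_num))))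
  have hAc : A.ncard = 196560 := by
    show (CC ∪ (OO 0 ∪ (OO 1 ∪ OO 2))).ncard = _
    rw [hcA, hc012, hc12, ncard_CC, ncard_OO 0 (by norm_num), ncard_OO 1 (by norm_num), ncard_OO 2 (by norm_num)]
    rfl
  have e : A = MV := Set.eq_of_subset_of_ncard_le hA (by rw [ncard_MV, hAc]) finite_MV
  intro y hy
  rw [← e] at hy
  rcases hy with h | h | h | h
  · exact Or.inl h
  · exact Or.inr ⟨0, by norm_num, h⟩
  · exact Or.inr ⟨1, by norm_num, h⟩
  · exact Or.inr ⟨2, by norm_num, h⟩

/-- Transitivity up to signs on the classes. -/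
theorem near (i : ℕ) (hi : i < 3) (a a' : leechLattice) (ha : a ∈ OO i) (ha' : a' ∈ OO i) :
    ∃ h ∈ St uA, h • a = a' ∨ h • a = -a' := by
  have key : ∀ d : ℤ, (∀ w w' : leechLattice, w ∈ Dv uA d → w' ∈ Dv uA d → ∃ g : Co0, g • uA = uA ∧ g • w = w') →
      ∀ a a' : leechLattice, (a ∈ Dv uA (-d) ∨ a ∈ Dv uA d) → (a' ∈ Dv uA (-d) ∨ a' ∈ Dv uA d) →
      ∃ h ∈ St uA, h • a = a' ∨ h • a = -a' := by
    intro d hd a a' ha ha'
    have n1 : ∀ b, b ∈ Dv uA (-d) → -b ∈ Dv uA d := by
      intro b hb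
      have := (mem_Dv_neg (v := uA) (x := b) (d := -d)).mp hb
      rwa [neg_neg] at this
    rcases ha with ha | ha <;> rcases ha' with ha' | ha'
    · obtain ⟨g, g1, g2⟩ := hd (-a) (-a') (n1 _ ha) (n1 _ ha')
      refine ⟨g, g1, Or.inl ?_⟩
      rw [CoOrd.g_neg] at g2
      exact neg_inj.mp g2
    · obtain ⟨g, g1, g2⟩ := hd (-a) a' (n1 _ ha) ha'
      refine ⟨g, g1, Or.inr ?_⟩
      rw [CoOrd.g_neg] at g2
      rw [← g2, neg_neg]
    · obtain ⟨g, g1, g2⟩ := hd a (-a') ha (n1 _ ha')
      exact ⟨g, g1, Or.inr g2⟩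
    · obtain ⟨g, g1, g2⟩ := hd a a' ha ha'
      exact ⟨g, g1, Or.inl g2⟩
  interval_cases i
  · exact key (-16) (fun w w' h1 h2 => Cfsg.Agent.S1574.result uA w w' sq_uA h1.1 h2.1 h1.2 h2.2) a a'
      (by simpa [OO] using ha) (by simpa [OO] using ha')
  · exact key (-8) (fun w w' h1 h2 => Cfsg.Agent.S1575.result uA w w' sq_uA h1.1 h2.1 h1.2 h2.2) a a'
      (by simpa [OO] using ha) (by simpa [OO] using ha')
  · obtain ⟨g, g1, g2⟩ := Cfsg.Agent.S1576.result uA a a' sq_uA ha.1 ha'.1 ha.2 ha'.2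
    exact ⟨g, g1, g2⟩

theorem neg_smul_eq (g : Co0) (a : leechLattice) : (negC * g) • a = -(g • a) := rfl

theorem negC_mul_self : negC * negC = 1 := by
  apply Subtype.ext
  apply Equiv.ext
  intro x
  show - -x = x
  exact neg_neg x

theorem mem_MV_smul (g : Co0) {y : leechLattice} (hy : y ∈ MV) : g • y ∈ MV := by
  show sqNorm (g • y).1 = 32
  rw [sqNorm_smul]
  exact hy

theorem eq_one_of_MV (g : Co0) (h : ∀ y ∈ MV, g • y = y) : g = 1 := by
  apply Subtype.ext
  apply Equiv.ext
  intro x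
  show g • x = x
  have key : ∀ z (hz : z ∈ leechLattice), g • (⟨z, hz⟩ : leechLattice) = ⟨z, hz⟩ := by
    intro z hz
    have hz' : z ∈ AddSubgroup.closure CoJ.MV := by
      rw [CoJ.closure_MV]
      exact hz
    induction hz' using AddSubgroup.closure_induction with
    | mem z hm => exact h ⟨z, hm.1⟩ hm.2
    | zero => exact g_zero g
    | add a c ha hc ia ic =>
      have ha' : a ∈ leechLattice := by
        rw [← CoJ.closure_MV]
        exact ha
      have hc' : c ∈ leechLattice := by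
        rw [← CoJ.closure_MV]
        exact hc
      have := g_add g ⟨a, ha'⟩ ⟨c, hc'⟩
      rw [ia ha', ic hc'] at this
      exact this
    | neg a ha ia =>
      have ha' : a ∈ leechLattice := by
        rw [← CoJ.closure_MV]
        exact ha
      have := g_neg g ⟨a, ha'⟩
      rw [ia ha'] at this
      exact this
  exact key x.1 x.2

section final

variable (N : Subgroup Co0) (hN : N.Normal) (hz : negC ∈ N)

/-- The orbit of the normal subgroup. -/
def BB : Set leechLattice := orbit (↥N) uA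

theorem BB_neg (hz : negC ∈ N) {y : leechLattice} (hy : y ∈ BB N) : -y ∈ BB N := by
  obtain ⟨n, rfl⟩ := hy
  exact ⟨⟨negC * n.1, N.mul_mem hz n.2⟩, rfl⟩

theorem BB_sub : BB N ⊆ MV := by
  rintro _ ⟨n, rfl⟩
  exact mem_MV_smul n.1 sq_uA

include hN hz in
theorem dich : BB N = CC ∨ BB N = MV := by
  haveI := fin_Co0
  haveI := hN
  have hY : orbit Co0 uA = MV := by
    ext y
    constructor
    · rintro ⟨g, rfl⟩
      exact mem_MV_smul g sq_uA
    · intro hy
      obtain ⟨g, hg⟩ := trans32 uA y sq_uA hy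
      exact ⟨g, hg⟩
  have hd : (BB N).ncard ∣ MV.ncard := by
    rw [← hY]
    exact CoGen.orbit_sub_ncard_dvd uA N
  have hCB : CC ⊆ BB N := by
    rintro a (rfl | rfl)
    · exact mem_orbit_self uA
    · exact BB_neg N hz (mem_orbit_self uA)
  refine prim_core CC MV (BB N) finite_MV 3 OO sz OO_sub CC_disj OO_disj cover_MV ncard_OO hCB (BB_sub N) ?_ ?_ hd
  · intro i hi a ha a' ha' haB
    obtain ⟨h, hh, e⟩ := near i hi a a' ha ha'
    have h1 : h • a ∈ BB N := CoGen.orbit_sub_inv uA N h hh a haB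
    rcases e with e | e
    · rw [e] at h1
      exact h1
    · rw [e] at h1
      have := BB_neg N hz h1
      rwa [neg_neg] at this
  · rw [ncard_CC, ncard_MV]
    decide +kernel

include hN hz in
/-- The case where the orbits are the pairs. -/
theorem case_pair (h : BB N = CC) : ∀ n ∈ N, n = 1 ∨ n = negC := by
  haveI := fin_Co0
  have hpm : ∀ n ∈ N, n • uA = uA ∨ n • uA = -uA := by
    intro n hn
    have h1 : n • uA ∈ BB N := ⟨⟨n, hn⟩, rfl⟩
    rw [h] at h1
    exact h1
  have hall : ∀ n ∈ N, ∀ y ∈ MV, n • y = y ∨ n • y = -y := by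
    intro n hn y hy
    obtain ⟨g, rfl⟩ := trans32 uA y sq_uA hy
    have h2 : g⁻¹ * n * g ∈ N := by
      have := hN.conj_mem n hn g⁻¹
      simpa using this
    rcases hpm _ h2 with e | e
    · left
      rw [mul_smul, mul_smul, inv_smul_eq_iff] at e
      exact e
    · right
      rw [mul_smul, mul_smul, inv_smul_eq_iff, g_neg] at e
      exact e
  have hsq : ∀ n ∈ N, n * n = 1 := by
    intro n hn
    apply eq_one_of_MV
    intro y hy
    rw [mul_smul]
    rcases hall n hn y hy with e | e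
    · rw [e, e]
    · rw [e, g_neg, e, neg_neg]
  have hsimp : IsSimpleGroup ↥(St uA) := CoSO.co2_simple uA sq_uA
  have hnorm : (N.subgroupOf (St uA)).Normal := by
    constructor
    intro x hx g
    rw [Subgroup.mem_subgroupOf] at hx ⊢
    exact hN.conj_mem _ hx _
  rcases hsimp.eq_bot_or_eq_top_of_normal _ hnorm with hb | ht
  · intro n hn
    have hfix : ∀ m ∈ N, m • uA = uA → m = 1 := by
      intro m hm he
      have h1 : (⟨m, he⟩ : St uA) ∈ N.subgroupOf (St uA) := hm
      rw [hb, Subgroup.mem_bot] at h1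
      exact congrArg Subtype.val h1
    rcases hpm n hn with e | e
    · exact Or.inl (hfix n hn e)
    · right
      have h1 : (negC * n) • uA = uA := by
        rw [neg_smul_eq, e, neg_neg]
      have h2 := hfix _ (N.mul_mem hz hn) h1
      calc n = negC * (negC * n) := by rw [← mul_assoc, negC_mul_self, one_mul]
        _ = negC := by rw [h2, mul_one]
  · exfalso
    haveI : Fact (Nat.Prime 3) := ⟨by norm_num⟩
    have h3 : 3 ∣ Nat.card (St uA) := by
      rw [card_St32 uA sq_uA]
      norm_num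
    obtain ⟨x, hx⟩ := exists_prime_orderOf_dvd_card' 3 h3
    have h4 : (x : St uA) ∈ N.subgroupOf (St uA) := by
      rw [ht]
      trivial
    have h5 : x.1 * x.1 = 1 := hsq x.1 h4
    have h6 : x * x = 1 := Subtype.ext h5
    have h7 : x ^ 2 = 1 := by rw [pow_two, h6]
    have h8 := orderOf_dvd_of_pow_eq_one h7
    rw [hx] at h8
    norm_num at h8

/-- The regular case is impossible: two elements of different odd prime order in the same class. -/
theorem same_class (hNn : N.Normal) (hz : negC ∈ N) (hreg : ∀ m ∈ N, m • uA = uA → m = 1)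
    {n m : Co0} (hn : n ∈ N) (hm : m ∈ N) {p q : ℕ} (hp : p.Prime) (hq : q.Prime) (hp2 : p ≠ 2) (hq2 : q ≠ 2) (hpq : p ≠ q)
    (hon : orderOf n = p) (hom : orderOf m = q) {i : ℕ} (hi : i < 3) (h1 : n • uA ∈ OO i) (h2 : m • uA ∈ OO i) : False := by
  obtain ⟨h, hh, e⟩ := near i hi _ _ h1 h2
  have hh' : h • uA = uA := hh
  have hn' : h * n * h⁻¹ ∈ N := hNn.conj_mem n hn h
  have hact : (h * n * h⁻¹) • uA = h • n • uA := by
    rw [mul_smul, mul_smul]
    congr 2
    rw [inv_smul_eq_iff, hh']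
  have hpw : (h * n * h⁻¹) ^ p = 1 := by
    rw [conj_pow, ← hon, pow_orderOf_eq_one, mul_one, mul_inv_cancel]
  have hodd : Odd p := hp.odd_of_ne_two hp2
  have hmq : ¬ q ∣ 2 * p := by
    rw [Nat.Prime.dvd_mul hq]
    rintro (h0 | h0)
    · exact hq2 ((Nat.prime_dvd_prime_iff_eq hq Nat.prime_two).mp h0)
    · exact hpq ((Nat.prime_dvd_prime_iff_eq hq hp).mp h0).symm
  rcases e with e | e
  · have h3 : m⁻¹ * (h * n * h⁻¹) = 1 := by
      apply hreg _ (N.mul_mem (N.inv_mem hm) hn')
      rw [mul_smul, hact, e, inv_smul_smul]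
    have h4 : h * n * h⁻¹ = m := by
      have := inv_mul_eq_one.mp h3
      exact this.symm
    rw [h4] at hpw
    have h5 := orderOf_dvd_of_pow_eq_one hpw
    rw [hom] at h5
    exact hmq (Dvd.dvd.mul_left h5 2)
  · have h3 : (negC * m)⁻¹ * (h * n * h⁻¹) = 1 := by
      apply hreg _ (N.mul_mem (N.inv_mem (N.mul_mem hz hm)) hn')
      rw [mul_smul, hact, e, inv_smul_eq_iff, neg_smul_eq]
    have h4 : h * n * h⁻¹ = negC * m := by
      have := inv_mul_eq_one.mp h3
      exact this.symm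
    rw [h4] at hpw
    have hc : Commute negC m := (negC_central m).symm
    rw [hc.mul_pow] at hpw
    have h5 : negC ^ p = negC := by
      obtain ⟨k, rfl⟩ := hodd
      rw [pow_succ, pow_mul, pow_two, negC_mul_self, one_pow, one_mul]
    rw [h5] at hpw
    have h6 : m ^ (2 * p) = 1 := by
      have h7 : m ^ p = negC := by
        calc m ^ p = negC * (negC * m ^ p) := by rw [← mul_assoc, negC_mul_self, one_mul]
          _ = negC := by rw [hpw, mul_one]
      rw [mul_comm, pow_mul, h7, pow_two, negC_mul_self]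
    have h8 := orderOf_dvd_of_pow_eq_one h6
    rw [hom] at h8
    exact hmq h8

/-- The regular case. -/
theorem no_regular (hNn : N.Normal) (hz : negC ∈ N) (hreg : ∀ m ∈ N, m • uA = uA → m = 1) (htr : BB N = MV) : False := by
  haveI := fin_Co0
  have hcard : Nat.card N = 196560 := by
    rw [← ncard_MV, ← htr]
    let f : N → BB N := fun n => ⟨n • uA, mem_orbit _ _⟩
    have hf : Function.Bijective f := by
      constructor
      · intro m n hmn
        have h1 : m.1 • uA = n.1 • uA := congrArg Subtype.val hmn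
        have h3 : n.1⁻¹ * m.1 = 1 := by
          apply hreg _ (N.mul_mem (N.inv_mem n.2) m.2)
          rw [mul_smul, h1, inv_smul_smul]
        exact Subtype.ext (inv_mul_eq_one.mp h3).symm
      · rintro ⟨y, n, rfl⟩
        exact ⟨n, rfl⟩
    rw [Nat.card_congr (Equiv.ofBijective f hf)]
    rfl
  have hel : ∀ p : ℕ, p.Prime → p ≠ 2 → p ∣ 196560 → ∃ n ∈ N, orderOf n = p ∧ ∃ i < 3, n • uA ∈ OO i := by
    intro p hp hp2 hd
    haveI : Fact p.Prime := ⟨hp⟩
    obtain ⟨x, hx⟩ := exists_prime_orderOf_dvd_card' p (by rw [hcard]; exact hd)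
    have hx' : orderOf x.1 = p := by
      rw [← hx]
      exact Subgroup.orderOf_coe x
    refine ⟨x.1, x.2, hx', ?_⟩
    rcases cover_MV _ (mem_MV_smul x.1 sq_uA) with h | h
    · exfalso
      rcases h with h | h
      · have := hreg _ x.2 h
        rw [this, orderOf_one] at hx'
        exact hp.one_lt.ne hx'
      · have h1 : (negC * x.1) • uA = uA := by
          rw [neg_smul_eq, h, neg_neg]
        have h2 := hreg _ (N.mul_mem hz x.2) h1
        have h3 : x.1 = negC := by
          calc x.1 = negC * (negC * x.1) := by rw [← mul_assoc, negC_mul_self, one_mul]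
            _ = negC := by rw [h2, mul_one]
        have h4 : x.1 ^ 2 = 1 := by rw [h3, pow_two, negC_mul_self]
        have h5 := orderOf_dvd_of_pow_eq_one h4
        rw [hx'] at h5
        exact hp2 ((Nat.prime_dvd_prime_iff_eq hp Nat.prime_two).mp h5)
    · exact h
  obtain ⟨n3, a3, b3, i3, c3, d3⟩ := hel 3 (by norm_num) (by norm_num) (by norm_num)
  obtain ⟨n5, a5, b5, i5, c5, d5⟩ := hel 5 (by norm_num) (by norm_num) (by norm_num)
  obtain ⟨n7, a7, b7, i7, c7, d7⟩ := hel 7 (by norm_num) (by norm_num) (by norm_num)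
  obtain ⟨n13, a13, b13, i13, c13, d13⟩ := hel 13 (by norm_num) (by norm_num) (by norm_num)
  by_cases e1 : i3 = i5
  · subst e1
    exact same_class N hNn hz hreg a3 a5 (by norm_num) (by norm_num) (by norm_num) (by norm_num) (by norm_num) b3 b5 c3 d3 d5
  by_cases e2 : i3 = i7
  · subst e2
    exact same_class N hNn hz hreg a3 a7 (by norm_num) (by norm_num) (by norm_num) (by norm_num) (by norm_num) b3 b7 c3 d3 d7
  by_cases e3 : i3 = i13
  · subst e3
    exact same_class N hNn hz hreg a3 a13 (by norm_num) (by norm_num) (by norm_num) (by norm_num) (by norm_num) b3 b13 c3 d3 d13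
  by_cases e4 : i5 = i7
  · subst e4
    exact same_class N hNn hz hreg a5 a7 (by norm_num) (by norm_num) (by norm_num) (by norm_num) (by norm_num) b5 b7 c5 d5 d7
  by_cases e5 : i5 = i13
  · subst e5
    exact same_class N hNn hz hreg a5 a13 (by norm_num) (by norm_num) (by norm_num) (by norm_num) (by norm_num) b5 b13 c5 d5 d13
  by_cases e6 : i7 = i13
  · subst e6
    exact same_class N hNn hz hreg a7 a13 (by norm_num) (by norm_num) (by norm_num) (by norm_num) (by norm_num) b7 b13 c7 d7 d13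
  omega

/-- The normal subgroups containing the centre. -/
theorem main_normal (hNn : N.Normal) (hz : negC ∈ N) : (∀ n ∈ N, n = 1 ∨ n = negC) ∨ N = ⊤ := by
  haveI := fin_Co0
  rcases dich N hNn hz with h | h
  · exact Or.inl (case_pair N hNn hz h)
  · right
    have hsimp : IsSimpleGroup ↥(St uA) := CoSO.co2_simple uA sq_uA
    have hnorm : (N.subgroupOf (St uA)).Normal := by
      constructor
      intro x hx g
      rw [Subgroup.mem_subgroupOf] at hx ⊢
      exact hNn.conj_mem _ hx _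
    rcases hsimp.eq_bot_or_eq_top_of_normal _ hnorm with hb | ht
    · exfalso
      apply no_regular N hNn hz _ h
      intro m hm he
      have h1 : (⟨m, he⟩ : St uA) ∈ N.subgroupOf (St uA) := hm
      rw [hb, Subgroup.mem_bot] at h1
      exact congrArg Subtype.val h1
    · rw [eq_top_iff]
      intro g _
      have h1 : g • uA ∈ BB N := by
        rw [h]
        exact mem_MV_smul g sq_uA
      obtain ⟨n, hn⟩ := h1
      have h2 : n.1⁻¹ * g ∈ St uA := by
        show (n.1⁻¹ * g) • uA = uA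
        rw [mul_smul, inv_smul_eq_iff]
        exact hn.symm
      have h3 : (⟨_, h2⟩ : St uA) ∈ N.subgroupOf (St uA) := by
        rw [ht]
        trivial
      have h4 : n.1⁻¹ * g ∈ N := h3
      have h5 : g = n.1 * (n.1⁻¹ * g) := by group
      rw [h5]
      exact N.mul_mem n.2 h4

end final

/-- The quotient is simple of the stated order. -/
theorem main : IsCo1 (Co0 ⧸ Subgroup.center Co0) := by
  haveI := fin_Co0
  have hcard : Nat.card (Co0 ⧸ Subgroup.center Co0) = 4157776806543360000 := by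
    have h := Subgroup.card_eq_card_quotient_mul_card_subgroup (Subgroup.center Co0)
    rw [CoH.card_Co0, card_center] at h
    omega
  have hcen : negC ∈ Subgroup.center Co0 := by
    rw [Subgroup.mem_center_iff]
    exact negC_central
  refine ⟨?_, hcard⟩
  haveI : Nontrivial (Co0 ⧸ Subgroup.center Co0) := by
    apply Finite.one_lt_card_iff_nontrivial.mp
    rw [hcard]
    norm_num
  refine ⟨?_⟩
  intro Nb hNb
  let N : Subgroup Co0 := Nb.comap (QuotientGroup.mk' (Subgroup.center Co0))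
  have hN : N.Normal := hNb.comap _
  have hz : negC ∈ N := by
    show QuotientGroup.mk' (Subgroup.center Co0) negC ∈ Nb
    have : QuotientGroup.mk' (Subgroup.center Co0) negC = 1 := (QuotientGroup.eq_one_iff _).mpr hcen
    rw [this]
    exact Nb.one_mem
  rcases main_normal N hN hz with h | h
  · left
    rw [eq_bot_iff]
    intro x hx
    obtain ⟨g, rfl⟩ := QuotientGroup.mk'_surjective _ x
    rw [Subgroup.mem_bot, QuotientGroup.mk'_apply, QuotientGroup.eq_one_iff]
    rcases h g hx with e | e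
    · rw [e]
      exact Subgroup.one_mem _
    · rw [e]
      exact hcen
  · right
    rw [eq_top_iff]
    intro x _
    obtain ⟨g, rfl⟩ := QuotientGroup.mk'_surjective _ x
    have : g ∈ N := by
      rw [h]
      trivial
    exact this

end Cfsg.Agent.H02.CoSP
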