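import Cfsg.Agent.Lib.H02.Gol3
import Cfsg.Agent.Lib.H07.GolayM11S5
import Cfsg.Agent.Lib.H07.GolayDod

/-!
The stabiliser of a dodecad: sharp 5-transitivity, the hexads, counting octads.
-/

set_option autoImplicit false

namespace Cfsg.Agent.H02.Gol

open Cfsg Cfsg.Agent.H27.Golay Cfsg.Agent.H07.Orb
open scoped Pointwise

variable {d : Finset GolayPt}

theorem sharp_five (hd : d ∈ dodecads) (x y : Fin 5 ↪ GolayPt) (hx : ∀ i, x i ∈ d) (hy : ∀ i, y i ∈ d) :
    ∃! g : MulAction.stabilizer M24 d, ∀ i, ((g : M24) : Equiv.Perm GolayPt) (x i) = y i := by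
  have ne : ∀ (z : Fin 5 ↪ GolayPt) (i j : Fin 5), i ≠ j → z j ≠ z i := fun z i j hij h => hij (z.injective h).symm
  obtain ⟨a, ha, ha0, a1, a2, a3, a4, a5⟩ := flagD5 hd (hx 0) (hx 1) (hx 2) (hx 3) (hx 4)
    (ne x _ _ (by decide)) (ne x _ _ (by decide)) (ne x _ _ (by decide)) (ne x _ _ (by decide))
    (ne x _ _ (by decide)) (ne x _ _ (by decide)) (ne x _ _ (by decide)) (ne x _ _ (by decide))
    (ne x _ _ (by decide)) (ne x _ _ (by decide))
  obtain ⟨b, hb, hb0, b1, b2, b3, b4, b5⟩ := flagD5 hd (hy 0) (hy 1) (hy 2) (hy 3) (hy 4)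
    (ne y _ _ (by decide)) (ne y _ _ (by decide)) (ne y _ _ (by decide)) (ne y _ _ (by decide))
    (ne y _ _ (by decide)) (ne y _ _ (by decide)) (ne y _ _ (by decide)) (ne y _ _ (by decide))
    (ne y _ _ (by decide)) (ne y _ _ (by decide))
  have hm : b * a⁻¹ ∈ M24 := M24.mul_mem hb (M24.inv_mem ha)
  have hs : (b * a⁻¹) • d = d := by
    have h1 : a⁻¹ • d = fs D0 := by rw [← ha0, inv_smul_smul]
    rw [mul_smul, h1, hb0]
  have key : ∀ {u v w : GolayPt}, a w = u → b w = v → (b * a⁻¹) u = v := by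
    rintro u v w rfl rfl
    simp
  refine ⟨⟨⟨b * a⁻¹, hm⟩, hs⟩, ?_, ?_⟩
  · intro i
    show (b * a⁻¹) (x i) = y i
    fin_cases i
    · exact key a1 b1
    · exact key a2 b2
    · exact key a3 b3
    · exact key a4 b4
    · exact key a5 b5
  · rintro ⟨⟨g, hgm⟩, hgs⟩ hg
    have hg' : ∀ i, g (x i) = y i := hg
    have hu : (a * a⁻¹ * (b * a⁻¹)⁻¹ * g) = 1 := by
      rw [mul_inv_cancel, one_mul]
      refine eq_one_of_fix_five' hd (hx 0) (hx 1) (hx 2) (hx 3) (hx 4)
        (ne x _ _ (by decide)) (ne x _ _ (by decide)) (ne x _ _ (by decide)) (ne x _ _ (by decide))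
        (ne x _ _ (by decide)) (ne x _ _ (by decide)) (ne x _ _ (by decide)) (ne x _ _ (by decide))
        (ne x _ _ (by decide)) (ne x _ _ (by decide))
        (M24.mul_mem (M24.inv_mem hm) hgm) ?_ ?_ ?_ ?_ ?_ ?_
      · have hgs' : g • d = d := hgs
        rw [mul_smul, hgs', inv_smul_eq_iff, hs]
      all_goals
        rw [Equiv.Perm.mul_apply, hg', Equiv.Perm.inv_eq_iff_eq]
      · exact (key a1 b1).symm
      · exact (key a2 b2).symm
      · exact (key a3 b3).symm
      · exact (key a4 b4).symm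
      · exact (key a5 b5).symm
    rw [mul_inv_cancel, one_mul] at hu
    apply Subtype.ext
    apply Subtype.ext
    show g = b * a⁻¹
    exact (inv_mul_eq_one.mp hu).symm

def ptsC3 : List ℕ := ptsC2.filter (fun i => !Nat.beq i 2)
def tD1CC (π : ℕ) : Bool := tD1C π && Nat.beq (pa π 2) 2
abbrev HD1CC : Subgroup (Equiv.Perm GolayPt) := HD1C ⊓ MulAction.stabilizer (Equiv.Perm GolayPt) (pt 2)

theorem hHD1CC : ∀ π, isM24 π = true → tD1CC π = true → P π ∈ HD1CC := by
  intro π h1 h2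
  rw [tD1CC, Bool.and_eq_true] at h2
  exact ⟨hHD1C π h1 h2.1, P_fix_pt h1 (by norm_num) h2.2⟩

def TC3b : List ℕ := [984818244535754528103549039458486304, 960194014909600538415263532958746656, 420194066042906528782502451671926816, 983553010088178266402939871779325984, 444087655845423246312629078507128864, 264955085437768995597228747722917920, 485099595312130825491057440306333728, 228038541984707640989224992225495072, 984085346507332711729061765015308320, 419865668829830361526362862034552864]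

theorem zipTC3b : zipOK (fun i π => isM24 π && (tD1CC π && Nat.beq (pa π 3) i)) ptsC3 TC3b = true := by
  decide +kernel

variable {p q r s : GolayPt}

theorem flagC3b (hd : d ∈ dodecads) (hp : p ∈ d) (hq : q ∉ d) (hr : r ∉ d) (hs : s ∉ d) (hqr : r ≠ q)
    (hqs : s ≠ q) (hrs : s ≠ r) :
    ∃ h ∈ M24, h • fs D0 = d ∧ h (pt 1) = p ∧ h (pt 0) = q ∧ h (pt 2) = r ∧ h (pt 3) = s := by
  obtain ⟨h, hh, rfl, rfl, rfl, rfl⟩ := flagC2 hd hp hq hr hqr
  have hmem : idx (h⁻¹ s) ∈ ptsC3 := by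
    rw [ptsC3, List.mem_filter, ptsC2, List.mem_filter]
    have aux : ∀ (c : ℕ), c < 24 → s ≠ h (pt c) → Nat.beq (idx (h⁻¹ s)) c = false := by
      intro c _ hc
      cases hb : Nat.beq (idx (h⁻¹ s)) c with
      | false => rfl
      | true =>
        exfalso
        apply hc
        have h1 : h⁻¹ s = pt c := by rw [← pt_idx (h⁻¹ s), Nat.eq_of_beq_eq_true hb]
        rw [← h1]
        simp
    refine ⟨⟨mem_ptsC hs, ?_⟩, ?_⟩
    · rw [aux 0 (by norm_num) hqs]; rfl
    · rw [aux 2 (by norm_num) hrs]; rfl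
  obtain ⟨g, hg, e⟩ := flag_step hHD1CC (by norm_num) zipTC3b hmem
  have hg2 : g • fs D0 = fs D0 := hg.1.1.1.2
  have hg3 : g (pt 1) = pt 1 := hg.1.1.2
  have hg4 : g (pt 0) = pt 0 := hg.1.2
  have hg5 : g (pt 2) = pt 2 := hg.2
  exact ⟨h * g, M24.mul_mem hh hg.1.1.1.1, by rw [mul_smul, hg2], by rw [Equiv.Perm.mul_apply, hg3],
    by rw [Equiv.Perm.mul_apply, hg4], by rw [Equiv.Perm.mul_apply, hg5], e⟩

theorem three_trans_compl (hd : d ∈ dodecads) (hp : p ∈ d) (x y : Fin 3 ↪ GolayPt) (hx : ∀ i, x i ∉ d)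
    (hy : ∀ i, y i ∉ d) : ∃ g ∈ MulAction.stabilizer M24 d ⊓ MulAction.stabilizer M24 p,
      ∀ i, (g : Equiv.Perm GolayPt) (x i) = y i := by
  have ne : ∀ (z : Fin 3 ↪ GolayPt) (i j : Fin 3), i ≠ j → z j ≠ z i := fun z i j hij h => hij (z.injective h).symm
  obtain ⟨a, ha, ha0, a1, a2, a3, a4⟩ := flagC3b hd hp (hx 0) (hx 1) (hx 2)
    (ne x _ _ (by decide)) (ne x _ _ (by decide)) (ne x _ _ (by decide))
  obtain ⟨b, hb, hb0, b1, b2, b3, b4⟩ := flagC3b hd hp (hy 0) (hy 1) (hy 2)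
    (ne y _ _ (by decide)) (ne y _ _ (by decide)) (ne y _ _ (by decide))
  have hm : b * a⁻¹ ∈ M24 := M24.mul_mem hb (M24.inv_mem ha)
  have hs : (b * a⁻¹) • d = d := by
    have h1 : a⁻¹ • d = fs D0 := by rw [← ha0, inv_smul_smul]
    rw [mul_smul, h1, hb0]
  have key : ∀ {u v w : GolayPt}, a w = u → b w = v → (b * a⁻¹) u = v := by
    rintro u v w rfl rfl
    simp
  refine ⟨⟨b * a⁻¹, hm⟩, ⟨hs, key a1 b1⟩, ?_⟩
  intro i
  show (b * a⁻¹) (x i) = y i
  fin_cases i
  · exact key a2 b2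
  · exact key a3 b3
  · exact key a4 b4

theorem inter_six {o d : Finset GolayPt} (ho : o ∈ octads) (hd : d ∈ dodecads) (h5 : 5 ≤ (o ∩ d).card) :
    (o ∩ d).card = 6 := by
  have h1 : symmDiff o d ∈ supports (golayCode : Set (GolayPt → ZMod 2)) := supports_symmDiff ho.1 hd.1
  have hcard : (symmDiff o d).card + 2 * (o ∩ d).card = 20 := by
    have h2 : (o \ d).card + (o ∩ d).card = o.card := Finset.card_sdiff_add_card_inter o d
    have h3 : (d \ o).card + (d ∩ o).card = d.card := Finset.card_sdiff_add_card_inter d o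
    have h4 : (symmDiff o d).card = (o \ d).card + (d \ o).card := by
      rw [symmDiff_def, Finset.sup_eq_union]
      have hdisj : Disjoint (o \ d) (d \ o) := by
        rw [Finset.disjoint_left]
        intro a ha hb
        exact (Finset.mem_sdiff.mp ha).2 (Finset.mem_sdiff.mp hb).1
      exact Finset.card_union_of_disjoint hdisj
    rw [Finset.inter_comm d o] at h3
    rw [ho.2] at h2
    rw [hd.2] at h3
    omega
  have hle : (o ∩ d).card ≤ 8 := by
    rw [← ho.2]
    exact Finset.card_le_card Finset.inter_subset_left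
  rcases supports_weights h1 with h | ⟨h2, h3⟩
  · rw [h, Finset.card_empty] at hcard
    omega
  · obtain ⟨k, hk⟩ := h3
    omega

theorem steiner_hexads (hd : d ∈ dodecads) : IsSteinerSystem 5 6
    {h : Finset {p : GolayPt // p ∈ d} | ∃ o ∈ octads, (o ∩ d).card = 6 ∧ h = Finset.subtype (fun p => p ∈ d) o} := by
  constructor
  · rintro b ⟨o, -, h6, rfl⟩
    rw [Finset.card_subtype, Finset.filter_mem_eq_inter, h6]
  · intro s hs
    let S : Finset GolayPt := s.map (Function.Embedding.subtype _)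
    have hS : S.card = 5 := by
      rw [Finset.card_map, hs]
    have hSd : S ⊆ d := by
      intro x hx
      obtain ⟨y, _, rfl⟩ := Finset.mem_map.mp hx
      exact y.2
    obtain ⟨o, ⟨ho, hoS⟩, huniq⟩ := steiner_octads.2 S hS
    have h5 : 5 ≤ (o ∩ d).card := by
      rw [← hS]
      exact Finset.card_le_card (Finset.subset_inter hoS hSd)
    refine ⟨Finset.subtype (fun p => p ∈ d) o, ⟨⟨o, ho, inter_six ho hd h5, rfl⟩, ?_⟩, ?_⟩
    · intro x hx
      rw [Finset.mem_subtype]
      exact hoS (Finset.mem_map.mpr ⟨x, hx, rfl⟩)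
    · rintro b ⟨⟨o', ho', h6', rfl⟩, hsb⟩
      have : o' = o := huniq o' ⟨ho', by
        intro x hx
        obtain ⟨y, hy, rfl⟩ := Finset.mem_map.mp hx
        exact (Finset.mem_subtype.mp (hsb hy))⟩
      rw [this]

theorem count_base (k : ℕ) :
    {o : Finset GolayPt | o ∈ octads ∧ (o ∩ fs D0).card = k}.ncard =
      countL (fun m => Nat.beq (keyD m) k) octadL := by
  refine ncard_of_list fs octadL_nodup fs_inj_octadL mem_octads_iff_list ?_
  intro m _
  rw [keyD_eq, Finset.inter_comm]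
  rw [Nat.beq_eq]

theorem count_smul (h : Equiv.Perm GolayPt) (hh : h ∈ M24) (k : ℕ) :
    {o : Finset GolayPt | o ∈ octads ∧ (o ∩ h • fs D0).card = k}.ncard =
      {o : Finset GolayPt | o ∈ octads ∧ (o ∩ fs D0).card = k}.ncard := by
  have himg : {o : Finset GolayPt | o ∈ octads ∧ (o ∩ h • fs D0).card = k} =
      (fun o => h • o) '' {o : Finset GolayPt | o ∈ octads ∧ (o ∩ fs D0).card = k} := by
    ext o
    constructor
    · rintro ⟨ho, hk⟩
      refine ⟨h⁻¹ • o, ⟨smul_mem_octads (M24.inv_mem hh) ho, ?_⟩, smul_inv_smul h o⟩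
      have : (h⁻¹ • o ∩ fs D0) = h⁻¹ • (o ∩ h • fs D0) := by
        rw [Finset.smul_finset_inter, inv_smul_smul]
      rw [this, Finset.card_smul_finset, hk]
    · rintro ⟨o', ⟨ho', hk⟩, rfl⟩
      refine ⟨smul_mem_octads hh ho', ?_⟩
      show (h • o' ∩ h • fs D0).card = k
      rw [← Finset.smul_finset_inter, Finset.card_smul_finset, hk]
  rw [himg, Set.ncard_image_of_injective _ (MulAction.injective h)]

theorem count_six : countL (fun m => Nat.beq (keyD m) 6) octadL = 132 := by decide +kernel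
theorem count_two : countL (fun m => Nat.beq (keyD m) 2) octadL = 132 := by decide +kernel
theorem count_four : countL (fun m => Nat.beq (keyD m) 4) octadL = 495 := by decide +kernel

theorem octad_counts (hd : d ∈ dodecads) :
    {o : Finset GolayPt | o ∈ octads ∧ (o ∩ d).card = 6}.ncard = 132 ∧
    {o : Finset GolayPt | o ∈ octads ∧ (o ∩ d).card = 2}.ncard = 132 ∧
    {o : Finset GolayPt | o ∈ octads ∧ (o ∩ d).card = 4}.ncard = 495 := by
  obtain ⟨h, hh, rfl⟩ := Cfsg.Agent.H07.Orb.exists_smul_D0 hd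
  rw [count_smul h hh, count_smul h hh, count_smul h hh, count_base, count_base, count_base,
    count_six, count_two, count_four]
  exact ⟨rfl, rfl, rfl⟩

end Cfsg.Agent.H02.Gol
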