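import Mathlib

/-!
A Jordan-type simplicity criterion for two-transitive groups.
-/

set_option autoImplicit false

namespace Cfsg.Agent.H02.Gol

section jordan

variable {Γ X : Type*} [Group Γ] [MulAction Γ X]

theorem jordan_step (A : Subgroup Γ) (Y : Set X) (b : X) (hb : b ∈ Y)
    (hinv : ∀ g ∈ A, ∀ y ∈ Y, g • y ∈ Y)
    (hfaith : ∀ g ∈ A, (∀ y ∈ Y, g • y = y) → g = 1)
    (h2 : ∀ u ∈ Y, ∀ v ∈ Y, u ≠ v → ∀ u' ∈ Y, ∀ v' ∈ Y, u' ≠ v' → ∃ g ∈ A, g • u = u' ∧ g • v = v')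
    (hS : IsSimpleGroup ↥(A ⊓ MulAction.stabilizer Γ b))
    (hnoreg : ∀ N : Subgroup Γ, N ≤ A → (∀ n ∈ N, ∀ a ∈ A, a * n * a⁻¹ ∈ N) → (∀ y ∈ Y, ∃ n ∈ N, n • b = y) →
      (∀ n ∈ N, n • b = b → n = 1) → False) :
    IsSimpleGroup ↥A := by
  have hnt : Nontrivial ↥A := by
    obtain ⟨x, y, hxy⟩ := hS.exists_pair_ne
    refine ⟨⟨⟨x.1, x.2.1⟩, ⟨y.1, y.2.1⟩, ?_⟩⟩
    intro h
    apply hxy
    apply Subtype.ext
    have h' := congrArg (fun z : ↥A => (z : Γ)) h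
    exact h'
  refine ⟨?_⟩
  intro N hN
  by_cases hNb : N = ⊥
  · exact Or.inl hNb
  right
  let N₁ : Subgroup Γ := N.map A.subtype
  have hN₁A : N₁ ≤ A := by
    rintro _ ⟨n, _, rfl⟩
    exact n.2
  have hN₁c : ∀ n ∈ N₁, ∀ a ∈ A, a * n * a⁻¹ ∈ N₁ := by
    rintro _ ⟨n, hn, rfl⟩ a ha
    exact ⟨⟨a, ha⟩ * n * ⟨a, ha⟩⁻¹, hN.conj_mem n hn ⟨a, ha⟩, rfl⟩
  -- transitivity of `N₁`
  obtain ⟨n, hnN, hn1⟩ : ∃ n ∈ N₁, n ≠ 1 := by
    obtain ⟨n, hn⟩ := (Subgroup.ne_bot_iff_exists_ne_one).mp hNb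
    refine ⟨n.1.1, ⟨n.1, n.2, rfl⟩, ?_⟩
    intro h
    apply hn
    apply Subtype.ext
    apply Subtype.ext
    exact h
  obtain ⟨y₀, hy₀, hy₀n⟩ : ∃ y ∈ Y, n • y ≠ y := by
    by_contra hall
    push Not at hall
    exact hn1 (hfaith n (hN₁A hnN) hall)
  have htrans : ∀ u ∈ Y, ∀ v ∈ Y, ∃ m ∈ N₁, m • u = v := by
    intro u hu v hv
    by_cases huv : u = v
    · exact ⟨1, N₁.one_mem, by rw [one_smul, huv]⟩
    obtain ⟨a, ha, h1, h3⟩ := h2 y₀ hy₀ (n • y₀) (hinv n (hN₁A hnN) y₀ hy₀) (Ne.symm hy₀n) u hu v hv huv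
    refine ⟨a * n * a⁻¹, hN₁c n hnN a ha, ?_⟩
    rw [← h1, mul_smul, mul_smul, inv_smul_smul, h3]
  have hsub : (N₁.subgroupOf (A ⊓ MulAction.stabilizer Γ b)).Normal := by
    constructor
    intro x hx g
    rw [Subgroup.mem_subgroupOf] at hx ⊢
    exact hN₁c _ hx _ g.2.1
  rcases hS.eq_bot_or_eq_top_of_normal _ hsub with h | h
  · exfalso
    refine hnoreg N₁ hN₁A hN₁c (fun y hy => htrans b hb y hy) ?_
    intro m hm hmb
    have h3 : (⟨m, hN₁A hm, hmb⟩ : ↥(A ⊓ MulAction.stabilizer Γ b)) ∈ N₁.subgroupOf (A ⊓ MulAction.stabilizer Γ b) := hm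
    rw [h, Subgroup.mem_bot] at h3
    exact congrArg Subtype.val h3
  · rw [eq_top_iff]
    intro a _
    have ha := a.2
    have hy := hinv a.1 ha b hb
    obtain ⟨m, hm, hmb⟩ := htrans b hb _ hy
    have h4 : m⁻¹ * a.1 ∈ A ⊓ MulAction.stabilizer Γ b := by
      refine ⟨A.mul_mem (A.inv_mem (hN₁A hm)) ha, ?_⟩
      show (m⁻¹ * a.1) • b = b
      rw [mul_smul, ← hmb, inv_smul_smul]
    have h5 : (⟨m⁻¹ * a.1, h4⟩ : ↥(A ⊓ MulAction.stabilizer Γ b)) ∈ N₁.subgroupOf (A ⊓ MulAction.stabilizer Γ b) := by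
      rw [h]
      trivial
    have h6 : m⁻¹ * a.1 ∈ N₁ := h5
    have h7 : a.1 ∈ N₁ := by
      have : a.1 = m * (m⁻¹ * a.1) := by group
      rw [this]
      exact N₁.mul_mem hm h6
    obtain ⟨c, hc, hca⟩ := h7
    have : c = a := Subtype.ext hca
    exact this ▸ hc

/-- Two different primes divide the degree: no regular normal subgroup. -/
theorem noreg_of_primes [Finite Γ] {A : Subgroup Γ} {Y : Set X} {b : X} (hb : b ∈ Y)
    (h2 : ∀ u ∈ Y, ∀ v ∈ Y, u ≠ v → ∀ u' ∈ Y, ∀ v' ∈ Y, u' ≠ v' → ∃ g ∈ A, g • u = u' ∧ g • v = v')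
    {r s : ℕ} (hr : r.Prime) (hs : s.Prime) (hrs : r ≠ s) (hrY : r ∣ Y.ncard) (hsY : s ∣ Y.ncard)
    (N : Subgroup Γ) (hNA : N ≤ A) (hNc : ∀ n ∈ N, ∀ a ∈ A, a * n * a⁻¹ ∈ N) (htr : ∀ y ∈ Y, ∃ n ∈ N, n • b = y)
    (hreg : ∀ n ∈ N, n • b = b → n = 1) (hinv : ∀ g ∈ A, ∀ y ∈ Y, g • y ∈ Y) : False := by
  -- cardinality of `N`
  have hcard : Nat.card N = Y.ncard := by
    let f : N → Y := fun n => ⟨n.1 • b, hinv n.1 (hNA n.2) b hb⟩
    have hf : Function.Bijective f := by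
      constructor
      · intro m n hmn
        have h1 : m.1 • b = n.1 • b := congrArg Subtype.val hmn
        have h3 : n.1⁻¹ * m.1 = 1 := by
          apply hreg _ (N.mul_mem (N.inv_mem n.2) m.2)
          rw [mul_smul, h1, inv_smul_smul]
        exact Subtype.ext (inv_mul_eq_one.mp h3).symm
      · rintro ⟨y, hy⟩
        obtain ⟨n, hn, hnb⟩ := htr y hy
        exact ⟨⟨n, hn⟩, Subtype.ext hnb⟩
    rw [Nat.card_congr (Equiv.ofBijective f hf), Nat.card_coe_set_eq]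
  haveI : Fact r.Prime := ⟨hr⟩
  haveI : Fact s.Prime := ⟨hs⟩
  rw [← hcard] at hrY hsY
  obtain ⟨x, hx⟩ := exists_prime_orderOf_dvd_card' r hrY
  obtain ⟨y, hy⟩ := exists_prime_orderOf_dvd_card' s hsY
  have hx1 : (x : Γ) ≠ 1 := by
    intro h
    have : x = 1 := Subtype.ext h
    rw [this, orderOf_one] at hx
    exact hr.one_lt.ne hx
  have hy1 : (y : Γ) ≠ 1 := by
    intro h
    have : y = 1 := Subtype.ext h
    rw [this, orderOf_one] at hy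
    exact hs.one_lt.ne hy
  have hxb : (x : Γ) • b ≠ b := fun e => hx1 (hreg _ x.2 e)
  have hyb : (y : Γ) • b ≠ b := fun e => hy1 (hreg _ y.2 e)
  obtain ⟨a, ha, h1, h3⟩ := h2 b hb _ (hinv _ (hNA x.2) b hb) (Ne.symm hxb) b hb _ (hinv _ (hNA y.2) b hb) (Ne.symm hyb)
  have hc := hNc _ x.2 a ha
  have hceq : a * (x : Γ) * a⁻¹ = y := by
    have h4 : (y : Γ)⁻¹ * (a * x * a⁻¹) = 1 := by
      apply hreg _ (N.mul_mem (N.inv_mem y.2) hc)
      have h5 : a⁻¹ • b = b := by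
        conv_lhs => rw [← h1]
        rw [inv_smul_smul]
      rw [mul_smul, mul_smul, mul_smul, h5, h3, inv_smul_smul]
    exact (inv_mul_eq_one.mp h4).symm
  have h6 : orderOf (x : Γ) = orderOf (y : Γ) := by
    rw [← hceq]
    have := orderOf_injective (MulAut.conj a).toMonoidHom (MulAut.conj a).injective (x : Γ)
    simp only [MulEquiv.toMonoidHom_eq_coe, MonoidHom.coe_coe, MulAut.conj_apply] at this
    exact this.symm
  rw [Subgroup.orderOf_coe, Subgroup.orderOf_coe, hx, hy] at h6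
  exact hrs h6

/-- A regular normal subgroup of prime order forces trivial two-point stabilisers. -/
theorem noreg_of_prime [Finite Γ] {A : Subgroup Γ} {Y : Set X} {b : X} (hb : b ∈ Y)
    (hfaith : ∀ g ∈ A, (∀ y ∈ Y, g • y = y) → g = 1)
    (hstab : ∀ b' ∈ Y, b' ≠ b → ∃ g ∈ A, g • b = b ∧ g • b' = b' ∧ g ≠ 1)
    (hp : (Y.ncard).Prime)
    (N : Subgroup Γ) (hNA : N ≤ A) (hNc : ∀ n ∈ N, ∀ a ∈ A, a * n * a⁻¹ ∈ N) (htr : ∀ y ∈ Y, ∃ n ∈ N, n • b = y)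
    (hreg : ∀ n ∈ N, n • b = b → n = 1) (hinv : ∀ g ∈ A, ∀ y ∈ Y, g • y ∈ Y) : False := by
  have hcard : Nat.card N = Y.ncard := by
    let f : N → Y := fun n => ⟨n.1 • b, hinv n.1 (hNA n.2) b hb⟩
    have hf : Function.Bijective f := by
      constructor
      · intro m n hmn
        have h1 : m.1 • b = n.1 • b := congrArg Subtype.val hmn
        have h3 : n.1⁻¹ * m.1 = 1 := by
          apply hreg _ (N.mul_mem (N.inv_mem n.2) m.2)
          rw [mul_smul, h1, inv_smul_smul]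
        exact Subtype.ext (inv_mul_eq_one.mp h3).symm
      · rintro ⟨y, hy⟩
        obtain ⟨n, hn, hnb⟩ := htr y hy
        exact ⟨⟨n, hn⟩, Subtype.ext hnb⟩
    rw [Nat.card_congr (Equiv.ofBijective f hf), Nat.card_coe_set_eq]
  haveI : Fact (Y.ncard).Prime := ⟨hp⟩
  rw [← hcard] at hp
  haveI : Fact (Nat.card N).Prime := ⟨hp⟩
  haveI : Nontrivial N := Finite.one_lt_card_iff_nontrivial.mp hp.one_lt
  obtain ⟨n, hn⟩ : ∃ n : N, n ≠ 1 := exists_ne 1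
  have hn1 : (n : Γ) ≠ 1 := fun e => hn (Subtype.ext e)
  have hnb : (n : Γ) • b ≠ b := fun e => hn1 (hreg _ n.2 e)
  obtain ⟨g, hgA, hgb, hgb', hg1⟩ := hstab _ (hinv _ (hNA n.2) b hb) hnb
  apply hg1
  have hcomm : g * (n : Γ) * g⁻¹ = n := by
    have h4 : (n : Γ)⁻¹ * (g * n * g⁻¹) = 1 := by
      apply hreg _ (N.mul_mem (N.inv_mem n.2) (hNc _ n.2 g hgA))
      have h5 : g⁻¹ • b = b := by
        conv_lhs => rw [← hgb]
        rw [inv_smul_smul]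
      rw [mul_smul, mul_smul, mul_smul, h5, hgb', inv_smul_smul]
    exact (inv_mul_eq_one.mp h4).symm
  have hgen : ∀ m : N, g * (m : Γ) * g⁻¹ = m := by
    intro m
    have hzp : Subgroup.zpowers n = ⊤ := by
      rcases (Subgroup.eq_bot_or_eq_top_of_prime_card (Subgroup.zpowers n)) with h | h
      · exact absurd (Subgroup.zpowers_eq_bot.mp h) hn
      · exact h
    have hmz : m ∈ Subgroup.zpowers n := by rw [hzp]; trivial
    obtain ⟨i, rfl⟩ := Subgroup.mem_zpowers_iff.mp hmz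
    simp only [Subgroup.coe_zpow]
    rw [← conj_zpow, hcomm]
  apply hfaith g hgA
  intro y hy
  obtain ⟨m, hm, rfl⟩ := htr y hy
  have := hgen ⟨m, hm⟩
  have h6 : g * m = m * g := by
    calc g * m = g * m * g⁻¹ * g := by group
      _ = m * g := by rw [show g * m * g⁻¹ = m from this]
  rw [← mul_smul, h6, mul_smul, hgb]

end jordan

end Cfsg.Agent.H02.Gol
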