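import Cfsg.Agent.Lib.H02.Gol7
import Cfsg.Agent.Lib.H02.Gol8
import Cfsg.Agent.Lib.H02.Gol4
import Cfsg.Agent.Lib.H07.GolayM11Psl
import Cfsg.Agent.Lib.H07.GolayDodPair

/-!
Simplicity of the Mathieu groups in the Golay setting.
-/

set_option autoImplicit false

namespace Cfsg.Agent.H02.Gol

open Cfsg Cfsg.Agent.H27.Golay
open scoped Pointwise

theorem four_trans {p q r s p' q' r' s' : GolayPt} (h1 : p ≠ q) (h2 : p ≠ r) (h3 : p ≠ s) (h4 : q ≠ r)
    (h5 : q ≠ s) (h6 : r ≠ s)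
    (h1' : p' ≠ q') (h2' : p' ≠ r') (h3' : p' ≠ s') (h4' : q' ≠ r') (h5' : q' ≠ s') (h6' : r' ≠ s') :
    ∃ g ∈ M24, g p = p' ∧ g q = q' ∧ g r = r' ∧ g s = s' := by
  haveI := k_pretrans 4 (by norm_num)
  let x : Fin 4 ↪ GolayPt := ⟨![p, q, r, s], by
    intro a b hab
    fin_cases a <;> fin_cases b <;> simp_all⟩
  let x' : Fin 4 ↪ GolayPt := ⟨![p', q', r', s'], by
    intro a b hab
    fin_cases a <;> fin_cases b <;> simp_all⟩
  obtain ⟨g, hg⟩ := MulAction.exists_smul_eq M24 x x'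
  exact ⟨g.1, g.2, congrArg (fun e : Fin 4 ↪ GolayPt => e 0) hg, congrArg (fun e : Fin 4 ↪ GolayPt => e 1) hg,
    congrArg (fun e : Fin 4 ↪ GolayPt => e 2) hg, congrArg (fun e : Fin 4 ↪ GolayPt => e 3) hg⟩

/-- Existence of a field with four elements. -/
theorem psl3_simple {F : Type} [Field F] [Fintype F] : IsSimpleGroup (Matrix.ProjectiveSpecialLinearGroup (Fin 3) F) :=
  Cfsg.Agent.Lead.PSL_simple (by simp)

theorem m21_simple {p q r : GolayPt} (hpq : p ≠ q) (hpr : p ≠ r) (hqr : q ≠ r) :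
    IsSimpleGroup ↥(MulAction.stabilizer M24 p ⊓ MulAction.stabilizer M24 q ⊓ MulAction.stabilizer M24 r) := by
  letI : Fintype (GaloisField 2 2) := Fintype.ofFinite _
  have hF : Fintype.card (GaloisField 2 2) = 4 := by
    rw [← Nat.card_eq_fintype_card, GaloisField.card 2 2 (by norm_num)]
    norm_num
  obtain ⟨e⟩ := m21_iso (F := GaloisField 2 2) p q r hpq hpr hqr hF
  haveI : IsSimpleGroup (Matrix.ProjectiveSpecialLinearGroup (Fin 3) (GaloisField 2 2)) := psl3_simple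
  exact e.isSimpleGroup

theorem exists_other (T : Finset GolayPt) (hT : T.card < 24) : ∃ x, x ∉ T := by
  by_contra hall
  push Not at hall
  have h1 : T = Finset.univ := Finset.eq_univ_iff_forall.mpr hall
  rw [h1] at hT
  exact absurd hT (by simp [Finset.card_univ])

theorem smul_def' (g : ↥M24) (x : GolayPt) : g • x = (g : Equiv.Perm GolayPt) x := rfl

theorem ncard_compl_pair {p q : GolayPt} (hpq : p ≠ q) : ({y | y ≠ p ∧ y ≠ q} : Set GolayPt).ncard = 22 := by
  have h1 : ({y | y ≠ p ∧ y ≠ q} : Set GolayPt) = (({p, q} : Finset GolayPt) : Set GolayPt)ᶜ := by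
    ext y
    simp
  rw [h1, Set.ncard_compl, Set.ncard_coe_finset, Finset.card_pair hpq, card_pts]

theorem ncard_compl_one (p : GolayPt) : ({y | y ≠ p} : Set GolayPt).ncard = 23 := by
  have h1 : ({y | y ≠ p} : Set GolayPt) = ({p} : Set GolayPt)ᶜ := by
    ext y
    simp
  rw [h1, Set.ncard_compl, Set.ncard_singleton, card_pts]

theorem eq_one_of_apply {g : ↥M24} (h : ∀ x, (g : Equiv.Perm GolayPt) x = x) : g = 1 := by
  apply Subtype.ext
  ext1 x
  exact h x

theorem m22_simple {p q : GolayPt} (hpq : p ≠ q) :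
    IsSimpleGroup ↥(MulAction.stabilizer M24 p ⊓ MulAction.stabilizer M24 q) := by
  obtain ⟨r, hr⟩ := exists_other {p, q} (by rw [Finset.card_pair hpq]; norm_num)
  simp only [Finset.mem_insert, Finset.mem_singleton, not_or] at hr
  have hpr : p ≠ r := Ne.symm hr.1
  have hqr : q ≠ r := Ne.symm hr.2
  have hinv : ∀ g ∈ MulAction.stabilizer M24 p ⊓ MulAction.stabilizer M24 q, ∀ y ∈ ({y | y ≠ p ∧ y ≠ q} : Set GolayPt),
      g • y ∈ ({y | y ≠ p ∧ y ≠ q} : Set GolayPt) := by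
    rintro g ⟨h1, h2⟩ y ⟨hy1, hy2⟩
    have h1' : g • p = p := h1
    have h2' : g • q = q := h2
    constructor
    · intro e
      rw [← h1'] at e
      exact hy1 (MulAction.injective g e)
    · intro e
      rw [← h2'] at e
      exact hy2 (MulAction.injective g e)
  have h2tr : ∀ u ∈ ({y | y ≠ p ∧ y ≠ q} : Set GolayPt), ∀ v ∈ ({y | y ≠ p ∧ y ≠ q} : Set GolayPt), u ≠ v →
      ∀ u' ∈ ({y | y ≠ p ∧ y ≠ q} : Set GolayPt), ∀ v' ∈ ({y | y ≠ p ∧ y ≠ q} : Set GolayPt), u' ≠ v' →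
      ∃ g ∈ MulAction.stabilizer M24 p ⊓ MulAction.stabilizer M24 q, g • u = u' ∧ g • v = v' := by
    rintro u ⟨hu1, hu2⟩ v ⟨hv1, hv2⟩ huv u' ⟨hu1', hu2'⟩ v' ⟨hv1', hv2'⟩ huv'
    obtain ⟨g, hg, h1, h2, h3, h4⟩ := four_trans hpq (Ne.symm hu1) (Ne.symm hv1) (Ne.symm hu2) (Ne.symm hv2) huv
      hpq (Ne.symm hu1') (Ne.symm hv1') (Ne.symm hu2') (Ne.symm hv2') huv'
    exact ⟨⟨g, hg⟩, ⟨h1, h2⟩, h3, h4⟩
  refine jordan_step (MulAction.stabilizer M24 p ⊓ MulAction.stabilizer M24 q) {y | y ≠ p ∧ y ≠ q} r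
    ⟨hr.1, hr.2⟩ hinv ?_ h2tr (m21_simple hpq hpr hqr) ?_
  · rintro g ⟨h1, h2⟩ hy
    apply eq_one_of_apply
    intro x
    by_cases hxp : x = p
    · rw [hxp]; exact h1
    by_cases hxq : x = q
    · rw [hxq]; exact h2
    exact hy x ⟨hxp, hxq⟩
  · intro N h1 h2 h3 h4
    exact noreg_of_primes (r := 2) (s := 11) (b := r) (show r ∈ ({y | y ≠ p ∧ y ≠ q} : Set GolayPt) from ⟨hr.1, hr.2⟩) h2tr (by norm_num) (by norm_num) (by norm_num)
      (by rw [ncard_compl_pair hpq]; norm_num) (by rw [ncard_compl_pair hpq]; norm_num) N h1 h2 h3 h4 hinv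

theorem m23_simple (p : GolayPt) : IsSimpleGroup ↥(MulAction.stabilizer M24 p) := by
  obtain ⟨q, hq⟩ := exists_other {p} (by simp)
  simp only [Finset.mem_singleton] at hq
  have hpq : p ≠ q := Ne.symm hq
  have hinv : ∀ g ∈ MulAction.stabilizer M24 p, ∀ y ∈ ({y | y ≠ p} : Set GolayPt),
      g • y ∈ ({y | y ≠ p} : Set GolayPt) := by
    intro g h1 y hy e
    have h1' : g • p = p := h1
    rw [← h1'] at e
    exact hy (MulAction.injective g e)
  have h2tr : ∀ u ∈ ({y | y ≠ p} : Set GolayPt), ∀ v ∈ ({y | y ≠ p} : Set GolayPt), u ≠ v →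
      ∀ u' ∈ ({y | y ≠ p} : Set GolayPt), ∀ v' ∈ ({y | y ≠ p} : Set GolayPt), u' ≠ v' →
      ∃ g ∈ MulAction.stabilizer M24 p, g • u = u' ∧ g • v = v' := by
    rintro u hu v hv huv u' hu' v' hv' huv'
    obtain ⟨g, hg, h1, h2, h3⟩ := three_trans (Ne.symm hu) (Ne.symm hv) huv (Ne.symm hu') (Ne.symm hv') huv'
    exact ⟨⟨g, hg⟩, h1, h2, h3⟩
  have hfaith : ∀ g ∈ MulAction.stabilizer M24 p, (∀ y ∈ ({y | y ≠ p} : Set GolayPt), g • y = y) → g = 1 := by
    intro g h1 hy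
    apply eq_one_of_apply
    intro x
    by_cases hxp : x = p
    · rw [hxp]; exact h1
    exact hy x hxp
  refine jordan_step (MulAction.stabilizer M24 p) {y | y ≠ p} q hq hinv hfaith h2tr (m22_simple hpq) ?_
  intro N h1 h2 h3 h4
  refine noreg_of_prime hq hfaith ?_ (by rw [ncard_compl_one]; norm_num) N h1 h2 h3 h4 hinv
  intro b' hb' hb'q
  have hcard := card_three_stab hpq (Ne.symm hb') (Ne.symm hb'q)
  haveI : Nontrivial ↥(MulAction.stabilizer M24 p ⊓ MulAction.stabilizer M24 q ⊓ MulAction.stabilizer M24 b') :=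
    Finite.one_lt_card_iff_nontrivial.mp (by rw [hcard]; norm_num)
  obtain ⟨g, hg⟩ := exists_ne (1 : ↥(MulAction.stabilizer M24 p ⊓ MulAction.stabilizer M24 q ⊓ MulAction.stabilizer M24 b'))
  refine ⟨g.1, g.2.1.1, g.2.1.2, g.2.2, ?_⟩
  intro e
  exact hg (Subtype.ext e)

theorem m24_simple : IsSimpleGroup ↥M24 := by
  have h2tr : ∀ u ∈ (Set.univ : Set GolayPt), ∀ v ∈ (Set.univ : Set GolayPt), u ≠ v →
      ∀ u' ∈ (Set.univ : Set GolayPt), ∀ v' ∈ (Set.univ : Set GolayPt), u' ≠ v' →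
      ∃ g ∈ (⊤ : Subgroup ↥M24), g • u = u' ∧ g • v = v' := by
    rintro u - v - huv u' - v' - huv'
    obtain ⟨g, hg, h1, h2⟩ := two_trans huv huv'
    exact ⟨⟨g, hg⟩, trivial, h1, h2⟩
  have hinv : ∀ g ∈ (⊤ : Subgroup ↥M24), ∀ y ∈ (Set.univ : Set GolayPt), g • y ∈ (Set.univ : Set GolayPt) :=
    fun _ _ _ _ => Set.mem_univ _
  have hncard : (Set.univ : Set GolayPt).ncard = 24 := by
    rw [Set.ncard_univ, card_pts]
  have h : IsSimpleGroup ↥(⊤ : Subgroup ↥M24) := by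
    refine jordan_step (⊤ : Subgroup ↥M24) (Set.univ : Set GolayPt) none (Set.mem_univ _) hinv ?_ h2tr ?_ ?_
    · intro g _ hy
      exact eq_one_of_apply (fun x => hy x (Set.mem_univ _))
    · rw [top_inf_eq]
      exact m23_simple none
    · intro N h1 h2 h3 h4
      exact noreg_of_primes (r := 2) (s := 3) (Set.mem_univ _) h2tr (by norm_num) (by norm_num) (by norm_num)
        (by rw [hncard]; norm_num) (by rw [hncard]; norm_num) N h1 h2 h3 h4 hinv
  exact (Subgroup.topEquiv (G := ↥M24)).symm.isSimpleGroup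

section dodecad

open Cfsg.Agent.H07.Orb

variable {d : Finset GolayPt} {p q : GolayPt}

theorem psl211_simple : IsSimpleGroup (Matrix.ProjectiveSpecialLinearGroup (Fin 2) (ZMod 11)) := by
  haveI : Fact (Nat.Prime 11) := ⟨by norm_num⟩
  refine Matrix.ProjectiveSpecialLinearGroup.rank_two_simple ?_
  rw [Nat.card_eq_fintype_card, ZMod.card]
  norm_num

/-- Triviality of elements of `M24` stabilising a dodecad and fixing it pointwise. -/
theorem eq_one_of_fix_dodecad (hd : d ∈ dodecads) {g : Equiv.Perm GolayPt} (hg : g ∈ M24) (h : ∀ x ∈ d, g x = x) :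
    g = 1 := by
  obtain ⟨k, hk, rfl⟩ := Cfsg.Agent.H07.Orb.exists_smul_D0 hd
  have hm : ∀ i, i < 24 → bitb D0 i = true → k (pt i) ∈ k • fs D0 := fun i hi hb =>
    Finset.smul_mem_smul_finset (mem_D0_pt hi hb)
  have hs : g • (k • fs D0) = k • fs D0 := by
    apply Finset.eq_of_subset_of_card_le
    · intro y hy
      obtain ⟨a, ha, rfl⟩ := Finset.mem_smul_finset.mp hy
      show g a ∈ _
      rw [h a ha]
      exact ha
    · exact (Finset.card_smul_finset g _).ge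
  have hne : ∀ i j, i < 24 → j < 24 → i ≠ j → k (pt i) ≠ k (pt j) := fun i j hi hj hij e =>
    pt_ne hi hj hij (k.injective e)
  exact eq_one_of_fix_five' hd (hm 1 (by norm_num) (by decide +kernel)) (hm 4 (by norm_num) (by decide +kernel))
    (hm 5 (by norm_num) (by decide +kernel)) (hm 6 (by norm_num) (by decide +kernel)) (hm 7 (by norm_num) (by decide +kernel))
    (hne _ _ (by norm_num) (by norm_num) (by norm_num)) (hne _ _ (by norm_num) (by norm_num) (by norm_num))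
    (hne _ _ (by norm_num) (by norm_num) (by norm_num)) (hne _ _ (by norm_num) (by norm_num) (by norm_num))
    (hne _ _ (by norm_num) (by norm_num) (by norm_num)) (hne _ _ (by norm_num) (by norm_num) (by norm_num))
    (hne _ _ (by norm_num) (by norm_num) (by norm_num)) (hne _ _ (by norm_num) (by norm_num) (by norm_num))
    (hne _ _ (by norm_num) (by norm_num) (by norm_num)) (hne _ _ (by norm_num) (by norm_num) (by norm_num))
    hg hs (h _ (hm 1 (by norm_num) (by decide +kernel))) (h _ (hm 4 (by norm_num) (by decide +kernel)))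
    (h _ (hm 5 (by norm_num) (by decide +kernel))) (h _ (hm 6 (by norm_num) (by decide +kernel)))
    (h _ (hm 7 (by norm_num) (by decide +kernel)))

theorem m11_simple (hd : d ∈ dodecads) (hp : p ∈ d) :
    IsSimpleGroup ↥(MulAction.stabilizer M24 d ⊓ MulAction.stabilizer M24 p) := by
  have hdc : dᶜ ∈ dodecads := compl_dodecad hd
  obtain ⟨q, hq⟩ : ∃ q, q ∉ d := exists_other d (by rw [card_dod hd]; norm_num)
  have hinv : ∀ g ∈ MulAction.stabilizer M24 d ⊓ MulAction.stabilizer M24 p, ∀ y ∈ ({y | y ∉ d} : Set GolayPt),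
      g • y ∈ ({y | y ∉ d} : Set GolayPt) := by
    rintro g ⟨h1, -⟩ y hy hc
    apply hy
    have h1' : (g : Equiv.Perm GolayPt) • d = d := h1
    have := (Cfsg.Agent.H07.Orb.stab_iff.mp h1' y).mp hc
    exact this
  have h2tr : ∀ u ∈ ({y | y ∉ d} : Set GolayPt), ∀ v ∈ ({y | y ∉ d} : Set GolayPt), u ≠ v →
      ∀ u' ∈ ({y | y ∉ d} : Set GolayPt), ∀ v' ∈ ({y | y ∉ d} : Set GolayPt), u' ≠ v' →
      ∃ g ∈ MulAction.stabilizer M24 d ⊓ MulAction.stabilizer M24 p, g • u = u' ∧ g • v = v' := by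
    rintro u hu v hv huv u' hu' v' hv' huv'
    obtain ⟨a, ha, ha0, a1, a2, a3⟩ := flagC2 hd hp hu hv (Ne.symm huv)
    obtain ⟨b, hb, hb0, b1, b2, b3⟩ := flagC2 hd hp hu' hv' (Ne.symm huv')
    have hm : b * a⁻¹ ∈ M24 := M24.mul_mem hb (M24.inv_mem ha)
    have hs : (b * a⁻¹) • d = d := by
      have h1 : a⁻¹ • d = fs D0 := by rw [← ha0, inv_smul_smul]
      rw [mul_smul, h1, hb0]
    have key : ∀ {x y w : GolayPt}, a w = x → b w = y → (b * a⁻¹) x = y := by
      rintro x y w rfl rfl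
      simp
    exact ⟨⟨b * a⁻¹, hm⟩, ⟨hs, key a1 b1⟩, key a2 b2, key a3 b3⟩
  have hncard : ({y | y ∉ d} : Set GolayPt).ncard = 12 := by
    have h1 : ({y | y ∉ d} : Set GolayPt) = ((dᶜ : Finset GolayPt) : Set GolayPt) := by
      ext y
      simp
    rw [h1, Set.ncard_coe_finset, card_dod hdc]
  refine jordan_step (MulAction.stabilizer M24 d ⊓ MulAction.stabilizer M24 p) {y | y ∉ d} q hq hinv ?_ h2tr ?_ ?_
  · rintro g ⟨-, -⟩ hy
    apply Subtype.ext
    exact eq_one_of_fix_dodecad hdc g.2 (fun x hx => hy x (by simpa using hx))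
  · obtain ⟨h, hh, rfl, rfl, rfl⟩ := flagC1 hd hp hq
    obtain ⟨e⟩ := main_PSL hh
    haveI := psl211_simple
    exact e.isSimpleGroup
  · intro N h1 h2 h3 h4
    exact noreg_of_primes (r := 2) (s := 3) hq h2tr (by norm_num) (by norm_num) (by norm_num)
      (by rw [hncard]; norm_num) (by rw [hncard]; norm_num) N h1 h2 h3 h4 hinv

theorem m12_simple (hd : d ∈ dodecads) : IsSimpleGroup ↥(MulAction.stabilizer M24 d) := by
  obtain ⟨p, hp⟩ : d.Nonempty := by
    rw [← Finset.card_pos, card_dod hd]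
    norm_num
  have hinv : ∀ g ∈ MulAction.stabilizer M24 d, ∀ y ∈ (d : Set GolayPt), g • y ∈ (d : Set GolayPt) := by
    intro g h1 y hy
    have h1' : (g : Equiv.Perm GolayPt) • d = d := h1
    exact (Cfsg.Agent.H07.Orb.stab_iff.mp h1' y).mpr hy
  have h2tr : ∀ u ∈ (d : Set GolayPt), ∀ v ∈ (d : Set GolayPt), u ≠ v →
      ∀ u' ∈ (d : Set GolayPt), ∀ v' ∈ (d : Set GolayPt), u' ≠ v' →
      ∃ g ∈ MulAction.stabilizer M24 d, g • u = u' ∧ g • v = v' := by
    rintro u hu v hv huv u' hu' v' hv' huv'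
    obtain ⟨a, ha, ha0, a1, a2⟩ := flagD2 hd hu hv (Ne.symm huv)
    obtain ⟨b, hb, hb0, b1, b2⟩ := flagD2 hd hu' hv' (Ne.symm huv')
    have hm : b * a⁻¹ ∈ M24 := M24.mul_mem hb (M24.inv_mem ha)
    have hs : (b * a⁻¹) • d = d := by
      have h1 : a⁻¹ • d = fs D0 := by rw [← ha0, inv_smul_smul]
      rw [mul_smul, h1, hb0]
    have key : ∀ {x y w : GolayPt}, a w = x → b w = y → (b * a⁻¹) x = y := by
      rintro x y w rfl rfl
      simp
    exact ⟨⟨b * a⁻¹, hm⟩, hs, key a1 b1, key a2 b2⟩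
  have hncard : (d : Set GolayPt).ncard = 12 := by
    rw [Set.ncard_coe_finset, card_dod hd]
  refine jordan_step (MulAction.stabilizer M24 d) (d : Set GolayPt) p hp hinv ?_ h2tr (m11_simple hd hp) ?_
  · intro g _ hy
    apply Subtype.ext
    exact eq_one_of_fix_dodecad hd g.2 (fun x hx => hy x hx)
  · intro N h1 h2 h3 h4
    exact noreg_of_primes (r := 2) (s := 3) hp h2tr (by norm_num) (by norm_num) (by norm_num)
      (by rw [hncard]; norm_num) (by rw [hncard]; norm_num) N h1 h2 h3 h4 hinv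

end dodecad

end Cfsg.Agent.H02.Gol
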