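import Cfsg.Agent.Lib.H02.CoOrd
import Cfsg.Agent.Lib.H02.Gol9
import Cfsg.Agent.Lib.Lead.Burnside

/-!
A subgroup with a simple point stabiliser; the monomial copy of the stabiliser of two points.
-/

set_option autoImplicit false
set_option maxRecDepth 100000

namespace Cfsg.Agent.H02.CoSm

open Cfsg Cfsg.Agent.H26.Leech Cfsg.Agent.H02.CoA Cfsg.Agent.H02.CoB Cfsg.Agent.H02.CoK Cfsg.Agent.H02.CoM
  Cfsg.Agent.H02.CoP Cfsg.Agent.H02.CoR Cfsg.Agent.H02.CoD Cfsg.Agent.H02.CoE Cfsg.Agent.H02.CoU Cfsg.Agent.H02.CoW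
  Cfsg.Agent.H02.CoOrd
open Cfsg.Agent.H27.Golay hiding fld
open MulAction

/-- Simplicity from the data of an action. -/
theorem simple_of_data (A : Subgroup Co0) (x : leechLattice) (Y : Set leechLattice) (hx : x ∈ Y)
    (hinv : ∀ h ∈ A, h • x ∈ Y) (htr : ∀ y ∈ Y, ∃ h ∈ A, h • x = y) (hfin : Y.Finite)
    (hS : IsSimpleGroup ↥(A ⊓ St x)) (r : ℕ) (O : ℕ → Set leechLattice) (s : ℕ → ℕ)
    (hO : ∀ i < r, O i ⊆ Y) (hbO : ∀ i < r, x ∉ O i)
    (hdisj : ∀ i < r, ∀ j < r, i ≠ j → Disjoint (O i) (O j))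
    (hcov : ∀ y ∈ Y, y = x ∨ ∃ i < r, y ∈ O i)
    (hotr : ∀ i < r, ∀ a ∈ O i, ∀ a' ∈ O i, ∃ g ∈ A ⊓ St x, g • a = a')
    (hs : ∀ i < r, (O i).ncard = s i)
    (hnum : ∀ I ∈ (Finset.range r).powerset, (1 + ∑ i ∈ I, s i) ∣ Y.ncard → I = ∅ ∨ I = Finset.range r)
    (hm : ∃ i < r, 1 < s i)
    (hnp : ¬ IsPrimePow Y.ncard)
    (hsolv : ∀ N : Subgroup ↥A, Nat.card N = Y.ncard → Group.IsSolvable N) : IsSimpleGroup ↥A := by
  haveI : Finite Co0 := Nat.finite_of_card_ne_zero (by rw [CoH.card_Co0]; norm_num)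
  have ho : orbit (↥A) x = Y := orbit_eq hinv htr
  have hstr : ∀ i < r, ∀ a ∈ O i, ∀ a' ∈ O i, ∃ g ∈ stabilizer (↥A) x, g • a = a' := by
    intro i hi a ha a' ha'
    obtain ⟨g, hg, e⟩ := hotr i hi a ha a' ha'
    exact ⟨⟨g, hg.1⟩, hg.2, e⟩
  refine CoGen.simple_crit (G := ↥A) (X := leechLattice) x ?_ ?_ ?_ ?_ ?_
  · haveI := hS
    exact (stabEquiv A x).isSimpleGroup
  · rw [ho]
    exact CoGen.prim_of_orbits x hfin r O s hx hO hbO hdisj hcov hstr hs hnum
  · obtain ⟨i, hi, hsi⟩ := hm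
    have h1 : 1 < (O i).ncard := by rw [hs i hi]; exact hsi
    obtain ⟨a, ha, a', ha', hne⟩ := (Set.one_lt_ncard (hfin.subset (hO i hi))).mp h1
    obtain ⟨g, hg, e⟩ := hstr i hi a ha a' ha'
    refine ⟨g, hg, a, ?_, ?_⟩
    · rw [ho]
      exact hO i hi ha
    · rw [e]
      exact hne.symm
  · rw [ho]
    exact hnp
  · rw [ho]
    exact hsolv

/-- Not a prime power. -/
theorem not_primePow {n p q : ℕ} (hp : p.Prime) (hq : q.Prime) (hpq : p ≠ q) (h1 : p ∣ n) (h2 : q ∣ n) : ¬ IsPrimePow n := by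
  rintro ⟨r, k, hr, hk, rfl⟩
  have hr' : r.Prime := hr.nat_prime
  have a1 := (Nat.prime_dvd_prime_iff_eq hp hr').mp (hp.dvd_of_dvd_pow h1)
  have a2 := (Nat.prime_dvd_prime_iff_eq hq hr').mp (hq.dvd_of_dvd_pow h2)
  exact hpq (a1.trans a2.symm)

/-- The two point stabiliser. -/
abbrev M2 (p q : GolayPt) : Subgroup ↥M24 := stabilizer M24 p ⊓ stabilizer M24 q

/-- The monomial copy. -/
def phi (p q : GolayPt) : ↥(M2 p q) →* Co0 where
  toFun σ := prm (σ.1.1)⁻¹ (M24.inv_mem σ.1.2)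
  map_one' := by
    apply Subtype.ext
    apply Equiv.ext
    intro x
    apply Subtype.ext
    funext i
    rfl
  map_mul' := by
    intro a b
    apply Subtype.ext
    apply Equiv.ext
    intro x
    apply Subtype.ext
    funext i
    rfl

theorem phi_apply (p q : GolayPt) (σ : ↥(M2 p q)) (x : leechLattice) (i : GolayPt) :
    (phi p q σ • x).1 i = x.1 ((σ.1.1)⁻¹ i) := rfl

theorem phi_inj (p q : GolayPt) : Function.Injective (phi p q) := by
  rw [injective_iff_map_eq_one]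
  intro σ hσ
  apply Subtype.ext
  apply Subtype.ext
  apply Equiv.ext
  intro i
  have h1 : (phi p q σ • e8 i).1 i = (e8 i).1 i := by
    rw [hσ, one_smul]
  rw [phi_apply] at h1
  simp only [e8_apply, if_true] at h1
  have h2 : (σ.1.1)⁻¹ i = i := by
    by_contra h4
    rw [if_neg h4] at h1
    norm_num at h1
  exact ((Equiv.Perm.inv_eq_iff_eq).mp h2).symm

theorem phi_fix (p q : GolayPt) (σ : ↥(M2 p q)) (W : leechLattice)
    (hW : ∀ i j, i ≠ p → i ≠ q → j ≠ p → j ≠ q → W.1 i = W.1 j) : phi p q σ • W = W := by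
  apply Subtype.ext
  funext i
  rw [phi_apply]
  have hp : σ.1.1 p = p := σ.2.1
  have hq : σ.1.1 q = q := σ.2.2
  have hp' : (σ.1.1)⁻¹ p = p := by
    rw [Equiv.Perm.inv_eq_iff_eq, hp]
  have hq' : (σ.1.1)⁻¹ q = q := by
    rw [Equiv.Perm.inv_eq_iff_eq, hq]
  by_cases h1 : i = p
  · rw [h1, hp']
  by_cases h2 : i = q
  · rw [h2, hq']
  apply hW _ _ _ _ h1 h2
  · intro e
    apply h1
    have := congrArg σ.1.1 e
    rw [hp] at this
    simpa using this
  · intro e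
    apply h2
    have := congrArg σ.1.1 e
    rw [hq] at this
    simpa using this

theorem simple_T {p q : GolayPt} (hpq : p ≠ q) (T : Subgroup Co0) (hc : Nat.card T = 443520)
    (hT : ∀ σ, phi p q σ ∈ T) : IsSimpleGroup ↥T := by
  haveI : Finite Co0 := Nat.finite_of_card_ne_zero (by rw [CoH.card_Co0]; norm_num)
  have hle : (phi p q).range ≤ T := by
    rintro _ ⟨σ, rfl⟩
    exact hT σ
  have hr : Nat.card (phi p q).range = 443520 := by
    rw [← Nat.card_congr (MonoidHom.ofInjective (phi_inj p q)).toEquiv]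
    exact Gol.card_two_stab hpq
  have e : (phi p q).range = T := Subgroup.eq_of_le_of_card_ge hle (by rw [hc, hr])
  rw [← e]
  haveI := Gol.m22_simple hpq
  exact (MonoidHom.ofInjective (phi_inj p q)).symm.isSimpleGroup

/-- Conjugate subgroups. -/
def conjEq (g : Co0) (A B : Subgroup Co0) (h : ∀ a, a ∈ A ↔ g * a * g⁻¹ ∈ B) : ↥A ≃* ↥B where
  toFun a := ⟨g * a * g⁻¹, (h _).mp a.2⟩
  invFun b := ⟨g⁻¹ * b * g, (h _).mpr (by simpa [mul_assoc] using b.2)⟩
  left_inv a := by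
    apply Subtype.ext
    simp [mul_assoc]
  right_inv b := by
    apply Subtype.ext
    simp [mul_assoc]
  map_mul' a b := by
    apply Subtype.ext
    simp [mul_assoc]

theorem conj_St (g a : Co0) (y : leechLattice) : a ∈ St y ↔ g * a * g⁻¹ ∈ St (g • y) := by
  show a • y = y ↔ (g * a * g⁻¹) • (g • y) = g • y
  rw [mul_smul, mul_smul, inv_smul_smul]
  constructor
  · intro h
    rw [h]
  · intro h
    exact MulAction.injective g h

/-- A membership test in the lattice. -/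
def okL (P : ℕ) : Bool :=
  allB (fun j => Nat.beq (lb P j) (lb P 23)) 0 24 &&
  Nat.beq (Nat.mod (sF P) 8) (Nat.mod (Nat.mul 4 (lb P 23)) 8) &&
  inCode (mP P)

theorem okL_mem {P : ℕ} (h : okL P = true) : dec P ∈ leechLattice := by
  simp only [okL, Bool.and_eq_true] at h
  obtain ⟨⟨h1, h2⟩, h3⟩ := h
  have h1' : ∀ j < 24, lb P j = lb P 23 := by
    intro j hj
    exact Nat.eq_of_beq_eq_true (allB_spec h1 j (by omega) (by omega))
  have h2' : sF P % 8 = (4 * lb P 23) % 8 := Nat.eq_of_beq_eq_true h2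
  rw [mem_leechLattice_iff, mem_leechSet_iff]
  refine ⟨(lb P 23 : ℤ), fun i => ?_, ?_, ?_⟩
  · have h5 := h1' _ (idx_lt i)
    rw [lb_eq, lb_eq] at h5
    have h6 : dec P i = (fld P (idx i) : ℤ) - 16 := rfl
    rw [h6, lb_eq]
    show _ % 2 = _ % 2
    omega
  · rw [sum_dec]
    show _ % 8 = _ % 8
    omega
  · rw [hi_dec]
    exact (wd_mem_iff (show mP P < 2 ^ 24 from mk2_lt _ (hb_lt P) 0 24)).mpr h3

end Cfsg.Agent.H02.CoSm
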