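import Cfsg.Agent.Lib.H02.CoS
import Cfsg.Agent.Lib.H02.CoT

/-!
Censuses of minimal vectors with respect to a vector of norm 4 or norm 6.
-/

set_option autoImplicit false
set_option maxRecDepth 100000

namespace Cfsg.Agent.H02.CoU

open Cfsg Cfsg.Agent.H26.Leech Cfsg.Agent.H02.CoA Cfsg.Agent.H02.CoB Cfsg.Agent.H02.CoC
  Cfsg.Agent.H02.CoK Cfsg.Agent.H02.CoL Cfsg.Agent.H02.CoM Cfsg.Agent.H02.CoP Cfsg.Agent.H02.CoR
  Cfsg.Agent.H02.CoD Cfsg.Agent.H02.CoE Cfsg.Agent.H02.CoS Cfsg.Agent.H02.CoT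
open Cfsg.Agent.H27.Golay hiding fld

/-- The base vector of norm 4. -/
def uA : leechLattice := ⟨rA, link_AB.mem_left⟩

/-- The base vector of norm 6. -/
def uE : leechLattice := ⟨rE3, link_13.mem_right⟩

theorem exists_to_uA (v : leechLattice) (hv : sqNorm v.1 = 32) : ∃ g : Co0, g • v = uA := by
  have h1 : RR v.1 rC := main32 v.2 (by simpa using hv)
  have h2 : RR rA rC := link_AB.trans link_BC
  exact exists_of_RR (v := v) (w := uA) (h1.trans h2.symm)

theorem exists_to_uE (v : leechLattice) (hv : sqNorm v.1 = 48) : ∃ g : Co0, g • v = uE := by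
  have h1 : RR v.1 rE3 := main48 v.2 (by simpa using hv)
  exact exists_of_RR (v := v) (w := uE) h1

theorem hBA : ∀ p, rA p = (look [(0, 4), (23, 4)] (idx p) : ℤ) - (look [] (idx p) : ℤ) := by
  decide +kernel

theorem hBE : ∀ p, rE3 p = (look [(1, 2), (2, 2), (3, 2), (4, 4), (5, 2), (14, 2), (17, 2), (23, 2)] (idx p) : ℤ) -
    (look [(0, 2)] (idx p) : ℤ) := by
  decide +kernel

theorem ncard_A16 : (Dv uA (-16)).ncard = 4600 := by
  have := ncard_minS TA16 (fun x => dotInt rA x = -16) (tEq_iff hBA rfl rfl (by norm_num [tot]))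
  rw [cntA16] at this
  exact this

theorem ncard_A8 : (Dv uA (-8)).ncard = 47104 := by
  have := ncard_minS TA8 (fun x => dotInt rA x = -8) (tEq_iff hBA rfl rfl (by norm_num [tot]))
  rw [cntA8] at this
  exact this

theorem ncard_A0 : (Dv uA 0).ncard = 93150 := by
  have := ncard_minS TA0 (fun x => dotInt rA x = 0) (tEq_iff hBA rfl rfl (by norm_num [tot]))
  rw [cntA0] at this
  exact this

theorem ncard_E24 : (Dv uE 24).ncard = 552 := by
  have := ncard_minS TE24 (fun x => dotInt rE3 x = 24) (tEq_iff hBE rfl rfl (by norm_num [tot]))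
  rw [cntE24] at this
  exact this

theorem ncard_E16 : (Dv uE (-16)).ncard = 11178 := by
  have := ncard_minS TE16 (fun x => dotInt rE3 x = -16) (tEq_iff hBE rfl rfl (by norm_num [tot]))
  rw [cntE16] at this
  exact this

theorem ncard_v16 (v : leechLattice) (hv : sqNorm v.1 = 32) : (Dv v (-16)).ncard = 4600 := by
  obtain ⟨g, hg⟩ := exists_to_uA v hv
  rw [← ncard_Dv_smul g, hg, ncard_A16]

theorem ncard_v8 (v : leechLattice) (hv : sqNorm v.1 = 32) : (Dv v (-8)).ncard = 47104 := by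
  obtain ⟨g, hg⟩ := exists_to_uA v hv
  rw [← ncard_Dv_smul g, hg, ncard_A8]

theorem ncard_v0 (v : leechLattice) (hv : sqNorm v.1 = 32) : (Dv v 0).ncard = 93150 := by
  obtain ⟨g, hg⟩ := exists_to_uA v hv
  rw [← ncard_Dv_smul g, hg, ncard_A0]

theorem ncard_u24 (u : leechLattice) (hu : sqNorm u.1 = 48) : (Dv u 24).ncard = 552 := by
  obtain ⟨g, hg⟩ := exists_to_uE u hu
  rw [← ncard_Dv_smul g, hg, ncard_E24]

theorem ncard_u16 (u : leechLattice) (hu : sqNorm u.1 = 48) : (Dv u (-16)).ncard = 11178 := by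
  obtain ⟨g, hg⟩ := exists_to_uE u hu
  rw [← ncard_Dv_smul g, hg, ncard_E16]

theorem sqNorm_sub (a b : GolayPt → ℤ) : sqNorm (a - b) = sqNorm a + sqNorm b - 2 * dotInt a b := by
  unfold sqNorm dotInt
  rw [Finset.mul_sum, ← Finset.sum_add_distrib, ← Finset.sum_sub_distrib]
  apply Finset.sum_congr rfl
  intro i _
  simp only [Pi.sub_apply]
  ring

theorem sum_iff {u v : leechLattice} (hu : sqNorm u.1 = 48) (hv : sqNorm v.1 = 32) :
    sqNorm ((u : GolayPt → ℤ) - (v : GolayPt → ℤ)) = 32 ↔ dotInt u.1 v.1 = 24 := by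
  rw [sqNorm_sub, hu, hv]
  omega

end Cfsg.Agent.H02.CoU
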