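import Cfsg.Agent.Lib.H02.CoVb

/-!
The orbit of 47104 minimal vectors., a part
-/

set_option autoImplicit false
set_option Elab.async false
set_option maxRecDepth 100000

namespace Cfsg.Agent.H02.CoVbP1

open Cfsg Cfsg.Agent.H02.CoK Cfsg.Agent.H02.CoM Cfsg.Agent.H02.CoR

open Cfsg.Agent.H02.CoVb


theorem c32 : allB (tchk2 Gs O par gen lev b0 N) 32768 1024 = true := by decide +kernel
theorem c33 : allB (tchk2 Gs O par gen lev b0 N) 33792 1024 = true := by decide +kernel
theorem c34 : allB (tchk2 Gs O par gen lev b0 N) 34816 1024 = true := by decide +kernel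
theorem c35 : allB (tchk2 Gs O par gen lev b0 N) 35840 1024 = true := by decide +kernel
theorem c36 : allB (tchk2 Gs O par gen lev b0 N) 36864 1024 = true := by decide +kernel
theorem c37 : allB (tchk2 Gs O par gen lev b0 N) 37888 1024 = true := by decide +kernel
theorem c38 : allB (tchk2 Gs O par gen lev b0 N) 38912 1024 = true := by decide +kernel
theorem c39 : allB (tchk2 Gs O par gen lev b0 N) 39936 1024 = true := by decide +kernel
theorem c40 : allB (tchk2 Gs O par gen lev b0 N) 40960 1024 = true := by decide +kernel
theorem c41 : allB (tchk2 Gs O par gen lev b0 N) 41984 1024 = true := by decide +kernel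
theorem c42 : allB (tchk2 Gs O par gen lev b0 N) 43008 1024 = true := by decide +kernel
theorem c43 : allB (tchk2 Gs O par gen lev b0 N) 44032 1024 = true := by decide +kernel
theorem c44 : allB (tchk2 Gs O par gen lev b0 N) 45056 1024 = true := by decide +kernel
theorem c45 : allB (tchk2 Gs O par gen lev b0 N) 46080 1024 = true := by decide +kernel

end Cfsg.Agent.H02.CoVbP1
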