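import Cfsg.Agent.Lib.H02.CoVbP0
import Cfsg.Agent.Lib.H02.CoVbP1

/-!
The orbit of 47104 minimal vectors., the conclusion
-/

set_option autoImplicit false
set_option Elab.async false
set_option maxRecDepth 100000

namespace Cfsg.Agent.H02.CoVbZ

open Cfsg Cfsg.Agent.H02.CoK Cfsg.Agent.H02.CoM Cfsg.Agent.H02.CoR

open Cfsg.Agent.H02.CoVb



theorem all_ok : ∀ j < N, tchk2 Gs O par gen lev b0 N j = true := by
  intro i hi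
  have hi' : i < 47104 := hi
  have h : ∀ q < 46, allB (tchk2 Gs O par gen lev b0 N) (1024 * q) (min 1024 (47104 - 1024 * q)) = true := by
    intro q hq
    interval_cases q
    exacts [CoVbP0.c0, CoVbP0.c1, CoVbP0.c2, CoVbP0.c3, CoVbP0.c4, CoVbP0.c5, CoVbP0.c6, CoVbP0.c7, CoVbP0.c8, CoVbP0.c9, CoVbP0.c10, CoVbP0.c11, CoVbP0.c12, CoVbP0.c13, CoVbP0.c14, CoVbP0.c15, CoVbP0.c16, CoVbP0.c17, CoVbP0.c18, CoVbP0.c19, CoVbP0.c20, CoVbP0.c21, CoVbP0.c22, CoVbP0.c23, CoVbP0.c24, CoVbP0.c25, CoVbP0.c26, CoVbP0.c27, CoVbP0.c28, CoVbP0.c29, CoVbP0.c30, CoVbP0.c31, CoVbP1.c32, CoVbP1.c33, CoVbP1.c34, CoVbP1.c35, CoVbP1.c36, CoVbP1.c37, CoVbP1.c38, CoVbP1.c39, CoVbP1.c40, CoVbP1.c41, CoVbP1.c42, CoVbP1.c43, CoVbP1.c44, CoVbP1.c45]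
  have hq : i / 1024 < 46 := by omega
  refine allB_spec (h _ hq) i (Nat.mul_div_le i 1024) ?_
  omega

theorem main (b : Cfsg.leechLattice) (hb : Cfsg.Agent.H02.CoK.dec b0 = b.1) (hbn : Cfsg.sqNorm b.1 ≤ 64)
    (S : Set Cfsg.leechLattice) (hS : S.ncard = N) (hinv : ∀ g : Cfsg.Co0, Fix Us g → g • b ∈ S) :
    Tab S O N ∧ ∀ x ∈ S, ∃ g : Cfsg.Co0, Fix Us g ∧ g • b = x :=
  tree_main okG (by decide) (of_tchk2 all_ok).1 (of_tchk2 all_ok).2 O_lt b hb hbn S hS hinv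

end Cfsg.Agent.H02.CoVbZ
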