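import Cfsg.Agent.Lib.H02.CoVc

/-!
The orbit of 93150 minimal vectors., a part
-/

set_option autoImplicit false
set_option Elab.async false
set_option maxRecDepth 100000

namespace Cfsg.Agent.H02.CoVcP0

open Cfsg Cfsg.Agent.H02.CoK Cfsg.Agent.H02.CoM Cfsg.Agent.H02.CoR

open Cfsg.Agent.H02.CoVc


theorem c0 : allB (tchk2 Gs O par gen lev b0 N) 0 1024 = true := by decide +kernel
theorem c1 : allB (tchk2 Gs O par gen lev b0 N) 1024 1024 = true := by decide +kernel
theorem c2 : allB (tchk2 Gs O par gen lev b0 N) 2048 1024 = true := by decide +kernel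
theorem c3 : allB (tchk2 Gs O par gen lev b0 N) 3072 1024 = true := by decide +kernel
theorem c4 : allB (tchk2 Gs O par gen lev b0 N) 4096 1024 = true := by decide +kernel
theorem c5 : allB (tchk2 Gs O par gen lev b0 N) 5120 1024 = true := by decide +kernel
theorem c6 : allB (tchk2 Gs O par gen lev b0 N) 6144 1024 = true := by decide +kernel
theorem c7 : allB (tchk2 Gs O par gen lev b0 N) 7168 1024 = true := by decide +kernel
theorem c8 : allB (tchk2 Gs O par gen lev b0 N) 8192 1024 = true := by decide +kernel
theorem c9 : allB (tchk2 Gs O par gen lev b0 N) 9216 1024 = true := by decide +kernel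
theorem c10 : allB (tchk2 Gs O par gen lev b0 N) 10240 1024 = true := by decide +kernel
theorem c11 : allB (tchk2 Gs O par gen lev b0 N) 11264 1024 = true := by decide +kernel
theorem c12 : allB (tchk2 Gs O par gen lev b0 N) 12288 1024 = true := by decide +kernel
theorem c13 : allB (tchk2 Gs O par gen lev b0 N) 13312 1024 = true := by decide +kernel
theorem c14 : allB (tchk2 Gs O par gen lev b0 N) 14336 1024 = true := by decide +kernel
theorem c15 : allB (tchk2 Gs O par gen lev b0 N) 15360 1024 = true := by decide +kernel
theorem c16 : allB (tchk2 Gs O par gen lev b0 N) 16384 1024 = true := by decide +kernel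
theorem c17 : allB (tchk2 Gs O par gen lev b0 N) 17408 1024 = true := by decide +kernel
theorem c18 : allB (tchk2 Gs O par gen lev b0 N) 18432 1024 = true := by decide +kernel
theorem c19 : allB (tchk2 Gs O par gen lev b0 N) 19456 1024 = true := by decide +kernel
theorem c20 : allB (tchk2 Gs O par gen lev b0 N) 20480 1024 = true := by decide +kernel
theorem c21 : allB (tchk2 Gs O par gen lev b0 N) 21504 1024 = true := by decide +kernel
theorem c22 : allB (tchk2 Gs O par gen lev b0 N) 22528 1024 = true := by decide +kernel
theorem c23 : allB (tchk2 Gs O par gen lev b0 N) 23552 1024 = true := by decide +kernel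
theorem c24 : allB (tchk2 Gs O par gen lev b0 N) 24576 1024 = true := by decide +kernel
theorem c25 : allB (tchk2 Gs O par gen lev b0 N) 25600 1024 = true := by decide +kernel
theorem c26 : allB (tchk2 Gs O par gen lev b0 N) 26624 1024 = true := by decide +kernel
theorem c27 : allB (tchk2 Gs O par gen lev b0 N) 27648 1024 = true := by decide +kernel
theorem c28 : allB (tchk2 Gs O par gen lev b0 N) 28672 1024 = true := by decide +kernel
theorem c29 : allB (tchk2 Gs O par gen lev b0 N) 29696 1024 = true := by decide +kernel
theorem c30 : allB (tchk2 Gs O par gen lev b0 N) 30720 1024 = true := by decide +kernel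
theorem c31 : allB (tchk2 Gs O par gen lev b0 N) 31744 1024 = true := by decide +kernel

end Cfsg.Agent.H02.CoVcP0
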