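import Cfsg.Agent.S1579
import Cfsg.Agent.Lib.H02.CoXa

/-!
The 275 minimal vectors attached to a vector of norm 6 and a summand.
-/

set_option autoImplicit false
set_option maxRecDepth 100000

namespace Cfsg.Agent.H02.CoXL

open Cfsg Cfsg.Agent.H26.Leech Cfsg.Agent.H02.CoK Cfsg.Agent.H02.CoM Cfsg.Agent.H02.CoP Cfsg.Agent.H02.CoR
  Cfsg.Agent.H02.CoD Cfsg.Agent.H02.CoE Cfsg.Agent.H02.CoU Cfsg.Agent.H02.CoW
open Cfsg.Agent.H27.Golay hiding fld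

/-- The base summand. -/
def v0 : leechLattice := mkL CoVd.b0 Cfsg.Agent.S1579.hb

/-- The 275 vectors. -/
def XX (u v : leechLattice) : Set leechLattice :=
  {x | sqNorm x.1 = 32 ∧ sqNorm (u.1 - x.1) = 32 ∧ dotInt v.1 x.1 = 16}

theorem sq_sub_smul (g : Co0) (a b : leechLattice) : sqNorm ((g • a).1 - (g • b).1) = sqNorm (a.1 - b.1) := by
  rw [sqNorm_sub, sqNorm_sub, sqNorm_smul, sqNorm_smul, dot_smul]

theorem mem_XX_smul (g : Co0) (u v x : leechLattice) : x ∈ XX u v ↔ g • x ∈ XX (g • u) (g • v) := by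
  show (_ ∧ _ ∧ _) ↔ (_ ∧ _ ∧ _)
  rw [sqNorm_smul, sq_sub_smul, dot_smul]

theorem v0_mem : v0 ∈ Dv uE 24 :=
  ⟨sq_mkL _ _, (tEq_iff hBE rfl rfl (by norm_num [tot]) _).mpr Cfsg.Agent.S1579.hd0⟩

/-- From a vector of norm 6 and a summand to the base. -/
theorem to_base (u v : leechLattice) (hu : sqNorm u.1 = 48) (hv : v ∈ Dv u 24) :
    ∃ g : Co0, g • u = uE ∧ g • v = v0 := by
  obtain ⟨g0, hg0⟩ := exists_to_uE u hu
  have h1 := (mem_Dv_smul g0 u v 24).mp hv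
  rw [hg0] at h1
  obtain ⟨h, hf, he⟩ := Cfsg.Agent.S1579.orb _ h1 _ v0_mem
  exact ⟨h * g0, by rw [mul_smul, hg0, hf], by rw [mul_smul, he]⟩

theorem tab552 : Tab (Dv uE 24) CoVd.O 552 := by
  have hinv : ∀ g : Co0, Fix CoVd.Us g → g • mkL CoVd.b0 Cfsg.Agent.S1579.hb ∈ Dv uE 24 := by
    intro g hg
    have := (mem_Dv_smul g uE v0 24).mp v0_mem
    rwa [fix_one dec_PE (by rw [sq_uE]; norm_num) g hg] at this
  exact (CoVd.main (mkL _ Cfsg.Agent.S1579.hb) rfl (by rw [sq_mkL]; norm_num) _ ncard_E24 hinv).1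

/-- The test for the base vectors. -/
def TX (P : ℕ) : Bool := tEq [(1, 2), (2, 2), (3, 2), (5, 2), (14, 2), (17, 2)] [(0, 2), (23, 2)] 0 144 P

theorem hBv : ∀ p, v0.1 p = (look [(1, 2), (2, 2), (3, 2), (5, 2), (14, 2), (17, 2)] (idx p) : ℤ) - (look [(0, 2), (23, 2)] (idx p) : ℤ) := by
  decide +kernel

theorem cntX : cntR (fun j => TX (CoVd.O j)) 0 552 = 275 := by decide +kernel

theorem XX_eq : XX uE v0 = {x | x ∈ Dv uE 24 ∧ dotInt v0.1 x.1 = 16} := by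
  ext x
  constructor
  · rintro ⟨h1, h2, h3⟩
    exact ⟨⟨h1, (sum_iff sq_uE h1).mp h2⟩, h3⟩
  · rintro ⟨⟨h1, h2⟩, h3⟩
    exact ⟨h1, (sum_iff sq_uE h1).mpr h2, h3⟩

theorem ncard_X0 : (XX uE v0).ncard = 275 := by
  rw [XX_eq]
  have h := Tab.ncard_filter tab552 (of_tchk2 CoVd.all_ok).2 CoVd.O_lt TX (fun x => dotInt v0.1 x.1 = 16)
    (fun x P hx => by rw [hx]; exact tEq_iff hBv rfl rfl (by norm_num [tot]) P)
  rw [cntX] at h
  exact h

theorem hb : okP CoXa.b0 = true := by decide +kernel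

/-- The base point of the 275. -/
def x0 : leechLattice := mkL CoXa.b0 hb

theorem hx0 : TX CoXa.b0 = true := by decide +kernel

theorem x0_mem : x0 ∈ XX uE v0 := by
  rw [XX_eq]
  refine ⟨⟨sq_mkL _ _, ?_⟩, ?_⟩
  · exact (tEq_iff hBE rfl rfl (by norm_num [tot]) _).mpr (by decide +kernel : CoT.TE24 CoXa.b0 = true)
  · exact (tEq_iff hBv rfl rfl (by norm_num [tot]) _).mpr hx0

theorem fixUs {g : Co0} (hg : Fix CoXa.Us g) : g • uE = uE ∧ g • v0 = v0 := by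
  constructor
  · exact hg uE ⟨PE, by decide, dec_PE⟩ (by rw [sq_uE]; norm_num)
  · exact hg v0 ⟨CoVd.b0, by decide, rfl⟩ (by rw [show sqNorm v0.1 = 32 from sq_mkL _ _]; norm_num)

theorem mainX : Tab (XX uE v0) CoXa.O 275 ∧ ∀ x ∈ XX uE v0, ∃ g : Co0, Fix CoXa.Us g ∧ g • x0 = x := by
  refine CoXa.main x0 rfl (by rw [show sqNorm x0.1 = 32 from sq_mkL _ _]; norm_num) _ ncard_X0 ?_
  intro g hg
  have := (mem_XX_smul g uE v0 x0).mp x0_mem
  rwa [(fixUs hg).1, (fixUs hg).2] at this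

theorem transX : ∀ x ∈ XX uE v0, ∀ y ∈ XX uE v0, ∃ g : Co0, Fix CoXa.Us g ∧ g • x = y :=
  trans_of_orb mainX.2

theorem conj_fix {g h : Co0} {a b : leechLattice} (hg : g • a = b) (hh : h • b = b) : (g⁻¹ * h * g) • a = a := by
  rw [mul_smul, mul_smul, hg, hh, ← hg, inv_smul_smul]

theorem conj_map {g h : Co0} {y y' : leechLattice} (hh : h • (g • y) = g • y') : (g⁻¹ * h * g) • y = y' := by
  rw [mul_smul, mul_smul, hh, inv_smul_smul]

/-- The configuration of the 275 points. -/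
theorem main (u v : leechLattice) (hu : sqNorm u.1 = 48) (hv : sqNorm v.1 = 32 ∧ sqNorm (u.1 - v.1) = 32) :
    (XX u v).ncard = 275 ∧ ∀ x ∈ XX u v, ∀ x' ∈ XX u v, ∃ g : Co0, g • u = u ∧ g • v = v ∧ g • x = x' := by
  obtain ⟨g, hu', hv'⟩ := to_base u v hu ⟨hv.1, (sum_iff hu hv.1).mp hv.2⟩
  have hm : ∀ x, x ∈ XX u v ↔ g • x ∈ XX uE v0 := by
    intro x
    have := mem_XX_smul g u v x
    rwa [hu', hv'] at this
  refine ⟨(ncard_g g _ _ hm).trans ncard_X0, ?_⟩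
  intro x hx x' hx'
  obtain ⟨h, hf, he⟩ := transX _ ((hm x).mp hx) _ ((hm x').mp hx')
  refine ⟨g⁻¹ * h * g, conj_fix hu' (fixUs hf).1, conj_fix hv' (fixUs hf).2, conj_map he⟩

end Cfsg.Agent.H02.CoXL
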