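import Cfsg.Agent.Lib.H02.CoXL
import Cfsg.Agent.Lib.H02.CoXb
import Cfsg.Agent.Lib.H02.CoXc

/-!
The rank three action on the 275 minimal vectors.
-/

set_option autoImplicit false
set_option maxRecDepth 100000

namespace Cfsg.Agent.H02.CoXM

open Cfsg Cfsg.Agent.H26.Leech Cfsg.Agent.H02.CoK Cfsg.Agent.H02.CoM Cfsg.Agent.H02.CoP Cfsg.Agent.H02.CoR
  Cfsg.Agent.H02.CoD Cfsg.Agent.H02.CoE Cfsg.Agent.H02.CoU Cfsg.Agent.H02.CoW Cfsg.Agent.H02.CoXL
open Cfsg.Agent.H27.Golay hiding fld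

/-- A test. -/
def T8 (P : ℕ) : Bool := tEq [(1, 2), (3, 2), (5, 2), (14, 2), (17, 2), (23, 2)] [(0, 2), (2, 2)] 0 136 P

/-- A test. -/
def T16 (P : ℕ) : Bool := tEq [(1, 2), (3, 2), (5, 2), (14, 2), (17, 2), (23, 2)] [(0, 2), (2, 2)] 0 144 P

theorem hBx : ∀ p, x0.1 p = (look [(1, 2), (3, 2), (5, 2), (14, 2), (17, 2), (23, 2)] (idx p) : ℤ) - (look [(0, 2), (2, 2)] (idx p) : ℤ) := by
  decide +kernel

theorem iff8 (x : leechLattice) (P : ℕ) (hx : x.1 = dec P) : dotInt x0.1 x.1 = 8 ↔ T8 P = true := by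
  rw [hx]
  exact tEq_iff hBx rfl rfl (by norm_num [tot]) P

theorem iff16 (x : leechLattice) (P : ℕ) (hx : x.1 = dec P) : dotInt x0.1 x.1 = 16 ↔ T16 P = true := by
  rw [hx]
  exact tEq_iff hBx rfl rfl (by norm_num [tot]) P

theorem cnt8 : cntR (fun j => T8 (CoXa.O j)) 0 275 = 112 := by decide +kernel

theorem cnt16 : cntR (fun j => T16 (CoXa.O j)) 0 275 = 162 := by decide +kernel

theorem dichT : allB (fun j => T8 (CoXa.O j) || T16 (CoXa.O j) || Nat.beq (CoXa.O j) CoXa.b0) 0 275 = true := by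
  decide +kernel

theorem dich {y : leechLattice} (hy : y ∈ XX uE v0) (hne : y ≠ x0) : dotInt x0.1 y.1 = 8 ∨ dotInt x0.1 y.1 = 16 := by
  obtain ⟨j, hj, e⟩ := mainX.1.1 y hy
  have h := allB_spec dichT j (by omega) (by omega)
  simp only [Bool.or_eq_true] at h
  rcases h with (h | h) | h
  · exact Or.inl ((iff8 y _ e).mpr h)
  · exact Or.inr ((iff16 y _ e).mpr h)
  · exfalso
    apply hne
    apply Subtype.ext
    rw [e, Nat.eq_of_beq_eq_true h]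
    rfl

/-- The 112 vectors. -/
def Y8 : Set leechLattice := {y | y ∈ XX uE v0 ∧ dotInt x0.1 y.1 = 8}

/-- The 162 vectors. -/
def Y16 : Set leechLattice := {y | y ∈ XX uE v0 ∧ dotInt x0.1 y.1 = 16}

theorem ncard_Y8 : Y8.ncard = 112 := by
  have h := Tab.ncard_filter mainX.1 (of_tchk2 CoXa.all_ok).2 CoXa.O_lt T8 (fun x => dotInt x0.1 x.1 = 8) iff8
  rw [cnt8] at h
  exact h

theorem ncard_Y16 : Y16.ncard = 162 := by
  have h := Tab.ncard_filter mainX.1 (of_tchk2 CoXa.all_ok).2 CoXa.O_lt T16 (fun x => dotInt x0.1 x.1 = 16) iff16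
  rw [cnt16] at h
  exact h

theorem mem_X_of {P : ℕ} (h0 : okP P = true) (h1 : CoT.TE24 P = true) (h2 : TX P = true) : mkL P h0 ∈ XX uE v0 := by
  rw [XX_eq]
  refine ⟨⟨sq_mkL _ _, ?_⟩, ?_⟩
  · exact (tEq_iff hBE rfl rfl (by norm_num [tot]) _).mpr h1
  · exact (tEq_iff hBv rfl rfl (by norm_num [tot]) _).mpr h2

theorem hb8 : okP CoXb.b0 = true := by decide +kernel

theorem hb16 : okP CoXc.b0 = true := by decide +kernel

theorem fixU3 (Us : List ℕ) (hUs : Us = [PE, CoVd.b0, CoXa.b0]) {g : Co0} (hg : Fix Us g) :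
    g • uE = uE ∧ g • v0 = v0 ∧ g • x0 = x0 := by
  subst hUs
  refine ⟨?_, ?_, ?_⟩
  · exact hg uE ⟨PE, by simp, dec_PE⟩ (by rw [sq_uE]; norm_num)
  · exact hg v0 ⟨CoVd.b0, by simp, rfl⟩ (by rw [show sqNorm v0.1 = 32 from sq_mkL _ _]; norm_num)
  · exact hg x0 ⟨CoXa.b0, by simp, rfl⟩ (by rw [show sqNorm x0.1 = 32 from sq_mkL _ _]; norm_num)

theorem orb8 : ∀ x ∈ Y8, ∀ y ∈ Y8, ∃ g : Co0, Fix CoXb.Us g ∧ g • x = y := by
  have hb : mkL CoXb.b0 hb8 ∈ Y8 :=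
    ⟨mem_X_of hb8 (by decide +kernel) (by decide +kernel), (iff8 _ _ rfl).mpr (by decide +kernel)⟩
  refine trans_of_orb (CoXb.main (mkL _ hb8) rfl (by rw [sq_mkL]; norm_num) Y8 ncard_Y8 ?_).2
  intro g hg
  obtain ⟨f1, f2, f3⟩ := fixU3 _ rfl hg
  refine ⟨?_, ?_⟩
  · have := (mem_XX_smul g uE v0 _).mp hb.1
    rwa [f1, f2] at this
  · have := dot_smul g x0 (mkL CoXb.b0 hb8)
    rw [f3] at this
    rw [this]
    exact hb.2

theorem orb16 : ∀ x ∈ Y16, ∀ y ∈ Y16, ∃ g : Co0, Fix CoXc.Us g ∧ g • x = y := by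
  have hb : mkL CoXc.b0 hb16 ∈ Y16 :=
    ⟨mem_X_of hb16 (by decide +kernel) (by decide +kernel), (iff16 _ _ rfl).mpr (by decide +kernel)⟩
  refine trans_of_orb (CoXc.main (mkL _ hb16) rfl (by rw [sq_mkL]; norm_num) Y16 ncard_Y16 ?_).2
  intro g hg
  obtain ⟨f1, f2, f3⟩ := fixU3 _ rfl hg
  refine ⟨?_, ?_⟩
  · have := (mem_XX_smul g uE v0 _).mp hb.1
    rwa [f1, f2] at this
  · have := dot_smul g x0 (mkL CoXc.b0 hb16)
    rw [f3] at this
    rw [this]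
    exact hb.2

theorem sq_x0 : sqNorm x0.1 = 32 := sq_mkL _ _

theorem dot_self_x0 : dotInt x0.1 x0.1 = 32 := by
  have : dotInt x0.1 x0.1 = sqNorm x0.1 := by
    unfold dotInt sqNorm
    apply Finset.sum_congr rfl
    intro i _
    ring
  rw [this, sq_x0]

/-- The rank three action on the 275 vectors. -/
theorem main (u v x : leechLattice) (hu : sqNorm u.1 = 48) (hv : sqNorm v.1 = 32 ∧ sqNorm (u.1 - v.1) = 32)
    (hx : x ∈ XX u v) :
    {y | y ∈ XX u v ∧ dotInt x.1 y.1 = 8}.ncard = 112 ∧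
    {y | y ∈ XX u v ∧ y ≠ x ∧ dotInt x.1 y.1 = 16}.ncard = 162 ∧
    ∀ y ∈ XX u v, ∀ y' ∈ XX u v, y ≠ x → y' ≠ x → dotInt x.1 y.1 = dotInt x.1 y'.1 →
      ∃ g : Co0, g • u = u ∧ g • v = v ∧ g • x = x ∧ g • y = y' := by
  obtain ⟨g1, hu1, hv1⟩ := to_base u v hu ⟨hv.1, (sum_iff hu hv.1).mp hv.2⟩
  have hm1 : ∀ x, x ∈ XX u v ↔ g1 • x ∈ XX uE v0 := by
    intro x
    have := mem_XX_smul g1 u v x
    rwa [hu1, hv1] at this
  obtain ⟨h, hf, he⟩ := transX _ ((hm1 x).mp hx) _ x0_mem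
  let g : Co0 := h * g1
  have hu' : g • u = uE := by
    show (h * g1) • u = _
    rw [mul_smul, hu1, (fixUs hf).1]
  have hv' : g • v = v0 := by
    show (h * g1) • v = _
    rw [mul_smul, hv1, (fixUs hf).2]
  have hx' : g • x = x0 := by
    show (h * g1) • x = _
    rw [mul_smul, he]
  have hm : ∀ y, y ∈ XX u v ↔ g • y ∈ XX uE v0 := by
    intro y
    have := mem_XX_smul g u v y
    rwa [hu', hv'] at this
  have hd : ∀ y : leechLattice, dotInt x.1 y.1 = dotInt x0.1 (g • y).1 := by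
    intro y
    rw [← hx', dot_smul]
  refine ⟨?_, ?_, ?_⟩
  · rw [← ncard_Y8]
    apply ncard_g g
    intro y
    show (_ ∧ _) ↔ (_ ∧ _)
    rw [hm, hd]
  · rw [← ncard_Y16]
    apply ncard_g g
    intro y
    show (_ ∧ _ ∧ _) ↔ (_ ∧ _)
    rw [hm, hd]
    constructor
    · rintro ⟨a, -, b⟩
      exact ⟨a, b⟩
    · rintro ⟨a, b⟩
      refine ⟨a, ?_, b⟩
      rintro rfl
      rw [hx', dot_self_x0] at b
      norm_num at b
  · intro y hy y' hy' hne hne' hdd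
    have ha := (hm y).mp hy
    have ha' := (hm y').mp hy'
    have hne1 : g • y ≠ x0 := by
      intro e
      apply hne
      rw [← hx'] at e
      exact MulAction.injective g e
    have hne2 : g • y' ≠ x0 := by
      intro e
      apply hne'
      rw [← hx'] at e
      exact MulAction.injective g e
    rw [hd, hd] at hdd
    rcases dich ha hne1 with e | e
    · obtain ⟨k, hk, he⟩ := orb8 _ ⟨ha, e⟩ _ ⟨ha', by rw [← hdd]; exact e⟩
      obtain ⟨f1, f2, f3⟩ := fixU3 _ rfl hk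
      exact ⟨g⁻¹ * k * g, conj_fix hu' f1, conj_fix hv' f2, conj_fix hx' f3, conj_map he⟩
    · obtain ⟨k, hk, he⟩ := orb16 _ ⟨ha, e⟩ _ ⟨ha', by rw [← hdd]; exact e⟩
      obtain ⟨f1, f2, f3⟩ := fixU3 _ rfl hk
      exact ⟨g⁻¹ * k * g, conj_fix hu' f1, conj_fix hv' f2, conj_fix hx' f3, conj_map he⟩

end Cfsg.Agent.H02.CoXM
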