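import Cfsg.Agent.S1640
import Cfsg.Agent.Lib.H02.CoXL
import Cfsg.Agent.Lib.H02.CoYa

/-!
The 100 minimal vectors attached to two vectors of norm 6.
-/

set_option autoImplicit false
set_option maxRecDepth 100000

namespace Cfsg.Agent.H02.CoYL

open Cfsg Cfsg.Agent.H26.Leech Cfsg.Agent.H02.CoK Cfsg.Agent.H02.CoM Cfsg.Agent.H02.CoP Cfsg.Agent.H02.CoR
  Cfsg.Agent.H02.CoD Cfsg.Agent.H02.CoE Cfsg.Agent.H02.CoU Cfsg.Agent.H02.CoW Cfsg.Agent.H02.CoXL
open Cfsg.Agent.H27.Golay hiding fld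

/-- The packed vector `z`. -/
def Pz : ℕ := 686053154163035132099153512156906000

/-- The packed vector `w`. -/
def Pw : ℕ := 602976414252624590687130068015593938

theorem okz : okP Pz = true := by decide +kernel

/-- The vector `z`. -/
def zL : leechLattice := mkL Pz okz

/-- The vector `w`. -/
def wL : leechLattice := -uE - zL

theorem dec_Pw : dec Pw = wL.1 := by
  funext p
  revert p
  show ∀ p, dec Pw p = -rE3 p - dec Pz p
  decide +kernel

theorem g_add (g : Co0) (a b : leechLattice) : g • (a + b) = g • a + g • b := g.2.1 a b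

theorem g_zero (g : Co0) : g • (0 : leechLattice) = 0 := by
  have := g_add g 0 0
  rw [add_zero] at this
  exact left_eq_add.mp this

theorem g_neg (g : Co0) (a : leechLattice) : g • (-a) = -(g • a) := by
  have := g_add g a (-a)
  rw [add_neg_cancel, g_zero] at this
  exact (neg_eq_of_add_eq_zero_right this.symm).symm

theorem g_sub (g : Co0) (a b : leechLattice) : g • (a - b) = g • a - g • b := by
  rw [sub_eq_add_neg, g_add, g_neg, ← sub_eq_add_neg]

theorem sq_neg_sub (a b : leechLattice) :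
    sqNorm (-a - b : leechLattice).1 = sqNorm a.1 + sqNorm b.1 + 2 * dotInt a.1 b.1 := by
  have e : ((-a - b : leechLattice) : GolayPt → ℤ) = -(a.1 + b.1) := by
    funext i
    show -a.1 i - b.1 i = -(a.1 i + b.1 i)
    ring
  rw [e]
  have : sqNorm (-(a.1 + b.1)) = sqNorm (a.1 + b.1) := by
    unfold sqNorm
    apply Finset.sum_congr rfl
    intro i _
    simp only [Pi.neg_apply]
    ring
  rw [this, sqNorm_add]

theorem dot_add_right (a b c : GolayPt → ℤ) : dotInt a (b + c) = dotInt a b + dotInt a c := by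
  unfold dotInt
  rw [← Finset.sum_add_distrib]
  apply Finset.sum_congr rfl
  intro i _
  simp only [Pi.add_apply]
  ring

theorem dot_comm (a b : GolayPt → ℤ) : dotInt a b = dotInt b a := by
  unfold dotInt
  apply Finset.sum_congr rfl
  intro i _
  ring

theorem dot_neg_right (a b : GolayPt → ℤ) : dotInt a (-b) = -dotInt a b := by
  unfold dotInt
  rw [← Finset.sum_neg_distrib]
  apply Finset.sum_congr rfl
  intro i _
  simp

theorem dot_self (a : GolayPt → ℤ) : dotInt a a = sqNorm a := by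
  unfold dotInt sqNorm
  apply Finset.sum_congr rfl
  intro i _
  ring

theorem dot_neg_sub (a b : leechLattice) :
    dotInt a.1 (-a - b : leechLattice).1 = -sqNorm a.1 - dotInt a.1 b.1 := by
  have e : ((-a - b : leechLattice) : GolayPt → ℤ) = -(a.1) + -(b.1) := by
    funext i
    show -a.1 i - b.1 i = -a.1 i + -b.1 i
    ring
  rw [e, dot_add_right, dot_neg_right, dot_neg_right, dot_self]
  ring

theorem hBz : ∀ p, zL.1 p = (look [] (idx p) : ℤ) - (look [(4, 4), (18, 4)] (idx p) : ℤ) := by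
  decide +kernel

theorem z_mem : zL ∈ Dv uE (-16) :=
  ⟨sq_mkL _ _, (tEq_iff hBE rfl rfl (by norm_num [tot]) _).mpr (by decide +kernel : CoT.TE16 Pz = true)⟩

/-- The pair of vectors of norm 6 moved to the base. -/
theorem to_base (v w : leechLattice) (hv : sqNorm v.1 = 48) (hw : sqNorm w.1 = 48) (hvw : dotInt v.1 w.1 = -32) :
    ∃ g : Co0, g • v = uE ∧ g • w = wL := by
  obtain ⟨g0, hg0⟩ := exists_to_uE v hv
  have hz : -v - w ∈ Dv v (-16) := by
    refine ⟨?_, ?_⟩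
    · rw [sq_neg_sub, hv, hw, hvw]
      norm_num
    · rw [dot_neg_sub, hv, hvw]
      norm_num
  have h1 := (mem_Dv_smul g0 v _ (-16)).mp hz
  rw [hg0] at h1
  obtain ⟨h, hf, he⟩ := Cfsg.Agent.S1640.orb _ h1 _ z_mem
  refine ⟨h * g0, by rw [mul_smul, hg0, hf], ?_⟩
  rw [mul_smul]
  have e1 : w = -v - (-v - w) := by abel
  rw [e1, g_sub, g_neg, hg0, g_sub, g_neg, hf, he]
  rfl

theorem sq_wL : sqNorm wL.1 = 48 := by
  show sqNorm (-uE - zL : leechLattice).1 = 48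
  rw [sq_neg_sub, sq_uE, show sqNorm zL.1 = 32 from sq_mkL _ _, z_mem.2]
  norm_num

theorem dot_uw : dotInt uE.1 wL.1 = -32 := by
  show dotInt uE.1 (-uE - zL : leechLattice).1 = -32
  rw [dot_neg_sub, sq_uE, z_mem.2]
  norm_num

/-- The 100 vectors. -/
def HH (v w : leechLattice) : Set leechLattice :=
  {x | sqNorm x.1 = 32 ∧ dotInt v.1 x.1 = 24 ∧ dotInt w.1 x.1 = -24}

theorem mem_HH_smul (g : Co0) (v w x : leechLattice) : x ∈ HH v w ↔ g • x ∈ HH (g • v) (g • w) := by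
  show (_ ∧ _ ∧ _) ↔ (_ ∧ _ ∧ _)
  rw [sqNorm_smul, dot_smul, dot_smul]

/-- The test of the inner product with `w`. -/
def TW (P : ℕ) : Bool := tEq [(0, 2), (18, 4)] [(1, 2), (2, 2), (3, 2), (5, 2), (14, 2), (17, 2), (23, 2)] 152 0 P

theorem hBw : ∀ p, wL.1 p = (look [(0, 2), (18, 4)] (idx p) : ℤ) - (look [(1, 2), (2, 2), (3, 2), (5, 2), (14, 2), (17, 2), (23, 2)] (idx p) : ℤ) := by
  intro p
  rw [← dec_Pw]
  revert p
  decide +kernel

theorem cntH : cntR (fun j => TW (CoVd.O j)) 0 552 = 100 := by decide +kernel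

theorem HH_eq : HH uE wL = {x | x ∈ Dv uE 24 ∧ dotInt wL.1 x.1 = -24} := by
  ext x
  constructor
  · rintro ⟨h1, h2, h3⟩
    exact ⟨⟨h1, h2⟩, h3⟩
  · rintro ⟨⟨h1, h2⟩, h3⟩
    exact ⟨h1, h2, h3⟩

theorem iffW (x : leechLattice) (P : ℕ) (hx : x.1 = dec P) : dotInt wL.1 x.1 = -24 ↔ TW P = true := by
  rw [hx]
  exact tEq_iff hBw rfl rfl (by norm_num [tot]) P

theorem ncard_H0 : (HH uE wL).ncard = 100 := by
  rw [HH_eq]
  have h := Tab.ncard_filter tab552 (of_tchk2 CoVd.all_ok).2 CoVd.O_lt TW (fun x => dotInt wL.1 x.1 = -24) iffW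
  rw [cntH] at h
  exact h

theorem hb : okP CoYa.b0 = true := by decide +kernel

/-- The base point of the 100. -/
def x1 : leechLattice := mkL CoYa.b0 hb

theorem mem_H_of {P : ℕ} (h0 : okP P = true) (h1 : CoT.TE24 P = true) (h2 : TW P = true) : mkL P h0 ∈ HH uE wL := by
  rw [HH_eq]
  refine ⟨⟨sq_mkL _ _, ?_⟩, ?_⟩
  · exact (tEq_iff hBE rfl rfl (by norm_num [tot]) _).mpr h1
  · exact (iffW _ _ rfl).mpr h2

theorem x1_mem : x1 ∈ HH uE wL := mem_H_of hb (by decide +kernel) (by decide +kernel)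

theorem fixUs (Us : List ℕ) (h1 : PE ∈ Us) (h2 : Pw ∈ Us) (h3 : Pz ∈ Us) {g : Co0} (hg : Fix Us g) :
    g • uE = uE ∧ g • wL = wL ∧ g • zL = zL := by
  refine ⟨?_, ?_, ?_⟩
  · exact hg uE ⟨PE, h1, dec_PE⟩ (by rw [sq_uE]; norm_num)
  · exact hg wL ⟨Pw, h2, dec_Pw⟩ (by rw [sq_wL]; norm_num)
  · exact hg zL ⟨Pz, h3, rfl⟩ (by rw [show sqNorm zL.1 = 32 from sq_mkL _ _]; norm_num)

theorem mainH : Tab (HH uE wL) CoYa.O 100 ∧ ∀ x ∈ HH uE wL, ∃ g : Co0, Fix CoYa.Us g ∧ g • x1 = x := by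
  refine CoYa.main x1 rfl (by rw [show sqNorm x1.1 = 32 from sq_mkL _ _]; norm_num) _ ncard_H0 ?_
  intro g hg
  obtain ⟨f1, f2, -⟩ := fixUs _ (by decide) (by decide) (by decide) hg
  have := (mem_HH_smul g uE wL x1).mp x1_mem
  rwa [f1, f2] at this

theorem transH : ∀ x ∈ HH uE wL, ∀ y ∈ HH uE wL, ∃ g : Co0, Fix CoYa.Us g ∧ g • x = y :=
  trans_of_orb mainH.2

/-- The configuration of the 100 points. -/
theorem main (v w : leechLattice) (hv : sqNorm v.1 = 48) (hw : sqNorm w.1 = 48) (hvw : dotInt v.1 w.1 = -32) :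
    (HH v w).ncard = 100 ∧ ∀ x ∈ HH v w, ∀ x' ∈ HH v w, ∃ g : Co0, g • v = v ∧ g • w = w ∧ g • x = x' := by
  obtain ⟨g, hv', hw'⟩ := to_base v w hv hw hvw
  have hm : ∀ x, x ∈ HH v w ↔ g • x ∈ HH uE wL := by
    intro x
    have := mem_HH_smul g v w x
    rwa [hv', hw'] at this
  refine ⟨(ncard_g g _ _ hm).trans ncard_H0, ?_⟩
  intro x hx x' hx'
  obtain ⟨h, hf, he⟩ := transH _ ((hm x).mp hx) _ ((hm x').mp hx')
  obtain ⟨f1, f2, -⟩ := fixUs _ (by decide) (by decide) (by decide) hf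
  exact ⟨g⁻¹ * h * g, conj_fix hv' f1, conj_fix hw' f2, conj_map he⟩

end Cfsg.Agent.H02.CoYL
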