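import Cfsg.Agent.Lib.H02.CoYL

/-!
An exchange of two vectors of norm 6, and an involution on the 100 vectors.
-/

set_option autoImplicit false
set_option maxRecDepth 100000

namespace Cfsg.Agent.H02.CoYN

open Cfsg Cfsg.Agent.H26.Leech Cfsg.Agent.H02.CoA Cfsg.Agent.H02.CoK Cfsg.Agent.H02.CoM Cfsg.Agent.H02.CoP Cfsg.Agent.H02.CoR
  Cfsg.Agent.H02.CoD Cfsg.Agent.H02.CoE Cfsg.Agent.H02.CoU Cfsg.Agent.H02.CoW Cfsg.Agent.H02.CoXL Cfsg.Agent.H02.CoYL
open Cfsg.Agent.H27.Golay hiding fld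

/-- The word of the exchange. -/
def WX : List Stp := [.mono 972915819382464682308786547560218673 10709354]

theorem okWX : okW WX = true := by decide +kernel

theorem ev1 : evalW WX PE = Pw := by decide +kernel

theorem ev2 : evalW WX Pw = PE := by decide +kernel

theorem swap : ∃ g : Co0, g • uE = wL ∧ g • wL = uE := by
  obtain ⟨g, hg⟩ := exists_word okWX
  refine ⟨g, ?_, ?_⟩
  · apply Subtype.ext
    have := hg uE PE dec_PE (by rw [sq_uE]; norm_num)
    rw [ev1, dec_Pw] at this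
    exact this
  · apply Subtype.ext
    have := hg wL Pw dec_Pw (by rw [sq_wL]; norm_num)
    rw [ev2, dec_PE] at this
    exact this

/-- The exchange. -/
theorem main (v w : leechLattice) (hv : sqNorm v.1 = 48) (hw : sqNorm w.1 = 48) (hvw : dotInt v.1 w.1 = -32) :
    ∃ g : Co0, g • v = w ∧ g • w = v := by
  obtain ⟨g0, h1, h2⟩ := to_base v w hv hw hvw
  obtain ⟨G, h3, h4⟩ := swap
  refine ⟨g0⁻¹ * G * g0, ?_, ?_⟩
  · rw [mul_smul, mul_smul, h1, h3, ← h2, inv_smul_smul]
  · rw [mul_smul, mul_smul, h2, h4, ← h1, inv_smul_smul]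

/-! ### The involution -/

theorem eq_one_of_e8 (g : Co0) (h : ∀ i, g.1 (e8 i) = e8 i) : g = 1 := by
  apply Subtype.ext
  apply Equiv.ext
  intro x
  apply cancel8
  show (8 : ℤ) • g.1 x = (8 : ℤ) • x
  have e1 : (8 : ℤ) • g.1 x = addHom g ((8 : ℤ) • x) := by
    rw [map_zsmul]
    rfl
  rw [e1, eight_smul, map_sum]
  apply Finset.sum_congr rfl
  intro i _
  rw [map_zsmul, addHom_apply, h]

/-- The packed vectors of the frame. -/
def E8P (i : ℕ) : ℕ := Nat.add 686053159114795289240674611757597200 (Nat.shiftLeft 8 (Nat.mul 5 i))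

theorem dec_E8P : ∀ i p : GolayPt, dec (E8P (idx i)) p = (e8 i).1 p := by
  decide +kernel

/-- The word of the involution. -/
def WI : List Stp := [.mono 212365149273149361265538378219455183 12768057, .xi, .mono 379915637874324318228893050165299314 9887535, .xi, .mono 583464932808813407522093403861619266 10740908]

theorem okWI : okW WI = true := by decide +kernel

theorem fixWI : CoYa.Us.all (fun U => Nat.beq (evalW WI U) U) = true := by decide +kernel

theorem invWI : allB (fun i => Nat.beq (evalW WI (evalW WI (E8P i))) (E8P i)) 0 24 = true := by decide +kernel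

theorem freeWI : allB (fun j => Nat.blt (evalW WI (CoYa.O j)) 1329227995784915872903807060280344576 && !(Nat.beq (evalW WI (CoYa.O j)) (CoYa.O j))) 0 100 = true := by
  decide +kernel

theorem sq_e8 (i : GolayPt) : sqNorm (e8 i).1 ≤ 64 := by
  revert i
  decide +kernel

theorem base_inv : ∃ g : Co0, g • uE = uE ∧ g • wL = wL ∧ g * g = 1 ∧ ∀ x ∈ HH uE wL, g • x ≠ x := by
  obtain ⟨g, hf, hg⟩ := word_of_word okWI fixWI
  obtain ⟨f1, f2, -⟩ := fixUs _ (by decide) (by decide) (by decide) hf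
  refine ⟨g, f1, f2, ?_, ?_⟩
  · apply eq_one_of_e8
    intro i
    apply Subtype.ext
    have hP : dec (E8P (idx i)) = (e8 i).1 := funext (dec_E8P i)
    have h1 := hg (e8 i) _ hP (sq_e8 i)
    have h2 := hg (g • e8 i) (evalW WI (E8P (idx i))) h1.symm (by rw [sqNorm_smul]; exact sq_e8 i)
    have h3 : evalW WI (evalW WI (E8P (idx i))) = E8P (idx i) :=
      Nat.eq_of_beq_eq_true (allB_spec invWI (idx i) (by omega) (by have := idx_lt i; omega))
    rw [h3, hP] at h2
    exact h2
  · intro x hx e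
    obtain ⟨j, hj, hjx⟩ := mainH.1.1 x hx
    have h1 := allB_spec freeWI j (by omega) (by omega)
    simp only [Bool.and_eq_true, Bool.not_eq_true'] at h1
    have h2 := hg x _ hjx.symm (by rw [hx.1]; norm_num)
    rw [e, hjx] at h2
    have h3 := dec_inj (CoYa.O_lt j) (Nat.le_of_ble_eq_true h1.1) h2
    rw [← h3] at h1
    have : Nat.beq (CoYa.O j) (CoYa.O j) = true := Nat.beq_refl _
    rw [this] at h1
    exact absurd h1.2 (by simp)

/-- An involution without fixed points on the 100 vectors. -/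
theorem main_inv (v w : leechLattice) (hv : sqNorm v.1 = 48) (hw : sqNorm w.1 = 48) (hvw : dotInt v.1 w.1 = -32) :
    ∃ g : Co0, g • v = v ∧ g • w = w ∧ orderOf g = 2 ∧ ∀ x ∈ HH v w, g • x ≠ x := by
  obtain ⟨g0, h1, h2⟩ := to_base v w hv hw hvw
  obtain ⟨G, h3, h4, h5, h6⟩ := base_inv
  have hm : ∀ x, x ∈ HH v w → g0 • x ∈ HH uE wL := by
    intro x hx
    have := (mem_HH_smul g0 v w x).mp hx
    rwa [h1, h2] at this
  have hfree : ∀ x ∈ HH v w, (g0⁻¹ * G * g0) • x ≠ x := by
    intro x hx e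
    apply h6 _ (hm x hx)
    rw [mul_smul, mul_smul] at e
    rw [inv_smul_eq_iff] at e
    exact e
  refine ⟨g0⁻¹ * G * g0, conj_fix h1 h3, conj_fix h2 h4, ?_, hfree⟩
  have hne : HH v w |>.Nonempty := by
    apply Set.nonempty_of_ncard_ne_zero
    rw [(Cfsg.Agent.H02.CoYL.main v w hv hw hvw).1]
    norm_num
  obtain ⟨x0', hx0'⟩ := hne
  haveI : Fact (Nat.Prime 2) := ⟨Nat.prime_two⟩
  apply orderOf_eq_prime
  · rw [pow_two]
    calc g0⁻¹ * G * g0 * (g0⁻¹ * G * g0) = g0⁻¹ * (G * G) * g0 := by simp [mul_assoc]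
      _ = 1 := by rw [h5]; simp
  · intro e
    apply hfree x0' hx0'
    rw [e, one_smul]

end Cfsg.Agent.H02.CoYN
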