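import Cfsg.Agent.Lib.H02.CoR

/-!
The census of 2025 minimal vectors.
-/

set_option autoImplicit false
set_option Elab.async false
set_option maxRecDepth 100000

namespace Cfsg.Agent.H02.CoZe

open Cfsg.Agent.H02.CoK Cfsg.Agent.H02.CoL Cfsg.Agent.H02.CoM Cfsg.Agent.H02.CoR


/-- The test of the census. -/
def TZ (P : ℕ) : Bool := tEq [(0, 4), (23, 4)] [] 0 128 P && tEq [(1, 1), (2, 1), (3, 1), (4, 1), (5, 1), (6, 1), (7, 1), (8, 1), (9, 1), (10, 1), (11, 1), (12, 1), (13, 1), (14, 1), (15, 1), (16, 1), (17, 1), (18, 1), (19, 1), (20, 1), (21, 1), (22, 1), (23, 1)] [(0, 3)] 0 336 P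

theorem c0 : cntR (fun k => TZ (Tp k)) 0 4096 = 0 := by decide +kernel
theorem c1 : cntR (fun k => TZ (Tp k)) 4096 4096 = 0 := by decide +kernel
theorem c2 : cntR (fun k => TZ (Tp k)) 8192 4096 = 0 := by decide +kernel
theorem c3 : cntR (fun k => TZ (Tp k)) 12288 4096 = 0 := by decide +kernel
theorem c4 : cntR (fun k => TZ (Tp k)) 16384 4096 = 0 := by decide +kernel
theorem c5 : cntR (fun k => TZ (Tp k)) 20480 4096 = 0 := by decide +kernel
theorem c6 : cntR (fun k => TZ (Tp k)) 24576 4096 = 0 := by decide +kernel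
theorem c7 : cntR (fun k => TZ (Tp k)) 28672 4096 = 0 := by decide +kernel
theorem c8 : cntR (fun k => TZ (Tp k)) 32768 4096 = 0 := by decide +kernel
theorem c9 : cntR (fun k => TZ (Tp k)) 36864 4096 = 0 := by decide +kernel
theorem c10 : cntR (fun k => TZ (Tp k)) 40960 4096 = 0 := by decide +kernel
theorem c11 : cntR (fun k => TZ (Tp k)) 45056 4096 = 0 := by decide +kernel
theorem c12 : cntR (fun k => TZ (Tp k)) 49152 4096 = 0 := by decide +kernel
theorem c13 : cntR (fun k => TZ (Tp k)) 53248 4096 = 0 := by decide +kernel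
theorem c14 : cntR (fun k => TZ (Tp k)) 57344 4096 = 0 := by decide +kernel
theorem c15 : cntR (fun k => TZ (Tp k)) 61440 4096 = 0 := by decide +kernel
theorem c16 : cntR (fun k => TZ (Tp k)) 65536 4096 = 0 := by decide +kernel
theorem c17 : cntR (fun k => TZ (Tp k)) 69632 4096 = 0 := by decide +kernel
theorem c18 : cntR (fun k => TZ (Tp k)) 73728 4096 = 0 := by decide +kernel
theorem c19 : cntR (fun k => TZ (Tp k)) 77824 4096 = 0 := by decide +kernel
theorem c20 : cntR (fun k => TZ (Tp k)) 81920 4096 = 0 := by decide +kernel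
theorem c21 : cntR (fun k => TZ (Tp k)) 86016 4096 = 0 := by decide +kernel
theorem c22 : cntR (fun k => TZ (Tp k)) 90112 4096 = 0 := by decide +kernel
theorem c23 : cntR (fun k => TZ (Tp k)) 94208 4096 = 0 := by decide +kernel

end Cfsg.Agent.H02.CoZe
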