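import Cfsg.Prelude.Def_Sporadic_a

set_option autoImplicit false

namespace Cfsg.Agent.H02.Design

open Cfsg

variable {α : Type*} [Fintype α] [DecidableEq α] {t k : ℕ} {B : Set (Finset α)}

/-- blocks as a finset -/
noncomputable def blocks (B : Set (Finset α)) : Finset (Finset α) := (Set.toFinite B).toFinset

theorem mem_blocks {c : Finset α} : c ∈ blocks B ↔ c ∈ B := Set.Finite.mem_toFinset _

theorem ncard_eq (B : Set (Finset α)) : B.ncard = (blocks B).card :=
  Set.ncard_eq_toFinset_card B (Set.toFinite B)

/-- blocks through a subset -/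
noncomputable def through (B : Set (Finset α)) (S : Finset α) : Finset (Finset α) :=
  (blocks B).filter (fun c => S ⊆ c)

theorem mem_through {S c : Finset α} : c ∈ through B S ↔ c ∈ B ∧ S ⊆ c := by
  simp [through, mem_blocks]

/-- number of `t`-subsets between two given sets -/
theorem card_between (S b : Finset α) (hSb : S ⊆ b) (m : ℕ) (hi : S.card ≤ m) :
    ((b.powersetCard m).filter (fun T => S ⊆ T)).card =
      Nat.choose (b.card - S.card) (m - S.card) := by
  have hcard : (b \ S).card = b.card - S.card := Finset.card_sdiff_of_subset hSb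
  rw [← hcard, ← Finset.card_powersetCard]
  refine Finset.card_nbij' (fun T => T \ S) (fun U => U ∪ S) ?_ ?_ ?_ ?_
  · intro T hT
    simp only [Finset.mem_coe, Finset.mem_filter, Finset.mem_powersetCard] at hT ⊢
    refine ⟨Finset.sdiff_subset_sdiff hT.1.1 le_rfl, ?_⟩
    rw [Finset.card_sdiff_of_subset hT.2, hT.1.2]
  · intro U hU
    simp only [Finset.mem_coe, Finset.mem_filter, Finset.mem_powersetCard] at hU ⊢
    refine ⟨⟨Finset.union_subset (hU.1.trans Finset.sdiff_subset) hSb, ?_⟩,
      Finset.subset_union_right⟩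
    rw [Finset.card_union_of_disjoint]
    · omega
    · exact Finset.disjoint_of_subset_left hU.1 Finset.sdiff_disjoint
  · intro T hT
    simp only [Finset.mem_coe, Finset.mem_filter, Finset.mem_powersetCard] at hT
    exact Finset.sdiff_union_of_subset hT.2
  · intro U hU
    simp only [Finset.mem_coe, Finset.mem_powersetCard] at hU
    have hdisj : Disjoint U S := Finset.disjoint_of_subset_left hU.1 Finset.sdiff_disjoint
    simpa using Finset.union_sdiff_cancel_right hdisj

/-- the block through a `t`-subset -/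
theorem exists_block (hB : IsSteinerSystem t k B) (T : Finset α) (hT : T.card = t) :
    ∃ b, b ∈ B ∧ T ⊆ b := (hB.2 T hT).exists

theorem block_unique (hB : IsSteinerSystem t k B) {T b c : Finset α} (hT : T.card = t)
    (hb : b ∈ B) (hc : c ∈ B) (hTb : T ⊆ b) (hTc : T ⊆ c) : b = c :=
  (hB.2 T hT).unique ⟨hb, hTb⟩ ⟨hc, hTc⟩

/-- the fundamental count: `λ_i * C(k-i, t-i) = C(v-i, t-i)`. -/
theorem through_mul (hB : IsSteinerSystem t k B) (S : Finset α) (hS : S.card ≤ t) :
    (through B S).card * Nat.choose (k - S.card) (t - S.card) =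
      Nat.choose (Fintype.card α - S.card) (t - S.card) := by
  classical
  set X := ((Finset.univ : Finset α).powersetCard t).filter (fun T => S ⊆ T) with hX
  have hXcard : X.card = Nat.choose (Fintype.card α - S.card) (t - S.card) := by
    rw [hX, card_between S Finset.univ (Finset.subset_univ S) t hS, Finset.card_univ]
  have hmemX : ∀ T, T ∈ X ↔ T.card = t ∧ S ⊆ T := by
    intro T
    simp [hX, Finset.mem_powersetCard]
  have hex : ∀ T : Finset α, ∃ b, T.card = t → b ∈ B ∧ T ⊆ b := by
    intro T
    by_cases hT : T.card = t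
    · obtain ⟨b, hb⟩ := exists_block hB T hT
      exact ⟨b, fun _ => hb⟩
    · exact ⟨∅, fun h => absurd h hT⟩
  choose f hf using hex
  have hmaps : Set.MapsTo f X (through B S) := by
    intro T hT
    have hT' := (hmemX T).mp hT
    obtain ⟨h1, h2⟩ := hf T hT'.1
    exact mem_through.mpr ⟨h1, hT'.2.trans h2⟩
  have hfib : ∀ b ∈ through B S, (X.filter (fun T => f T = b)).card =
      Nat.choose (k - S.card) (t - S.card) := by
    intro b hb
    obtain ⟨hbB, hSb⟩ := mem_through.mp hb
    have hbk := hB.1 b hbB
    have h1 : X.filter (fun T => f T = b) = (b.powersetCard t).filter (fun T => S ⊆ T) := by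
      ext T
      simp only [Finset.mem_filter, hmemX, Finset.mem_powersetCard]
      constructor
      · rintro ⟨⟨h1, h2⟩, rfl⟩
        exact ⟨⟨(hf T h1).2, h1⟩, h2⟩
      · rintro ⟨⟨h1, h2⟩, h3⟩
        refine ⟨⟨h2, h3⟩, ?_⟩
        exact block_unique hB h2 (hf T h2).1 hbB (hf T h2).2 h1
    rw [h1, card_between S b hSb t hS, hbk]
  rw [← hXcard, Finset.card_eq_sum_card_fiberwise hmaps, Finset.sum_congr rfl hfib,
    Finset.sum_const, smul_eq_mul]

/-- S0350 -/
theorem ncard_mul_choose (hB : IsSteinerSystem t k B) :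
    B.ncard * Nat.choose k t = Nat.choose (Fintype.card α) t := by
  have h := through_mul hB ∅ (by simp)
  simp only [Finset.card_empty, Nat.sub_zero] at h
  have h2 : through B ∅ = blocks B := by
    simp [through]
  rwa [h2, ← ncard_eq] at h

/-- the double count of subsets of `c ∩ A`. -/
theorem sum_choose (A : Finset α) (j L : ℕ)
    (hL : ∀ S : Finset α, S.card = j → (through B S).card = L) :
    ∑ c ∈ blocks B, Nat.choose (c ∩ A).card j = Nat.choose A.card j * L := by
  have h1 : ∀ c ∈ blocks B, Nat.choose (c ∩ A).card j =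
      ((A.powersetCard j).filter (fun S => S ⊆ c)).card := by
    intro c _
    rw [← Finset.card_powersetCard]
    congr 1
    ext S
    simp only [Finset.mem_powersetCard, Finset.mem_filter, Finset.subset_inter_iff]
    tauto
  rw [Finset.sum_congr rfl h1]
  have h2 := Finset.sum_card_bipartiteAbove_eq_sum_card_bipartiteBelow
    (s := blocks B) (t := A.powersetCard j) (fun (c : Finset α) (S : Finset α) => S ⊆ c)
  unfold Finset.bipartiteAbove Finset.bipartiteBelow at h2
  rw [h2]
  have h3 : ∀ S ∈ A.powersetCard j, ((blocks B).filter (fun c => S ⊆ c)).card = L := by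
    intro S hS
    exact hL S (Finset.mem_powersetCard.mp hS).2
  rw [Finset.sum_congr rfl h3, Finset.sum_const, Finset.card_powersetCard, smul_eq_mul]

/-- number of blocks meeting `b` in exactly `i` points -/
noncomputable def nn (B : Set (Finset α)) (b : Finset α) (i : ℕ) : ℕ :=
  ((blocks B).filter (fun c => (c ∩ b).card = i)).card

theorem sum_nn (hB : IsSteinerSystem t k B) (b : Finset α) (g : ℕ → ℕ) :
    ∑ c ∈ blocks B, g (c ∩ b).card = ∑ i ∈ Finset.range (k + 1), nn B b i * g i := by
  have hmaps : ∀ c ∈ blocks B, (c ∩ b).card ∈ Finset.range (k + 1) := by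
    intro c hc
    have h1 := hB.1 c (mem_blocks.mp hc)
    have h2 := Finset.card_le_card (Finset.inter_subset_left : c ∩ b ⊆ c)
    exact Finset.mem_range.mpr (by omega)
  rw [← Finset.sum_fiberwise_of_maps_to hmaps]
  apply Finset.sum_congr rfl
  intro i _
  rw [Finset.sum_congr rfl (g := fun _ => g i)]
  · rw [Finset.sum_const, smul_eq_mul]
    rfl
  · intro c hc
    rw [(Finset.mem_filter.mp hc).2]

theorem inter_lt (hB : IsSteinerSystem t k B) {b c : Finset α} (hb : b ∈ B) (hc : c ∈ B)
    (hne : c ≠ b) : (c ∩ b).card < t := by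
  by_contra hle
  push_neg at hle
  obtain ⟨S, hS, hSc⟩ := Finset.exists_subset_card_eq hle
  exact hne (block_unique hB hSc hc hb (hS.trans Finset.inter_subset_left)
    (hS.trans Finset.inter_subset_right))

theorem nn_eq_zero (hB : IsSteinerSystem t k B) {b : Finset α} (hb : b ∈ B) {i : ℕ} (h1 : t ≤ i)
    (h2 : i < k) : nn B b i = 0 := by
  unfold nn
  rw [Finset.card_eq_zero, Finset.filter_eq_empty_iff]
  intro c hc hi
  by_cases hcb : c = b
  · subst hcb
    rw [Finset.inter_self, hB.1 c hb] at hi
    omega
  · have := inter_lt hB hb (mem_blocks.mp hc) hcb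
    omega

theorem nn_self (hB : IsSteinerSystem t k B) {b : Finset α} (hb : b ∈ B) (htk : t ≤ k) :
    nn B b k = 1 := by
  unfold nn
  rw [Finset.card_eq_one]
  refine ⟨b, ?_⟩
  ext c
  simp only [Finset.mem_filter, Finset.mem_singleton, mem_blocks]
  constructor
  · rintro ⟨hc, hi⟩
    by_contra hcb
    have := inter_lt hB hb hc hcb
    omega
  · rintro rfl
    exact ⟨hb, by rw [Finset.inter_self, hB.1 c hb]⟩

theorem nn_eq_sum (hB : IsSteinerSystem t k B) (b : Finset α) (hbk : b.card = k) (j L : ℕ)
    (hL : ∀ S : Finset α, S.card = j → (through B S).card = L) :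
    ∑ i ∈ Finset.range (k + 1), nn B b i * Nat.choose i j = Nat.choose k j * L := by
  rw [← sum_nn hB b (fun i => Nat.choose i j), sum_choose b j L hL, hbk]

/-- value of `λ_j` given the numerics. -/
theorem through_eq (hB : IsSteinerSystem t k B) {S : Finset α} {v j a c L : ℕ}
    (hv : Fintype.card α = v) (hS : S.card = j) (hj : j ≤ t)
    (ha : Nat.choose (k - j) (t - j) = a) (hc : Nat.choose (v - j) (t - j) = c)
    (hapos : 0 < a) (hL : L * a = c) : (through B S).card = L := by
  have h := through_mul hB S (by omega)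
  rw [hS, hv, ha, hc, ← hL] at h
  exact Nat.eq_of_mul_eq_mul_right hapos h

end Cfsg.Agent.H02.Design
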