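import Cfsg.Agent.Lib.H02.Design

set_option autoImplicit false

namespace Cfsg.Agent.H02.Design

open Cfsg

variable {α : Type*} [Fintype α] [DecidableEq α] {B : Set (Finset α)}

theorem numbers_5_8_24 (hα : Fintype.card α = 24) (hB : IsSteinerSystem 5 8 B) {b : Finset α}
    (hb : b ∈ B) : nn B b 0 = 30 ∧ nn B b 1 = 0 ∧ nn B b 2 = 448 ∧ nn B b 3 = 0 ∧ nn B b 4 = 280 ∧
      nn B b 5 = 0 ∧ nn B b 6 = 0 ∧ nn B b 7 = 0 ∧ nn B b 8 = 1 := by
  have hbk := hB.1 b hb
  have h5 := nn_eq_zero hB hb (i := 5) (by norm_num) (by norm_num)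
  have h6 := nn_eq_zero hB hb (i := 6) (by norm_num) (by norm_num)
  have h7 := nn_eq_zero hB hb (i := 7) (by norm_num) (by norm_num)
  have h8 := nn_self hB hb (by norm_num)
  have e0 := nn_eq_sum hB b hbk 0 759 (fun S hS => through_eq hB hα hS (by norm_num)
    (a := 56) (c := 42504) (by decide) (by decide) (by norm_num) (by norm_num))
  have e1 := nn_eq_sum hB b hbk 1 253 (fun S hS => through_eq hB hα hS (by norm_num)
    (a := 35) (c := 8855) (by decide) (by decide) (by norm_num) (by norm_num))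
  have e2 := nn_eq_sum hB b hbk 2 77 (fun S hS => through_eq hB hα hS (by norm_num)
    (a := 20) (c := 1540) (by decide) (by decide) (by norm_num) (by norm_num))
  have e3 := nn_eq_sum hB b hbk 3 21 (fun S hS => through_eq hB hα hS (by norm_num)
    (a := 10) (c := 210) (by decide) (by decide) (by norm_num) (by norm_num))
  have e4 := nn_eq_sum hB b hbk 4 5 (fun S hS => through_eq hB hα hS (by norm_num)
    (a := 4) (c := 20) (by decide) (by decide) (by norm_num) (by norm_num))
  simp only [Finset.sum_range_succ, Finset.sum_range_zero, Nat.choose] at e0 e1 e2 e3 e4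
  omega

theorem numbers_4_7_23 (hα : Fintype.card α = 23) (hB : IsSteinerSystem 4 7 B) {b : Finset α}
    (hb : b ∈ B) : nn B b 0 = 0 ∧ nn B b 1 = 112 ∧ nn B b 2 = 0 ∧ nn B b 3 = 140 ∧ nn B b 4 = 0 ∧
      nn B b 5 = 0 ∧ nn B b 6 = 0 ∧ nn B b 7 = 1 := by
  have hbk := hB.1 b hb
  have h4 := nn_eq_zero hB hb (i := 4) (by norm_num) (by norm_num)
  have h5 := nn_eq_zero hB hb (i := 5) (by norm_num) (by norm_num)
  have h6 := nn_eq_zero hB hb (i := 6) (by norm_num) (by norm_num)
  have h7 := nn_self hB hb (by norm_num)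
  have e0 := nn_eq_sum hB b hbk 0 253 (fun S hS => through_eq hB hα hS (by norm_num)
    (a := 35) (c := 8855) (by decide) (by decide) (by norm_num) (by norm_num))
  have e1 := nn_eq_sum hB b hbk 1 77 (fun S hS => through_eq hB hα hS (by norm_num)
    (a := 20) (c := 1540) (by decide) (by decide) (by norm_num) (by norm_num))
  have e2 := nn_eq_sum hB b hbk 2 21 (fun S hS => through_eq hB hα hS (by norm_num)
    (a := 10) (c := 210) (by decide) (by decide) (by norm_num) (by norm_num))
  have e3 := nn_eq_sum hB b hbk 3 5 (fun S hS => through_eq hB hα hS (by norm_num)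
    (a := 4) (c := 20) (by decide) (by decide) (by norm_num) (by norm_num))
  simp only [Finset.sum_range_succ, Finset.sum_range_zero, Nat.choose] at e0 e1 e2 e3
  omega

theorem numbers_3_6_22 (hα : Fintype.card α = 22) (hB : IsSteinerSystem 3 6 B) {b : Finset α}
    (hb : b ∈ B) : nn B b 0 = 16 ∧ nn B b 1 = 0 ∧ nn B b 2 = 60 ∧ nn B b 3 = 0 ∧ nn B b 4 = 0 ∧
      nn B b 5 = 0 ∧ nn B b 6 = 1 := by
  have hbk := hB.1 b hb
  have h3 := nn_eq_zero hB hb (i := 3) (by norm_num) (by norm_num)
  have h4 := nn_eq_zero hB hb (i := 4) (by norm_num) (by norm_num)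
  have h5 := nn_eq_zero hB hb (i := 5) (by norm_num) (by norm_num)
  have h6 := nn_self hB hb (by norm_num)
  have e0 := nn_eq_sum hB b hbk 0 77 (fun S hS => through_eq hB hα hS (by norm_num)
    (a := 20) (c := 1540) (by decide) (by decide) (by norm_num) (by norm_num))
  have e1 := nn_eq_sum hB b hbk 1 21 (fun S hS => through_eq hB hα hS (by norm_num)
    (a := 10) (c := 210) (by decide) (by decide) (by norm_num) (by norm_num))
  have e2 := nn_eq_sum hB b hbk 2 5 (fun S hS => through_eq hB hα hS (by norm_num)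
    (a := 4) (c := 20) (by decide) (by decide) (by norm_num) (by norm_num))
  simp only [Finset.sum_range_succ, Finset.sum_range_zero, Nat.choose] at e0 e1 e2
  omega

theorem numbers_5_6_12 (hα : Fintype.card α = 12) (hB : IsSteinerSystem 5 6 B) {b : Finset α}
    (hb : b ∈ B) : nn B b 0 = 1 ∧ nn B b 1 = 0 ∧ nn B b 2 = 45 ∧ nn B b 3 = 40 ∧ nn B b 4 = 45 ∧
      nn B b 5 = 0 ∧ nn B b 6 = 1 := by
  have hbk := hB.1 b hb
  have h5 := nn_eq_zero hB hb (i := 5) (by norm_num) (by norm_num)
  have h6 := nn_self hB hb (by norm_num)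
  have e0 := nn_eq_sum hB b hbk 0 132 (fun S hS => through_eq hB hα hS (by norm_num)
    (a := 6) (c := 792) (by decide) (by decide) (by norm_num) (by norm_num))
  have e1 := nn_eq_sum hB b hbk 1 66 (fun S hS => through_eq hB hα hS (by norm_num)
    (a := 5) (c := 330) (by decide) (by decide) (by norm_num) (by norm_num))
  have e2 := nn_eq_sum hB b hbk 2 30 (fun S hS => through_eq hB hα hS (by norm_num)
    (a := 4) (c := 120) (by decide) (by decide) (by norm_num) (by norm_num))
  have e3 := nn_eq_sum hB b hbk 3 12 (fun S hS => through_eq hB hα hS (by norm_num)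
    (a := 3) (c := 36) (by decide) (by decide) (by norm_num) (by norm_num))
  have e4 := nn_eq_sum hB b hbk 4 4 (fun S hS => through_eq hB hα hS (by norm_num)
    (a := 2) (c := 8) (by decide) (by decide) (by norm_num) (by norm_num))
  simp only [Finset.sum_range_succ, Finset.sum_range_zero, Nat.choose] at e0 e1 e2 e3 e4
  omega

theorem nn_pos {b c : Finset α} (hc : c ∈ B) : 0 < nn B b (c ∩ b).card :=
  Finset.card_pos.mpr ⟨c, Finset.mem_filter.mpr ⟨mem_blocks.mpr hc, rfl⟩⟩

/-- S0351 -/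
theorem derived {t k : ℕ} (hB : IsSteinerSystem (t + 1) (k + 1) B) (p : α) :
    IsSteinerSystem t k {b' : Finset {a : α // a ≠ p} | ∃ b ∈ B, p ∈ b ∧
      b' = Finset.subtype (fun a => a ≠ p) b} := by
  have hmem : ∀ (b : Finset α) (x : {a : α // a ≠ p}), x ∈ Finset.subtype (fun a => a ≠ p) b ↔
      (x : α) ∈ b := fun b x => Finset.mem_subtype
  constructor
  · rintro b' ⟨b, hb, hp, rfl⟩
    rw [Finset.card_subtype]
    have h1 : b.filter (fun a => a ≠ p) = b.erase p := by
      ext a; simp [Finset.mem_erase, and_comm]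
    rw [h1, Finset.card_erase_of_mem hp, hB.1 b hb]
    rfl
  · intro s hs
    set s' : Finset α := insert p (s.map (Function.Embedding.subtype _)) with hs'
    have hpn : p ∉ s.map (Function.Embedding.subtype (fun a : α => a ≠ p)) := by
      simp
    have hcard : s'.card = t + 1 := by
      rw [hs', Finset.card_insert_of_notMem hpn, Finset.card_map, hs]
    obtain ⟨b, ⟨hb, hsb⟩, huniq⟩ := hB.2 s' hcard
    have hpb : p ∈ b := hsb (Finset.mem_insert_self _ _)
    have hsub : s ⊆ Finset.subtype (fun a => a ≠ p) b := by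
      intro x hx
      rw [hmem]
      apply hsb
      rw [hs']
      exact Finset.mem_insert_of_mem (Finset.mem_map.mpr ⟨x, hx, rfl⟩)
    refine ⟨_, ⟨⟨b, hb, hpb, rfl⟩, hsub⟩, ?_⟩
    rintro _ ⟨⟨c, hc, hpc, rfl⟩, hsc⟩
    have : s' ⊆ c := by
      intro a ha
      rw [hs', Finset.mem_insert] at ha
      rcases ha with rfl | ha
      · exact hpc
      · obtain ⟨x, hx, rfl⟩ := Finset.mem_map.mp ha
        exact (hmem c x).mp (hsc hx)
    rw [huniq c ⟨hc, this⟩]

theorem inter_5_8_24 (hα : Fintype.card α = 24) (hB : IsSteinerSystem 5 8 B) {b c : Finset α}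
    (hb : b ∈ B) (hc : c ∈ B) (hbc : b ≠ c) :
    (b ∩ c).card = 0 ∨ (b ∩ c).card = 2 ∨ (b ∩ c).card = 4 := by
  obtain ⟨h0, h1, h2, h3, h4, h5, h6, h7, h8⟩ := numbers_5_8_24 hα hB hb
  have hlt := inter_lt hB hb hc hbc.symm
  have hpos := nn_pos (B := B) (b := b) hc
  rw [Finset.inter_comm] at hlt hpos
  generalize (b ∩ c).card = i at *
  interval_cases i <;> simp_all

theorem disjoint_count_5_8_24 (hα : Fintype.card α = 24) (hB : IsSteinerSystem 5 8 B)
    {b : Finset α} (hb : b ∈ B) : {c : Finset α | c ∈ B ∧ Disjoint b c}.ncard = 30 := by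
  obtain ⟨h0, -⟩ := numbers_5_8_24 hα hB hb
  rw [← h0]
  unfold nn
  rw [← Set.ncard_coe_finset]
  congr 1
  ext c
  simp [mem_blocks, Finset.disjoint_iff_inter_eq_empty, Finset.inter_comm]

theorem inter_4_7_23 (hα : Fintype.card α = 23) (hB : IsSteinerSystem 4 7 B) {b c : Finset α}
    (hb : b ∈ B) (hc : c ∈ B) (hbc : b ≠ c) : (b ∩ c).card = 1 ∨ (b ∩ c).card = 3 := by
  obtain ⟨h0, h1, h2, h3, h4, h5, h6, h7⟩ := numbers_4_7_23 hα hB hb
  have hlt := inter_lt hB hb hc hbc.symm
  have hpos := nn_pos (B := B) (b := b) hc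
  rw [Finset.inter_comm] at hlt hpos
  generalize (b ∩ c).card = i at *
  interval_cases i <;> simp_all

theorem inter_3_6_22 (hα : Fintype.card α = 22) (hB : IsSteinerSystem 3 6 B) {b c : Finset α}
    (hb : b ∈ B) (hc : c ∈ B) (hbc : b ≠ c) : (b ∩ c).card = 0 ∨ (b ∩ c).card = 2 := by
  obtain ⟨h0, h1, h2, h3, h4, h5, h6⟩ := numbers_3_6_22 hα hB hb
  have hlt := inter_lt hB hb hc hbc.symm
  have hpos := nn_pos (B := B) (b := b) hc
  rw [Finset.inter_comm] at hlt hpos
  generalize (b ∩ c).card = i at *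
  interval_cases i <;> simp_all

theorem compl_block (hα : Fintype.card α = 12) (hB : IsSteinerSystem 5 6 B) {b : Finset α}
    (hb : b ∈ B) : bᶜ ∈ B := by
  obtain ⟨h0, -⟩ := numbers_5_6_12 hα hB hb
  unfold nn at h0
  rw [Finset.card_eq_one] at h0
  obtain ⟨c, hc⟩ := h0
  have hmem : c ∈ (blocks B).filter (fun c => (c ∩ b).card = 0) := by
    rw [hc]; exact Finset.mem_singleton_self c
  obtain ⟨hcB, hci⟩ := Finset.mem_filter.mp hmem
  have hcB' := mem_blocks.mp hcB
  have hdisj : Disjoint c b := by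
    rwa [Finset.disjoint_iff_inter_eq_empty, ← Finset.card_eq_zero]
  have hsub : c ⊆ bᶜ := by
    intro x hx
    rw [Finset.mem_compl]
    exact Finset.disjoint_left.mp hdisj hx
  have hcard : bᶜ.card ≤ c.card := by
    rw [Finset.card_compl, hα, hB.1 b hb, hB.1 c hcB']
  rw [← Finset.eq_of_subset_of_card_le hsub hcard]
  exact hcB'

end Cfsg.Agent.H02.Design
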