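import Cfsg.Agent.Lib.H02.Design2

set_option autoImplicit false

namespace Cfsg.Agent.H02.Design

open Cfsg

variable {α : Type*} [Fintype α] [DecidableEq α] {B : Set (Finset α)}

theorem card_symmDiff_add (s t : Finset α) :
    (symmDiff s t).card + 2 * (s ∩ t).card = s.card + t.card := by
  have h1 : symmDiff s t = (s \ t) ∪ (t \ s) := rfl
  have h2 : Disjoint (s \ t) (t \ s) := by
    rw [Finset.disjoint_left]
    intro a ha hb
    exact (Finset.mem_sdiff.mp ha).2 (Finset.mem_sdiff.mp hb).1
  rw [h1, Finset.card_union_of_disjoint h2]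
  have h3 := Finset.card_sdiff_add_card_inter s t
  have h4 := Finset.card_sdiff_add_card_inter t s
  rw [Finset.inter_comm t s] at h4
  omega

theorem card_inter_symmDiff (x y e : Finset α) :
    (symmDiff x y ∩ e).card + 2 * ((x ∩ e) ∩ (y ∩ e)).card = (x ∩ e).card + (y ∩ e).card := by
  have h : symmDiff x y ∩ e = symmDiff (x ∩ e) (y ∩ e) := inf_symmDiff_distrib_right x y e
  rw [h, card_symmDiff_add]

theorem even_inter_5_8_24 (hα : Fintype.card α = 24) (hB : IsSteinerSystem 5 8 B) {b e : Finset α}
    (hb : b ∈ B) (he : e ∈ B) : Even (b ∩ e).card := by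
  by_cases h : b = e
  · subst h
    rw [Finset.inter_self, hB.1 b hb]
    decide
  · rcases inter_5_8_24 hα hB hb he h with h1 | h1 | h1 <;> rw [h1] <;> decide

/-- S0353 -/
theorem symmDiff_block (hα : Fintype.card α = 24) (hB : IsSteinerSystem 5 8 B) {b c : Finset α}
    (hb : b ∈ B) (hc : c ∈ B) (h4 : (b ∩ c).card = 4) : symmDiff b c ∈ B := by
  set x := symmDiff b c with hx
  have hxcard : x.card = 8 := by
    have := card_symmDiff_add b c
    rw [hB.1 b hb, hB.1 c hc, h4, ← hx] at this
    omega
  obtain ⟨U, hUx, hUcard⟩ := Finset.exists_subset_card_eq (s := x) (n := 5) (by omega)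
  obtain ⟨d, hd, hUd⟩ := exists_block hB U hUcard
  have hevenx : ∀ e ∈ B, Even (x ∩ e).card := by
    intro e he
    have h1 := card_inter_symmDiff b c e
    have h2 := even_inter_5_8_24 hα hB hb he
    have h3 := even_inter_5_8_24 hα hB hc he
    rw [← hx] at h1
    rw [Nat.even_iff] at *
    omega
  have hxd : 5 ≤ (x ∩ d).card := by
    rw [← hUcard]
    exact Finset.card_le_card (Finset.subset_inter hUx hUd)
  have hxd8 : (x ∩ d).card ≤ 8 := by
    rw [← hxcard]
    exact Finset.card_le_card Finset.inter_subset_left
  have hxde := hevenx d hd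
  have hcases : (x ∩ d).card = 6 ∨ (x ∩ d).card = 8 := by
    rw [Nat.even_iff] at hxde
    omega
  rcases hcases with h6 | h8
  · exfalso
    set w := symmDiff x d with hw
    have hwcard : w.card = 4 := by
      have := card_symmDiff_add x d
      rw [hxcard, hB.1 d hd, h6, ← hw] at this
      omega
    have hevenw : ∀ e ∈ B, Even (w ∩ e).card := by
      intro e he
      have h1 := card_inter_symmDiff x d e
      have h2 := hevenx e he
      have h3 := even_inter_5_8_24 hα hB hd he
      rw [← hw] at h1
      rw [Nat.even_iff] at *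
      omega
    obtain ⟨S, hSw, hScard⟩ := Finset.exists_subset_card_eq (s := w) (n := 3) (by omega)
    have hS21 : (through B S).card = 21 := through_eq hB hα hScard (by norm_num)
      (a := 10) (c := 210) (by decide) (by decide) (by norm_num) (by norm_num)
    have hw5 : (through B w).card = 5 := through_eq hB hα hwcard (by norm_num)
      (a := 4) (c := 20) (by decide) (by decide) (by norm_num) (by norm_num)
    obtain ⟨e, he, hne⟩ : ∃ e ∈ through B S, e ∉ through B w := by
      by_contra hall
      push_neg at hall
      have := Finset.card_le_card (show through B S ⊆ through B w from hall)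
      omega
    obtain ⟨heB, hSe⟩ := mem_through.mp he
    have hnw : ¬ w ⊆ e := fun h => hne (mem_through.mpr ⟨heB, h⟩)
    have h1 : S ⊆ w ∩ e := Finset.subset_inter hSw hSe
    have h2 : (w ∩ e).card ≠ 4 := by
      intro h
      apply hnw
      have := Finset.eq_of_subset_of_card_le (Finset.inter_subset_left : w ∩ e ⊆ w)
        (by rw [h, hwcard])
      rw [← this]
      exact Finset.inter_subset_right
    have h3 := Finset.card_le_card h1
    have h5 : (w ∩ e).card ≤ 4 := by
      rw [← hwcard]
      exact Finset.card_le_card Finset.inter_subset_left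
    have h6' := hevenw e heB
    rw [Nat.even_iff] at h6'
    omega
  · have h1 : x ∩ d = x := Finset.eq_of_subset_of_card_le Finset.inter_subset_left
      (by rw [h8, hxcard])
    have h2 : x ∩ d = d := Finset.eq_of_subset_of_card_le Finset.inter_subset_right
      (by rw [h8, hB.1 d hd])
    rw [← h1, h2]
    exact hd

/-- number of blocks disjoint from two blocks -/
theorem inter_card_eq_sum (d b : Finset α) : (d ∩ b).card = ∑ p ∈ b, if p ∈ d then 1 else 0 := by
  rw [Finset.card_eq_sum_ones, Finset.inter_comm, Finset.sum_ite_mem b d]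

theorem sum_inter_mul_inter (b c : Finset α) :
    ∑ d ∈ blocks B, (d ∩ b).card * (d ∩ c).card =
      ∑ p ∈ b, ∑ q ∈ c, (through B {p, q}).card := by
  simp_rw [inter_card_eq_sum, Finset.sum_mul_sum]
  rw [Finset.sum_comm]
  apply Finset.sum_congr rfl
  intro p _
  rw [Finset.sum_comm]
  apply Finset.sum_congr rfl
  intro q _
  unfold through
  rw [Finset.card_filter]
  apply Finset.sum_congr rfl
  intro d _
  by_cases hp : p ∈ d <;> by_cases hq : q ∈ d <;> simp [hp, hq, Finset.insert_subset_iff]

end Cfsg.Agent.H02.Design
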