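import Cfsg.Agent.Lib.H02.Design3

set_option autoImplicit false

namespace Cfsg.Agent.H02.Design

open Cfsg

variable {α : Type*} [Fintype α] [DecidableEq α] {B : Set (Finset α)}

theorem through_pair_3_6_22 (hα : Fintype.card α = 22) (hB : IsSteinerSystem 3 6 B) (p q : α) :
    (through B {p, q}).card = if p = q then 21 else 5 := by
  by_cases h : p = q
  · subst h
    rw [if_pos rfl]
    have hc : ({p, p} : Finset α).card = 1 := by simp
    exact through_eq hB hα hc (by norm_num) (a := 10) (c := 210) (by decide) (by decide)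
      (by norm_num) (by norm_num)
  · rw [if_neg h]
    have hc : ({p, q} : Finset α).card = 2 := Finset.card_pair h
    exact through_eq hB hα hc (by norm_num) (a := 4) (c := 20) (by decide) (by decide)
      (by norm_num) (by norm_num)

theorem sum_mul_3_6_22 (hα : Fintype.card α = 22) (hB : IsSteinerSystem 3 6 B) {b c : Finset α}
    (hb : b ∈ B) (hc : c ∈ B) :
    ∑ d ∈ blocks B, (d ∩ b).card * (d ∩ c).card = 180 + 16 * (b ∩ c).card := by
  rw [sum_inter_mul_inter]
  simp_rw [through_pair_3_6_22 hα hB]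
  have h1 : ∀ p ∈ b, ∑ q ∈ c, (if p = q then 21 else 5) = 30 + 16 * (if p ∈ c then 1 else 0) := by
    intro p _
    have h2 : ∀ q ∈ c, (if p = q then 21 else 5) = 5 + (if q = p then 16 else 0) := by
      intro q _
      by_cases h : p = q
      · subst h; simp
      · rw [if_neg h, if_neg (Ne.symm h)]
    rw [Finset.sum_congr rfl h2, Finset.sum_add_distrib, Finset.sum_const, hB.1 c hc,
      Finset.sum_ite_eq' c p]
    by_cases hp : p ∈ c <;> simp [hp]
  rw [Finset.sum_congr rfl h1, Finset.sum_add_distrib, Finset.sum_const, hB.1 b hb, ← Finset.mul_sum,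
    ← inter_card_eq_sum c b, Finset.inter_comm c b]
  rfl

/-- blocks disjoint from both `b` and `c`, other than `b`, `c`. -/
noncomputable def commonDisjoint (B : Set (Finset α)) (b c : Finset α) : Finset (Finset α) :=
  (blocks B).filter (fun d => d ≠ b ∧ d ≠ c ∧ Disjoint d b ∧ Disjoint d c)

theorem mem_commonDisjoint {b c d : Finset α} : d ∈ commonDisjoint B b c ↔
    d ∈ B ∧ d ≠ b ∧ d ≠ c ∧ Disjoint d b ∧ Disjoint d c := by
  simp [commonDisjoint, mem_blocks]

theorem commonDisjoint_card (hα : Fintype.card α = 22) (hB : IsSteinerSystem 3 6 B) {b c : Finset α}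
    (hb : b ∈ B) (hc : c ∈ B) (hbc : b ≠ c) :
    (commonDisjoint B b c).card = 2 * (b ∩ c).card := by
  set e := (b ∩ c).card with he
  have hbk := hB.1 b hb
  have hck := hB.1 c hc
  have hbm : b ∈ blocks B := mem_blocks.mpr hb
  have hcm : c ∈ blocks B := mem_blocks.mpr hc
  set S' := ((blocks B).erase b).erase c with hS'
  have hcm' : c ∈ (blocks B).erase b := Finset.mem_erase.mpr ⟨hbc.symm, hcm⟩
  have hsum : ∀ f : Finset α → ℕ, ∑ d ∈ blocks B, f d = f b + (f c + ∑ d ∈ S', f d) := by
    intro f
    rw [hS', Finset.add_sum_erase _ f hcm', Finset.add_sum_erase _ f hbm]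
  have hS'mem : ∀ d ∈ S', d ≠ b ∧ d ≠ c ∧ d ∈ B := by
    intro d hd
    have h1 := Finset.mem_erase.mp hd
    have h2 := Finset.mem_erase.mp h1.2
    exact ⟨h2.1, h1.1, mem_blocks.mp h2.2⟩
  -- the basic sums
  have hL1 : ∀ S : Finset α, S.card = 1 → (through B S).card = 21 := fun S hS =>
    through_eq hB hα hS (by norm_num) (a := 10) (c := 210) (by decide) (by decide)
      (by norm_num) (by norm_num)
  have hL0 : ∀ S : Finset α, S.card = 0 → (through B S).card = 77 := fun S hS =>
    through_eq hB hα hS (by norm_num) (a := 20) (c := 1540) (by decide) (by decide)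
      (by norm_num) (by norm_num)
  have hs1b := sum_choose b 1 21 hL1
  have hs1c := sum_choose c 1 21 hL1
  have hs0 := sum_choose (B := B) b 0 77 hL0
  simp only [Nat.choose_one_right, Nat.choose_zero_right] at hs1b hs1c hs0
  rw [hbk] at hs1b
  rw [hck] at hs1c
  have hs2 := sum_mul_3_6_22 hα hB hb hc
  rw [hsum] at hs1b hs1c hs2 hs0
  -- values at b and c
  have hbb : (b ∩ b).card = 6 := by rw [Finset.inter_self, hbk]
  have hcc : (c ∩ c).card = 6 := by rw [Finset.inter_self, hck]
  have hcb : (c ∩ b).card = e := by rw [Finset.inter_comm]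
  rw [hbb, hcb] at hs1b
  rw [hcc, ← he] at hs1c
  rw [hbb, hcc, hcb, ← he] at hs2
  -- pointwise identity
  have hpt : ∀ d ∈ S', 4 * (if d ∈ commonDisjoint B b c then 1 else 0) + 2 * (d ∩ b).card +
      2 * (d ∩ c).card = 4 + (d ∩ b).card * (d ∩ c).card := by
    intro d hd
    obtain ⟨h1, h2, h3⟩ := hS'mem d hd
    have hi := inter_3_6_22 hα hB h3 hb h1
    have hj := inter_3_6_22 hα hB h3 hc h2
    have hdb : Disjoint d b ↔ (d ∩ b).card = 0 := by
      rw [Finset.disjoint_iff_inter_eq_empty, Finset.card_eq_zero]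
    have hdc : Disjoint d c ↔ (d ∩ c).card = 0 := by
      rw [Finset.disjoint_iff_inter_eq_empty, Finset.card_eq_zero]
    have hmem : d ∈ commonDisjoint B b c ↔ (d ∩ b).card = 0 ∧ (d ∩ c).card = 0 := by
      rw [mem_commonDisjoint, hdb, hdc]
      tauto
    rcases hi with hi | hi <;> rcases hj with hj | hj <;> simp [hmem, hi, hj]
  have hsum2 := Finset.sum_congr rfl hpt
  rw [Finset.sum_add_distrib, Finset.sum_add_distrib, Finset.sum_add_distrib, ← Finset.mul_sum,
    ← Finset.mul_sum, ← Finset.mul_sum, Finset.sum_const] at hsum2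
  have hcnt : ∑ d ∈ S', (if d ∈ commonDisjoint B b c then 1 else 0) = (commonDisjoint B b c).card := by
    rw [Finset.sum_ite_mem, Finset.sum_const, smul_eq_mul, mul_one]
    congr 1
    ext d
    simp only [Finset.mem_inter]
    constructor
    · exact fun h => h.2
    · intro h
      refine ⟨?_, h⟩
      obtain ⟨h1, h2, h3, -⟩ := mem_commonDisjoint.mp h
      exact Finset.mem_erase.mpr ⟨h3, Finset.mem_erase.mpr ⟨h2, mem_blocks.mpr h1⟩⟩
  rw [hcnt] at hsum2
  simp only [smul_eq_mul] at hsum2 hs0
  have hS'card : S'.card = 75 := by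
    have h0 := hs0
    simp only [Finset.sum_const, smul_eq_mul, mul_one] at h0
    omega
  rw [hS'card] at hsum2
  nlinarith

end Cfsg.Agent.H02.Design
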