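import Cfsg.Agent.Lib.H02.Design4

set_option autoImplicit false

namespace Cfsg.Agent.H02.Design

open Cfsg

variable {α : Type*} [Fintype α] [DecidableEq α] {B : Set (Finset α)}

theorem ncard_val_eq (S : Set B) (F : Finset (Finset α))
    (h : ∀ d, d ∈ F ↔ ∃ hd : d ∈ B, (⟨d, hd⟩ : B) ∈ S) : S.ncard = F.card := by
  rw [← Set.ncard_image_of_injective S Subtype.val_injective, ← Set.ncard_coe_finset]
  congr 1
  ext d
  simp only [Set.mem_image, Finset.mem_coe, h]
  constructor
  · rintro ⟨⟨x, hx⟩, hxS, rfl⟩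
    exact ⟨hx, hxS⟩
  · rintro ⟨hd, hS⟩
    exact ⟨⟨d, hd⟩, hS, rfl⟩

theorem blockGraph_adj {b c : B} : (blockGraph B).Adj b c ↔
    b ≠ c ∧ Disjoint (b : Finset α) (c : Finset α) := by
  change (SimpleGraph.fromRel _).Adj b c ↔ _
  rw [SimpleGraph.fromRel_adj]
  constructor
  · rintro ⟨h, h1 | h1⟩
    · exact ⟨h, h1⟩
    · exact ⟨h, h1.symm⟩
  · rintro ⟨h, h1⟩
    exact ⟨h, Or.inl h1⟩

theorem disjoint_count_3_6_22 (hα : Fintype.card α = 22) (hB : IsSteinerSystem 3 6 B) {b : Finset α}
    (hb : b ∈ B) : ((blocks B).filter fun c => Disjoint b c).card = 16 := by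
  obtain ⟨h0, -⟩ := numbers_3_6_22 hα hB hb
  rw [← h0]
  change _ = ((blocks B).filter (fun c => (c ∩ b).card = 0)).card
  congr 1
  ext c
  simp [Finset.disjoint_iff_inter_eq_empty, Finset.inter_comm]

theorem card_blocks_3_6_22 (hα : Fintype.card α = 22) (hB : IsSteinerSystem 3 6 B) :
    (blocks B).card = 77 := by
  have h : (through B ∅).card = 77 := through_eq (S := ∅) hB hα (j := 0) rfl (by norm_num)
    (a := 20) (c := 1540) (by decide) (by decide) (by norm_num) (by norm_num)
  rw [← h]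
  congr 1
  ext c
  simp [mem_through, mem_blocks]

theorem blockGraph_card (hα : Fintype.card α = 22) (hB : IsSteinerSystem 3 6 B) :
    (Set.univ : Set B).ncard = 77 := by
  rw [ncard_val_eq _ (blocks B) (by intro d; simp [mem_blocks])]
  exact card_blocks_3_6_22 hα hB

theorem blockGraph_neighbor (hα : Fintype.card α = 22) (hB : IsSteinerSystem 3 6 B) (v : B) :
    ((blockGraph B).neighborSet v).ncard = 16 := by
  rw [ncard_val_eq _ ((blocks B).filter fun c => Disjoint (v : Finset α) c)]
  · exact disjoint_count_3_6_22 hα hB v.2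
  · intro d
    rw [Finset.mem_filter, mem_blocks]
    constructor
    · rintro ⟨hd, hv⟩
      refine ⟨hd, ?_⟩
      rw [SimpleGraph.mem_neighborSet, blockGraph_adj]
      refine ⟨?_, hv⟩
      intro h
      have h1 : (v : Finset α) = d := congrArg Subtype.val h
      rw [← h1] at hv
      have h2 := hB.1 _ v.2
      rw [disjoint_self] at hv
      rw [hv] at h2
      simp at h2
    · rintro ⟨hd, h⟩
      rw [SimpleGraph.mem_neighborSet, blockGraph_adj] at h
      exact ⟨hd, h.2⟩

theorem blockGraph_common (hα : Fintype.card α = 22) (hB : IsSteinerSystem 3 6 B) {v w : B}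
    (hvw : v ≠ w) : ((blockGraph B).commonNeighbors v w).ncard =
      2 * ((v : Finset α) ∩ (w : Finset α)).card := by
  have hne : (v : Finset α) ≠ w := fun h => hvw (Subtype.ext h)
  rw [← commonDisjoint_card hα hB v.2 w.2 hne]
  apply ncard_val_eq
  intro d
  rw [mem_commonDisjoint]
  constructor
  · rintro ⟨hd, h1, h2, h3, h4⟩
    refine ⟨hd, ?_⟩
    rw [SimpleGraph.mem_commonNeighbors, blockGraph_adj, blockGraph_adj]
    refine ⟨⟨?_, h3.symm⟩, ⟨?_, h4.symm⟩⟩
    · intro h
      exact h1 (congrArg Subtype.val h).symm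
    · intro h
      exact h2 (congrArg Subtype.val h).symm
  · rintro ⟨hd, h⟩
    rw [SimpleGraph.mem_commonNeighbors, blockGraph_adj, blockGraph_adj] at h
    obtain ⟨⟨h1, h2⟩, h3, h4⟩ := h
    refine ⟨hd, ?_, ?_, h2.symm, h4.symm⟩
    · intro h
      apply h1
      exact Subtype.ext h.symm
    · intro h
      apply h3
      exact Subtype.ext h.symm

end Cfsg.Agent.H02.Design
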