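import Cfsg.Agent.Lib.H02.Design5

set_option autoImplicit false

namespace Cfsg.Agent.H02.Design

open Cfsg

variable {α : Type*} [Fintype α] [DecidableEq α] {B : Set (Finset α)}

theorem pb_none_inl (a : α) : (pointBlockGraph B).Adj none (some (Sum.inl a)) := by
  change (SimpleGraph.fromRel _).Adj _ _
  rw [SimpleGraph.fromRel_adj]
  exact ⟨by simp, Or.inl trivial⟩

theorem pb_none_none : ¬ (pointBlockGraph B).Adj none none := by
  change ¬ (SimpleGraph.fromRel _).Adj _ _
  rw [SimpleGraph.fromRel_adj]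
  simp

theorem pb_none_inr (b : B) : ¬ (pointBlockGraph B).Adj none (some (Sum.inr b)) := by
  change ¬ (SimpleGraph.fromRel _).Adj _ _
  rw [SimpleGraph.fromRel_adj]
  rintro ⟨-, h | h⟩ <;> exact h

theorem pb_inl_inl (a a' : α) :
    ¬ (pointBlockGraph B).Adj (some (Sum.inl a)) (some (Sum.inl a')) := by
  change ¬ (SimpleGraph.fromRel _).Adj _ _
  rw [SimpleGraph.fromRel_adj]
  rintro ⟨-, h | h⟩ <;> exact h

theorem pb_inl_inr (a : α) (b : B) :
    (pointBlockGraph B).Adj (some (Sum.inl a)) (some (Sum.inr b)) ↔ a ∈ (b : Finset α) := by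
  change (SimpleGraph.fromRel _).Adj _ _ ↔ _
  rw [SimpleGraph.fromRel_adj]
  constructor
  · rintro ⟨-, h | h⟩
    · exact h
    · exact h.elim
  · intro h
    exact ⟨by simp, Or.inl h⟩

theorem pb_inr_inr (b c : B) :
    (pointBlockGraph B).Adj (some (Sum.inr b)) (some (Sum.inr c)) ↔
      b ≠ c ∧ Disjoint (b : Finset α) (c : Finset α) := by
  change (SimpleGraph.fromRel _).Adj _ _ ↔ _
  rw [SimpleGraph.fromRel_adj]
  constructor
  · rintro ⟨h0, h | h⟩
    · exact ⟨fun h1 => h0 (by rw [h1]), h⟩
    · exact ⟨fun h1 => h0 (by rw [h1]), Disjoint.symm h⟩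
  · rintro ⟨h0, h⟩
    refine ⟨fun h1 => h0 ?_, Or.inl h⟩
    simpa using h1

/-- Counting a set of vertices of the point-block graph. -/
theorem ncard_decomp (S : Set (Option (α ⊕ B))) (P : Finset α) (Q : Finset (Finset α)) (e : ℕ)
    (he1 : none ∈ S → e = 1) (he0 : none ∉ S → e = 0) (h1 : ∀ a, some (Sum.inl a) ∈ S ↔ a ∈ P)
    (h2 : ∀ d, d ∈ Q ↔ ∃ hd : d ∈ B, some (Sum.inr ⟨d, hd⟩) ∈ S) :
    S.ncard = e + P.card + Q.card := by
  classical
  let φ : Option (α ⊕ B) → Option (α ⊕ Finset α) := fun x => x.map (Sum.map id Subtype.val)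
  have hφ : Function.Injective φ := by
    apply Option.map_injective
    apply Sum.map_injective.mpr
    exact ⟨Function.injective_id, Subtype.val_injective⟩
  let T0 : Finset (Option (α ⊕ Finset α)) := if none ∈ S then {none} else ∅
  let T1 : Finset (Option (α ⊕ Finset α)) :=
    P.map ⟨fun a => some (Sum.inl a), fun a b h => by simpa using h⟩
  let T2 : Finset (Option (α ⊕ Finset α)) :=
    Q.map ⟨fun a => some (Sum.inr a), fun a b h => by simpa using h⟩
  have himg : φ '' S = ↑(T0 ∪ (T1 ∪ T2)) := by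
    ext x
    simp only [Set.mem_image, Finset.coe_union, Set.mem_union, Finset.mem_coe]
    constructor
    · rintro ⟨y, hy, rfl⟩
      rcases y with _ | a | ⟨d, hd⟩
      · left
        simp only [T0, if_pos hy]
        simp [φ]
      · right; left
        simp only [T1, Finset.mem_map]
        exact ⟨a, (h1 a).mp hy, rfl⟩
      · right; right
        simp only [T2, Finset.mem_map]
        exact ⟨d, (h2 d).mpr ⟨hd, hy⟩, rfl⟩
    · rintro (hx | hx | hx)
      · simp only [T0] at hx
        split_ifs at hx with h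
        · rw [Finset.mem_singleton] at hx
          exact ⟨none, h, by simp [hx, φ]⟩
        · simp at hx
      · simp only [T1, Finset.mem_map] at hx
        obtain ⟨a, ha, rfl⟩ := hx
        exact ⟨some (Sum.inl a), (h1 a).mpr ha, rfl⟩
      · simp only [T2, Finset.mem_map] at hx
        obtain ⟨d, hd, rfl⟩ := hx
        obtain ⟨hd', hS⟩ := (h2 d).mp hd
        exact ⟨some (Sum.inr ⟨d, hd'⟩), hS, rfl⟩
  rw [← Set.ncard_image_of_injective S hφ, himg, Set.ncard_coe_finset]
  have hd12 : Disjoint T1 T2 := by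
    rw [Finset.disjoint_left]
    intro x hx hx'
    simp only [T1, T2, Finset.mem_map] at hx hx'
    obtain ⟨a, -, rfl⟩ := hx
    obtain ⟨d, -, hd⟩ := hx'
    cases hd
  have hd0 : Disjoint T0 (T1 ∪ T2) := by
    rw [Finset.disjoint_left]
    intro x hx hx'
    simp only [T0] at hx
    split_ifs at hx with h
    · rw [Finset.mem_singleton] at hx
      subst hx
      rw [Finset.mem_union] at hx'
      rcases hx' with hx' | hx'
      · simp only [T1, Finset.mem_map] at hx'
        obtain ⟨a, -, ha⟩ := hx'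
        simp at ha
      · simp only [T2, Finset.mem_map] at hx'
        obtain ⟨a, -, ha⟩ := hx'
        simp at ha
    · simp at hx
  rw [Finset.card_union_of_disjoint hd0, Finset.card_union_of_disjoint hd12]
  have ht0 : T0.card = e := by
    simp only [T0]
    split_ifs with h
    · rw [he1 h]; simp
    · rw [he0 h]; simp
  have ht1 : T1.card = P.card := Finset.card_map _
  have ht2 : T2.card = Q.card := Finset.card_map _
  rw [ht0, ht1, ht2]
  omega

end Cfsg.Agent.H02.Design
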