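import Cfsg.Agent.Lib.H02.Design6

set_option autoImplicit false

namespace Cfsg.Agent.H02.Design

open Cfsg

variable {α : Type*} [Fintype α] [DecidableEq α] {B : Set (Finset α)}

theorem pb_inl_none (a : α) : (pointBlockGraph B).Adj (some (Sum.inl a)) none :=
  (pb_none_inl a).symm

theorem pb_inr_none (b : B) : ¬ (pointBlockGraph B).Adj (some (Sum.inr b)) none :=
  fun h => pb_none_inr b h.symm

theorem pb_inr_inl (a : α) (b : B) :
    (pointBlockGraph B).Adj (some (Sum.inr b)) (some (Sum.inl a)) ↔ a ∈ (b : Finset α) := by
  rw [SimpleGraph.adj_comm, pb_inl_inr]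

theorem through_one_3_6_22 (hα : Fintype.card α = 22) (hB : IsSteinerSystem 3 6 B) (p : α) :
    (through B {p}).card = 21 := by
  have hS : ({p} : Finset α).card = 1 := by simp
  exact through_eq hB hα hS (by norm_num) (a := 10) (c := 210) (by decide) (by decide)
    (by norm_num) (by norm_num)

theorem disjoint_through_count (hα : Fintype.card α = 22) (hB : IsSteinerSystem 3 6 B) {p : α}
    {b : Finset α} (hb : b ∈ B) (hp : p ∉ b) :
    ((through B {p}).filter fun c => Disjoint b c).card = 6 := by
  have h1 : ∑ c ∈ through B {p}, (c ∩ b).card = 30 := by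
    have h2 : ∑ c ∈ through B {p}, (c ∩ b).card
        = ∑ q ∈ b, ∑ c ∈ through B {p}, if q ∈ c then 1 else 0 := by
      rw [Finset.sum_comm]
      refine Finset.sum_congr rfl fun c _ => inter_card_eq_sum c b
    rw [h2]
    have h3 : ∀ q ∈ b, ∑ c ∈ through B {p}, (if q ∈ c then 1 else 0) = 5 := by
      intro q hq
      have hpq : p ≠ q := fun h => hp (h ▸ hq)
      have h4 := through_pair_3_6_22 hα hB p q
      rw [if_neg hpq] at h4
      rw [← h4, Finset.sum_boole, Nat.cast_id]
      congr 1
      ext c
      simp only [Finset.mem_filter, mem_through, Finset.singleton_subset_iff, Finset.insert_subset_iff]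
      tauto
    rw [Finset.sum_congr rfl h3, Finset.sum_const, hB.1 b hb]
    rfl
  have hpt : ∀ c ∈ through B {p}, (c ∩ b).card + 2 * (if Disjoint b c then 1 else 0) = 2 := by
    intro c hc
    obtain ⟨hc1, hc2⟩ := mem_through.mp hc
    have hne : b ≠ c := by
      rintro rfl
      exact hp (Finset.singleton_subset_iff.mp hc2)
    rcases inter_3_6_22 hα hB hb hc1 hne with h | h
    · have hd : Disjoint b c := by
        rwa [Finset.disjoint_iff_inter_eq_empty, ← Finset.card_eq_zero]
      rw [if_pos hd, Finset.inter_comm, h]
    · have hd : ¬ Disjoint b c := by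
        rw [Finset.disjoint_iff_inter_eq_empty, ← Finset.card_eq_zero, h]
        norm_num
      rw [if_neg hd, Finset.inter_comm, h]
  have hs := Finset.sum_congr rfl hpt
  rw [Finset.sum_add_distrib, h1, ← Finset.mul_sum, Finset.sum_boole, Nat.cast_id, Finset.sum_const,
    through_one_3_6_22 hα hB p, smul_eq_mul] at hs
  omega

theorem pb_card (hα : Fintype.card α = 22) (hB : IsSteinerSystem 3 6 B) :
    (Set.univ : Set (Option (α ⊕ B))).ncard = 100 := by
  rw [ncard_decomp _ Finset.univ (blocks B) 1 (fun _ => rfl) (fun h => absurd (Set.mem_univ _) h)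
    (by simp) (by simp [mem_blocks]), Finset.card_univ, hα, card_blocks_3_6_22 hα hB]

theorem pb_degree (hα : Fintype.card α = 22) (hB : IsSteinerSystem 3 6 B)
    (v : Option (α ⊕ B)) : ((pointBlockGraph B).neighborSet v).ncard = 22 := by
  rcases v with _ | a | ⟨b, hb⟩
  · rw [ncard_decomp _ Finset.univ ∅ 0 (fun h => absurd h (by simp [pb_none_none]))
      (fun _ => rfl) (by simp [pb_none_inl]) (by simp [pb_none_inr]), Finset.card_univ, hα]
    rfl
  · rw [ncard_decomp _ ∅ (through B {a}) 1 (fun _ => rfl)
      (fun h => absurd (pb_inl_none a) (by simpa using h)) (by simp [pb_inl_inl])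
      (by
        intro d
        simp only [mem_through, SimpleGraph.mem_neighborSet, pb_inl_inr,
          Finset.singleton_subset_iff]
        constructor
        · rintro ⟨h1, h2⟩
          exact ⟨h1, h2⟩
        · rintro ⟨h1, h2⟩
          exact ⟨h1, h2⟩), through_one_3_6_22 hα hB]
    rfl
  · rw [ncard_decomp _ b ((blocks B).filter fun c => Disjoint b c) 0
      (fun h => absurd h (by simp [pb_inr_none])) (fun _ => rfl) (by simp [pb_inr_inl])
      (by
        intro d
        simp only [Finset.mem_filter, mem_blocks, SimpleGraph.mem_neighborSet, pb_inr_inr]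
        constructor
        · rintro ⟨h1, h2⟩
          refine ⟨h1, ?_, h2⟩
          intro h
          have h3 : b = d := congrArg Subtype.val h
          subst h3
          rw [disjoint_self] at h2
          have h4 := hB.1 _ hb
          rw [h2] at h4
          simp at h4
        · rintro ⟨h1, -, h2⟩
          exact ⟨h1, h2⟩), hB.1 b hb, disjoint_count_3_6_22 hα hB hb]

theorem pb_common_of_adj (hα : Fintype.card α = 22) (hB : IsSteinerSystem 3 6 B) (v w : Option (α ⊕ B)) (h : (pointBlockGraph B).Adj v w) :
    (pointBlockGraph B).commonNeighbors v w = ∅ := by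
  ext x
  simp only [SimpleGraph.mem_commonNeighbors, Set.mem_empty_iff_false, iff_false, not_and]
  intro hvx hwx
  rcases v with _ | a | b <;> rcases w with _ | a' | b' <;> rcases x with _ | a'' | b'' <;>
    simp only [pb_none_none, pb_none_inl, pb_none_inr, pb_inl_inl, pb_inl_none, pb_inr_none,
      pb_inl_inr, pb_inr_inl, pb_inr_inr] at h hvx hwx
  · rw [Finset.disjoint_left] at hwx
    exact hwx.2 h hvx
  · rw [Finset.disjoint_left] at hvx
    exact hvx.2 h hwx
  · rw [Finset.disjoint_left] at h
    exact h.2 hvx hwx
  · have hne : (b : Finset α) ≠ b' := fun h1 => h.1 (Subtype.ext h1)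
    have hc := commonDisjoint_card hα hB b.2 b'.2 hne
    rw [Finset.disjoint_iff_inter_eq_empty.mp h.2] at hc
    have hmem : (b'' : Finset α) ∈ commonDisjoint B (b : Finset α) b' := by
      rw [mem_commonDisjoint]
      refine ⟨b''.2, fun h1 => hvx.1 (Subtype.ext h1.symm), fun h1 => hwx.1 (Subtype.ext h1.symm),
        hvx.2.symm, hwx.2.symm⟩
    have hpos := Finset.card_pos.mpr ⟨_, hmem⟩
    rw [hc] at hpos
    simp at hpos

theorem pb_common_of_not_adj (hα : Fintype.card α = 22) (hB : IsSteinerSystem 3 6 B)
    (v w : Option (α ⊕ B)) (hvw : v ≠ w) (h : ¬ (pointBlockGraph B).Adj v w) :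
    ((pointBlockGraph B).commonNeighbors v w).ncard = 6 := by
  have key_none : ∀ b : B, ((pointBlockGraph B).commonNeighbors none (some (Sum.inr b))).ncard = 6 := by
    intro b
    rw [ncard_decomp _ (b : Finset α) ∅ 0 (fun h => absurd h.1 pb_none_none) (fun _ => rfl)
      (by
        intro a
        simp [SimpleGraph.mem_commonNeighbors, pb_none_inl, pb_inr_inl])
      (by
        intro d
        simp [SimpleGraph.mem_commonNeighbors, pb_none_inr]), hB.1 _ b.2]
    rfl
  have key_inl : ∀ (p : α) (b : B), p ∉ (b : Finset α) →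
      ((pointBlockGraph B).commonNeighbors (some (Sum.inl p)) (some (Sum.inr b))).ncard = 6 := by
    intro p b hp
    rw [ncard_decomp _ ∅ ((through B {p}).filter fun c => Disjoint (b : Finset α) c) 0
      (fun h => absurd h.2 (pb_inr_none b)) (fun _ => rfl)
      (by
        intro a
        simp [SimpleGraph.mem_commonNeighbors, pb_inl_inl])
      (by
        intro d
        simp only [SimpleGraph.mem_commonNeighbors, pb_inl_inr, pb_inr_inr, Finset.mem_filter,
          mem_through, Finset.singleton_subset_iff]
        constructor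
        · rintro ⟨⟨h1, h2⟩, h3⟩
          refine ⟨h1, h2, ?_, h3⟩
          intro h4
          apply hp
          have h5 : (b : Finset α) = d := congrArg Subtype.val h4
          rw [h5]
          exact h2
        · rintro ⟨h1, h2, -, h3⟩
          exact ⟨⟨h1, h2⟩, h3⟩),
      disjoint_through_count hα hB b.2 hp]
    rfl
  rcases v with _ | a | b <;> rcases w with _ | a' | b'
  · exact absurd rfl hvw
  · exact absurd (pb_none_inl _) h
  · exact key_none b'
  · exact absurd (pb_inl_none _) h
  · have hne : a ≠ a' := fun h1 => hvw (by rw [h1])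
    rw [ncard_decomp _ ∅ (through B {a, a'}) 1 (fun _ => rfl)
      (fun h => (h ((SimpleGraph.mem_commonNeighbors _).mpr ⟨pb_inl_none a, pb_inl_none a'⟩)).elim)
      (by
        intro a
        simp [SimpleGraph.mem_commonNeighbors, pb_inl_inl])
      (by
        intro d
        simp only [SimpleGraph.mem_commonNeighbors, pb_inl_inr, mem_through,
          Finset.insert_subset_iff, Finset.singleton_subset_iff]
        constructor
        · rintro ⟨h1, h2, h3⟩
          exact ⟨h1, h2, h3⟩
        · rintro ⟨h1, h2, h3⟩
          exact ⟨h1, h2, h3⟩),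
      through_pair_3_6_22 hα hB, if_neg hne]
    rfl
  · rw [pb_inl_inr] at h
    exact key_inl a b' h
  · rw [SimpleGraph.commonNeighbors_symm]
    exact key_none b
  · rw [SimpleGraph.commonNeighbors_symm]
    rw [pb_inr_inl] at h
    exact key_inl a' b h
  · have hne : b ≠ b' := fun h1 => hvw (by rw [h1])
    have hne' : (b : Finset α) ≠ b' := fun h1 => hne (Subtype.ext h1)
    have hnd : ¬ Disjoint (b : Finset α) b' := by
      intro hd
      exact h ((pb_inr_inr b b').mpr ⟨hne, hd⟩)
    have h2 : ((b : Finset α) ∩ b').card = 2 := by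
      rcases inter_3_6_22 hα hB b.2 b'.2 hne' with h1 | h1
      · exfalso
        apply hnd
        rwa [Finset.disjoint_iff_inter_eq_empty, ← Finset.card_eq_zero]
      · exact h1
    rw [ncard_decomp _ ((b : Finset α) ∩ b') (commonDisjoint B b b') 0
      (fun h => absurd h.1 (pb_inr_none b)) (fun _ => rfl)
      (by
        intro a
        simp [SimpleGraph.mem_commonNeighbors, pb_inr_inl])
      (by
        intro d
        simp only [SimpleGraph.mem_commonNeighbors, pb_inr_inr, mem_commonDisjoint]
        constructor
        · rintro ⟨h1, h2, h3, h4, h5⟩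
          refine ⟨h1, ⟨?_, h4.symm⟩, ⟨?_, h5.symm⟩⟩
          · intro h6
            exact h2 (congrArg Subtype.val h6).symm
          · intro h6
            exact h3 (congrArg Subtype.val h6).symm
        · rintro ⟨h1, ⟨h2, h3⟩, h4, h5⟩
          refine ⟨h1, ?_, ?_, h3.symm, h5.symm⟩
          · intro h6
            exact h2 (Subtype.ext h6.symm)
          · intro h6
            exact h4 (Subtype.ext h6.symm)),
      commonDisjoint_card hα hB b.2 b'.2 hne', h2]

end Cfsg.Agent.H02.Design
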