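import Mathlib
import Cfsg.Agent.Lib.H18.Prod
import Cfsg.Agent.Lib.H02.SolvF

set_option autoImplicit false

namespace Cfsg.Agent.H02

universe u

open scoped Pointwise

variable {G : Type u} [Group G]

theorem sylow_smul_map_mem {H : Subgroup G} {p : ℕ} [Fact p.Prime] [Finite G] (P₀ : Sylow p H) (c : H) {x : G}
    (hx : x ∈ ((c • P₀ : Sylow p H) : Subgroup H).map H.subtype) :
    (c : G)⁻¹ * x * c ∈ (P₀ : Subgroup H).map H.subtype := by
  obtain ⟨y, hy, rfl⟩ := hx
  rw [SetLike.mem_coe, Sylow.coe_subgroup_smul, Subgroup.mem_pointwise_smul_iff_inv_smul_mem, MulAut.smul_def,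
    MulAut.conj_inv_apply] at hy
  refine ⟨_, hy, ?_⟩
  simp

theorem card_sylow_map {H : Subgroup G} {p : ℕ} [Fact p.Prime] [Finite G] (P : Sylow p H) :
    Nat.card ((P : Subgroup H).map H.subtype : Subgroup G) = p ^ (Nat.card H).factorization p := by
  rw [Subgroup.card_map_of_injective H.subtype_injective, Sylow.card_eq_multiplicity]

/-- if `G = HK` and Sylow subgroups of `H` and `K` lie in a common Sylow `R` of `G` then `R = PQ`. -/
theorem sylow_eq_mul_of_le [Finite G] (H K : Subgroup G) (hHK : ∀ g : G, ∃ h ∈ H, ∃ k ∈ K, g = h * k)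
    (p : ℕ) [Fact p.Prime] (P : Sylow p H) (Q : Sylow p K) (R : Sylow p G)
    (hPR : (P : Subgroup H).map H.subtype ≤ R) (hQR : (Q : Subgroup K).map K.subtype ≤ R) :
    ((R : Subgroup G) : Set G) = (((P : Subgroup H).map H.subtype : Subgroup G) : Set G) *
      (((Q : Subgroup K).map K.subtype : Subgroup G) : Set G) := by
  classical
  have hp : p.Prime := Fact.out
  set A := (P : Subgroup H).map H.subtype with hA
  set B := (Q : Subgroup K).map K.subtype with hB
  have hcardA : Nat.card A = p ^ (Nat.card H).factorization p := card_sylow_map P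
  have hcardB : Nat.card B = p ^ (Nat.card K).factorization p := card_sylow_map Q
  have hcardR : Nat.card R = p ^ (Nat.card G).factorization p := Sylow.card_eq_multiplicity R
  have hHKc : Nat.card G * Nat.card (H ⊓ K : Subgroup G) = Nat.card H * Nat.card K := by
    rw [← Cfsg.Agent.H18.card_set_mul_mul_card_inf H K]
    congr 1
    have : ((H : Set G) * (K : Set G) : Set G) = Set.univ := by
      ext g
      simp only [Set.mem_univ, iff_true]
      obtain ⟨h, hh, k, hk, rfl⟩ := hHK g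
      exact ⟨h, hh, k, hk, rfl⟩
    rw [this, Nat.card_coe_set_eq, Set.ncard_univ]
  have hv : (Nat.card G).factorization p + (Nat.card (H ⊓ K : Subgroup G)).factorization p =
      (Nat.card H).factorization p + (Nat.card K).factorization p := by
    have := congrArg (fun n => n.factorization p) hHKc
    rwa [Nat.factorization_mul Nat.card_pos.ne' Nat.card_pos.ne',
      Nat.factorization_mul Nat.card_pos.ne' Nat.card_pos.ne'] at this
  have hAp : IsPGroup p A := P.isPGroup'.map H.subtype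
  have hinfp : IsPGroup p (A ⊓ B : Subgroup G) := hAp.to_le inf_le_left
  obtain ⟨a, ha⟩ := IsPGroup.iff_card.mp hinfp
  have hAH : A ≤ H := by
    rintro _ ⟨y, -, rfl⟩
    exact y.2
  have hBK : B ≤ K := by
    rintro _ ⟨y, -, rfl⟩
    exact y.2
  have hle : (A ⊓ B : Subgroup G) ≤ H ⊓ K := inf_le_inf hAH hBK
  have hdvd : p ^ a ∣ Nat.card (H ⊓ K : Subgroup G) := ha ▸ Subgroup.card_dvd_of_le hle
  have halt : a ≤ (Nat.card (H ⊓ K : Subgroup G)).factorization p :=
    (hp.pow_dvd_iff_le_factorization Nat.card_pos.ne').mp hdvd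
  have h1 : Nat.card A * Nat.card B ≤ Nat.card R * Nat.card (A ⊓ B : Subgroup G) :=
    Cfsg.Agent.H18.card_mul_card_le hPR hQR
  have h2 : Nat.card R * Nat.card (A ⊓ B : Subgroup G) ≤ Nat.card A * Nat.card B := by
    rw [hcardA, hcardB, hcardR, ha, ← pow_add, ← pow_add]
    exact Nat.pow_le_pow_right hp.pos (by omega)
  have heq := le_antisymm h1 h2
  ext x
  constructor
  · intro hx
    obtain ⟨a', ha', b', hb', rfl⟩ := Cfsg.Agent.H18.eq_mul_of_card_eq hPR hQR heq hx
    exact ⟨a', ha', b', hb', rfl⟩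
  · rintro ⟨a', ha', b', hb', rfl⟩
    exact (R : Subgroup G).mul_mem (hPR ha') (hQR hb')

theorem mem_smul_conj_iff {x y : G} {J : Subgroup G} : y ∈ MulAut.conj x • J ↔ x⁻¹ * y * x ∈ J := by
  rw [Subgroup.mem_pointwise_smul_iff_inv_smul_mem, MulAut.smul_def, MulAut.conj_inv_apply]

theorem exists_sylow_mul [Finite G] (H K : Subgroup G) (hHK : ∀ g : G, ∃ h ∈ H, ∃ k ∈ K, g = h * k)
    (p : ℕ) [Fact p.Prime] : ∃ (P : Sylow p H) (Q : Sylow p K) (R : Sylow p G),
    ((R : Subgroup G) : Set G) = (((P : Subgroup H).map H.subtype : Subgroup G) : Set G) *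
      (((Q : Subgroup K).map K.subtype : Subgroup G) : Set G) := by
  classical
  obtain ⟨P₀⟩ : Nonempty (Sylow p H) := inferInstance
  obtain ⟨Q₀⟩ : Nonempty (Sylow p K) := inferInstance
  obtain ⟨R₀, hR₀⟩ := (P₀.isPGroup'.map H.subtype).exists_le_sylow
  obtain ⟨R₁, hR₁⟩ := (Q₀.isPGroup'.map K.subtype).exists_le_sylow
  obtain ⟨g, hg⟩ := MulAction.exists_smul_eq G R₁ R₀
  obtain ⟨h, hh, k, hk, rfl⟩ := hHK g
  refine ⟨(⟨h, hh⟩ : H)⁻¹ • P₀, (⟨k, hk⟩ : K) • Q₀, k • R₁, ?_⟩
  apply sylow_eq_mul_of_le H K hHK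
  · intro x hx
    have h1 := sylow_smul_map_mem P₀ _ hx
    have h2 := hR₀ h1
    rw [← hg, Sylow.coe_subgroup_smul, mem_smul_conj_iff] at h2
    rw [Sylow.coe_subgroup_smul, mem_smul_conj_iff]
    convert h2 using 1
    simp
    group
  · intro x hx
    have h1 := sylow_smul_map_mem Q₀ _ hx
    have h2 := hR₁ h1
    rw [Sylow.coe_subgroup_smul, mem_smul_conj_iff]
    exact h2

end Cfsg.Agent.H02
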