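import Cfsg.Agent.Lib.H02.SmallB
import Cfsg.Agent.Lib.H02.SolvF
import Cfsg.Agent.Lib.H02.Prod1
import Cfsg.Agent.Lib.H15.OddCore

/-!
Centralizers of involutions in groups with dihedral Sylow `2`-subgroups have normal `2`-complements.
-/

set_option autoImplicit false

namespace Cfsg.Agent.H02

open Cfsg

variable {G : Type*} [Group G] [Finite G]

/-- The parity homomorphism on a dihedral group. -/
def dihSgn (n : ℕ) : DihedralGroup n →* Multiplicative (ZMod 2) where
  toFun x := match x with
    | DihedralGroup.r _ => 1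
    | DihedralGroup.sr _ => Multiplicative.ofAdd 1
  map_one' := rfl
  map_mul' := by
    rintro (i | i) (j | j)
    · show (1 : Multiplicative (ZMod 2)) = 1 * 1
      simp
    · show Multiplicative.ofAdd (1 : ZMod 2) = 1 * Multiplicative.ofAdd 1
      simp
    · show Multiplicative.ofAdd (1 : ZMod 2) = Multiplicative.ofAdd 1 * 1
      simp
    · show (1 : Multiplicative (ZMod 2)) = Multiplicative.ofAdd 1 * Multiplicative.ofAdd 1
      decide

theorem centralizes_of_index_two (Y A : Subgroup G) (hY : IsPGroup 2 Y) (h : G)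
    (hN : h ∈ Subgroup.normalizer (Y : Set G)) (r k : ℕ) (hr : r.Prime) (hr2 : r ≠ 2)
    (hk : h ^ (r ^ k) = 1) (hAY : A ≤ Y) (hA : ∀ a ∈ A, h * a = a * h)
    (hcard : 2 * Nat.card A = Nat.card Y) : h ∈ Subgroup.centralizer (Y : Set G) := by
  haveI : Fact r.Prime := ⟨hr⟩
  have hmod := card_modEq_centralizer Y h hN r k hk
  set C : Subgroup G := Y ⊓ Subgroup.centralizer ({h} : Set G) with hC
  have hAC : A ≤ C := fun a ha => Subgroup.mem_inf.mpr ⟨hAY ha,
    Subgroup.mem_centralizer_singleton_iff.mpr (hA a ha).symm⟩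
  have hCY : C ≤ Y := inf_le_left
  by_cases hCeq : C = Y
  · rw [Subgroup.mem_centralizer_iff]
    intro y hy
    have : y ∈ C := hCeq ▸ hy
    exact Subgroup.mem_centralizer_singleton_iff.mp (Subgroup.mem_inf.mp this).2
  · exfalso
    have hlt : Nat.card C < Nat.card Y := by
      refine lt_of_le_of_ne (Subgroup.card_le_of_le hCY) ?_
      intro h1
      exact hCeq (Subgroup.eq_of_le_of_card_ge hCY h1.ge)
    have hd1 : Nat.card A ∣ Nat.card C := Subgroup.card_dvd_of_le hAC
    have hApos : 0 < Nat.card A := Nat.card_pos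
    have hCA : Nat.card C = Nat.card A := by
      obtain ⟨m, hm⟩ := hd1
      have hm2 : m < 2 := by
        by_contra hge
        push Not at hge
        have : Nat.card A * 2 ≤ Nat.card A * m := Nat.mul_le_mul_left _ hge
        omega
      have hm0 : m ≠ 0 := by
        rintro rfl
        have : 0 < Nat.card C := Nat.card_pos
        omega
      have : m = 1 := by omega
      rw [hm, this, mul_one]
    have hdv := (Nat.modEq_iff_dvd' hlt.le).mp hmod.symm
    rw [hCA, ← hcard] at hdv
    have h2 : 2 * Nat.card A - Nat.card A = Nat.card A := by omega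
    rw [h2] at hdv
    obtain ⟨j, hj⟩ := IsPGroup.iff_card.mp (hY.to_le hAY)
    rw [hj] at hdv
    exact hr2 ((Nat.prime_dvd_prime_iff_eq hr Nat.prime_two).mp (hr.dvd_of_dvd_pow hdv))

/-- An element of odd prime power order normalizing a `2`-group embedded in a dihedral group and
fixing a non-trivial element of it centralizes it. -/
theorem centralizes_of_dihedral_embed (Y : Subgroup G) (hY : IsPGroup 2 Y) (n : ℕ) [NeZero n]
    (ψ : Y →* DihedralGroup n) (hψ : Function.Injective ψ) (h : G)
    (hN : h ∈ Subgroup.normalizer (Y : Set G)) (r k : ℕ) (hr : r.Prime) (hr2 : r ≠ 2)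
    (hk : h ^ (r ^ k) = 1) (z : G) (hzY : z ∈ Y) (hz1 : z ≠ 1) (hzh : h * z = z * h) :
    h ∈ Subgroup.centralizer (Y : Set G) := by
  classical
  haveI : Fact r.Prime := ⟨hr⟩
  have hodd : Odd (orderOf h) := by
    have h1 : orderOf h ∣ r ^ k := orderOf_dvd_of_pow_eq_one hk
    have h2 : Odd (r ^ k) := (hr.odd_of_ne_two hr2).pow
    exact Odd.of_dvd_nat h2 h1
  let s : Y →* Multiplicative (ZMod 2) := (dihSgn n).comp ψ
  set A' : Subgroup Y := s.ker with hA'
  -- structure of elements
  have hrot : ∀ y : Y, y ∈ A' → ∃ i : ZMod n, ψ y = DihedralGroup.r i := by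
    intro y hy
    rcases hv : ψ y with i | i
    · exact ⟨i, rfl⟩
    · exfalso
      have h1 : s y = 1 := hy
      have h2 : s y = Multiplicative.ofAdd 1 := by
        show dihSgn n (ψ y) = _
        rw [hv]; rfl
      rw [h2] at h1
      revert h1; decide
  have hrefl : ∀ y : Y, y ∉ A' → y ^ 2 = 1 := by
    intro y hy
    rcases hv : ψ y with i | i
    · exfalso
      apply hy
      show s y = 1
      show dihSgn n (ψ y) = 1
      rw [hv]; rfl
    · apply hψ
      rw [map_pow, hv, map_one, pow_two, DihedralGroup.sr_mul_self]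
  -- A' is cyclic
  have hcyc : IsCyclic A' := by
    let ρ : A' →* Subgroup.zpowers (DihedralGroup.r (1 : ZMod n)) :=
      (ψ.comp A'.subtype).codRestrict _ (by
        intro y
        obtain ⟨i, hi⟩ := hrot y y.2
        refine Subgroup.mem_zpowers_iff.mpr ⟨(i.val : ℤ), ?_⟩
        show DihedralGroup.r 1 ^ (i.val : ℤ) = ψ y
        rw [hi, DihedralGroup.r_one_zpow]
        simp)
    have hρ : Function.Injective ρ := by
      intro a b hab
      have h1 : ψ a = ψ b := congrArg Subtype.val hab
      exact Subtype.ext (hψ h1)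
    exact isCyclic_of_injective ρ hρ
  set A : Subgroup G := A'.map Y.subtype with hA
  have hAY : A ≤ Y := by
    rintro _ ⟨a, -, rfl⟩
    exact a.2
  have hAp : IsPGroup 2 A := hY.to_le hAY
  haveI hAcyc : IsCyclic A := by
    let e := A'.equivMapOfInjective Y.subtype Y.subtype_injective
    exact isCyclic_of_surjective e.toMonoidHom e.surjective
  have hconj : ∀ y ∈ Y, h * y * h⁻¹ ∈ Y := fun y hy => (Subgroup.mem_normalizer_iff.mp hN y).mp hy
  by_cases htop : A' = ⊤
  · -- Y = A is cyclic
    have hAeq : A = Y := by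
      rw [hA, htop]
      ext x
      simp
    have hNA : h ∈ Subgroup.normalizer (A : Set G) := by rw [hAeq]; exact hN
    have := H15.commute_of_odd_of_cyclic_two A hAp hNA hodd
    rw [Subgroup.mem_centralizer_iff]
    intro y hy
    exact (this y (hAeq ▸ hy)).symm
  · -- index two
    have hindex : 2 * Nat.card A' = Nat.card Y := by
      have h1 := A'.card_mul_index
      rw [hA', Subgroup.index_ker] at h1
      have h2 : Nat.card s.range = 2 := by
        have h3 : Nat.card s.range ∣ Nat.card (Multiplicative (ZMod 2)) :=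
          Subgroup.card_subgroup_dvd_card _
        have h4 : Nat.card (Multiplicative (ZMod 2)) = 2 := by
          simp
        rw [h4] at h3
        have h5 : Nat.card s.range ≠ 1 := by
          intro h6
          apply htop
          rw [hA']
          have h7 : s.range = ⊥ := Subgroup.card_eq_one.mp h6
          rw [MonoidHom.range_eq_bot_iff] at h7
          rw [h7, MonoidHom.ker_one]
        rcases (Nat.dvd_prime Nat.prime_two).mp h3 with h6 | h6
        · exact (h5 h6).elim
        · exact h6
      rw [h2] at h1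
      rw [← hA', mul_comm] at h1
      exact h1
    have hAcard : Nat.card A = Nat.card A' :=
      Subgroup.card_map_of_injective Y.subtype_injective
    by_cases hsmall : Nat.card A' ≤ 2
    · -- |Y| ≤ 4
      have hmod := card_modEq_centralizer Y h hN r k hk
      set C : Subgroup G := Y ⊓ Subgroup.centralizer ({h} : Set G) with hC
      have hCY : C ≤ Y := inf_le_left
      have hzC : z ∈ C := Subgroup.mem_inf.mpr ⟨hzY,
        Subgroup.mem_centralizer_singleton_iff.mpr hzh.symm⟩
      by_cases hCeq : C = Y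
      · rw [Subgroup.mem_centralizer_iff]
        intro y hy
        have : y ∈ C := hCeq ▸ hy
        exact Subgroup.mem_centralizer_singleton_iff.mp (Subgroup.mem_inf.mp this).2
      · exfalso
        have hlt : Nat.card C < Nat.card Y := by
          refine lt_of_le_of_ne (Subgroup.card_le_of_le hCY) ?_
          intro h1
          exact hCeq (Subgroup.eq_of_le_of_card_ge hCY h1.ge)
        have hC2 : 2 ≤ Nat.card C := by
          have : 1 < Nat.card C := by
            rw [Finite.one_lt_card_iff_nontrivial, Subgroup.nontrivial_iff_ne_bot]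
            intro hb
            rw [hb, Subgroup.mem_bot] at hzC
            exact hz1 hzC
          omega
        have hdv := (Nat.modEq_iff_dvd' hlt.le).mp hmod.symm
        have hdC : Nat.card C ∣ Nat.card Y := Subgroup.card_dvd_of_le hCY
        have hle4 : Nat.card Y ≤ 4 := by omega
        have hYC : Nat.card Y - Nat.card C ∣ 2 := by
          obtain ⟨m, hm⟩ := hdC
          have hm1 : m ≠ 1 := by
            rintro rfl
            omega
          have hm0 : m ≠ 0 := by
            rintro rfl
            have : 0 < Nat.card Y := Nat.card_pos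
            omega
          have : Nat.card C = 2 ∧ Nat.card Y = 4 ∨ Nat.card Y - Nat.card C = 1 := by
            have hm2 : 2 ≤ m := by omega
            have : Nat.card C * 2 ≤ Nat.card C * m := Nat.mul_le_mul_left _ hm2
            omega
          rcases this with ⟨h1, h2⟩ | h1
          · rw [h1, h2]
          · rw [h1]; exact one_dvd _
        have := (Nat.prime_dvd_prime_iff_eq hr Nat.prime_two).mp (dvd_trans hdv hYC)
        exact hr2 this
    · -- A' is characteristic
      push Not at hsmall
      obtain ⟨a, ha⟩ := hcyc.exists_generator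
      have hgen : orderOf a = Nat.card A' := orderOf_eq_card_of_forall_mem_zpowers ha
      have hconjA : h * ((a : Y) : G) * h⁻¹ ∈ A := by
        have hmem := hconj _ (a : Y).2
        by_contra hnot
        have h1 : (⟨_, hmem⟩ : Y) ∉ A' := by
          intro h2
          exact hnot ⟨_, h2, rfl⟩
        have h2 := hrefl _ h1
        have h3 : (h * ((a : Y) : G) * h⁻¹) ^ 2 = 1 := by
          simpa using congrArg Subtype.val h2
        have h4 : (h * (((a : Y) : G) ^ 2) * h⁻¹) = 1 := by
          rw [← conj_pow]; exact h3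
        have h5 : ((a : Y) : G) ^ 2 = 1 := by
          have : ((a : Y) : G) ^ 2 = h⁻¹ * (h * (((a : Y) : G) ^ 2) * h⁻¹) * h := by group
          rw [this, h4]; group
        have h6 : a ^ 2 = 1 := by
          apply Subtype.ext
          apply Subtype.ext
          simpa using h5
        have h7 := orderOf_dvd_of_pow_eq_one h6
        rw [hgen] at h7
        have h8 := Nat.le_of_dvd (by norm_num) h7
        omega
      have hNA : h ∈ Subgroup.normalizer (A : Set G) := by
        apply H02.mem_normalizer_of_conj_le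
        rintro _ ⟨y, hy, rfl⟩
        obtain ⟨m, hm⟩ := Subgroup.mem_zpowers_iff.mp (ha ⟨y, hy⟩)
        have h1 : (y : G) = (((a : Y) : G)) ^ m := by
          have := congrArg (fun w : A' => ((w : Y) : G)) hm
          simpa using this.symm
        show h * (y : G) * h⁻¹ ∈ A
        rw [h1, ← conj_zpow]
        exact A.zpow_mem hconjA m
      have hcomm := H15.commute_of_odd_of_cyclic_two A hAp hNA hodd
      exact centralizes_of_index_two Y A hY h hN r k hr hr2 hk hAY hcomm (by rw [hAcard]; exact hindex)

/-- Dihedral Sylow `2`-subgroups: the centralizer of an involution has a normal `2`-complement. -/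
theorem frobCond_centralizer_of_dihedral (S : Sylow 2 G) (n : ℕ) [NeZero n]
    (hS : Nonempty ((S : Subgroup G) ≃* DihedralGroup n)) (t : G) (ht : orderOf t = 2) :
    H13.FrobCond 2 (Subgroup.centralizer ({t} : Set G)) := by
  classical
  haveI : Fact (Nat.Prime 2) := ⟨Nat.prime_two⟩
  set C := Subgroup.centralizer ({t} : Set G) with hC
  obtain ⟨e⟩ := hS
  apply frobCond_of_primary
  intro Q hQ g hg hc r k hr hk
  have htC : ∀ x : C, (x : G) * t = t * x := fun x => Subgroup.mem_centralizer_singleton_iff.mp x.2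
  set Q' : Subgroup G := Q.map C.subtype with hQ'
  have hQ'p : IsPGroup 2 Q' := hQ.map _
  have hztp : IsPGroup 2 (Subgroup.zpowers t) := by
    rw [IsPGroup.iff_card, Nat.card_zpowers, ht]
    exact ⟨1, by norm_num⟩
  have hQ'N : Q' ≤ Subgroup.normalizer ((Subgroup.zpowers t : Subgroup G) : Set G) := by
    rintro _ ⟨q, -, rfl⟩
    apply H02.mem_normalizer_of_conj_le
    intro y hy
    obtain ⟨m, rfl⟩ := Subgroup.mem_zpowers_iff.mp hy
    show C.subtype q * t ^ m * (C.subtype q)⁻¹ ∈ _
    have h1 : (q : G) * t = t * q := htC q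
    have h2 : Commute (q : G) (t ^ m) := (show Commute (q : G) t from h1).zpow_right m
    rw [show C.subtype q = (q : G) from rfl, h2.eq]
    simp
  set Q₁ : Subgroup G := Q' ⊔ Subgroup.zpowers t with hQ₁
  have hQ₁p : IsPGroup 2 Q₁ := IsPGroup.to_sup_of_normal_right' hQ'p hztp hQ'N
  obtain ⟨P, hP⟩ := hQ₁p.exists_le_sylow
  obtain ⟨x, hx⟩ := MulAction.exists_smul_eq G P S
  have hxmem : ∀ y ∈ Q₁, x * y * x⁻¹ ∈ (S : Subgroup G) := by
    intro y hy
    rw [← hx, Sylow.coe_subgroup_smul, H02.mem_smul_conj_iff]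
    have h1 : x⁻¹ * (x * y * x⁻¹) * x = y := by group
    rw [h1]
    exact hP hy
  set Y : Subgroup G := Q₁.map (MulAut.conj x).toMonoidHom with hY
  have hYS : Y ≤ (S : Subgroup G) := by
    rintro _ ⟨y, hy, rfl⟩
    exact hxmem y hy
  have hYp : IsPGroup 2 Y := hQ₁p.map _
  let ψ : Y →* DihedralGroup n := e.toMonoidHom.comp (Subgroup.inclusion hYS)
  have hψ : Function.Injective ψ := e.injective.comp (Subgroup.inclusion_injective hYS)
  -- g normalizes Q₁
  have hgQ₁ : ∀ y ∈ Q₁, (g : G) * y * (g : G)⁻¹ ∈ Q₁ := by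
    have h1 : Q₁ ≤ Q₁.comap (MulAut.conj (g : G)).toMonoidHom := by
      apply sup_le
      · rintro _ ⟨q, hq, rfl⟩
        have h2 := (Subgroup.mem_normalizer_iff.mp hg q).mp hq
        exact (le_sup_left : Q' ≤ Q₁) ⟨_, h2, rfl⟩
      · intro y hy
        obtain ⟨m, rfl⟩ := Subgroup.mem_zpowers_iff.mp hy
        show (g : G) * t ^ m * (g : G)⁻¹ ∈ Q₁
        have h2 : Commute (g : G) (t ^ m) := (show Commute (g : G) t from htC g).zpow_right m
        rw [h2.eq]
        simp only [mul_inv_cancel_right]
        exact (le_sup_right : Subgroup.zpowers t ≤ Q₁) hy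
    exact fun y hy => h1 hy
  set h : G := x * g * x⁻¹ with hh
  have hNh : h ∈ Subgroup.normalizer (Y : Set G) := by
    apply H02.mem_normalizer_of_conj_le
    rintro _ ⟨y, hy, rfl⟩
    refine ⟨(g : G) * y * (g : G)⁻¹, hgQ₁ y hy, ?_⟩
    simp only [MulEquiv.coe_toMonoidHom, MulAut.conj_apply]
    rw [hh]; group
  have hhk : h ^ (r ^ k) = 1 := by
    rw [hh, conj_pow, ← Subgroup.coe_pow]
    have h1 : g ^ (r ^ k) = 1 := by rw [← hk]; exact pow_orderOf_eq_one g
    rw [h1]; simp
  by_cases hk0 : k = 0
  · subst hk0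
    rw [pow_zero, orderOf_eq_one_iff] at hk
    rw [hk]
    exact Subgroup.one_mem _
  have hr2 : r ≠ 2 := by
    rintro rfl
    have h1 : (2 : ℕ) ∣ orderOf g := by rw [hk]; exact dvd_pow_self 2 hk0
    have := Nat.Coprime.eq_one_of_dvd hc.symm h1
    omega
  have hzY : x * t * x⁻¹ ∈ Y := ⟨t, (le_sup_right : Subgroup.zpowers t ≤ Q₁) (Subgroup.mem_zpowers t), rfl⟩
  have ht1 : t ≠ 1 := by
    rintro rfl
    rw [orderOf_one] at ht
    omega
  have hz1 : x * t * x⁻¹ ≠ 1 := by
    intro h1
    apply ht1
    have : t = x⁻¹ * (x * t * x⁻¹) * x := by group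
    rw [this, h1]; group
  have hzh : h * (x * t * x⁻¹) = (x * t * x⁻¹) * h := by
    have h1 : (g : G) * t = t * g := (htC g)
    rw [hh]
    calc x * (g : G) * x⁻¹ * (x * t * x⁻¹) = x * ((g : G) * t) * x⁻¹ := by group
      _ = x * (t * (g : G)) * x⁻¹ := by rw [h1]
      _ = _ := by group
  have hcent := centralizes_of_dihedral_embed Y hYp n ψ hψ h hNh r k hr hr2 hhk _ hzY hz1 hzh
  rw [Subgroup.mem_centralizer_iff]
  intro q hq
  apply Subtype.ext
  have hqY : x * (q : G) * x⁻¹ ∈ Y :=
    ⟨q, (le_sup_left : Q' ≤ Q₁) ⟨q, hq, rfl⟩, rfl⟩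
  have h1 := Subgroup.mem_centralizer_iff.mp hcent _ hqY
  rw [hh] at h1
  have h2 : x * ((q : G) * g) * x⁻¹ = x * ((g : G) * q) * x⁻¹ := by
    calc x * ((q : G) * g) * x⁻¹ = x * (q : G) * x⁻¹ * (x * g * x⁻¹) := by group
      _ = x * g * x⁻¹ * (x * (q : G) * x⁻¹) := h1
      _ = _ := by group
  have h3 : (q : G) * g = (g : G) * q := by
    have := mul_left_cancel (mul_right_cancel h2)
    exact this
  exact h3

/-- The statement on normal `2`-complements. -/
theorem dihedral_centralizer_complement (S : Sylow 2 G) (n : ℕ) (hn : 2 ≤ n)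
    (hS : Nonempty ((S : Subgroup G) ≃* DihedralGroup n)) (t : G) (ht : orderOf t = 2) :
    ∃ N : Subgroup (Subgroup.centralizer ({t} : Set G)), N.Normal ∧ Odd (Nat.card N) ∧
      ∃ k : ℕ, N.index = 2 ^ k := by
  haveI : NeZero n := ⟨by omega⟩
  haveI : Fact (Nat.Prime 2) := ⟨Nat.prime_two⟩
  obtain ⟨P, N, hNn, hcomp⟩ :=
    H13.hasNormalPComplement_of_frobCond (frobCond_centralizer_of_dihedral S n hS t ht)
  refine ⟨N, hNn, ?_, ?_⟩
  · have h1 := hcomp.index_eq_card
    have h2 := P.not_dvd_index
    rw [h1] at h2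
    exact Nat.odd_iff.mpr (by omega)
  · have h1 := hcomp.symm.index_eq_card
    obtain ⟨k, hk⟩ := IsPGroup.iff_card.mp P.2
    exact ⟨k, by rw [h1]; exact hk⟩

end Cfsg.Agent.H02
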