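import Mathlib
import Cfsg.Agent.Lib.H18.Nilp
import Cfsg.Agent.Lib.H01.Hall

set_option autoImplicit false

namespace Cfsg.Agent.H02

universe u v

theorem exists_subgroup_card_comm {A : Type*} [CommGroup A] [Finite A] {r : ℕ} (hr : r ∣ Nat.card A) :
    ∃ B : Subgroup A, Nat.card B = r := by
  have hnil : Group.IsNilpotent A := inferInstance
  have hcomm : IsMulCommutative (⊤ : Subgroup A) := ⟨⟨fun a b => Subtype.ext (mul_comm _ _)⟩⟩
  obtain ⟨D, -, -, hD⟩ := Cfsg.Agent.H18.exists_normal_le_card_eq (G := A) (A := ⊤) inferInstance hcomm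
    (d := r) (by rwa [Subgroup.card_top])
  exact ⟨D, hD⟩

theorem every_order_prod {G : Type u} {A : Type v} [Group G] [CommGroup A] [Finite G] [Finite A] [Group.IsSolvable G]
    (hA : ∀ p : ℕ, p.Prime → p ∣ Nat.card A → p ∣ Nat.card G)
    (hexp : ∀ p : ℕ, p.Prime → p ∣ Nat.card G → (Nat.card A).factorization p + 1 = (Nat.card G).factorization p)
    (d : ℕ) (hd : d ∣ Nat.card (G × A)) : ∃ H : Subgroup (G × A), Nat.card H = d := by
  classical
  rw [Nat.card_prod] at hd
  set g := Nat.card G with hg
  set a := Nat.card A with ha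
  have hg0 : g ≠ 0 := Nat.card_pos.ne'
  have ha0 : a ≠ 0 := Nat.card_pos.ne'
  have hd0 : d ≠ 0 := fun h => by
    rw [h] at hd
    exact (mul_ne_zero hg0 ha0) (Nat.eq_zero_of_zero_dvd hd)
  let f : ℕ →₀ ℕ := g.factorization.filter (fun p => g.factorization p ≤ d.factorization p)
  have hfp : ∀ p, f p = if g.factorization p ≤ d.factorization p then g.factorization p else 0 := by
    intro p
    exact Finsupp.filter_apply _ _ _
  have hfprime : ∀ p ∈ f.support, p.Prime := by
    intro p hp
    have h1 : f p ≠ 0 := Finsupp.mem_support_iff.mp hp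
    rw [hfp] at h1
    split_ifs at h1
    · by_contra hnp
      exact h1 (Nat.factorization_eq_zero_of_not_prime _ hnp)
    · exact absurd rfl h1
  set m := f.prod (fun x y => x ^ y) with hm
  have hmfac : m.factorization = f := Nat.prod_pow_factorization_eq_self hfprime
  have hm0 : m ≠ 0 := by
    rw [hm]
    exact Finset.prod_ne_zero_iff.mpr (fun p hp => pow_ne_zero _ (hfprime p hp).ne_zero)
  have hmd : m ∣ d := by
    rw [← Nat.factorization_le_iff_dvd hm0 hd0, hmfac]
    intro p
    rw [hfp]
    split_ifs with h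
    · exact h
    · exact Nat.zero_le _
  have hmg : m ∣ g := by
    rw [← Nat.factorization_le_iff_dvd hm0 hg0, hmfac]
    intro p
    rw [hfp]
    split_ifs
    · exact le_rfl
    · exact Nat.zero_le _
  obtain ⟨r, hr⟩ := hmd
  obtain ⟨n, hn⟩ := hmg
  have hr0 : r ≠ 0 := fun h => hd0 (by rw [hr, h, mul_zero])
  have hn0 : n ≠ 0 := fun h => hg0 (by rw [hn, h, mul_zero])
  have hrfac : ∀ p, r.factorization p + f p = d.factorization p := by
    intro p
    rw [hr, Nat.factorization_mul hm0 hr0, hmfac]
    simp [add_comm]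
  have hnfac : ∀ p, n.factorization p + f p = g.factorization p := by
    intro p
    rw [hn, Nat.factorization_mul hm0 hn0, hmfac]
    simp [add_comm]
  have hdle : ∀ p, d.factorization p ≤ g.factorization p + a.factorization p := by
    intro p
    have h1 : d.factorization ≤ (g * a).factorization :=
      (Nat.factorization_le_iff_dvd hd0 (mul_ne_zero hg0 ha0)).mpr hd
    have h2 := h1 p
    rwa [Nat.factorization_mul hg0 ha0] at h2
  have hra : r ∣ a := by
    rw [← Nat.factorization_le_iff_dvd hr0 ha0]
    intro p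
    by_cases hp : p.Prime
    · have h3 := hrfac p
      have h4 := hfp p
      have h5 := hdle p
      by_cases hpg : p ∣ g
      · have h6 := hexp p hp hpg
        split_ifs at h4 <;> omega
      · have h7 : ¬ p ∣ a := fun h => hpg (hA p hp h)
        have h8 : g.factorization p = 0 := Nat.factorization_eq_zero_of_not_dvd hpg
        have h9 : a.factorization p = 0 := Nat.factorization_eq_zero_of_not_dvd h7
        omega
    · rw [Nat.factorization_eq_zero_of_not_prime _ hp]
      exact Nat.zero_le _
  have hcop : m.Coprime n := by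
    rw [Nat.coprime_iff_gcd_eq_one] 
    by_contra hne
    obtain ⟨p, hp, hpd⟩ := Nat.exists_prime_and_dvd hne
    have hpm : p ∣ m := hpd.trans (Nat.gcd_dvd_left _ _)
    have hpn : p ∣ n := hpd.trans (Nat.gcd_dvd_right _ _)
    have h1 : 0 < m.factorization p := hp.factorization_pos_of_dvd hm0 hpm
    have h2 : 0 < n.factorization p := hp.factorization_pos_of_dvd hn0 hpn
    rw [hmfac, hfp] at h1
    have h3 := hnfac p
    have h4 := hfp p
    split_ifs at h1 h4 <;> omega
  obtain ⟨H, hH, -⟩ := Cfsg.Agent.H01.hall_containment _ G rfl m n hn hcop (⊥ : Subgroup G) (by simp)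
  obtain ⟨B, hB⟩ := exists_subgroup_card_comm (A := A) hra
  refine ⟨H.prod B, ?_⟩
  rw [Nat.card_congr (Subgroup.prodEquiv H B).toEquiv, Nat.card_prod, hH, hB, hr]

end Cfsg.Agent.H02
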