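import Cfsg.Agent.Lib.H02.Klein
import Cfsg.Agent.Lib.H18.PGroup

/-!
The commuting graph of Klein four subgroups and the 2-generated core.
-/

set_option autoImplicit false

namespace Cfsg.Agent.H02.Four

open Cfsg

variable {G : Type*} [Group G]

/-- The conjugate `g U g⁻¹`. -/
def cj (g : G) (U : Subgroup G) : Subgroup G := U.map (MulAut.conj g).toMonoidHom

theorem mem_cj {g x : G} {U : Subgroup G} : x ∈ cj g U ↔ g⁻¹ * x * g ∈ U := by
  constructor
  · rintro ⟨u, hu, rfl⟩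
    show g⁻¹ * (g * u * g⁻¹) * g ∈ U
    simpa [mul_assoc] using hu
  · intro h
    refine ⟨_, h, ?_⟩
    show g * (g⁻¹ * x * g) * g⁻¹ = x
    group

theorem conj_mem_cj {g u : G} {U : Subgroup G} (hu : u ∈ U) : g * u * g⁻¹ ∈ cj g U := ⟨u, hu, rfl⟩

theorem cj_mul (g h : G) (U : Subgroup G) : cj (g * h) U = cj g (cj h U) := by
  ext x
  simp only [mem_cj, mul_inv_rev]
  have : h⁻¹ * g⁻¹ * x * (g * h) = h⁻¹ * (g⁻¹ * x * g) * h := by group
  rw [this]

theorem cj_one (U : Subgroup G) : cj 1 U = U := by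
  ext x
  simp [mem_cj]

theorem cj_inv_cj (g : G) (U : Subgroup G) : cj g⁻¹ (cj g U) = U := by
  rw [← cj_mul, inv_mul_cancel, cj_one]

theorem cj_mono (g : G) {U V : Subgroup G} (h : U ≤ V) : cj g U ≤ cj g V :=
  Subgroup.map_mono h

theorem card_cj (g : G) (U : Subgroup G) : Nat.card (cj g U) = Nat.card U :=
  Subgroup.card_map_of_injective (MulAut.conj g).injective

theorem ispg_cj {p : ℕ} (g : G) {U : Subgroup G} (h : IsPGroup p U) : IsPGroup p (cj g U) :=
  h.map _ 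

theorem four_of_equiv {X Y : Type*} [Group X] [Group Y] (e : X ≃* Y) (h : IsKleinFour X) : IsKleinFour Y := by
  apply isKleinFour_of
  · rw [← Nat.card_congr e.toEquiv]
    exact h.card_four
  · intro y
    have h1 : (e.symm y) * (e.symm y) = 1 := IsKleinFour.mul_self _
    have h2 := congrArg e h1
    rw [map_mul, e.apply_symm_apply, map_one] at h2
    rw [sq, h2]

theorem four_cj (g : G) {U : Subgroup G} (h : IsKleinFour U) : IsKleinFour (cj g U) :=
  four_of_equiv ((MulAut.conj g).subgroupMap U) h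

/-- Adjacency. -/
abbrev Adj (A B : Subgroup G) : Prop := IsKleinFour A ∧ IsKleinFour B ∧ ∀ a ∈ A, ∀ b ∈ B, a * b = b * a

/-- Connection in the graph. -/
abbrev Conn (U V : Subgroup G) : Prop := Relation.ReflTransGen Adj U V

theorem conn_symm {U V : Subgroup G} (h : Conn U V) : Conn V U := fourRel_symm h

theorem conn_cj (g : G) {U V : Subgroup G} (h : Conn U V) : Conn (cj g U) (cj g V) := by
  induction h with
  | refl => exact Relation.ReflTransGen.refl
  | tail _ hbc ih =>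
  refine Relation.ReflTransGen.tail ih ?_
  obtain ⟨h1, h2, h3⟩ := hbc
  refine ⟨four_cj g h1, four_cj g h2, ?_⟩
  rintro _ ⟨a, ha, rfl⟩ _ ⟨b, hb, rfl⟩
  show g * a * g⁻¹ * (g * b * g⁻¹) = g * b * g⁻¹ * (g * a * g⁻¹)
  have := h3 a ha b hb
  calc g * a * g⁻¹ * (g * b * g⁻¹) = g * (a * b) * g⁻¹ := by group
    _ = g * (b * a) * g⁻¹ := by rw [this]
    _ = _ := by group

theorem conn_map {S : Subgroup G} {A B : Subgroup S}
    (h : Relation.ReflTransGen (fun A B : Subgroup S => IsKleinFour A ∧ IsKleinFour B ∧ ∀ a ∈ A, ∀ b ∈ B, a * b = b * a) A B) :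
    Conn (A.map S.subtype) (B.map S.subtype) := by
  induction h with
  | refl => exact Relation.ReflTransGen.refl
  | @tail B C _ hbc ih =>
    refine Relation.ReflTransGen.tail ih ?_
    obtain ⟨h3, h4, h5⟩ := hbc
    refine ⟨four_of_equiv (B.equivMapOfInjective _ S.subtype_injective) h3,
      four_of_equiv (C.equivMapOfInjective _ S.subtype_injective) h4, ?_⟩
    rintro _ ⟨a, ha, rfl⟩ _ ⟨b, hb, rfl⟩
    have := h5 a ha b hb
    exact congrArg Subtype.val this

/-- Connection inside a subgroup gives connection in the group. -/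
theorem conn_of_le {S : Subgroup G} (hS : IsFourConnected S) {U V : Subgroup G} (hU : U ≤ S) (hV : V ≤ S)
    (h1 : IsKleinFour U) (h2 : IsKleinFour V) : Conn U V := by
  have hU' : IsKleinFour (U.subgroupOf S) := four_of_equiv (Subgroup.subgroupOfEquivOfLe hU).symm h1
  have hV' : IsKleinFour (V.subgroupOf S) := four_of_equiv (Subgroup.subgroupOfEquivOfLe hV).symm h2
  have key := conn_map (hS _ _ hU' hV')
  rwa [Subgroup.map_subgroupOf_eq_of_le hU, Subgroup.map_subgroupOf_eq_of_le hV] at key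

/-- The rank condition gives a four subgroup. -/
theorem exists_four_of_not {X : Type*} [Group X] [Finite X] (h : ¬ PRankLE 2 1 X) :
    ∃ U : Subgroup X, IsKleinFour U := by
  unfold PRankLE at h
  push Not at h
  obtain ⟨A, hA, hsq, hc⟩ := h
  have hc' : 2 < Nat.card A := by simpa using hc
  -- three elements
  obtain ⟨a, ha⟩ : ∃ a : A, a ≠ 1 := by
    by_contra hne
    push Not at hne
    have : Subsingleton A := ⟨fun x y => by rw [hne x, hne y]⟩
    have := Nat.card_of_subsingleton (1 : A)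
    omega
  obtain ⟨b, hb1, hb2⟩ : ∃ b : A, b ≠ 1 ∧ b ≠ a := by
    by_contra hne
    push Not at hne
    have hle : Nat.card A ≤ 2 := by
      classical
      haveI := Fintype.ofFinite A
      rw [Nat.card_eq_fintype_card]
      have : (Finset.univ : Finset A) ⊆ {1, a} := by
        intro x _
        by_cases hx : x = 1
        · simp [hx]
        · simp [hne x hx]
      exact (Finset.card_le_card this).trans (Finset.card_le_two)
    omega
  have hcomm : a.1 * b.1 = b.1 * a.1 := by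
    have := hA.is_comm.comm a b
    exact congrArg Subtype.val this
  refine ⟨kleinOf a.1 b.1 (hsq _ a.2) (hsq _ b.2) hcomm, isKleinFour_kleinOf _ _ _ _ _ ?_ ?_ ?_⟩
  · exact fun e => ha (Subtype.ext e)
  · exact fun e => hb1 (Subtype.ext e)
  · exact fun e => hb2 (Subtype.ext e.symm)

theorem exists_four_le {Q : Subgroup G} [Finite G] (h : ¬ PRankLE 2 1 Q) :
    ∃ U : Subgroup G, U ≤ Q ∧ IsKleinFour U := by
  obtain ⟨U, hU⟩ := exists_four_of_not h
  refine ⟨U.map Q.subtype, Subgroup.map_subtype_le U, four_of_equiv (U.equivMapOfInjective _ Q.subtype_injective) hU⟩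

theorem not_prank_of_four {Q U : Subgroup G} (hU : U ≤ Q) (h : IsKleinFour U) : ¬ PRankLE 2 1 Q := by
  intro hQ
  have hC := h.isMulCommutative
  have h1 := hQ (U.subgroupOf Q) ?_ ?_
  · rw [Nat.card_congr (Subgroup.subgroupOfEquivOfLe hU).toEquiv, h.card_four] at h1
    norm_num at h1
  · refine ⟨⟨?_⟩⟩
    intro a b
    apply Subtype.ext
    apply Subtype.ext
    have h2 : (⟨a.1.1, a.2⟩ : U) * ⟨b.1.1, b.2⟩ = ⟨b.1.1, b.2⟩ * ⟨a.1.1, a.2⟩ := hC.is_comm.comm _ _
    have h3 := congrArg Subtype.val h2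
    exact h3
  · intro a ha
    have h2 : (⟨a.1, ha⟩ : U) * ⟨a.1, ha⟩ = 1 := IsKleinFour.mul_self _
    apply Subtype.ext
    rw [sq]
    have h3 := congrArg Subtype.val h2
    exact h3

section main

variable [Finite G] (S : Sylow 2 G)

/-- The 2-generated core. -/
def M : Subgroup G :=
  ⨆ Q : {Q : Subgroup G // Q ≤ (S : Subgroup G) ∧ ¬ PRankLE 2 1 Q}, Subgroup.normalizer ((Q : Subgroup G) : Set G)

theorem normalizer_le_M {Q : Subgroup G} (h1 : Q ≤ S) (h2 : ¬ PRankLE 2 1 Q) :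
    Subgroup.normalizer (Q : Set G) ≤ M S :=
  le_iSup (fun Q : {Q : Subgroup G // Q ≤ (S : Subgroup G) ∧ ¬ PRankLE 2 1 Q} =>
    Subgroup.normalizer ((Q : Subgroup G) : Set G)) ⟨Q, h1, h2⟩

/-- Subgroups with the size of a Sylow subgroup. -/
def Sy (T : Subgroup G) : Prop := IsPGroup 2 T ∧ Nat.card T = Nat.card S

omit [Finite G] in
theorem Sy.cj {T : Subgroup G} (hT : Sy S T) (g : G) : Sy S (cj g T) :=
  ⟨ispg_cj g hT.1, (card_cj g T).trans hT.2⟩

theorem exists_sy {P : Subgroup G} (hP : IsPGroup 2 P) : ∃ T, Sy S T ∧ P ≤ T := by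
  haveI : Fact (Nat.Prime 2) := ⟨Nat.prime_two⟩
  obtain ⟨T, hT⟩ := hP.exists_le_sylow
  refine ⟨T, ⟨T.isPGroup', ?_⟩, hT⟩
  rw [Sylow.card_eq_multiplicity T, Sylow.card_eq_multiplicity S]

theorem exists_conj_le {P : Subgroup G} (hP : IsPGroup 2 P) : ∃ g : G, cj g P ≤ S := by
  haveI : Fact (Nat.Prime 2) := ⟨Nat.prime_two⟩
  obtain ⟨T, hT⟩ := hP.exists_le_sylow
  obtain ⟨g, hg⟩ := MulAction.exists_smul_eq G T S
  refine ⟨g, ?_⟩
  rintro _ ⟨u, hu, rfl⟩
  rw [← hg]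
  exact ⟨u, hT hu, rfl⟩

/-- Two `2`-subgroups of a subgroup are conjugate by an element of it into a common Sylow subgroup. -/
theorem exists_common (H X Y : Subgroup G) (hX : X ≤ H) (hY : Y ≤ H) (pX : IsPGroup 2 X) (pY : IsPGroup 2 Y) :
    ∃ n ∈ H, ∃ T, Sy S T ∧ X ≤ T ∧ Four.cj n Y ≤ T := by
  haveI : Fact (Nat.Prime 2) := ⟨Nat.prime_two⟩
  have pX' : IsPGroup 2 (X.subgroupOf H) :=
    pX.of_equiv (Subgroup.subgroupOfEquivOfLe hX).symm
  have pY' : IsPGroup 2 (Y.subgroupOf H) :=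
    pY.of_equiv (Subgroup.subgroupOfEquivOfLe hY).symm
  obtain ⟨P₁, hP₁⟩ := pX'.exists_le_sylow
  obtain ⟨P₂, hP₂⟩ := pY'.exists_le_sylow
  obtain ⟨n, hn⟩ := MulAction.exists_smul_eq H P₂ P₁
  have pP : IsPGroup 2 ((P₁ : Subgroup H).map H.subtype) := P₁.isPGroup'.map _
  obtain ⟨T, hT, hPT⟩ := exists_sy S pP
  refine ⟨n.1, n.2, T, hT, ?_, ?_⟩
  · intro x hx
    apply hPT
    exact ⟨⟨x, hX hx⟩, hP₁ hx, rfl⟩
  · rintro _ ⟨y, hy, rfl⟩
    apply hPT
    refine ⟨n * ⟨y, hY hy⟩ * n⁻¹, ?_, rfl⟩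
    rw [← hn]
    exact ⟨⟨y, hY hy⟩, hP₂ hy, rfl⟩

omit [Finite G] in
theorem card_lt_of_lt [Finite G] {A B : Subgroup G} (h : A < B) : Nat.card A < Nat.card B :=
  lt_of_le_of_ne (Subgroup.card_le_of_le h.le) (fun e => h.ne (Subgroup.eq_of_le_of_card_ge h.le e.ge))

/-- Sylow subgroups meeting `S` in a subgroup containing a four group are conjugate to `S` by elements of `M`. -/
theorem claimA : ∀ n : ℕ, ∀ T : Subgroup G, Sy S T → Nat.card S - Nat.card ↥(T ⊓ S) = n →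
    (∃ U : Subgroup G, U ≤ T ⊓ S ∧ IsKleinFour U) → ∃ m ∈ M S, Four.cj m T = S := by
  haveI : Fact (Nat.Prime 2) := ⟨Nat.prime_two⟩
  intro n
  induction n using Nat.strong_induction_on with
  | _ n ih =>
  intro T hT hn ⟨U, hU, hUf⟩
  set R := T ⊓ (S : Subgroup G) with hR
  have hRT : R ≤ T := inf_le_left
  have hRS : R ≤ S := inf_le_right
  have pS : IsPGroup 2 (S : Subgroup G) := S.isPGroup'
  by_cases hRTeq : R = T
  · -- T ≤ S
    have hle : T ≤ S := hRTeq ▸ hRS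
    have := Subgroup.eq_of_le_of_card_ge hle (by rw [hT.2])
    exact ⟨1, (M S).one_mem, by rw [cj_one]; exact this⟩
  have hRltT : R < T := lt_of_le_of_ne hRT hRTeq
  have hRltS : R < S := by
    apply lt_of_le_of_ne hRS
    intro e
    have hle : (S : Subgroup G) ≤ T := e ▸ hRT
    have h3 := Subgroup.eq_of_le_of_card_ge hle (by rw [hT.2])
    exact hRTeq (by rw [hR, ← h3]; exact inf_idem _)
  obtain ⟨x, hxS, hxR, hxN⟩ := Cfsg.Agent.H18.exists_mem_sdiff_normalizer pS hRltS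
  obtain ⟨y, hyT, hyR, hyN⟩ := Cfsg.Agent.H18.exists_mem_sdiff_normalizer hT.1 hRltT
  set H := Subgroup.normalizer (R : Set G) with hH
  have hRH : R ≤ H := Subgroup.le_normalizer
  have hXH : H ⊓ (S : Subgroup G) ≤ H := inf_le_left
  have hYH : H ⊓ T ≤ H := inf_le_left
  have pX : IsPGroup 2 ↥(H ⊓ (S : Subgroup G)) := pS.to_le inf_le_right
  have pY : IsPGroup 2 ↥(H ⊓ T) := hT.1.to_le inf_le_right
  obtain ⟨k, hkH, T₂, hT₂, hXT₂, hYT₂⟩ := exists_common S H _ _ hXH hYH pX pY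
  have hRnot : ¬ PRankLE 2 1 R := not_prank_of_four hU hUf
  have hkM : k ∈ M S := normalizer_le_M S hRS hRnot hkH
  have hRX : R < H ⊓ (S : Subgroup G) := by
    refine lt_of_le_of_ne (le_inf hRH hRS) ?_
    intro e
    exact hxR (by rw [e]; exact ⟨hxN, hxS⟩)
  have hRY : R < H ⊓ T := by
    refine lt_of_le_of_ne (le_inf hRH hRT) ?_
    intro e
    exact hyR (by rw [e]; exact ⟨hyN, hyT⟩)
  have hcS : Nat.card R < Nat.card (S : Subgroup G) := card_lt_of_lt hRltS
  -- first step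
  have hXle : H ⊓ (S : Subgroup G) ≤ T₂ ⊓ S := le_inf hXT₂ inf_le_right
  have hlt1 : Nat.card R < Nat.card ↥(T₂ ⊓ (S : Subgroup G)) :=
    (card_lt_of_lt hRX).trans_le (Subgroup.card_le_of_le hXle)
  have hle1 : Nat.card ↥(T₂ ⊓ (S : Subgroup G)) ≤ Nat.card (S : Subgroup G) := Subgroup.card_le_of_le inf_le_right
  obtain ⟨m₂, hm₂, e₂⟩ := ih _ (by omega) T₂ hT₂ rfl ⟨U, (hU.trans hRX.le).trans hXle, hUf⟩
  -- second step
  have hle3 : Four.cj m₂ (Four.cj k (H ⊓ T)) ≤ Four.cj m₂ (Four.cj k T) ⊓ S := by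
    refine le_inf (cj_mono _ (cj_mono _ inf_le_right)) ?_
    rw [← e₂]
    exact cj_mono _ hYT₂
  have hlt2 : Nat.card R < Nat.card ↥(Four.cj m₂ (Four.cj k T) ⊓ (S : Subgroup G)) := by
    have h1 : Nat.card R < Nat.card ↥(Four.cj m₂ (Four.cj k (H ⊓ T))) := by
      rw [card_cj, card_cj]
      exact card_lt_of_lt hRY
    exact h1.trans_le (Subgroup.card_le_of_le hle3)
  have hle2 : Nat.card ↥(Four.cj m₂ (Four.cj k T) ⊓ (S : Subgroup G)) ≤ Nat.card (S : Subgroup G) :=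
    Subgroup.card_le_of_le inf_le_right
  have hfour : Four.cj m₂ (Four.cj k U) ≤ Four.cj m₂ (Four.cj k T) ⊓ S :=
    (cj_mono _ (cj_mono _ (hU.trans hRY.le))).trans hle3
  obtain ⟨m₃, hm₃, e₃⟩ := ih _ (by omega) _ ((hT.cj S k).cj S m₂) rfl ⟨_, hfour, four_cj _ (four_cj _ hUf)⟩
  refine ⟨m₃ * m₂ * k, (M S).mul_mem ((M S).mul_mem hm₃ hm₂) hkM, ?_⟩
  rw [cj_mul, cj_mul]
  exact e₃

theorem pgroup_of_four {U : Subgroup G} (h : IsKleinFour U) : IsPGroup 2 U := by
  refine IsPGroup.of_card (n := 2) ?_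
  rw [h.card_four]
  norm_num

/-- The product of two commuting Klein four groups. -/
def prodOf (B C : Subgroup G) (h : ∀ b ∈ B, ∀ c ∈ C, b * c = c * b) : Subgroup G where
  carrier := {x | ∃ b ∈ B, ∃ c ∈ C, x = b * c}
  one_mem' := ⟨1, B.one_mem, 1, C.one_mem, by simp⟩
  mul_mem' := by
    rintro _ _ ⟨b, hb, c, hc, rfl⟩ ⟨b', hb', c', hc', rfl⟩
    refine ⟨b * b', B.mul_mem hb hb', c * c', C.mul_mem hc hc', ?_⟩
    calc b * c * (b' * c') = b * (c * b') * c' := by group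
      _ = b * (b' * c) * c' := by rw [h b' hb' c hc]
      _ = _ := by group
  inv_mem' := by
    rintro _ ⟨b, hb, c, hc, rfl⟩
    refine ⟨b⁻¹, B.inv_mem hb, c⁻¹, C.inv_mem hc, ?_⟩
    rw [mul_inv_rev]
    have : b⁻¹ * c = c * b⁻¹ := (h _ (B.inv_mem hb) c hc)
    calc c⁻¹ * b⁻¹ = c⁻¹ * (b⁻¹ * c) * c⁻¹ := by group
      _ = c⁻¹ * (c * b⁻¹) * c⁻¹ := by rw [this]
      _ = _ := by group

theorem prodOf_pgroup {B C : Subgroup G} (h : ∀ b ∈ B, ∀ c ∈ C, b * c = c * b) (hB : IsKleinFour B)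
    (hC : IsKleinFour C) : IsPGroup 2 (prodOf B C h) := by
  intro x
  obtain ⟨b, hb, c, hc, hx⟩ := x.2
  refine ⟨1, ?_⟩
  apply Subtype.ext
  show x.1 ^ 2 ^ 1 = 1
  rw [hx]
  have h1 : b * b = 1 := by
    have h2 : (⟨b, hb⟩ : B) * ⟨b, hb⟩ = 1 := IsKleinFour.mul_self _
    exact congrArg Subtype.val h2
  have h3 : c * c = 1 := by
    have h2 : (⟨c, hc⟩ : C) * ⟨c, hc⟩ = 1 := IsKleinFour.mul_self _
    exact congrArg Subtype.val h2
  calc (b * c) ^ 2 ^ 1 = b * (c * b) * c := by simp [sq, mul_assoc]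
    _ = b * (b * c) * c := by rw [h b hb c hc]
    _ = (b * b) * (c * c) := by group
    _ = 1 := by rw [h1, h3, one_mul]

theorem claimB {W₀ V : Subgroup G} (hW : W₀ ≤ S) (h : Conn W₀ V) : ∃ m ∈ M S, Four.cj m V ≤ S := by
  induction h with
  | refl => exact ⟨1, (M S).one_mem, by rwa [cj_one]⟩
  | @tail B C _ hbc ih =>
    obtain ⟨m, hm, hmB⟩ := ih
    obtain ⟨h1, h2, h3⟩ := hbc
    have hP := prodOf_pgroup h3 h1 h2
    obtain ⟨T, hT, hPT⟩ := exists_sy S hP
    have hBT : B ≤ T := fun b hb => hPT ⟨b, hb, 1, C.one_mem, by simp⟩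
    have hCT : C ≤ T := fun c hc => hPT ⟨1, B.one_mem, c, hc, by simp⟩
    obtain ⟨m', hm', e⟩ := claimA S _ _ (hT.cj S m) rfl ⟨Four.cj m B, le_inf (cj_mono _ hBT) hmB, four_cj _ h1⟩
    refine ⟨m' * m, (M S).mul_mem hm' hm, ?_⟩
    rw [cj_mul, ← e]
    exact cj_mono _ (cj_mono _ hCT)

theorem mem_normalizer_of_cj {x : G} {Q : Subgroup G} (h : Four.cj x Q = Q) : x ∈ Subgroup.normalizer (Q : Set G) := by
  rw [Subgroup.mem_normalizer_iff]
  intro y
  constructor
  · intro hy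
    have : x * y * x⁻¹ ∈ Four.cj x Q := conj_mem_cj hy
    rwa [h] at this
  · intro hy
    have hy' : x * y * x⁻¹ ∈ Four.cj x Q := by rwa [h]
    rw [mem_cj] at hy'
    have e : x⁻¹ * (x * y * x⁻¹) * x = y := by group
    rwa [e] at hy'

theorem main (h2 : ¬ PRankLE 2 1 G) (hS : IsFourConnected (S : Subgroup G)) :
    ¬ IsFourConnected G ↔ M S ≠ ⊤ := by
  -- a four subgroup in `S`
  obtain ⟨U, hU⟩ := exists_four_of_not h2
  obtain ⟨g₀, hg₀'⟩ := exists_conj_le S (pgroup_of_four hU)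
  obtain ⟨W₀, hg₀, hWf⟩ : ∃ W : Subgroup G, W ≤ S ∧ IsKleinFour W := ⟨_, hg₀', four_cj _ hU⟩
  constructor
  · intro hn hM
    apply hn
    -- stabiliser of the component
    let K : Subgroup G :=
      { carrier := {g | Conn W₀ (Four.cj g W₀)}
        one_mem' := by
          show Conn W₀ (Four.cj 1 W₀)
          rw [cj_one]
        mul_mem' := by
          intro a b ha hb
          show Conn W₀ (Four.cj (a * b) W₀)
          rw [cj_mul]
          exact Relation.ReflTransGen.trans ha (conn_cj a hb)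
        inv_mem' := by
          intro a ha
          show Conn W₀ (Four.cj a⁻¹ W₀)
          have h3 := conn_cj a⁻¹ ha
          rw [cj_inv_cj] at h3
          exact conn_symm h3 }
    have hMK : M S ≤ K := by
      apply iSup_le
      rintro ⟨Q, hQS, hQr⟩ g hg
      obtain ⟨U₀, hU₀Q, hU₀⟩ := exists_four_le hQr
      have hgQ : Four.cj g U₀ ≤ Q := by
        rintro _ ⟨u, hu, rfl⟩
        exact (Subgroup.mem_normalizer_iff.mp hg u).mp (hU₀Q hu)
      have c1 : Conn W₀ U₀ := conn_of_le hS hg₀ (hU₀Q.trans hQS) hWf hU₀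
      have c2 : Conn U₀ (Four.cj g U₀) := conn_of_le hS (hU₀Q.trans hQS) (hgQ.trans hQS) hU₀ (four_cj _ hU₀)
      have c3 : Conn (Four.cj g U₀) (Four.cj g W₀) := conn_cj g (conn_symm c1)
      exact Relation.ReflTransGen.trans (Relation.ReflTransGen.trans c1 c2) c3
    have hK : ∀ g, g ∈ K := fun g => hMK (hM ▸ Subgroup.mem_top g)
    have hall : ∀ V : Subgroup G, IsKleinFour V → Conn W₀ V := by
      intro V hV
      obtain ⟨g, hg⟩ := exists_conj_le S (pgroup_of_four hV)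
      have c1 : Conn W₀ (Four.cj g V) := conn_of_le hS hg₀ hg hWf (four_cj _ hV)
      have c2 := conn_cj g⁻¹ c1
      rw [cj_inv_cj] at c2
      exact Relation.ReflTransGen.trans (hK g⁻¹) c2
    intro A B hA hB
    exact Relation.ReflTransGen.trans (conn_symm (hall A hA)) (hall B hB)
  · intro hM hconn
    apply hM
    rw [eq_top_iff]
    intro g _
    have hc : Conn W₀ (Four.cj g W₀) := hconn _ _ hWf (four_cj _ hWf)
    obtain ⟨m, hm, hle⟩ := claimB S hg₀ hc
    -- the conjugate of `S` containing `W₀`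
    have hle' : W₀ ≤ Four.cj (m * g)⁻¹ S := by
      rw [← cj_mul] at hle
      have := cj_mono (m * g)⁻¹ hle
      rwa [cj_inv_cj] at this
    have hSy : Sy S (Four.cj (m * g)⁻¹ S) := Sy.cj S ⟨S.isPGroup', rfl⟩ _
    obtain ⟨m', hm', e⟩ := claimA S _ _ hSy rfl ⟨W₀, le_inf hle' hg₀, hWf⟩
    have hx : m' * (m * g)⁻¹ ∈ M S := by
      apply normalizer_le_M S le_rfl (not_prank_of_four hg₀ hWf)
      apply mem_normalizer_of_cj
      rw [cj_mul]
      exact e
    have hg : g = m⁻¹ * ((m' * (m * g)⁻¹)⁻¹ * m') := by group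
    rw [hg]
    exact (M S).mul_mem ((M S).inv_mem hm) ((M S).mul_mem ((M S).inv_mem hx) hm')

end main

end Cfsg.Agent.H02.Four
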