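import Cfsg.Prelude.Def_Classical

/-!
The isometry group of the hyperbolic plane.
-/

set_option autoImplicit false

namespace Cfsg.Agent.H02.GO2

open Matrix MatrixGroups Cfsg

variable {F : Type*} [Field F]

local notation "ι" => (Fin 1 ⊕ Fin 1)

/-- Diagonal matrices. -/
def Dm (a b : F) : Matrix ι ι F :=
  Matrix.of (Sum.elim (fun _ => Sum.elim (fun _ => a) (fun _ => 0)) (fun _ => Sum.elim (fun _ => 0) (fun _ => b)))

/-- Antidiagonal matrices. -/
def Sm (a b : F) : Matrix ι ι F :=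
  Matrix.of (Sum.elim (fun _ => Sum.elim (fun _ => 0) (fun _ => a)) (fun _ => Sum.elim (fun _ => b) (fun _ => 0)))

theorem mat_ext {A B : Matrix ι ι F} (h1 : A (.inl 0) (.inl 0) = B (.inl 0) (.inl 0))
    (h2 : A (.inl 0) (.inr 0) = B (.inl 0) (.inr 0)) (h3 : A (.inr 0) (.inl 0) = B (.inr 0) (.inl 0))
    (h4 : A (.inr 0) (.inr 0) = B (.inr 0) (.inr 0)) : A = B := by
  ext i j
  rcases i with i | i <;> rcases j with j | j <;> (rw [Subsingleton.elim i 0, Subsingleton.elim j 0]; assumption)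

theorem mul_apply2 (A B : Matrix ι ι F) (i j : ι) :
    (A * B) i j = A i (.inl 0) * B (.inl 0) j + A i (.inr 0) * B (.inr 0) j := by
  simp [Matrix.mul_apply, Fintype.sum_sum_type]

theorem mulVec_apply2 (A : Matrix ι ι F) (u : ι → F) (i : ι) :
    (A *ᵥ u) i = A i (.inl 0) * u (.inl 0) + A i (.inr 0) * u (.inr 0) := by
  simp [Matrix.mulVec, dotProduct, Fintype.sum_sum_type]

theorem Q_apply (v : ι → F) : quadFormPlus 1 F v = v (.inl 0) * v (.inr 0) := by
  simp [quadFormPlus]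

@[simp] theorem Dm00 (a b : F) : Dm a b (.inl 0) (.inl 0) = a := rfl
@[simp] theorem Dm01 (a b : F) : Dm a b (.inl 0) (.inr 0) = 0 := rfl
@[simp] theorem Dm10 (a b : F) : Dm a b (.inr 0) (.inl 0) = 0 := rfl
@[simp] theorem Dm11 (a b : F) : Dm a b (.inr 0) (.inr 0) = b := rfl
@[simp] theorem Sm00 (a b : F) : Sm a b (.inl 0) (.inl 0) = 0 := rfl
@[simp] theorem Sm01 (a b : F) : Sm a b (.inl 0) (.inr 0) = a := rfl
@[simp] theorem Sm10 (a b : F) : Sm a b (.inr 0) (.inl 0) = b := rfl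
@[simp] theorem Sm11 (a b : F) : Sm a b (.inr 0) (.inr 0) = 0 := rfl

theorem Dm_mul_Dm (a b c d : F) : Dm a b * Dm c d = Dm (a * c) (b * d) := by
  apply mat_ext <;> simp [mul_apply2]

theorem Dm_mul_Sm (a b c d : F) : Dm a b * Sm c d = Sm (a * c) (b * d) := by
  apply mat_ext <;> simp [mul_apply2]

theorem Sm_mul_Dm (a b c d : F) : Sm a b * Dm c d = Sm (a * d) (b * c) := by
  apply mat_ext <;> simp [mul_apply2]

theorem Sm_mul_Sm (a b c d : F) : Sm a b * Sm c d = Dm (a * d) (b * c) := by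
  apply mat_ext <;> simp [mul_apply2]

theorem Dm_one : Dm (1 : F) 1 = 1 := by
  apply mat_ext <;> simp

/-- Diagonal isometries. -/
def Dg (u : Fˣ) : GL ι F where
  val := Dm u.1 (u⁻¹).1
  inv := Dm (u⁻¹).1 u.1
  val_inv := by simp [Dm_mul_Dm, Dm_one]
  inv_val := by simp [Dm_mul_Dm, Dm_one]

/-- Antidiagonal isometries. -/
def Sg (u : Fˣ) : GL ι F where
  val := Sm u.1 (u⁻¹).1
  inv := Sm u.1 (u⁻¹).1
  val_inv := by simp [Sm_mul_Sm, Dm_one]
  inv_val := by simp [Sm_mul_Sm, Dm_one]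

theorem Dg_mul_Dg (u v : Fˣ) : Dg u * Dg v = Dg (u * v) := by
  apply Units.ext
  show Dm _ _ * Dm _ _ = Dm _ _
  rw [Dm_mul_Dm]
  simp [mul_comm]

theorem Dg_mul_Sg (u v : Fˣ) : Dg u * Sg v = Sg (u * v) := by
  apply Units.ext
  show Dm _ _ * Sm _ _ = Sm _ _
  rw [Dm_mul_Sm]
  simp [mul_comm]

theorem Sg_mul_Dg (u v : Fˣ) : Sg u * Dg v = Sg (u * v⁻¹) := by
  apply Units.ext
  show Sm _ _ * Dm _ _ = Sm _ _
  rw [Sm_mul_Dm]
  simp [mul_comm]

theorem Sg_mul_Sg (u v : Fˣ) : Sg u * Sg v = Dg (u * v⁻¹) := by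
  apply Units.ext
  show Sm _ _ * Sm _ _ = Dm _ _
  rw [Sm_mul_Sm]
  simp [mul_comm]

theorem Dg_mem (u : Fˣ) : Dg u ∈ isometryGroup F (quadFormPlus 1 F) := by
  intro v _
  show quadFormPlus 1 F (Dm u.1 (u⁻¹).1 *ᵥ v) = quadFormPlus 1 F v
  rw [Q_apply, Q_apply, mulVec_apply2, mulVec_apply2]
  simp only [Dm00, Dm01, Dm10, Dm11, zero_mul, add_zero, zero_add]
  have : (u.1 * (u⁻¹).1) = 1 := by simp
  calc u.1 * v (.inl 0) * ((u⁻¹).1 * v (.inr 0)) = (u.1 * (u⁻¹).1) * (v (.inl 0) * v (.inr 0)) := by ring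
    _ = _ := by rw [this, one_mul]

theorem Sg_mem (u : Fˣ) : Sg u ∈ isometryGroup F (quadFormPlus 1 F) := by
  intro v _
  show quadFormPlus 1 F (Sm u.1 (u⁻¹).1 *ᵥ v) = quadFormPlus 1 F v
  rw [Q_apply, Q_apply, mulVec_apply2, mulVec_apply2]
  simp only [Sm00, Sm01, Sm10, Sm11, zero_mul, add_zero, zero_add]
  have : (u.1 * (u⁻¹).1) = 1 := by simp
  calc u.1 * v (.inr 0) * ((u⁻¹).1 * v (.inl 0)) = (u.1 * (u⁻¹).1) * (v (.inl 0) * v (.inr 0)) := by ring
    _ = _ := by rw [this, one_mul]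

theorem mem_cases {g : GL ι F} (hg : g ∈ isometryGroup F (quadFormPlus 1 F)) : (∃ u, g = Dg u) ∨ ∃ u, g = Sg u := by
  have hQ : ∀ u : ι → F, quadFormPlus 1 F (g.val *ᵥ u) = quadFormPlus 1 F u := fun u => hg u u
  set a := g.val (.inl 0) (.inl 0) with ha
  set b := g.val (.inl 0) (.inr 0) with hb
  set c := g.val (.inr 0) (.inl 0) with hc
  set d := g.val (.inr 0) (.inr 0) with hd
  have key : ∀ x y : F, (a * x + b * y) * (c * x + d * y) = x * y := by
    intro x y
    have := hQ (Sum.elim (fun _ => x) (fun _ => y))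
    rw [Q_apply, Q_apply, mulVec_apply2, mulVec_apply2] at this
    simpa using this
  have h1 : a * c = 0 := by simpa using key 1 0
  have h2 : b * d = 0 := by simpa using key 0 1
  have h3 : a * d + b * c = 1 := by
    have := key 1 1
    simp only [mul_one] at this
    linear_combination this - h1 - h2
  by_cases ha0 : a = 0
  · -- antidiagonal
    have h4 : b * c = 1 := by simpa [ha0] using h3
    have hb0 : b ≠ 0 := left_ne_zero_of_mul_eq_one h4
    have hd0 : d = 0 := by simpa [hb0] using h2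
    right
    refine ⟨Units.mk0 b hb0, ?_⟩
    apply Units.ext
    show g.val = Sm b _
    apply mat_ext
    · simp [ha0, ← ha]
    · simp [← hb]
    · simp only [Sm10, ← hc]
      have : (Units.mk0 b hb0)⁻¹.1 = b⁻¹ := by simp
      rw [this]
      exact eq_inv_of_mul_eq_one_right h4
    · simp [hd0, ← hd]
  · have hc0 : c = 0 := by simpa [ha0] using h1
    have h4 : a * d = 1 := by simpa [hc0] using h3
    have hd0 : d ≠ 0 := right_ne_zero_of_mul_eq_one h4
    have hb0 : b = 0 := by simpa [hd0] using h2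
    left
    refine ⟨Units.mk0 a ha0, ?_⟩
    apply Units.ext
    show g.val = Dm a _
    apply mat_ext
    · simp [← ha]
    · simp [hb0, ← hb]
    · simp [hc0, ← hc]
    · simp only [Dm11, ← hd]
      have : (Units.mk0 a ha0)⁻¹.1 = a⁻¹ := by simp
      rw [this]
      exact eq_inv_of_mul_eq_one_right h4

theorem Dg_inj {u v : Fˣ} (h : Dg u = Dg v) : u = v := by
  apply Units.ext
  have := congrArg (fun g : GL ι F => g.val (.inl 0) (.inl 0)) h
  exact this

theorem Sg_inj {u v : Fˣ} (h : Sg u = Sg v) : u = v := by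
  apply Units.ext
  have := congrArg (fun g : GL ι F => g.val (.inl 0) (.inr 0)) h
  exact this

theorem Dg_ne_Sg (u v : Fˣ) : Dg u ≠ Sg v := by
  intro h
  have := congrArg (fun g : GL ι F => g.val (.inl 0) (.inl 0)) h
  exact u.ne_zero this

section

variable [Fintype F]

/-- The representation of the dihedral group. -/
noncomputable def rep {N : ℕ} (e : Multiplicative (ZMod N) ≃* Fˣ) : DihedralGroup N →* GL ι F where
  toFun
    | .r i => Dg (e (Multiplicative.ofAdd i))
    | .sr i => Sg (e (Multiplicative.ofAdd (-i)))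
  map_one' := by
    show Dg (e (Multiplicative.ofAdd 0)) = 1
    apply Units.ext
    show Dm _ _ = 1
    simp [Dm_one]
  map_mul' := by
    rintro (i | i) (j | j)
    · show Dg (e (Multiplicative.ofAdd (i + j))) = Dg _ * Dg _
      rw [Dg_mul_Dg, ← map_mul]
      rfl
    · show Sg (e (Multiplicative.ofAdd (-(j - i)))) = Dg _ * Sg _
      rw [Dg_mul_Sg, ← map_mul, ← ofAdd_add]
      congr 3
      ring
    · show Sg (e (Multiplicative.ofAdd (-(i + j)))) = Sg _ * Dg _
      rw [Sg_mul_Dg, ← map_inv, ← map_mul, ← ofAdd_neg, ← ofAdd_add]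
      congr 3
      ring
    · show Dg (e (Multiplicative.ofAdd (j - i))) = Sg _ * Sg _
      rw [Sg_mul_Sg, ← map_inv, ← map_mul, ← ofAdd_neg, ← ofAdd_add]
      congr 3
      ring

theorem rep_inj {N : ℕ} (e : Multiplicative (ZMod N) ≃* Fˣ) : Function.Injective (rep e) := by
  rintro (i | i) (j | j) h
  · have := Dg_inj h
    have := e.injective this
    rw [show i = j from Multiplicative.ofAdd.injective this]
  · exact absurd h (Dg_ne_Sg _ _)
  · exact absurd h.symm (Dg_ne_Sg _ _)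
  · have := Sg_inj h
    have := e.injective this
    have h2 : -i = -j := Multiplicative.ofAdd.injective this
    rw [neg_injective h2]

theorem rep_range {N : ℕ} (e : Multiplicative (ZMod N) ≃* Fˣ) :
    (rep e).range = isometryGroup F (quadFormPlus 1 F) := by
  ext g
  constructor
  · rintro ⟨x, rfl⟩
    rcases x with i | i
    · exact Dg_mem _
    · exact Sg_mem _
  · intro hg
    rcases mem_cases hg with ⟨u, rfl⟩ | ⟨u, rfl⟩
    · refine ⟨.r (Multiplicative.toAdd (e.symm u)), ?_⟩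
      show Dg (e (Multiplicative.ofAdd (Multiplicative.toAdd (e.symm u)))) = _
      simp
    · refine ⟨.sr (-(Multiplicative.toAdd (e.symm u))), ?_⟩
      show Sg (e (Multiplicative.ofAdd (-(-(Multiplicative.toAdd (e.symm u)))))) = _
      simp

theorem go2 {q : ℕ} (hF : Fintype.card F = q) :
    Nonempty (isometryGroup F (quadFormPlus 1 F) ≃* DihedralGroup (q - 1)) := by
  have hcard : Nat.card Fˣ = q - 1 := by
    classical
    rw [Nat.card_eq_fintype_card, Fintype.card_units, hF]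
  rw [← hcard]
  have hcyc : IsCyclic Fˣ := inferInstance
  let e := zmodCyclicMulEquiv hcyc
  exact ⟨((MonoidHom.ofInjective (rep_inj e)).trans (MulEquiv.subgroupCongr (rep_range e))).symm⟩

end

end Cfsg.Agent.H02.GO2
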