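import Cfsg.Agent.Lib.H27.GolayTrans
import Cfsg.Agent.Lib.H27.GolayD
import Cfsg.Agent.Lib.H27.GolayStab

/-!
Wrappers around the Golay code library.
-/

set_option autoImplicit false

namespace Cfsg.Agent.H02.Gol

open Cfsg Cfsg.Agent.H27.Golay
open scoped Pointwise

/-- The finrank of the code. -/
theorem golay_finrank : Module.finrank (ZMod 2) golayCode = 12 := by
  have hinj : Function.Injective (fun c : Fin 4096 => wd (cwF c)) := by
    intro c d h
    have hc := cw_low c c.2
    have hd := cw_low d d.2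
    rw [cw_eq_cwF c c.2] at hc
    rw [cw_eq_cwF d d.2] at hd
    have h2 := wd_injOn (cwF_lt c c.2) (cwF_lt d d.2) h
    apply Fin.ext
    rw [← hc, ← hd, h2]
  let e : Fin 4096 → golayCode := fun c => ⟨wd (cwF c), wd_cwF_mem c⟩
  have he : Function.Bijective e := by
    constructor
    · intro c d h
      exact hinj (congrArg Subtype.val h)
    · rintro ⟨w, hw⟩
      obtain ⟨c, hc, rfl⟩ := exists_cwF_of_mem hw
      exact ⟨⟨c, hc⟩, rfl⟩
  have hcard : Nat.card golayCode = 2 ^ 12 := by
    rw [← Nat.card_congr (Equiv.ofBijective e he)]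
    simp
  have h3 : Nat.card golayCode = Nat.card (ZMod 2) ^ Module.finrank (ZMod 2) golayCode :=
    Module.natCard_eq_pow_finrank
  rw [hcard, Nat.card_eq_fintype_card, ZMod.card] at h3
  exact (Nat.pow_right_injective (le_refl 2) h3).symm

theorem golay_weights (w : GolayPt → ZMod 2) (hw : w ∈ golayCode) :
    hammingNorm w = 0 ∨ hammingNorm w = 8 ∨ hammingNorm w = 12 ∨ hammingNorm w = 16 ∨
      hammingNorm w = 24 := by
  have hs : support₂ w ∈ supports (golayCode : Set (GolayPt → ZMod 2)) := ⟨w, hw, rfl⟩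
  have hcard : hammingNorm w = (support₂ w).card := rfl
  rw [hcard]
  rcases supports_weights hs with h | ⟨h1, h2⟩
  · left; rw [h]; rfl
  · have hcompl : (support₂ w)ᶜ ∈ supports (golayCode : Set (GolayPt → ZMod 2)) := by
      have h3 : (support₂ (1 + w)) = (support₂ w)ᶜ := by
        ext p
        simp only [support₂, Finset.mem_filter, Finset.mem_univ, true_and, Finset.mem_compl]
        have : ∀ a : ZMod 2, ((1 : ZMod 2) + a ≠ 0) ↔ ¬ (a ≠ 0) := by decide
        exact this (w p)
      rw [← h3]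
      refine ⟨1 + w, ?_, rfl⟩
      exact golayCode.add_mem (Submodule.subset_span (Or.inr rfl)) hw
    have hc2 : (support₂ w)ᶜ.card = 24 - (support₂ w).card := by
      rw [Finset.card_compl]
      rfl
    have hle : (support₂ w).card ≤ 24 := by
      have := Finset.card_le_univ (support₂ w)
      simpa using this
    rcases supports_weights hcompl with h | ⟨h3, h4⟩
    · rw [h] at hc2
      simp only [Finset.card_empty] at hc2
      have : (support₂ w).card = 24 := by omega
      omega
    · rw [hc2] at h3 h4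
      obtain ⟨k, hk⟩ := h2
      obtain ⟨l, hl⟩ := h4
      have : k ≤ 6 := by omega
      interval_cases k <;> omega

/-- The dot product with a fixed word, as a submodule of its kernel. -/
def dotKer (w : GolayPt → ZMod 2) : Submodule (ZMod 2) (GolayPt → ZMod 2) where
  carrier := {v | ∑ i, v i * w i = 0}
  add_mem' := by
    intro a b ha hb
    show ∑ i, (a i + b i) * w i = 0
    simp only [add_mul, Finset.sum_add_distrib]
    rw [show ∑ i, a i * w i = 0 from ha, show ∑ i, b i * w i = 0 from hb, add_zero]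
  zero_mem' := by
    show ∑ i, (0 : GolayPt → ZMod 2) i * w i = 0
    simp
  smul_mem' := by
    intro c a ha
    show ∑ i, (c * a i) * w i = 0
    simp only [mul_assoc]
    rw [← Finset.mul_sum, show ∑ i, a i * w i = 0 from ha, mul_zero]

theorem basis_dot : ∀ a ∈ basisL, ∀ b ∈ basisL, ∑ i, wd a i * wd b i = 0 := by
  decide +kernel

theorem golay_self_orth (v w : GolayPt → ZMod 2) (hv : v ∈ golayCode) (hw : w ∈ golayCode) :
    ∑ i, v i * w i = 0 := by
  obtain ⟨c, _, rfl⟩ := exists_cwF_of_mem hv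
  obtain ⟨d, _, rfl⟩ := exists_cwF_of_mem hw
  have h1 : ∀ a ∈ basisL, wd (cwF d) ∈ dotKer (wd a) := by
    intro a ha
    have := wd_cwAux_mem (dotKer (wd a)) basisL (fun b hb => by
      show ∑ i, wd b i * wd a i = 0
      exact basis_dot b hb a ha) d
    exact this
  have h2 : wd (cwF c) ∈ dotKer (wd (cwF d)) := by
    apply wd_cwAux_mem
    intro a ha
    have := h1 a ha
    show ∑ i, wd a i * wd (cwF d) i = 0
    have h3 : ∑ i, wd (cwF d) i * wd a i = 0 := this
    rw [← h3]
    exact Finset.sum_congr rfl fun i _ => mul_comm _ _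
  exact h2

theorem five_pretrans : MulAction.IsMultiplyPretransitive M24 GolayPt 5 := by
  constructor
  intro x y
  obtain ⟨g, hg, hgi⟩ := five_transitive x y x.injective y.injective
  refine ⟨⟨g, hg⟩, ?_⟩
  apply Function.Embedding.ext
  intro i
  exact hgi i

theorem octad_trans (o o' : Finset GolayPt) (ho : o ∈ octads) (ho' : o' ∈ octads) :
    ∃ g : M24, g • o = o' := by
  obtain ⟨a, ha, rfl⟩ := exists_smul_O0 ho
  obtain ⟨b, hb, rfl⟩ := exists_smul_O0 ho'
  refine ⟨⟨b * a⁻¹, M24.mul_mem hb (M24.inv_mem ha)⟩, ?_⟩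
  show (b * a⁻¹) • a • fs O0 = b • fs O0
  rw [mul_smul, inv_smul_smul]

theorem dodecad_trans (o o' : Finset GolayPt) (ho : o ∈ dodecads) (ho' : o' ∈ dodecads) :
    ∃ g : M24, g • o = o' := by
  obtain ⟨a, ha, rfl⟩ := exists_smul_D0 ho
  obtain ⟨b, hb, rfl⟩ := exists_smul_D0 ho'
  refine ⟨⟨b * a⁻¹, M24.mul_mem hb (M24.inv_mem ha)⟩, ?_⟩
  show (b * a⁻¹) • a • fs D0m = b • fs D0m
  rw [mul_smul, inv_smul_smul]

end Cfsg.Agent.H02.Gol
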