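import Cfsg.Agent.Lib.H02.Gol2

/-!
The group `M24` is generated by the shift, `-1/x` and the cube twist:
a straight-line program for the transversals of the stabiliser chain.
-/

set_option autoImplicit false

namespace Cfsg.Agent.H02.Gol

open Cfsg Cfsg.Agent.H27.Golay
open scoped Pointwise

/-- One step of a straight-line program: the head of the list is the latest register. -/
def slpStep (regs : List ℕ) (s : ℕ × ℕ) : List ℕ :=
  Bool.rec (pcomp (regs.getD s.1 (regs.headD 0)) (regs.getD s.2 (regs.headD 0)))
    (pinv (regs.getD s.1 (regs.headD 0))) (Nat.ble 1048576 s.2) :: regs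

theorem getD_headD_mem {regs : List ℕ} (h : regs ≠ []) (i : ℕ) : regs.getD i (regs.headD 0) ∈ regs := by
  cases regs with
  | nil => exact absurd rfl h
  | cons a as =>
    by_cases hi : i < (a :: as).length
    · rw [List.getD_eq_getElem _ _ hi]
      exact List.getElem_mem _
    · rw [List.getD_eq_default _ _ (not_lt.mp hi)]
      simp

theorem slpStep_mem (H : Subgroup (Equiv.Perm GolayPt)) {regs : List ℕ} (h0 : regs ≠ [])
    (h : ∀ r ∈ regs, permOK r = true ∧ P r ∈ H) (s : ℕ × ℕ) :
    ∀ r ∈ slpStep regs s, permOK r = true ∧ P r ∈ H := by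
  intro r hr
  rw [slpStep, List.mem_cons] at hr
  rcases hr with rfl | hr
  · have ha := h _ (getD_headD_mem h0 s.1)
    have hb := h _ (getD_headD_mem h0 s.2)
    cases hc : Nat.ble 1048576 s.2 with
    | false =>
      show permOK (pcomp _ _) = true ∧ P (pcomp _ _) ∈ H
      refine ⟨permOK_pcomp ha.1 hb.1, ?_⟩
      rw [P_pcomp ha.1 hb.1]
      exact H.mul_mem ha.2 hb.2
    | true =>
      show permOK (pinv _) = true ∧ P (pinv _) ∈ H
      refine ⟨permOK_pinv ha.1, ?_⟩
      rw [P_pinv ha.1]
      exact H.inv_mem ha.2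
  · exact h r hr

theorem slp_mem (H : Subgroup (Equiv.Perm GolayPt)) (steps : List (ℕ × ℕ)) :
    ∀ {regs : List ℕ}, regs ≠ [] → (∀ r ∈ regs, permOK r = true ∧ P r ∈ H) →
      ∀ r ∈ steps.foldl slpStep regs, permOK r = true ∧ P r ∈ H := by
  induction steps with
  | nil =>
    intro regs _ h
    exact h
  | cons s ss ih =>
    intro regs h0 h
    rw [List.foldl_cons]
    exact ih (by simp [slpStep]) (slpStep_mem H h0 h s)

def slpSteps : List (ℕ × ℕ) := [(2,1048576), (3,0), (4,3), (5,0), (5,1), (5,2), (8,2), (8,3), (8,4), (9,4), (11,3), (13,3), (14,1), (15,1), (15,2), (15,1048576), (16,17), (14,0), (1,14), (1,18), (15,10), (22,5), (21,2), (0,7), (20,4), (15,5), (7,26), (28,2), (28,1), (8,5), (2,3), (9,2), (2,8), (9,1), (8,33), (2,8), (20,0), (3,17), (0,3), (12,14), (39,13), (2,14), (1,11), (8,14), (7,0), (9,3), (15,6), (20,4), (39,1048576), (0,1), (0,0), (1,0), (2,53), (55,0), (55,1), (10,7), (3,1048576), (0,1), (0,8), (9,1), (2,9), (11,2), (4,10), (5,2), (6,65), (65,0), (16,1), (20,25), (3,1048576), (0,1), (6,1048576), (0,1), (0,0),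 (1,23), (2,71), (3,22), (30,20), (2,1048576), (0,1), (16,1048576), (0,1), (0,9), (10,1), (2,2), (12,2), (13,1), (14,0), (6,37), (7,37), (31,1), (9,2), (10,88), (52,67), (26,1048576), (0,1), (4,1048576), (0,1), (10,1048576), (0,1), (0,0), (1,28), (2,28), (3,20), (31,0), (5,46), (6,31), (77,63), (104,1048576), (0,1), (4,1048576), (0,1), (8,1048576), (0,1), (14,0), (0,0), (1,16), (2,44), (3,67), (4,59), (12,71), (65,1048576), (0,1), (34,1048576), (0,1), (20,1048576), (0,1), (0,27), (28,1), (2,2), (15,3), (4,30), (5,50), (6,15), (7,83), (8,83), (9,61), (10,83), (11,133), (113,118), (135,1048576), (0,1), (51,1048576), (0,1), (61,1048576), (0,1), (29,0), (32,0), (33,0), (2,0), (3,50), (4,24), (5,21), (6,80), (7,36), (8,104), (9,97), (124,79), (100,0), (5,1048576), (0,1), (9,1048576), (0,1), (13,1048576), (0,1), (0,0), (1,51), (2,51), (3,0), (4,96), (5,119), (6,117), (7,165), (79,130), (1,1048576), (0,1), (5,1048576), (0,1), (65,0), (26,1048576), (0,1), (0,66), (1,0), (2,83), (3,57), (4,1), (5,113), (6,105), (7,114), (8,35), (9,139), (10,132),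 (148,135), (114,0), (135,1048576), (0,1), (8,1048576), (0,1), (71,1048576), (0,1), (18,1048576), (0,1), (0,87), (1,56), (2,23), (3,105), (4,133), (150,14), (153,1048576), (0,1), (150,1048576), (0,1), (57,1048576), (0,1), (8,1048576), (0,1), (13,1048576), (0,1), (0,16), (1,104), (2,39), (3,121), (4,94), (5,141), (181,175), (0,176), (149,1048576), (0,1), (33,0), (147,1048576), (0,1), (8,1048576), (0,1), (66,1048576), (0,1), (70,0), (0,34), (1,19), (2,19), (3,124), (4,93), (5,60), (6,60), (7,143), (8,117), (167,37), (74,1048576), (0,1), (158,1048576), (0,1), (147,1048576), (0,1), (136,0), (0,51), (1,36), (2,19), (3,37), (4,20), (5,20), (6,20), (7,145), (8,161), (9,134), (82,1), (11,191), (172,0), (0,138), (0,24), (0,103), (0,16), (216,152), (0,87), (0,51), (0,108), (0,36), (220,157), (0,92), (0,56), (0,113), (0,41), (213,173), (0,198), (0,114), (110,231), (0,130), (0,23), (0,66), (0,121), (0,35), (233,171), (0,106), (0,70), (0,127), (0,55), (228,205), (0,108), (0,114), (0,60), (126,161), (0,34), (0,170), (0,60), (0,136), (0,84), (166,253),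 (0,116), (0,177), (0,65), (0,71), (302,117), (0,228), (0,126), (0,130), (0,55), (175,208), (0,197), (0,187), (0,152), (0,99), (251,230), (0,187), (0,58), (0,119), (0,157), (0,88), (273,251), (0,225), (0,144), (0,110), (172,140), (0,145), (0,149), (0,166), (0,97), (271,200), (0,72), (0,96), (0,172), (0,102), (288,115), (0,134), (0,225), (0,176), (0,83), (254,270), (0,160), (0,105), (0,181), (0,89), (229,276), (0,165), (0,184), (0,186), (0,97), (247,167), (0,255), (0,151), (0,191), (0,156), (167,276), (0,137), (0,157), (0,197), (0,145), (305,282), (0,238), (0,200), (0,109), (231,250), (0,163), (0,127), (0,169), (266,286), (0,128), (0,131), (0,210), (0,140), (317,245), (0,135), (0,125), (209,191), (0,251), (0,178), (0,218), (0,128), (266,252), (0,124), (0,219), (0,135), (314,219), (0,263), (0,208), (0,226), (0,156), (259,291), (0,263), (0,228), (0,179), (207,228), (0,282), (0,158), (0,236), (0,145), (267,214), (0,277), (0,224), (0,241), (0,189), (347,325), (0,309), (0,229), (0,246), (0,176), (257,311), (0,192), (0,210), (0,251), (0,180),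 (315,155), (0,178), (0,167), (231,237), (0,306), (0,205), (342,162), (0,204), (0,172), (353,165), (0,260), (0,263), (0,228), (313,301), (0,250), (0,180), (300,333), (0,288), (0,271), (0,178), (231,253), (0,292), (0,274), (0,223), (177,180), (0,223), (0,187), (359,182), (0,203), (0,282), (0,191), (366,268), (0,285), (0,191), (379,208), (0,270), (0,288), (0,200), (268,327), (0,253), (0,292), (0,203), (290,196), (0,258), (0,297), (0,224), (310,334), (0,284), (0,301), (0,248), (281,223), (0,249), (0,305), (0,216), (370,287), (0,270), (0,256), (342,290), (0,309), (0,311), (0,239), (255,328), (0,237), (0,223), (398,298), (0,243), (0,319), (0,225), (222,305), (0,249), (244,285), (0,232), (376,288), (390,324), (0,232), (308,324), (0,328), (0,259), (274,242), (397,316), (0,332), (0,244), (314,259), (0,246), (373,260), (0,250), (376,261), (0,340), (0,270), (301,302), (0,342), (0,253), (378,394), (0,345), (0,276), (329,345), (0,348), (0,258), (254,350), (0,257), (367,276), (0,354), (0,282), (276,301), (0,357), (396,303), (0,287), (302,272), (263,379),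 (0,361), (0,289), (399,308), (0,365), (0,273), (289,366), (0,296), (366,281), (293,369), (0,276), (390,371), (0,280), (335,374), (0,301), (359,376), (0,304), (428,378), (0,305), (304,289), (365,381), (286,382), (0,288), (380,311), (367,314), (348,386), (0,292), (437,388), (0,352), (335,390), (0,319), (352,320), (337,393), (392,394), (0,307), (321,395), (397,309), (397,344)]

def slpInit : List ℕ := [cubeC, projC, shiftC]

def slpFinal : List ℕ := slpSteps.foldl slpStep slpInit

theorem T_in_final : allL (fun t => memL t slpFinal) (T1 ++ T2 ++ T3 ++ T4 ++ T5 ++ T6 ++ T7) = true := by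
  decide +kernel

theorem fix_le_of_level {H : Subgroup (Equiv.Perm GolayPt)} {l : List ℕ} {b m : ℕ} {T : List ℕ} (L : Level l b m T)
    (hT : ∀ t ∈ T, P t ∈ H) (hn : fixG (b :: l) ≤ H) : fixG l ≤ H := by
  intro g hg
  obtain ⟨t, ht, -, g', hg', rfl⟩ := L.exists_mul hg
  exact H.mul_mem (hT t ht) (hn hg')

theorem M24_generated : Subgroup.closure {Equiv.optionCongr (Equiv.addRight (1 : ZMod 23)), projInv, cubeTwist} = M24 := by
  set H := Subgroup.closure {Equiv.optionCongr (Equiv.addRight (1 : ZMod 23)), projInv, cubeTwist} with hH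
  apply le_antisymm
  · rw [hH, Subgroup.closure_le]
    rintro x (rfl | rfl | rfl)
    · exact shift_mem
    · exact projInv_mem
    · exact cubeTwist_mem
  have hinit : ∀ r ∈ slpInit, permOK r = true ∧ P r ∈ H := by
    intro r hr
    simp only [slpInit, List.mem_cons, List.not_mem_nil, or_false] at hr
    rcases hr with rfl | rfl | rfl
    · refine ⟨isM24_permOK cubeC_ok, ?_⟩
      rw [← cubeTwist_eq]
      exact Subgroup.subset_closure (by simp)
    · refine ⟨isM24_permOK projC_ok, ?_⟩
      rw [← projInv_eq]
      exact Subgroup.subset_closure (by simp)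
    · refine ⟨isM24_permOK shiftC_ok, ?_⟩
      rw [← shift_eq]
      exact Subgroup.subset_closure (by simp)
  have hfinal := slp_mem H slpSteps (regs := slpInit) (by simp [slpInit]) hinit
  have hT : ∀ t ∈ T1 ++ T2 ++ T3 ++ T4 ++ T5 ++ T6 ++ T7, P t ∈ H := by
    intro t ht
    have h1 := allL_spec T_in_final t ht
    exact (hfinal t ((memL_iff _ _).mp h1)).2
  have h7 : fixG [4, 5, 3, 2, 1, 0, 23] ≤ H := by
    rw [show ([4, 5, 3, 2, 1, 0, 23] : List ℕ) = baseL from rfl, fix_base_trivial]
    exact bot_le
  have h6 := fix_le_of_level level7 (fun t ht => hT t (by simp [ht])) h7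
  have h5 := fix_le_of_level level6 (fun t ht => hT t (by simp [ht])) h6
  have h4 := fix_le_of_level level5 (fun t ht => hT t (by simp [ht])) h5
  have h3 := fix_le_of_level level4 (fun t ht => hT t (by simp [ht])) h4
  have h2 := fix_le_of_level level3 (fun t ht => hT t (by simp [ht])) h3
  have h1 := fix_le_of_level level2 (fun t ht => hT t (by simp [ht])) h2
  have h0 := fix_le_of_level level1 (fun t ht => hT t (by simp [ht])) h1
  rwa [fixG_nil_eq] at h0

end Cfsg.Agent.H02.Gol
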