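import Cfsg.Agent.Lib.H02.Gol1

/-!
Explicit members of `M24`: shift, square multiplications, `-1/x`, and the cube twist.
-/

set_option autoImplicit false

namespace Cfsg.Agent.H02.Gol

open Cfsg Cfsg.Agent.H27.Golay
open scoped Pointwise

theorem perm_eq_P {g : Equiv.Perm GolayPt} {π : ℕ} (hπ : permOK π = true)
    (h : ∀ p : GolayPt, g p = pt (pa π (idx p))) : g = P π := by
  ext1 p
  rw [P_apply hπ, h]

def shiftC : ℕ := 956302485175575353788796878166559809
def projC : ℕ := 1795248432537898728475572672376535
def cubeC : ℕ := 974380510768821363662145534143076928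

theorem shiftC_ok : isM24 shiftC = true := by decide +kernel
theorem projC_ok : isM24 projC = true := by decide +kernel
theorem cubeC_ok : isM24 cubeC = true := by decide +kernel

theorem shift_eq : Equiv.optionCongr (Equiv.addRight (1 : ZMod 23)) = P shiftC :=
  perm_eq_P (isM24_permOK shiftC_ok) (by decide +kernel)

theorem projInv_eq : projInv = P projC :=
  perm_eq_P (isM24_permOK projC_ok) (by decide +kernel)

theorem cubeFun_ok : ∀ p : GolayPt, cubeTwistFun p = pt (pa cubeC (idx p)) := by decide +kernel

theorem cubeTwist_eq : cubeTwist = P cubeC :=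
  perm_eq_P (isM24_permOK cubeC_ok) cubeFun_ok

theorem shift_mem : Equiv.optionCongr (Equiv.addRight (1 : ZMod 23)) ∈ M24 := by
  rw [shift_eq]; exact P_mem_M24 shiftC_ok

theorem projInv_mem : projInv ∈ M24 := by
  rw [projInv_eq]; exact P_mem_M24 projC_ok

theorem cubeTwist_mem : cubeTwist ∈ M24 := by
  rw [cubeTwist_eq]; exact P_mem_M24 cubeC_ok

theorem mul_mem_aux (u : (ZMod 23)ˣ) (k : ZMod 23) (π : ℕ) (hu : (u : ZMod 23) = k)
    (hπ : isM24 π = true)
    (h : ∀ p : GolayPt, p.map (fun x => k * x) = pt (pa π (idx p))) :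
    Equiv.optionCongr (Units.mulLeft u) ∈ M24 := by
  have : Equiv.optionCongr (Units.mulLeft u) = P π := by
    apply perm_eq_P (isM24_permOK hπ)
    intro p
    rw [← h p, ← hu]
    rfl
  rw [this]
  exact P_mem_M24 hπ

theorem square_cases : ∀ r : ZMod 23, r ≠ 0 → r * r = 1 ∨ r * r = 2 ∨ r * r = 3 ∨ r * r = 4 ∨ r * r = 6 ∨ r * r = 8 ∨
    r * r = 9 ∨ r * r = 12 ∨ r * r = 13 ∨ r * r = 16 ∨ r * r = 18 := by decide +kernel

theorem mulSquare_mem (u : (ZMod 23)ˣ) (hu : IsSquare u) : Equiv.optionCongr (Units.mulLeft u) ∈ M24 := by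
  obtain ⟨r, rfl⟩ := hu
  have hr : (r : ZMod 23) ≠ 0 := by
    haveI : Fact (Nat.Prime 23) := ⟨by norm_num⟩
    exact r.ne_zero
  have hc : ((r * r : (ZMod 23)ˣ) : ZMod 23) = (r : ZMod 23) * r := rfl
  rcases square_cases r hr with h | h | h | h | h | h | h | h | h | h | h
  · exact mul_mem_aux _ 1 984818244535754528103549039458486304 (hc.trans h) (by decide +kernel) (by decide +kernel)
  · exact mul_mem_aux _ 2 983435072843990828779021698901151808 (hc.trans h) (by decide +kernel) (by decide +kernel)
  · exact mul_mem_aux _ 3 982051901153124072706648311500937312 (hc.trans h) (by decide +kernel) (by decide +kernel)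
  · exact mul_mem_aux _ 4 980668730378935070469623699575545984 (hc.trans h) (by decide +kernel) (by decide +kernel)
  · exact mul_mem_aux _ 6 977903326592794432676351619257413824 (hc.trans h) (by decide +kernel) (by decide +kernel)
  · exact mul_mem_aux _ 8 975166140090675008210365318152896768 (hc.trans h) (by decide +kernel) (by decide +kernel)
  · exact mul_mem_aux _ 9 973782968399780250007192978068752672 (hc.trans h) (by decide +kernel) (by decide +kernel)
  · exact mul_mem_aux _ 12 970567384681219435340729552166356352 (hc.trans h) (by decide +kernel) (by decide +kernel)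
  · exact mul_mem_aux _ 13 969184212989482915311201746032266656 (hc.trans h) (by decide +kernel) (by decide +kernel)
  · exact mul_mem_aux _ 16 965063883269089610517257152230401536 (hc.trans h) (by decide +kernel) (by decide +kernel)
  · exact mul_mem_aux _ 18 962298451038133363011374430748423744 (hc.trans h) (by decide +kernel) (by decide +kernel)

end Cfsg.Agent.H02.Gol
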