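import Cfsg.Agent.Lib.H02.Gol3
import Cfsg.Agent.Lib.H27.Plane4d

/-!
Collineations of the plane of order four attached to three points of the Golay system.
-/

set_option autoImplicit false

namespace Cfsg.Agent.H02.Gol

open Cfsg Cfsg.Agent.H27.Golay
open scoped Pointwise

section plane

open Cfsg.Agent.H27.Plane4

variable {α : Type*} [Fintype α] [DecidableEq α] {L : Set (Finset α)}

theorem plane_eq_one (h : Pl L) (g : Equiv.Perm α) (hg : ∀ l ∈ L, l.image g ∈ L) {l m : Finset α}
    (hl : l ∈ L) (hm : m ∈ L) (hne : l ≠ m) (h1 : ∀ x ∈ l, g x = x) (h2 : ∀ x ∈ m, g x = x) : g = 1 := by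
  ext1 z
  by_cases hzl : z ∈ l
  · exact h1 z hzl
  by_cases hzm : z ∈ m
  · exact h2 z hzm
  have hcard : 1 < (m \ l).card := by
    have h3 : (m \ l).card + (m ∩ l).card = m.card := Finset.card_sdiff_add_card_inter m l
    rw [h.card_line hm] at h3
    have h4 : (m ∩ l).card ≤ 1 := by
      rw [Finset.card_le_one]
      intro a ha b hb
      rw [Finset.mem_inter] at ha hb
      exact h.inter_le_one hl hm hne a b ha.2 ha.1 hb.2 hb.1
    omega
  obtain ⟨a, ha, b, hb, hab⟩ := Finset.one_lt_card.mp hcard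
  rw [Finset.mem_sdiff] at ha hb
  have aux : ∀ a, a ∈ m → a ∉ l → a ≠ z ∧ g z ∈ ln L a z := by
    intro a ham hal
    have haz : a ≠ z := fun e => hzm (e ▸ ham)
    refine ⟨haz, ?_⟩
    obtain ⟨c, hc1, hc2⟩ := h.lines_meet (h.ln_mem haz) hl
    have hac : a ≠ c := fun e => hal (e ▸ hc2)
    have himg := hg _ (h.ln_mem haz)
    have hga : a ∈ (ln L a z).image g := Finset.mem_image.mpr ⟨a, h.left_mem haz, h2 a ham⟩
    have hgc : c ∈ (ln L a z).image g := Finset.mem_image.mpr ⟨c, hc1, h1 c hc2⟩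
    have heq := h.line_unique himg (h.ln_mem haz) hac hga hgc (h.left_mem haz) hc1
    rw [← heq]
    exact Finset.mem_image_of_mem _ (h.right_mem haz)
  by_contra hgz
  obtain ⟨haz, ha2⟩ := aux a ha.1 ha.2
  obtain ⟨hbz, hb2⟩ := aux b hb.1 hb.2
  have hgz' : z ≠ g z := fun e => hgz e.symm
  have heq := h.line_unique (h.ln_mem haz) (h.ln_mem hbz) hgz' (h.right_mem haz) ha2 (h.right_mem hbz) hb2
  have hm2 : m = ln L a z := by
    apply h.line_unique hm (h.ln_mem haz) hab ha.1 hb.1 (h.left_mem haz)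
    rw [heq]
    exact h.left_mem hbz
  apply hzm
  rw [hm2]
  exact h.right_mem haz

end plane

variable {T : Finset GolayPt}

/-- The 21 points. -/
abbrev PtsX (T : Finset GolayPt) : Type := {x : GolayPt // x ∉ T}

/-- The lines. -/
def linesX (T : Finset GolayPt) : Set (Finset (PtsX T)) :=
  {l | ∃ o ∈ octads, T ⊆ o ∧ l = Finset.subtype (fun x => x ∉ T) o}

theorem card_subtype_X (o : Finset GolayPt) (h : T ⊆ o) :
    (Finset.subtype (fun x => x ∉ T) o).card = o.card - T.card := by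
  rw [Finset.card_subtype]
  have h1 : o.filter (fun x => x ∉ T) = o \ T := by
    ext x
    simp
  rw [h1, Finset.card_sdiff_of_subset h]

theorem card_X (hT : T.card = 3) : Fintype.card (PtsX T) = 21 := by
  rw [Fintype.card_subtype_compl]
  have h1 : Fintype.card {x // x ∈ T} = 3 := by
    rw [Fintype.card_coe, hT]
  have h2 : Fintype.card GolayPt = 24 := rfl
  omega

theorem plane_X (hT : T.card = 3) : Cfsg.Agent.H27.Plane4.Pl (linesX T) := by
  refine ⟨card_X hT, ?_, ?_⟩
  · rintro b ⟨o, ho, hTo, rfl⟩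
    rw [card_subtype_X o hTo, ho.2, hT]
  · intro s hs
    let S : Finset GolayPt := s.map (Function.Embedding.subtype _) ∪ T
    have hdis : Disjoint (s.map (Function.Embedding.subtype _)) T := by
      rw [Finset.disjoint_left]
      intro x hx
      obtain ⟨y, _, rfl⟩ := Finset.mem_map.mp hx
      exact y.2
    have hS : S.card = 5 := by
      show (s.map _ ∪ T).card = 5
      rw [Finset.card_union_of_disjoint hdis, Finset.card_map, hs, hT]
    obtain ⟨o, ⟨ho, hoS⟩, huniq⟩ := steiner_octads.2 S hS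
    have hTo : T ⊆ o := Finset.subset_union_right.trans hoS
    refine ⟨Finset.subtype _ o, ⟨⟨o, ho, hTo, rfl⟩, ?_⟩, ?_⟩
    · intro x hx
      rw [Finset.mem_subtype]
      exact hoS (Finset.mem_union_left _ (Finset.mem_map.mpr ⟨x, hx, rfl⟩))
    · rintro b ⟨⟨o', ho', hTo', rfl⟩, hsb⟩
      have : o' = o := huniq o' ⟨ho', by
        intro x hx
        rcases Finset.mem_union.mp hx with hx | hx
        · obtain ⟨y, hy, rfl⟩ := Finset.mem_map.mp hx
          exact Finset.mem_subtype.mp (hsb hy)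
        · exact hTo' hx⟩
      rw [this]

theorem collin_mem (hT : T.card = 3) (g : Equiv.Perm (PtsX T)) (hg : ∀ l ∈ linesX T, l.image g ∈ linesX T)
    (hinv : g * g = 1) {l : Finset (PtsX T)} (hl : l ∈ linesX T) (hfix : ∀ x, g x = x ↔ x ∈ l) :
    Equiv.Perm.ofSubtype g ∈ M24 := by
  have hP := plane_X hT
  obtain ⟨o, ho, hTo, rfl⟩ := hl
  set l := Finset.subtype (fun x => x ∉ T) o with hldef
  have hg2 : ∀ x, g (g x) = x := fun x => by
    have := congrArg (fun f => f x) hinv
    exact this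
  have hlcard : l.card = 5 := by rw [hldef, card_subtype_X o hTo, ho.2, hT]
  obtain ⟨x₀, hx₀⟩ : ∃ x, x ∉ l := by
    by_contra hall
    push Not at hall
    have h1 : l = Finset.univ := Finset.eq_univ_iff_forall.mpr hall
    have h2 := Finset.card_univ (α := PtsX T)
    rw [← h1, hlcard, card_X hT] at h2
    omega
  set y := g x₀ with hy
  have hgx₀ : g x₀ ≠ x₀ := fun e => hx₀ ((hfix x₀).mp e)
  have hyl : y ∉ l := by
    intro hc
    have h1 := (hfix y).mpr hc
    rw [hy, hg2] at h1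
    exact hgx₀ h1.symm
  have hmem : ∀ z : PtsX T, z ∈ l ↔ (z : GolayPt) ∈ o := by
    intro z
    rw [hldef, Finset.mem_subtype]
  obtain ⟨ε, hε, hεx⟩ := Cfsg.Agent.H07.Orb.exists_fix_move ho (mt (hmem x₀).mpr hx₀) (mt (hmem y).mpr hyl)
  have hεfix : ∀ z ∈ o, ε z = z := fun z hz =>
    (mem_fixingSubgroup_iff (Equiv.Perm GolayPt)).mp hε.2 z (Finset.mem_coe.mpr hz)
  have hεT : ∀ z ∈ T, ε z = z := fun z hz => hεfix z (hTo hz)
  have hεinv : ε * ε = 1 := (octad_fix_card_invol o ho).2 ε hε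
  have hε2 : ∀ z, ε (ε z) = z := fun z => by
    have := congrArg (fun f => f z) hεinv
    exact this
  have hεX : ∀ z, z ∉ T ↔ ε z ∉ T := by
    intro z
    constructor
    · intro hz hc
      have := hεT _ hc
      rw [hε2] at this
      exact hz (this ▸ hc)
    · intro hz hc
      exact hz (by rw [hεT z hc]; exact hc)
  let ε' : Equiv.Perm (PtsX T) := ε.subtypePerm (fun z => (hεX z).symm)
  have hε'coe : ∀ z : PtsX T, ((ε' z : PtsX T) : GolayPt) = ε z := fun z => rfl
  have hε'2 : ∀ z, ε' (ε' z) = z := fun z => Subtype.ext (hε2 z.1)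
  have hε'x : ε' x₀ = y := Subtype.ext hεx
  have hε'y : ε' y = x₀ := by rw [← hε'x, hε'2]
  have hε'l : ∀ z ∈ l, ε' z = z := fun z hz => Subtype.ext (hεfix z.1 ((hmem z).mp hz))
  have hε'no : ∀ z, ε' z = z → z ∈ l := by
    intro z hz
    by_contra hzl
    have hz' : (z : GolayPt) ∉ o := mt (hmem z).mpr hzl
    have h1 := Cfsg.Agent.H07.Orb.split_bot ho hz'
    have h2 : ε ∈ (M24 ⊓ fixingSubgroup (Equiv.Perm GolayPt) (o : Set GolayPt)) ⊓
      (M24 ⊓ MulAction.stabilizer (Equiv.Perm GolayPt) o ⊓ MulAction.stabilizer (Equiv.Perm GolayPt) (z : GolayPt)) := by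
      refine ⟨hε, ⟨hε.1, (Cfsg.Agent.H07.Orb.fixing_le hε).2⟩, ?_⟩
      show ε z = z
      exact congrArg Subtype.val hz
    rw [h1, Subgroup.mem_bot] at h2
    have h3 : ε' x₀ = x₀ := by
      apply Subtype.ext
      rw [hε'coe, h2]
      rfl
    rw [hε'x] at h3
    exact hgx₀ h3
  have hε'lines : ∀ b ∈ linesX T, b.image ε' ∈ linesX T := by
    rintro b ⟨o', ho', hTo', rfl⟩
    refine ⟨ε • o', smul_mem_octads hε.1 ho', ?_, ?_⟩
    · intro z hz
      rw [← hεT z hz]
      exact Finset.smul_mem_smul_finset (hTo' hz)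
    · ext z
      simp only [Finset.mem_image, Finset.mem_subtype]
      constructor
      · rintro ⟨w, hw, rfl⟩
        exact Finset.smul_mem_smul_finset hw
      · intro hz
        obtain ⟨a, ha, ha2⟩ := Finset.mem_smul_finset.mp hz
        have haT : a ∉ T := by
          intro hc
          apply z.2
          rw [← ha2]
          show ε a ∈ T
          rw [hεT a hc]
          exact hc
        exact ⟨⟨a, haT⟩, ha, Subtype.ext ha2⟩
  -- the line through `x₀` and `y`
  have hxy : x₀ ≠ y := fun e => hgx₀ e.symm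
  open Cfsg.Agent.H27.Plane4 in
  set m := ln (linesX T) x₀ y with hm
  open Cfsg.Agent.H27.Plane4 in
  have hmL : m ∈ linesX T := hP.ln_mem hxy
  open Cfsg.Agent.H27.Plane4 in
  have hxm : x₀ ∈ m := hP.left_mem hxy
  open Cfsg.Agent.H27.Plane4 in
  have hym : y ∈ m := hP.right_mem hxy
  have hlL : l ∈ linesX T := ⟨o, ho, hTo, rfl⟩
  have hpres : ∀ f : Equiv.Perm (PtsX T), (∀ b ∈ linesX T, b.image f ∈ linesX T) → f x₀ = y → f y = x₀ →
      ∀ z ∈ m, f z ∈ m := by
    intro f hf h1 h2 z hz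
    have h3 := hf m hmL
    have h4 : y ∈ m.image f := Finset.mem_image.mpr ⟨x₀, hxm, h1⟩
    have h5 : x₀ ∈ m.image f := Finset.mem_image.mpr ⟨y, hym, h2⟩
    have h6 := hP.line_unique h3 hmL hxy h5 h4 hxm hym
    rw [← h6]
    exact Finset.mem_image_of_mem _ hz
  have hgm := hpres g hg rfl (hg2 x₀)
  have hεm := hpres ε' hε'lines hε'x hε'y
  obtain ⟨w, hwm, hwl⟩ := hP.lines_meet hmL hlL
  have hgw : g w = w := (hfix w).mpr hwl
  have hεw : ε' w = w := hε'l w hwl
  have hne : l ≠ m := fun e => hx₀ (e ▸ hxm)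
  have hml : ∀ z ∈ m, z ∈ l → z = w := fun z hz hz' => hP.inter_le_one hlL hmL hne z w hz' hz hwl hwm
  have hmfix : ∀ z ∈ m, ε' (g z) = z := by
    intro z hz
    by_cases hz1 : z = x₀
    · rw [hz1, ← hy, hε'y]
    by_cases hz2 : z = y
    · rw [hz2, hy, hg2, hε'x]
    by_cases hz3 : z = w
    · rw [hz3, hgw, hεw]
    have hzl : z ∉ l := fun hc => hz3 (hml z hz hc)
    have hgz1 : g z ≠ x₀ := fun e => hz2 (by rw [hy, ← e, hg2])
    have hgz2 : g z ≠ y := fun e => hz1 (by rw [← hg2 z, e, hy, hg2])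
    have hgz3 : g z ≠ w := fun e => hz3 (by rw [← hg2 z, e, hgw])
    have hgz4 : g z ≠ z := fun e => hzl ((hfix z).mp e)
    have hεz1 : ε' z ≠ x₀ := fun e => hz2 (by rw [← hε'2 z, e, hε'x])
    have hεz2 : ε' z ≠ y := fun e => hz1 (by rw [← hε'2 z, e, hε'y])
    have hεz3 : ε' z ≠ w := fun e => hz3 (by rw [← hε'2 z, e, hεw])
    have hεz4 : ε' z ≠ z := fun e => hzl (hε'no z e)
    have hcardm : m.card = 5 := hP.card_line hmL
    have hW : ({x₀, y, w, z} : Finset (PtsX T)).card = 4 := by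
      have hxw : x₀ ≠ w := fun e => hx₀ (e ▸ hwl)
      have hyw : y ≠ w := fun e => hyl (e ▸ hwl)
      rw [Finset.card_insert_of_notMem, Finset.card_insert_of_notMem, Finset.card_insert_of_notMem,
        Finset.card_singleton]
      · simpa using fun e : w = z => hz3 e.symm
      · simpa using ⟨hyw, fun e : y = z => hz2 e.symm⟩
      · simpa using ⟨hxy, hxw, fun e : x₀ = z => hz1 e.symm⟩
    have hsub : ({x₀, y, w, z} : Finset (PtsX T)) ⊆ m := by
      intro a ha
      simp only [Finset.mem_insert, Finset.mem_singleton] at ha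
      rcases ha with rfl | rfl | rfl | rfl
      · exact hxm
      · exact hym
      · exact hwm
      · exact hz
    have hrest : (m \ {x₀, y, w, z}).card ≤ 1 := by
      rw [Finset.card_sdiff_of_subset hsub, hcardm, hW]
    have hA : g z ∈ m \ {x₀, y, w, z} := by
      rw [Finset.mem_sdiff]
      refine ⟨hgm z hz, ?_⟩
      simp only [Finset.mem_insert, Finset.mem_singleton, not_or]
      exact ⟨hgz1, hgz2, hgz3, hgz4⟩
    have hB : ε' z ∈ m \ {x₀, y, w, z} := by
      rw [Finset.mem_sdiff]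
      refine ⟨hεm z hz, ?_⟩
      simp only [Finset.mem_insert, Finset.mem_singleton, not_or]
      exact ⟨hεz1, hεz2, hεz3, hεz4⟩
    have heq := Finset.card_le_one.mp hrest _ hA _ hB
    rw [heq, hε'2]
  have hone : ε' * g = 1 := by
    apply plane_eq_one hP (ε' * g) ?_ hlL hmL hne
    · intro z hz
      show ε' (g z) = z
      rw [(hfix z).mpr hz, hε'l z hz]
    · exact hmfix
    · intro b hb
      have := hε'lines _ (hg b hb)
      rwa [Finset.image_image] at this
  have hgε : ∀ z, g z = ε' z := by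
    intro z
    have h1 : ε' (g z) = z := congrArg (fun f => f z) hone
    rw [← hε'2 (g z), h1]
  have hfinal : Equiv.Perm.ofSubtype g = ε := by
    ext1 z
    by_cases hz : z ∉ T
    · have h1 := Equiv.Perm.ofSubtype_apply_of_mem (p := fun x => x ∉ T) g hz
      rw [h1, hgε]
      rfl
    · have hz' : z ∈ T := not_not.mp hz
      rw [Equiv.Perm.ofSubtype_apply_of_not_mem (p := fun x => x ∉ T) g hz, hεT z hz']
  rw [hfinal]
  exact hε.1

end Cfsg.Agent.H02.Gol
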