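import Cfsg.Agent.Lib.H02.Gol5

/-!
The projective plane over a field with four elements, and the action of `SL₃`.
-/

set_option autoImplicit false

namespace Cfsg.Agent.H02.Gol

open Cfsg
open scoped LinearAlgebra.Projectivization

variable {F : Type} [Field F] [Fintype F]

/-- The points. -/
abbrev PP (F : Type) [Field F] : Type := ℙ F (Fin 3 → F)

noncomputable instance : Fintype (PP F) := Fintype.ofFinite _

noncomputable instance : DecidableEq (PP F) := Classical.decEq _

/-- The points on a subspace. -/
noncomputable def lineP (W : Submodule F (Fin 3 → F)) : Finset (PP F) :=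
  haveI := Classical.decPred (fun y : PP F => y.submodule ≤ W)
  Finset.univ.filter (fun y : PP F => y.submodule ≤ W)

theorem mem_lineP {W : Submodule F (Fin 3 → F)} {y : PP F} : y ∈ lineP W ↔ y.submodule ≤ W := by
  simp [lineP]

theorem mk_mem_lineP {W : Submodule F (Fin 3 → F)} {v : Fin 3 → F} (hv : v ≠ 0) :
    Projectivization.mk F v hv ∈ lineP W ↔ v ∈ W := by
  rw [mem_lineP, Projectivization.submodule_mk, Submodule.span_singleton_le_iff_mem]

/-- The lines. -/
def planeP (F : Type) [Field F] [Fintype F] : Set (Finset (PP F)) :=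
  {l | ∃ W : Submodule F (Fin 3 → F), Module.finrank F W = 2 ∧ l = lineP W}

theorem card_PP (hF : Fintype.card F = 4) : Fintype.card (PP F) = 21 := by
  have h1 : Module.finrank F (Fin 3 → F) = 3 := by simp
  have h2 := Projectivization.card_of_finrank F (Fin 3 → F) h1
  rw [Nat.card_eq_fintype_card, Nat.card_eq_fintype_card, hF] at h2
  rw [h2]
  decide

theorem card_lineP (hF : Fintype.card F = 4) {W : Submodule F (Fin 3 → F)} (hW : Module.finrank F W = 2) :
    (lineP W).card = 5 := by
  classical
  have hinj : Function.Injective W.subtype := W.injective_subtype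
  haveI : Fintype (ℙ F W) := Fintype.ofFinite _
  let φ : ℙ F W → PP F := Projectivization.map W.subtype hinj
  have hφ : Function.Injective φ := Projectivization.map_injective _ hinj
  have himg : lineP W = Finset.univ.image φ := by
    ext y
    induction y using Projectivization.ind with
    | h v hv =>
    rw [mk_mem_lineP, Finset.mem_image]
    constructor
    · intro h
      have hne : (⟨v, h⟩ : W) ≠ 0 := fun e => hv (congrArg Subtype.val e)
      exact ⟨Projectivization.mk F ⟨v, h⟩ hne, Finset.mem_univ _, rfl⟩
    · rintro ⟨z, -, hz⟩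
      induction z using Projectivization.ind with
      | h w hw =>
      have h1 : φ (Projectivization.mk F w hw) = Projectivization.mk F w.1 (fun e => hw (Subtype.ext e)) := rfl
      rw [h1, eq_comm, Projectivization.mk_eq_mk_iff'] at hz
      obtain ⟨a, ha⟩ := hz
      rw [← ha]
      exact W.smul_mem _ w.2
  rw [himg, Finset.card_image_of_injective _ hφ, Finset.card_univ]
  have h2 := Projectivization.card_of_finrank_two F W hW
  rw [Nat.card_eq_fintype_card, Nat.card_eq_fintype_card, hF] at h2
  rw [h2]

theorem plane_steiner (hF : Fintype.card F = 4) : IsSteinerSystem 2 5 (planeP F) := by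
  constructor
  · rintro b ⟨W, hW, rfl⟩
    exact card_lineP hF hW
  · intro s hs
    obtain ⟨x, y, hxy, rfl⟩ := Finset.card_eq_two.mp hs
    have hli := Projectivization.linearIndependent_pair_iff_ne.mpr hxy
    set W := Submodule.span F (Set.range ![x.rep, y.rep]) with hWdef
    have hW : Module.finrank F W = 2 := by
      rw [hWdef, finrank_span_eq_card hli]
      simp
    have hxW : x.rep ∈ W := Submodule.subset_span ⟨0, rfl⟩
    have hyW : y.rep ∈ W := Submodule.subset_span ⟨1, rfl⟩
    have hmem : ∀ (z : PP F) (W' : Submodule F (Fin 3 → F)), z ∈ lineP W' ↔ z.rep ∈ W' := by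
      intro z W'
      rw [mem_lineP, Projectivization.submodule_eq, Submodule.span_singleton_le_iff_mem]
    refine ⟨lineP W, ⟨⟨W, hW, rfl⟩, ?_⟩, ?_⟩
    · intro z hz
      simp only [Finset.mem_insert, Finset.mem_singleton] at hz
      rcases hz with rfl | rfl
      · exact (hmem _ _).mpr hxW
      · exact (hmem _ _).mpr hyW
    · rintro b ⟨⟨W', hW', rfl⟩, hsb⟩
      have h1 : x.rep ∈ W' := (hmem _ _).mp (hsb (by simp))
      have h2 : y.rep ∈ W' := (hmem _ _).mp (hsb (by simp))
      have hle : W ≤ W' := by
        rw [hWdef, Submodule.span_le]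
        rintro _ ⟨i, rfl⟩
        fin_cases i
        · exact h1
        · exact h2
      rw [Submodule.eq_of_le_of_finrank_eq hle (by rw [hW, hW'])]

/-! ### The action of `SL₃` -/

abbrev SL3 (F : Type) [Field F] := Matrix.SpecialLinearGroup (Fin 3) F

/-- The linear equivalence of a matrix. -/
noncomputable def slEquiv (A : SL3 F) : (Fin 3 → F) ≃ₗ[F] (Fin 3 → F) :=
  DistribMulAction.toLinearEquiv F (Fin 3 → F) A

theorem slEquiv_apply (A : SL3 F) (v : Fin 3 → F) : slEquiv A v = A • v := rfl

theorem smul_mem_lineP_map (A : SL3 F) (W : Submodule F (Fin 3 → F)) (y : PP F) :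
    A • y ∈ lineP (W.map (slEquiv A).toLinearMap) ↔ y ∈ lineP W := by
  induction y using Projectivization.ind with
  | h v hv =>
  rw [Projectivization.smul_mk, mk_mem_lineP, mk_mem_lineP]
  constructor
  · rintro ⟨w, hw, hwv⟩
    have : w = v := (slEquiv A).injective hwv
    exact this ▸ hw
  · intro h
    exact ⟨v, h, rfl⟩

theorem image_lineP (A : SL3 F) (W : Submodule F (Fin 3 → F)) :
    (lineP W).image (fun y => A • y) = lineP (W.map (slEquiv A).toLinearMap) := by
  ext y
  rw [Finset.mem_image]
  constructor
  · rintro ⟨z, hz, rfl⟩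
    exact (smul_mem_lineP_map A W z).mpr hz
  · intro h
    refine ⟨A⁻¹ • y, ?_, smul_inv_smul A y⟩
    rw [← smul_mem_lineP_map A W, smul_inv_smul]
    exact h

theorem image_mem_planeP (A : SL3 F) {l : Finset (PP F)} (hl : l ∈ planeP F) :
    l.image (fun y => A • y) ∈ planeP F := by
  obtain ⟨W, hW, rfl⟩ := hl
  refine ⟨W.map (slEquiv A).toLinearMap, ?_, image_lineP A W⟩
  rw [← hW]
  exact LinearEquiv.finrank_map_eq (slEquiv A) W

section transvection

variable {i j : Fin 3} (hij : i ≠ j) (c : F)

theorem transvection_smul_apply (v : Fin 3 → F) (k : Fin 3) :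
    ((Matrix.SpecialLinearGroup.transvection hij c : SL3 F) • v) k = v k + if k = i then c * v j else 0 := by
  rw [Matrix.SpecialLinearGroup.smul_def, Matrix.SpecialLinearGroup.transvection_coe,
    Matrix.smul_eq_mulVec, Matrix.add_mulVec, Matrix.one_mulVec, Pi.add_apply]
  congr 1
  simp only [Matrix.mulVec, dotProduct, Matrix.single_apply]
  by_cases hk : k = i
  · subst hk
    simp
  · simp [hk, Ne.symm hk]

/-- The plane `v_j = 0`. -/
def kerW (j : Fin 3) : Submodule F (Fin 3 → F) := LinearMap.ker (LinearMap.proj j : (Fin 3 → F) →ₗ[F] F)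

theorem mem_kerW {v : Fin 3 → F} : v ∈ kerW j ↔ v j = 0 := Iff.rfl

theorem finrank_kerW : Module.finrank F (kerW (F := F) j) = 2 := by
  have h1 := LinearMap.finrank_range_add_finrank_ker (LinearMap.proj j : (Fin 3 → F) →ₗ[F] F)
  have h2 : LinearMap.range (LinearMap.proj j : (Fin 3 → F) →ₗ[F] F) = ⊤ :=
    LinearMap.range_eq_top.mpr (LinearMap.proj_surjective j)
  rw [h2, finrank_top] at h1
  have h3 : Module.finrank F (Fin 3 → F) = 3 := by simp
  have h4 : Module.finrank F F = 1 := Module.finrank_self F
  show Module.finrank F (LinearMap.ker (LinearMap.proj j : (Fin 3 → F) →ₗ[F] F)) = 2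
  omega

theorem transvection_fix_iff (hc : c ≠ 0) (y : PP F) :
    (Matrix.SpecialLinearGroup.transvection hij c : SL3 F) • y = y ↔ y ∈ lineP (kerW j) := by
  induction y using Projectivization.ind with
  | h v hv =>
  rw [Projectivization.smul_mk, mk_mem_lineP, mem_kerW, Projectivization.mk_eq_mk_iff']
  constructor
  · rintro ⟨a, ha⟩
    have hj := congrFun ha j
    have hi := congrFun ha i
    rw [Pi.smul_apply, transvection_smul_apply, if_neg hij.symm, add_zero, smul_eq_mul] at hj
    rw [Pi.smul_apply, transvection_smul_apply, if_pos rfl, smul_eq_mul] at hi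
    by_contra hvj
    have ha1 : a = 1 := by
      have : (a - 1) * v j = 0 := by rw [sub_mul, hj, one_mul, sub_self]
      rcases mul_eq_zero.mp this with h | h
      · exact sub_eq_zero.mp h
      · exact absurd h hvj
    rw [ha1, one_mul] at hi
    have : c * v j = 0 := by
      have h2 : v i + c * v j = v i + 0 := by rw [add_zero]; exact hi.symm
      exact add_left_cancel h2
    rcases mul_eq_zero.mp this with h | h
    · exact hc h
    · exact hvj h
  · intro h
    refine ⟨1, ?_⟩
    rw [one_smul]
    funext k
    rw [transvection_smul_apply, h, mul_zero, ite_self, add_zero]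

theorem transvection_sq (hF : Fintype.card F = 4) :
    (Matrix.SpecialLinearGroup.transvection hij c : SL3 F) * Matrix.SpecialLinearGroup.transvection hij c = 1 := by
  have h2 : (2 : F) = 0 := by
    have h := FiniteField.cast_card_eq_zero F
    rw [hF] at h
    have h3 : (2 : F) * 2 = 0 := by
      have : (4 : F) = 2 * 2 := by norm_num
      rw [← this]
      exact_mod_cast h
    exact mul_self_eq_zero.mp h3
  apply Subtype.ext
  show ((Matrix.SpecialLinearGroup.transvection hij c : SL3 F) : Matrix (Fin 3) (Fin 3) F) *
    ((Matrix.SpecialLinearGroup.transvection hij c : SL3 F) : Matrix (Fin 3) (Fin 3) F) = 1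
  simp only [Matrix.SpecialLinearGroup.transvection_coe]
  have e : Matrix.single i j c * Matrix.single i j c = (0 : Matrix (Fin 3) (Fin 3) F) :=
    Matrix.single_mul_single_of_ne _ _ _ _ hij.symm _
  simp only [add_mul, mul_add, mul_one, one_mul, e, add_zero]
  rw [add_assoc]
  have h3 : Matrix.single i j c + Matrix.single i j c = (0 : Matrix (Fin 3) (Fin 3) F) := by
    rw [← Matrix.single_add, ← two_mul, h2, zero_mul, Matrix.single_zero]
  rw [h3, add_zero]

end transvection

end Cfsg.Agent.H02.Gol
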