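import Cfsg.Agent.Lib.H02.Gol6
import Cfsg.Agent.S5626
import Cfsg.Agent.Lib.Lead.SLn
import Cfsg.Agent.Lib.Lead.CardSL
import Cfsg.Agent.Lib.H07.GolayM12

/-!
The three-point stabiliser in `M24` is `PSL₃(4)`.
-/

set_option autoImplicit false

namespace Cfsg.Agent.H02.Gol

open Cfsg Cfsg.Agent.H27.Golay
open scoped Pointwise LinearAlgebra.Projectivization

theorem card_three_stab {p q r : GolayPt} (hpq : p ≠ q) (hpr : p ≠ r) (hqr : q ≠ r) :
    Nat.card ↥(MulAction.stabilizer M24 p ⊓ MulAction.stabilizer M24 q ⊓ MulAction.stabilizer M24 r) = 20160 := by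
  refine Cfsg.Agent.H07.Orb.card_inf_eq (G := ↥M24) (β := GolayPt)
    (MulAction.stabilizer M24 p ⊓ MulAction.stabilizer M24 q) r {y | y ≠ p ∧ y ≠ q} (a := 20160) (b := 22)
    (by norm_num) ?_ ?_ ?_ ?_
  · have h1 : ({y | y ≠ p ∧ y ≠ q} : Set GolayPt) = (({p, q} : Finset GolayPt) : Set GolayPt)ᶜ := by
      ext y
      simp
    rw [h1, Set.ncard_compl, Set.ncard_coe_finset, Finset.card_pair hpq, card_pts]
  · rw [card_two_stab hpq]
  · rintro g ⟨h1, h2⟩
    have h1' : (g : Equiv.Perm GolayPt) p = p := h1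
    have h2' : (g : Equiv.Perm GolayPt) q = q := h2
    constructor
    · intro e
      have e' : (g : Equiv.Perm GolayPt) r = p := e
      rw [← h1'] at e'
      exact hpr (g.1.injective e').symm
    · intro e
      have e' : (g : Equiv.Perm GolayPt) r = q := e
      rw [← h2'] at e'
      exact hqr (g.1.injective e').symm
  · rintro y ⟨hy1, hy2⟩
    obtain ⟨g, hg, h1, h2, h3⟩ := three_trans hpq hpr hqr hpq (Ne.symm hy1) (Ne.symm hy2)
    exact ⟨⟨g, hg⟩, ⟨h1, h2⟩, h3⟩

variable {F : Type} [Field F] [Fintype F]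

theorem card_PSL3 (hF : Fintype.card F = 4) :
    Nat.card (Matrix.ProjectiveSpecialLinearGroup (Fin 3) F) = 20160 := by
  classical
  have h := Cfsg.Agent.Lead.card_PSL (F := F) 3 (by norm_num)
  rw [hF] at h
  simp only [Fin.prod_univ_three] at h
  norm_num [-Nat.card_eq_fintype_card] at h
  omega

section main

variable {T : Finset GolayPt} (e : PtsX T ≃ PP F)

/-- The permutation of the 21 points. -/
noncomputable def psi1 : Matrix.ProjectiveSpecialLinearGroup (Fin 3) F →* Equiv.Perm (PtsX T) :=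
  (e.symm.permCongrHom).toMonoidHom.comp (Projectivization.PSLAction.toPermHom (K := F) (ι := Fin 3))

theorem psi1_apply (A : SL3 F) (x : PtsX T) :
    psi1 e (A : Matrix.ProjectiveSpecialLinearGroup (Fin 3) F) x = e.symm (A • e x) := rfl

theorem psi1_injective : Function.Injective (psi1 (F := F) e) := by
  intro a b h
  apply Matrix.ProjectiveSpecialLinearGroup.toPermHom_injective
  exact (e.symm.permCongrHom).injective h

theorem psi1_lines (he : (fun b => b.image e) '' linesX T = planeP F) (A : SL3 F) {l : Finset (PtsX T)}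
    (hl : l ∈ linesX T) : l.image (psi1 e (A : Matrix.ProjectiveSpecialLinearGroup (Fin 3) F)) ∈ linesX T := by
  have h1 : l.image e ∈ planeP F := by
    rw [← he]
    exact ⟨l, hl, rfl⟩
  have h2 := image_mem_planeP A h1
  rw [← he] at h2
  obtain ⟨l', hl', hl'e⟩ := h2
  have h3 : l.image (psi1 e (A : Matrix.ProjectiveSpecialLinearGroup (Fin 3) F)) = l' := by
    apply Finset.image_injective e.injective
    show (l.image _).image e = l'.image e
    rw [show l'.image e = _ from hl'e, Finset.image_image, Finset.image_image]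
    apply Finset.image_congr
    intro x _
    simp [psi1_apply]
  rw [h3]
  exact hl'

theorem psi_transvection (hF : Fintype.card F = 4) (hT : T.card = 3)
    (he : (fun b => b.image e) '' linesX T = planeP F) {i j : Fin 3} (hij : i ≠ j) (c : F) :
    Equiv.Perm.ofSubtype (psi1 e ((Matrix.SpecialLinearGroup.transvection hij c : SL3 F) :
      Matrix.ProjectiveSpecialLinearGroup (Fin 3) F)) ∈ M24 := by
  by_cases hc : c = 0
  · subst hc
    rw [Matrix.SpecialLinearGroup.transvection_coeff_zero]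
    have : ((1 : SL3 F) : Matrix.ProjectiveSpecialLinearGroup (Fin 3) F) = 1 := rfl
    rw [this, map_one, map_one]
    exact M24.one_mem
  have h1 : lineP (kerW (F := F) j) ∈ planeP F := ⟨_, finrank_kerW, rfl⟩
  rw [← he] at h1
  obtain ⟨l, hl, hle⟩ := h1
  set τ : SL3 F := Matrix.SpecialLinearGroup.transvection hij c with hτ
  apply collin_mem hT _ (fun b hb => psi1_lines e he τ hb) ?_ hl ?_
  · rw [← map_mul]
    have : ((τ : Matrix.ProjectiveSpecialLinearGroup (Fin 3) F) * (τ : Matrix.ProjectiveSpecialLinearGroup (Fin 3) F)) = ((τ * τ : SL3 F) : Matrix.ProjectiveSpecialLinearGroup (Fin 3) F) := rfl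
    rw [this, hτ, transvection_sq hij c hF]
    have h2 : ((1 : SL3 F) : Matrix.ProjectiveSpecialLinearGroup (Fin 3) F) = 1 := rfl
    rw [h2, map_one]
  · intro x
    rw [psi1_apply, Equiv.symm_apply_eq, transvection_fix_iff hij c hc, ← hle]
    simp only [Finset.mem_image, EmbeddingLike.apply_eq_iff_eq, exists_eq_right]

theorem psi_mem (hF : Fintype.card F = 4) (hT : T.card = 3)
    (he : (fun b => b.image e) '' linesX T = planeP F) (g : Matrix.ProjectiveSpecialLinearGroup (Fin 3) F) :
    Equiv.Perm.ofSubtype (psi1 e g) ∈ M24 := by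
  obtain ⟨A, rfl⟩ := QuotientGroup.mk_surjective g
  refine Cfsg.Agent.Lead.transvection_induction'
    (fun A : SL3 F => Equiv.Perm.ofSubtype (psi1 e (A : Matrix.ProjectiveSpecialLinearGroup (Fin 3) F)) ∈ M24)
    (fun i j hij c => psi_transvection e hF hT he hij c) ?_ A
  intro A B hA hB
  have : ((A * B : SL3 F) : Matrix.ProjectiveSpecialLinearGroup (Fin 3) F) = (A : Matrix.ProjectiveSpecialLinearGroup (Fin 3) F) * (B : Matrix.ProjectiveSpecialLinearGroup (Fin 3) F) := rfl
  show Equiv.Perm.ofSubtype (psi1 e ((A * B : SL3 F) : Matrix.ProjectiveSpecialLinearGroup (Fin 3) F)) ∈ M24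
  rw [this, map_mul, map_mul]
  exact M24.mul_mem hA hB

end main

theorem m21_iso (p q r : GolayPt) (hpq : p ≠ q) (hpr : p ≠ r) (hqr : q ≠ r) (hF : Fintype.card F = 4) :
    Nonempty (↥(MulAction.stabilizer M24 p ⊓ MulAction.stabilizer M24 q ⊓ MulAction.stabilizer M24 r) ≃*
      Matrix.ProjectiveSpecialLinearGroup (Fin 3) F) := by
  set T : Finset GolayPt := {p, q, r} with hTdef
  have hT : T.card = 3 := by
    rw [hTdef, Finset.card_eq_three]
    exact ⟨p, q, r, hpq, hpr, hqr, rfl⟩
  have hPl := plane_X hT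
  obtain ⟨e, he⟩ := Cfsg.Agent.S5626.result (α := PtsX T) (β := PP F) (card_X hT) (card_PP hF) hPl.st
    (plane_steiner hF)
  have hmem := psi_mem e hF hT he
  have hfix : ∀ g (z : GolayPt), z ∈ T → Equiv.Perm.ofSubtype (psi1 e g) z = z := by
    intro g z hz
    exact Equiv.Perm.ofSubtype_apply_of_not_mem (p := fun x => x ∉ T) _ (not_not.mpr hz)
  let Ψ₂ : Matrix.ProjectiveSpecialLinearGroup (Fin 3) F →* ↥M24 :=
    (Equiv.Perm.ofSubtype.comp (psi1 e)).codRestrict M24 hmem
  let Φ : Matrix.ProjectiveSpecialLinearGroup (Fin 3) F →*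
      ↥(MulAction.stabilizer M24 p ⊓ MulAction.stabilizer M24 q ⊓ MulAction.stabilizer M24 r) :=
    Ψ₂.codRestrict _ (fun g => ⟨⟨hfix g p (by simp [hTdef]), hfix g q (by simp [hTdef])⟩, hfix g r (by simp [hTdef])⟩)
  have hinj : Function.Injective Φ := by
    intro a b hab
    apply psi1_injective e
    apply Equiv.Perm.ofSubtype_injective
    exact congrArg (fun z => ((z : ↥M24) : Equiv.Perm GolayPt)) (congrArg Subtype.val hab)
  have hbij : Function.Bijective Φ := by
    apply hinj.bijective_of_nat_card_le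
    rw [card_three_stab hpq hpr hqr, card_PSL3 hF]
  exact ⟨(MulEquiv.ofBijective Φ hbij).symm⟩

end Cfsg.Agent.H02.Gol
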