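import Mathlib
import Cfsg.Agent.Lib.H02.Schmidt2
import Cfsg.Agent.Lib.H02.Prod1
import Cfsg.Agent.Lib.H18.Prod

set_option autoImplicit false

namespace Cfsg.Agent.H02

universe u

open Cfsg
open scoped Pointwise

variable {G : Type u} [Group G] [Finite G]

theorem conj_into_sylow_of_le {q : ℕ} [Fact q.Prime] (C : Subgroup G) (S : Sylow q G)
    (hSC : (S : Subgroup G) ≤ C) (K' : Subgroup G) (hK'C : K' ≤ C) (hK'p : IsPGroup q K') :
    ∃ c ∈ C, ∀ k ∈ K', c * k * c⁻¹ ∈ (S : Subgroup G) := by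
  classical
  let S' : Sylow q C := S.subtype hSC
  have hK'' : IsPGroup q (K'.subgroupOf C) := hK'p.comap_of_injective C.subtype C.subtype_injective
  obtain ⟨T, hT⟩ := hK''.exists_le_sylow
  obtain ⟨c, hc⟩ := MulAction.exists_smul_eq C T S'
  refine ⟨c, c.2, ?_⟩
  intro k hk
  have h1 : (⟨k, hK'C hk⟩ : C) ∈ (T : Subgroup C) := hT (Subgroup.mem_subgroupOf.mpr hk)
  have h2 : c * ⟨k, hK'C hk⟩ * c⁻¹ ∈ (S' : Subgroup C) := by
    rw [← hc, Sylow.coe_subgroup_smul, mem_smul_conj_iff]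
    have : c⁻¹ * (c * ⟨k, hK'C hk⟩ * c⁻¹) * c = ⟨k, hK'C hk⟩ := by group
    rw [this]
    exact h1
  rw [Sylow.coe_subtype, Subgroup.mem_subgroupOf] at h2
  exact h2

theorem exists_sylow_le_hall {H : Subgroup G} (hHall : (Nat.card H).Coprime H.index) {p : ℕ} [hpf : Fact p.Prime]
    (hp : p ∣ Nat.card H) : ∃ S : Sylow p G, (S : Subgroup G) ≤ H := by
  classical
  obtain ⟨P⟩ : Nonempty (Sylow p H) := inferInstance
  have hnot : ¬ p ∣ H.index := fun h => hpf.out.one_lt.ne' (Nat.eq_one_of_dvd_coprimes hHall hp h)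
  have hv : (Nat.card G).factorization p = (Nat.card H).factorization p := by
    have h1 := H.card_mul_index
    rw [← h1, Nat.factorization_mul Nat.card_pos.ne' (H.index_ne_zero_of_finite)]
    simp [Nat.factorization_eq_zero_of_not_dvd hnot]
  refine ⟨Sylow.ofCard ((P : Subgroup H).map H.subtype) ?_, ?_⟩
  · rw [Subgroup.card_map_of_injective H.subtype_injective, Sylow.card_eq_multiplicity, hv]
  · rw [Sylow.coe_ofCard]
    rintro _ ⟨y, -, rfl⟩
    exact y.2

theorem coprime_of_pgroup_elements {p q : ℕ} [Fact p.Prime] [Fact q.Prime] (hpq : p ≠ q)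
    {A B : Subgroup G} (hA : IsPGroup p A) (hB : IsPGroup q B) {x y : G} (hx : x ∈ A) (hy : y ∈ B) :
    (orderOf x).Coprime (orderOf y) := by
  obtain ⟨a, ha⟩ := (IsPGroup.iff_orderOf.mp hA) ⟨x, hx⟩
  obtain ⟨b, hb⟩ := (IsPGroup.iff_orderOf.mp hB) ⟨y, hy⟩
  rw [Subgroup.orderOf_mk] at ha hb
  rw [ha, hb]
  exact Nat.coprime_pow_primes _ _ Fact.out Fact.out hpq

/-- Lemma A. -/
theorem commute_of_hall_nilpotent {H : Subgroup G} (hH : Group.IsNilpotent H)
    (hHall : (Nat.card H).Coprime H.index) {p q : ℕ} [Fact p.Prime] [Fact q.Prime] (hpq : p ≠ q)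
    (hp : p ∣ Nat.card H) (hq : q ∣ Nat.card H) (P₂ Q₂ : Subgroup G) (hP₂ : IsPGroup p P₂) (hQ₂ : IsPGroup q Q₂)
    (hN : P₂ ≤ Subgroup.normalizer (Q₂ : Set G)) : ∀ y ∈ P₂, ∀ z ∈ Q₂, y * z = z * y := by
  classical
  obtain ⟨Hp, hHp⟩ := exists_sylow_le_hall hHall hp
  obtain ⟨Hq, hHq⟩ := exists_sylow_le_hall hHall hq
  have hcomm : ∀ u ∈ (Hp : Subgroup G), ∀ v ∈ (Hq : Subgroup G), u * v = v * u := fun u hu v hv =>
    comm_of_mem_nilpotent hH (hHp hu) (hHq hv) (coprime_of_pgroup_elements hpq Hp.isPGroup' Hq.isPGroup' hu hv)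
  obtain ⟨T, hT⟩ := hQ₂.exists_le_sylow
  obtain ⟨x, rfl⟩ := MulAction.exists_smul_eq G Hq T
  have hcomm' : ∀ u ∈ ((x • Hp : Sylow p G) : Subgroup G), ∀ v ∈ ((x • Hq : Sylow q G) : Subgroup G), u * v = v * u := by
    intro u hu v hv
    rw [Sylow.coe_subgroup_smul, mem_smul_conj_iff] at hu hv
    have h1 := hcomm _ hu _ hv
    have h2 : x⁻¹ * (u * v) * x = x⁻¹ * (v * u) * x := by
      calc x⁻¹ * (u * v) * x = (x⁻¹ * u * x) * (x⁻¹ * v * x) := by group
        _ = (x⁻¹ * v * x) * (x⁻¹ * u * x) := h1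
        _ = x⁻¹ * (v * u) * x := by group
    exact mul_left_cancel (mul_right_cancel h2)
  have hle : ((x • Hp : Sylow p G) : Subgroup G) ≤ Subgroup.normalizer (Q₂ : Set G) := by
    intro u hu
    apply mem_normalizer_of_conj_le
    intro z hz
    have h1 := hcomm' u hu z (hT hz)
    have h2 : u * z * u⁻¹ = z := by
      rw [h1]
      group
    rw [h2]
    exact hz
  obtain ⟨c, hc, hcP⟩ := conj_into_sylow_of_le _ (x • Hp) hle P₂ hN hP₂
  intro y hy z hz
  have hcz : c * z * c⁻¹ ∈ Q₂ := (Subgroup.mem_normalizer_iff.mp hc z).mp hz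
  have h1 := hcomm' _ (hcP y hy) _ (hT hcz)
  have h2 : c * (y * z) * c⁻¹ = c * (z * y) * c⁻¹ := by
    calc c * (y * z) * c⁻¹ = (c * y * c⁻¹) * (c * z * c⁻¹) := by group
      _ = (c * z * c⁻¹) * (c * y * c⁻¹) := h1
      _ = c * (z * y) * c⁻¹ := by group
  exact mul_left_cancel (mul_right_cancel h2)

theorem nilpotent_of_map_subtype {L : Subgroup G} (X : Subgroup L) (h : Group.IsNilpotent (X.map L.subtype)) :
    Group.IsNilpotent X := by
  let e := X.equivMapOfInjective L.subtype L.subtype_injective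
  exact nilpotent_of_surjective e.symm.toMonoidHom e.symm.surjective

/-- every `π`-subgroup is nilpotent -/
theorem pi_subgroup_nilpotent {H : Subgroup G} (hH : Group.IsNilpotent H)
    (hHall : (Nat.card H).Coprime H.index) (K : Subgroup G)
    (hK : ∀ p : ℕ, p.Prime → p ∣ Nat.card K → p ∣ Nat.card H) : Group.IsNilpotent K := by
  classical
  by_contra hnot
  let 𝒮 : Set (Subgroup G) := {L | L ≤ K ∧ ¬ Group.IsNilpotent L}
  obtain ⟨L, hL⟩ := 𝒮.toFinite.exists_minimal ⟨K, le_rfl, hnot⟩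
  have hLK : L ≤ K := hL.1.1
  have hmin : IsMinimalNonNilpotent L := by
    refine ⟨hL.1.2, ?_⟩
    intro X hX
    by_contra hXn
    have hle : X.map L.subtype ≤ L := by
      rintro _ ⟨y, -, rfl⟩
      exact y.2
    have hmem : X.map L.subtype ∈ 𝒮 := ⟨hle.trans hLK, fun h => hXn (nilpotent_of_map_subtype X h)⟩
    have hge := hL.2 hmem hle
    apply hX
    rw [eq_top_iff]
    intro y _
    obtain ⟨z, hz, he⟩ := hge y.2
    have : z = y := Subtype.ext he
    rwa [← this]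
  obtain ⟨p, q, hp, hq, hne, P, Q, -, hn, -, hnc⟩ := schmidt hmin
  have hdvd : ∀ (r : ℕ) [Fact r.Prime] (Y : Subgroup L), IsPGroup r Y → Y ≠ ⊥ → r ∣ Nat.card H := by
    intro r hr Y hY hYb
    apply hK r hr.out
    have h1 : Nat.card Y ∣ Nat.card K := by
      have h2 : Nat.card Y ∣ Nat.card L := Subgroup.card_subgroup_dvd_card Y
      exact h2.trans (Subgroup.card_dvd_of_le hLK)
    obtain ⟨n, hn⟩ := IsPGroup.iff_card.mp hY
    rcases n with _ | n
    · exfalso
      rw [pow_zero] at hn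
      exact hYb (Subgroup.card_eq_one.mp hn)
    · rw [hn] at h1
      exact (dvd_pow_self r (Nat.succ_ne_zero n)).trans h1
  have hPb : (P : Subgroup L) ≠ ⊥ := by
    intro h
    apply hnc
    intro x hx y _
    rw [h] at hx
    have : x = 1 := hx
    simp [this]
  have hQb : (Q : Subgroup L) ≠ ⊥ := by
    intro h
    apply hnc
    intro x _ y hy
    rw [h] at hy
    have : y = 1 := hy
    simp [this]
  have hpH := hdvd p P P.isPGroup' hPb
  have hqH := hdvd q Q Q.isPGroup' hQb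
  have hN : (P : Subgroup L).map L.subtype ≤ Subgroup.normalizer (((Q : Subgroup L).map L.subtype : Subgroup G) : Set G) := by
    rintro _ ⟨y, -, rfl⟩
    apply mem_normalizer_of_conj_le
    rintro _ ⟨z, hz, rfl⟩
    exact ⟨y * z * y⁻¹, hn.conj_mem z hz y, by simp⟩
  have hcomm := commute_of_hall_nilpotent hH hHall hne hpH hqH _ _ (P.isPGroup'.map L.subtype) (Q.isPGroup'.map L.subtype) hN
  apply hnc
  intro x hx y hy
  have := hcomm x ⟨x, hx, rfl⟩ y ⟨y, hy, rfl⟩
  exact Subtype.ext this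

/-- nilpotent `π`-subgroups lie in conjugates of `H`. -/
theorem nilpotent_contained {H : Subgroup G} (hH : Group.IsNilpotent H)
    (hHall : (Nat.card H).Coprime H.index) : ∀ (n : ℕ) (K : Subgroup G), Nat.card K = n → Group.IsNilpotent K →
    (∀ p : ℕ, p.Prime → p ∣ Nat.card K → p ∣ Nat.card H) → ∃ x : G, ∀ k ∈ K, x⁻¹ * k * x ∈ H := by
  classical
  intro n
  induction n using Nat.strong_induction_on with
  | _ n ih =>
  intro K hKn hKnil hK
  by_cases hKb : K = ⊥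
  · refine ⟨1, ?_⟩
    intro k hk
    rw [hKb] at hk
    have : k = 1 := hk
    simp [this, H.one_mem]
  have hcK : 1 < Nat.card K := by
    have : Nontrivial K := (Subgroup.nontrivial_iff_ne_bot K).mpr hKb
    exact Finite.one_lt_card
  obtain ⟨q, hqp, hqK⟩ := Nat.exists_prime_and_dvd hcK.ne'
  haveI hqf : Fact q.Prime := ⟨hqp⟩
  have hqH := hK q hqp hqK
  obtain ⟨Hq, hHq⟩ := exists_sylow_le_hall hHall hqH
  obtain ⟨R⟩ : Nonempty (Sylow q K) := inferInstance
  set v := (Nat.card K).factorization q with hv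
  have hvpos : v ≠ 0 := (hqp.factorization_pos_of_dvd Nat.card_pos.ne' hqK).ne'
  obtain ⟨m, hm⟩ := Nat.ordProj_dvd (Nat.card K) q
  have hmcop : m.Coprime (q ^ v) := by
    have h1 : ¬ q ∣ m := by
      have := Nat.not_dvd_ordCompl hqp Nat.card_pos.ne' (n := Nat.card K)
      have h2 : Nat.card K / q ^ v = m := by
        rw [hm]
        exact Nat.mul_div_cancel_left _ (pow_pos hqp.pos _)
      rwa [h2] at this
    exact Nat.Coprime.pow_right _ ((Nat.Prime.coprime_iff_not_dvd hqp).mpr h1).symm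
  have hsolK : Group.IsSolvable K := inferInstance
  obtain ⟨A₀, hA₀, -⟩ := Cfsg.Agent.H01.hall_containment _ K rfl m (q ^ v) (by rw [hm]; ring) hmcop (⊥ : Subgroup K) (by simp)
  set A := A₀.map K.subtype with hA
  have hAcard : Nat.card A = m := by
    rw [hA, Subgroup.card_map_of_injective K.subtype_injective, hA₀]
  have hAK : A ≤ K := by
    rintro _ ⟨y, -, rfl⟩
    exact y.2
  have hAnil : Group.IsNilpotent A := by
    have h1 : Group.IsNilpotent A₀ := inferInstance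
    let e := A₀.equivMapOfInjective K.subtype K.subtype_injective
    exact nilpotent_of_surjective e.toMonoidHom e.surjective
  have hlt : Nat.card A < n := by
    rw [hAcard, ← hKn, hm]
    have hmpos : 0 < m := by
      rw [← hAcard]
      exact Nat.card_pos
    have : 1 < q ^ v := Nat.one_lt_pow hvpos hqp.one_lt
    nlinarith
  obtain ⟨x, hx⟩ := ih _ hlt A rfl hAnil (fun p hp hpA => hK p hp (hpA.trans (Subgroup.card_dvd_of_le hAK)))
  set Kq := (R : Subgroup K).map K.subtype with hKq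
  have hKqp : IsPGroup q Kq := R.isPGroup'.map K.subtype
  have hKqK : Kq ≤ K := by
    rintro _ ⟨y, -, rfl⟩
    exact y.2
  have hKqcard : Nat.card Kq = q ^ v := by
    rw [hKq, Subgroup.card_map_of_injective K.subtype_injective, Sylow.card_eq_multiplicity]
  -- orders
  have hAord : ∀ a ∈ A, (orderOf a).Coprime q := by
    intro a ha
    have h1 : orderOf a ∣ m := by
      rw [← hAcard]
      have := orderOf_dvd_natCard (⟨a, ha⟩ : A)
      rwa [Subgroup.orderOf_mk] at this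
    have h2 : m.Coprime q := by
      by_contra hc
      have h3 := (Nat.Prime.dvd_iff_not_coprime hqp).mpr (fun h => hc h.symm)
      exact hqp.one_lt.ne' (Nat.eq_one_of_dvd_coprimes hmcop h3 (dvd_pow_self q hvpos))
    exact Nat.Coprime.coprime_dvd_left h1 h2
  have hqord : ∀ {B : Subgroup G}, IsPGroup q B → ∀ b ∈ B, ∀ a ∈ A, (orderOf b).Coprime (orderOf a) := by
    intro B hB b hb a ha
    obtain ⟨j, hj⟩ := (IsPGroup.iff_orderOf.mp hB) ⟨b, hb⟩
    rw [Subgroup.orderOf_mk] at hj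
    rw [hj]
    exact Nat.Coprime.pow_left _ (hAord a ha).symm
  -- the centralizer
  let A' : Subgroup G := A.map (MulAut.conj x⁻¹).toMonoidHom
  have hA'mem : ∀ a ∈ A, x⁻¹ * a * x ∈ A' := by
    intro a ha
    refine ⟨a, ha, ?_⟩
    simp
  have hKqcomm : ∀ b ∈ Kq, ∀ a ∈ A, b * a = a * b := by
    intro b hb a ha
    have h1 := comm_of_mem_nilpotent hKnil (hKqK hb) (hAK ha) (hqord hKqp b hb a ha)
    exact h1
  let C : Subgroup G := Subgroup.centralizer (A' : Set G)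
  have hHqC : (Hq : Subgroup G) ≤ C := by
    intro h hh
    rw [Subgroup.mem_centralizer_iff]
    rintro _ ⟨a, ha, rfl⟩
    have hmemH : (MulAut.conj x⁻¹).toMonoidHom a ∈ H := by
      have := hx a ha
      simpa using this
    have hord : (orderOf ((MulAut.conj x⁻¹).toMonoidHom a)).Coprime (orderOf h) := by
      have h1 : orderOf ((MulAut.conj x⁻¹).toMonoidHom a) = orderOf a :=
        orderOf_injective _ (MulAut.conj x⁻¹).injective a
      rw [h1]
      exact (hqord Hq.isPGroup' h hh a ha).symm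
    exact comm_of_mem_nilpotent hH hmemH (hHq hh) hord
  let Kq' : Subgroup G := Kq.map (MulAut.conj x⁻¹).toMonoidHom
  have hKq'p : IsPGroup q Kq' := hKqp.map _
  have hKq'C : Kq' ≤ C := by
    rintro _ ⟨b, hb, rfl⟩
    rw [Subgroup.mem_centralizer_iff]
    rintro _ ⟨a, ha, rfl⟩
    change x⁻¹ * a * x⁻¹⁻¹ * (x⁻¹ * b * x⁻¹⁻¹) = x⁻¹ * b * x⁻¹⁻¹ * (x⁻¹ * a * x⁻¹⁻¹)
    have h1 := hKqcomm b hb a ha
    calc x⁻¹ * a * x⁻¹⁻¹ * (x⁻¹ * b * x⁻¹⁻¹) = x⁻¹ * (a * b) * x⁻¹⁻¹ := by group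
      _ = x⁻¹ * (b * a) * x⁻¹⁻¹ := by rw [h1]
      _ = x⁻¹ * b * x⁻¹⁻¹ * (x⁻¹ * a * x⁻¹⁻¹) := by group
  obtain ⟨c, hc, hcK⟩ := conj_into_sylow_of_le C Hq hHqC Kq' hKq'C hKq'p
  refine ⟨x * c⁻¹, ?_⟩
  intro k hk
  have hinf : (Kq ⊓ A : Subgroup G) = ⊥ := by
    rw [eq_bot_iff]
    intro y hy
    obtain ⟨h1, h2⟩ := Subgroup.mem_inf.mp hy
    have h3 := hqord hKqp y h1 y h2
    rw [Nat.coprime_self] at h3
    rw [Subgroup.mem_bot]
    exact orderOf_eq_one_iff.mp h3
  have hcard : Nat.card Kq * Nat.card A = Nat.card K * Nat.card (Kq ⊓ A : Subgroup G) := by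
    rw [hinf, Subgroup.card_bot, mul_one, hKqcard, hAcard, hm]
  obtain ⟨b, hb, a, ha, rfl⟩ := Cfsg.Agent.H18.eq_mul_of_card_eq hKqK hAK hcard hk
  have h1 : x⁻¹ * b * x ∈ Kq' := by
    refine ⟨b, hb, ?_⟩
    simp
  have h2 := hcK _ h1
  have h3 := hx a ha
  have h4 : c * (x⁻¹ * a * x) * c⁻¹ = x⁻¹ * a * x := by
    have h5 := (Subgroup.mem_centralizer_iff.mp hc) _ (hA'mem a ha)
    rw [← h5]
    group
  have h6 : (x * c⁻¹)⁻¹ * (b * a) * (x * c⁻¹) = (c * (x⁻¹ * b * x) * c⁻¹) * (c * (x⁻¹ * a * x) * c⁻¹) := by group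
  rw [h6, h4]
  exact H.mul_mem (hHq h2) h3

theorem nilpotent_hall_contains {H K : Subgroup G} (hH : Group.IsNilpotent H)
    (hHall : (Nat.card H).Coprime H.index) (hK : ∀ p : ℕ, p.Prime → p ∣ Nat.card K → p ∣ Nat.card H) :
    ∃ x : G, K ≤ MulAut.conj x • H := by
  obtain ⟨x, hx⟩ := nilpotent_contained hH hHall _ K rfl (pi_subgroup_nilpotent hH hHall K hK) hK
  refine ⟨x, fun k hk => ?_⟩
  rw [mem_smul_conj_iff]
  exact hx k hk

end Cfsg.Agent.H02
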