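import Mathlib
import Cfsg.Agent.Lib.H18.Prod
import Cfsg.Agent.Lib.H01.Hall
import Cfsg.Agent.Lib.H02.Prod1

set_option autoImplicit false

namespace Cfsg.Agent.H02

universe u

open scoped Pointwise

variable {G : Type u} [Group G]

theorem conj_set_mul {S X Y : Subgroup G} (hS : (S : Set G) = (X : Set G) * (Y : Set G)) (z : G) :
    ((MulAut.conj z • S : Subgroup G) : Set G) =
      ((MulAut.conj z • X : Subgroup G) : Set G) * ((MulAut.conj z • Y : Subgroup G) : Set G) := by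
  ext w
  constructor
  · intro hw
    have hw' : z⁻¹ * w * z ∈ S := mem_smul_conj_iff.mp hw
    rw [← SetLike.mem_coe, hS] at hw'
    obtain ⟨a, ha, b, hb, he⟩ := hw'
    have he' : a * b = z⁻¹ * w * z := he
    refine ⟨z * a * z⁻¹, mem_smul_conj_iff.mpr (by simpa [mul_assoc] using ha),
      z * b * z⁻¹, mem_smul_conj_iff.mpr (by simpa [mul_assoc] using hb), ?_⟩
    change z * a * z⁻¹ * (z * b * z⁻¹) = w
    calc z * a * z⁻¹ * (z * b * z⁻¹) = z * (a * b) * z⁻¹ := by group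
      _ = z * (z⁻¹ * w * z) * z⁻¹ := by rw [he']
      _ = w := by group
  · rintro ⟨a, ha, b, hb, rfl⟩
    have ha' : z⁻¹ * a * z ∈ X := mem_smul_conj_iff.mp ha
    have hb' : z⁻¹ * b * z ∈ Y := mem_smul_conj_iff.mp hb
    change a * b ∈ MulAut.conj z • S
    rw [mem_smul_conj_iff, ← SetLike.mem_coe, hS]
    refine ⟨_, ha', _, hb', ?_⟩
    change z⁻¹ * a * z * (z⁻¹ * b * z) = z⁻¹ * (a * b) * z
    group

theorem conj_smul_eq_of_mem_normalizer {A : Subgroup G} {h : G}
    (hh : h ∈ Subgroup.normalizer (A : Set G)) : MulAut.conj h • A = A := by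
  ext y
  rw [mem_smul_conj_iff]
  have h1 := (Subgroup.mem_normalizer_iff.mp hh (h⁻¹ * y * h))
  have h2 : h * (h⁻¹ * y * h) * h⁻¹ = y := by group
  rw [h2] at h1
  exact h1

theorem conj_smul_mul (x z : G) (B : Subgroup G) :
    MulAut.conj (x * z) • B = MulAut.conj x • (MulAut.conj z • B) := by
  rw [map_mul, mul_smul]

/-- Two Hall subgroups of a solvable group permute after conjugation. -/
theorem hall_permute [Finite G] [Group.IsSolvable G] (A B : Subgroup G)
    (hAh : (Nat.card A).Coprime A.index) (hBh : (Nat.card B).Coprime B.index) :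
    ∃ x : G, ∃ T : Subgroup G, (T : Set G) = (A : Set G) * ((MulAut.conj x • B : Subgroup G) : Set G) := by
  classical
  set a := Nat.card A with ha
  set a' := A.index with ha'
  set b := Nat.card B with hb
  set b' := B.index with hb'
  have hN1 : a * a' = Nat.card G := A.card_mul_index
  have hN2 : b * b' = Nat.card G := B.card_mul_index
  have hapos : 0 < a := Nat.card_pos
  have hbpos : 0 < b := Nat.card_pos
  set d := Nat.gcd a b with hd
  set e := Nat.gcd a' b with he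
  set a₁ := Nat.gcd a b' with ha₁
  set f := Nat.gcd a' b' with hf
  have h_a : a = d * a₁ := by
    have h1 : a ∣ b * b' := hN2.symm ▸ (hN1 ▸ Dvd.intro _ rfl)
    rw [hd, ha₁, ← Nat.Coprime.gcd_mul a hBh]
    exact (Nat.gcd_eq_left h1).symm
  have h_a' : a' = e * f := by
    have h1 : a' ∣ b * b' := hN2.symm ▸ (hN1 ▸ Dvd.intro_left _ rfl)
    rw [he, hf, ← Nat.Coprime.gcd_mul a' hBh]
    exact (Nat.gcd_eq_left h1).symm
  have h_b : b = d * e := by
    have h1 : b ∣ a * a' := hN1.symm ▸ (hN2 ▸ Dvd.intro _ rfl)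
    rw [hd, he, Nat.gcd_comm a b, Nat.gcd_comm a' b, ← Nat.Coprime.gcd_mul b hAh]
    exact (Nat.gcd_eq_left h1).symm
  have hcop_af : a.Coprime f := Nat.Coprime.coprime_dvd_right (Nat.gcd_dvd_left _ _) hAh
  have hcop_ef : e.Coprime f :=
    Nat.Coprime.coprime_dvd_left (Nat.gcd_dvd_right _ _) (Nat.Coprime.coprime_dvd_right (Nat.gcd_dvd_right _ _) hBh)
  have hcop_da₁ : d.Coprime a₁ :=
    Nat.Coprime.coprime_dvd_left (Nat.gcd_dvd_right _ _) (Nat.Coprime.coprime_dvd_right (Nat.gcd_dvd_right _ _) hBh)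
  have hcop_ba₁ : b.Coprime a₁ := Nat.Coprime.coprime_dvd_right (Nat.gcd_dvd_right _ _) hBh
  obtain ⟨T, hTcard, hAT⟩ := Cfsg.Agent.H01.hall_containment _ G rfl (a * e) f
    (by rw [← hN1, h_a', mul_assoc]) (Nat.Coprime.mul_left hcop_af hcop_ef) A hcop_af
  -- `C ≤ A`
  obtain ⟨C, hCcard, -⟩ := Cfsg.Agent.H01.hall_containment _ A rfl d a₁ (by rw [← h_a]) hcop_da₁
    (⊥ : Subgroup A) (by simp)
  set C' := C.map A.subtype with hC'
  have hC'card : Nat.card C' = d := by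
    rw [hC', Subgroup.card_map_of_injective A.subtype_injective, hCcard]
  have hC'A : C' ≤ A := by
    rintro _ ⟨y, -, rfl⟩
    exact y.2
  have hC'T : C' ≤ T := hC'A.trans hAT
  have hC''card : Nat.card (C'.subgroupOf T) = d := by
    rw [← hC'card]
    exact Nat.card_congr (Subgroup.subgroupOfEquivOfLe hC'T).toEquiv
  obtain ⟨D, hDcard, hCD⟩ := Cfsg.Agent.H01.hall_containment _ T rfl b a₁
    (by
      rw [hTcard]
      calc a * e = (d * a₁) * e := by rw [← h_a]
        _ = b * a₁ := by rw [h_b]; ring)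
    hcop_ba₁ (C'.subgroupOf T) (by rw [hC''card]; exact hcop_da₁)
  set D' := D.map T.subtype with hD'
  have hD'card : Nat.card D' = b := by
    rw [hD', Subgroup.card_map_of_injective T.subtype_injective, hDcard]
  have hD'T : D' ≤ T := by
    rintro _ ⟨y, -, rfl⟩
    exact y.2
  have hC'D' : C' ≤ D' := by
    intro y hy
    exact ⟨⟨y, hC'T hy⟩, hCD (Subgroup.mem_subgroupOf.mpr hy), rfl⟩
  have hinf1 : d ∣ Nat.card (A ⊓ D' : Subgroup G) := by
    rw [← hC'card]
    exact Subgroup.card_dvd_of_le (le_inf hC'A hC'D')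
  have hinf2 : Nat.card (A ⊓ D' : Subgroup G) ∣ d := by
    apply Nat.dvd_gcd
    · exact Subgroup.card_dvd_of_le inf_le_left
    · rw [← hD'card]
      exact Subgroup.card_dvd_of_le inf_le_right
  have hinf : Nat.card (A ⊓ D' : Subgroup G) = d := Nat.dvd_antisymm hinf2 hinf1
  have hcardeq : Nat.card A * Nat.card D' = Nat.card T * Nat.card (A ⊓ D' : Subgroup G) := by
    rw [hD'card, hTcard, hinf, ← ha, h_b]
    ring
  obtain ⟨g, hg⟩ := Cfsg.Agent.H01.hall_conj _ G rfl b b' hN2.symm hBh D' B hD'card rfl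
  refine ⟨g⁻¹, T, ?_⟩
  have hB' : MulAut.conj g⁻¹ • B = D' := by
    rw [← hg, ← conj_smul_mul]
    simp
  rw [hB']
  ext x
  constructor
  · intro hx
    obtain ⟨a₀, ha₀, b₀, hb₀, rfl⟩ := Cfsg.Agent.H18.eq_mul_of_card_eq hAT hD'T hcardeq hx
    exact ⟨a₀, ha₀, b₀, hb₀, rfl⟩
  · rintro ⟨a₀, ha₀, b₀, hb₀, rfl⟩
    exact T.mul_mem (hAT ha₀) (hD'T hb₀)

theorem hall_conj_permute [Finite G] [Group.IsSolvable G] (H K A B : Subgroup G)
    (hHK : ∀ g : G, ∃ h ∈ H, ∃ k ∈ K, g = h * k) (hA : A ≤ H) (hAn : (A.subgroupOf H).Normal)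
    (hB : B ≤ K) (hBn : (B.subgroupOf K).Normal)
    (hAh : (Nat.card A).Coprime A.index) (hBh : (Nat.card B).Coprime B.index) (x y : G) :
    ∃ S : Subgroup G, (S : Set G) = ((MulAut.conj x • A : Subgroup G) : Set G) * ((MulAut.conj y • B : Subgroup G) : Set G) := by
  obtain ⟨x₀, T, hT⟩ := hall_permute A B hAh hBh
  have hHN := (Subgroup.normal_subgroupOf_iff_le_normalizer hA).mp hAn
  have hKN := (Subgroup.normal_subgroupOf_iff_le_normalizer hB).mp hBn
  obtain ⟨h₀, hh₀, k₀, hk₀, e₀⟩ := hHK x₀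
  obtain ⟨h₂, hh₂, k₂, hk₂, e₂⟩ := hHK (x⁻¹ * y)
  set h' := h₂ * h₀⁻¹ with hh'
  set k' := k₀⁻¹ * k₂ with hk'
  have hh'H : h' ∈ H := H.mul_mem hh₂ (H.inv_mem hh₀)
  have hk'K : k' ∈ K := K.mul_mem (K.inv_mem hk₀) hk₂
  have hxy : x⁻¹ * y = h' * x₀ * k' := by
    rw [e₂, e₀, hh', hk']
    group
  set z := x * h' with hz
  have hx : x = z * h'⁻¹ := by rw [hz]; group
  have hy : y = z * x₀ * k' := by
    have : y = x * (x⁻¹ * y) := by group
    rw [this, hxy, hz]
    group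
  refine ⟨MulAut.conj z • T, ?_⟩
  have e1 : MulAut.conj x • A = MulAut.conj z • A := by
    rw [hx, conj_smul_mul, conj_smul_eq_of_mem_normalizer (hHN (H.inv_mem hh'H))]
  have e2 : MulAut.conj y • B = MulAut.conj z • (MulAut.conj x₀ • B) := by
    rw [hy, conj_smul_mul, conj_smul_eq_of_mem_normalizer (hKN hk'K), conj_smul_mul]
  rw [e1, e2]
  exact conj_set_mul hT z

end Cfsg.Agent.H02
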