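import Mathlib
import Cfsg.Agent.Lib.H02.HallNil
import Cfsg.Agent.Lib.H02.Prod2
import Cfsg.Agent.Lib.H02.SuperSolv6
import Cfsg.Agent.Lib.H01.Hall

set_option autoImplicit false

namespace Cfsg.Agent.H02

universe u

open Cfsg
open scoped Pointwise

theorem supersolvable_hall_conj : ∀ (n : ℕ) (G : Type u) [Group G] [Finite G], Nat.card G = n →
    ∀ H K : Subgroup G, IsSupersolvable H → IsSupersolvable K → Nat.card H = Nat.card K →
    (Nat.card H).Coprime H.index → ∃ x : G, MulAut.conj x • H = K := by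
  intro n
  induction n using Nat.strong_induction_on with
  | _ n ih =>
  intro G _ _ hn H K hH hK hcard hHall
  classical
  by_cases hH1 : Nat.card H = 1
  · refine ⟨1, ?_⟩
    have hK1 : K = ⊥ := Subgroup.card_eq_one.mp (by rw [← hcard]; exact hH1)
    rw [Subgroup.card_eq_one.mp hH1, hK1]
    simp
  have hne : (Nat.card H).primeFactors.Nonempty := Nat.nonempty_primeFactors.mpr
    (lt_of_le_of_ne Nat.card_pos (Ne.symm hH1))
  set p := (Nat.card H).primeFactors.max' hne with hp
  have hpmem := Finset.max'_mem _ hne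
  rw [← hp] at hpmem
  have hpp : p.Prime := Nat.prime_of_mem_primeFactors hpmem
  have hpH : p ∣ Nat.card H := Nat.dvd_of_mem_primeFactors hpmem
  haveI hpf : Fact p.Prime := ⟨hpp⟩
  have hmaxH : ∀ q : ℕ, q.Prime → q ∣ Nat.card H → q ≤ p := fun q hq hd =>
    Finset.le_max' _ _ (Nat.mem_primeFactors.mpr ⟨hq, hd, Nat.card_pos.ne'⟩)
  have hidx : K.index = H.index := by
    have h1 := H.card_mul_index
    have h2 := K.card_mul_index
    rw [← hcard] at h2
    exact Nat.eq_of_mul_eq_mul_left Nat.card_pos (h2.trans h1.symm)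
  have hHallK : (Nat.card K).Coprime K.index := by rw [← hcard, hidx]; exact hHall
  obtain ⟨S₁, hS₁⟩ := exists_sylow_le_hall hHall hpH
  obtain ⟨S₂, hS₂⟩ := exists_sylow_le_hall hHallK (hcard ▸ hpH)
  have hnorm : ∀ (L : Subgroup G), IsSupersolvable L → p ∣ Nat.card L → (∀ q : ℕ, q.Prime → q ∣ Nat.card L → q ≤ p) →
      ∀ S : Sylow p G, (hSL : (S : Subgroup G) ≤ L) → L ≤ Subgroup.normalizer ((S : Subgroup G) : Set G) := by
    intro L hL hpL hmaxL S hSL
    have h1 := sylow_normal_of_hereditary (G := L)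
      (fun X => hasSubgroupOfEveryOrder_of_supersolvable (isSupersolvable_subgroup X hL)) p hpL hmaxL (S.subtype hSL)
    rw [Sylow.coe_subtype] at h1
    exact (Subgroup.normal_subgroupOf_iff_le_normalizer hSL).mp h1
  have hN₁ := hnorm H hH hpH hmaxH S₁ hS₁
  have hN₂ := hnorm K hK (hcard ▸ hpH) (fun q hq hd => hmaxH q hq (hcard ▸ hd)) S₂ hS₂
  obtain ⟨g, hg⟩ := MulAction.exists_smul_eq G S₁ S₂
  set H' : Subgroup G := MulAut.conj g • H with hH'
  set P : Subgroup G := (S₂ : Subgroup G) with hP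
  have hPeq : P = MulAut.conj g • (S₁ : Subgroup G) := by
    rw [hP, ← hg, Sylow.coe_subgroup_smul]
  have hPH' : P ≤ H' := by
    intro y hy
    rw [hPeq, mem_smul_conj_iff] at hy
    rw [hH', mem_smul_conj_iff]
    exact hS₁ hy
  have hPK : P ≤ K := hS₂
  set N := Subgroup.normalizer (P : Set G) with hN
  have hH'N : H' ≤ N := by
    intro y hy
    rw [hH', mem_smul_conj_iff] at hy
    apply mem_normalizer_of_conj_le
    intro s hs
    have hs' := hs
    rw [hPeq, mem_smul_conj_iff] at hs'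
    have h1 := (Subgroup.mem_normalizer_iff.mp (hN₁ hy) _).mp hs'
    rw [hPeq, mem_smul_conj_iff]
    have h2 : g⁻¹ * (y * s * y⁻¹) * g = g⁻¹ * y * g * (g⁻¹ * s * g) * (g⁻¹ * y * g)⁻¹ := by group
    rw [h2]
    exact h1
  have hKN : K ≤ N := hN₂
  have hPN : P ≤ N := Subgroup.le_normalizer
  set P' : Subgroup N := P.subgroupOf N with hP'
  haveI hP'n : P'.Normal := (Subgroup.normal_subgroupOf_iff_le_normalizer hPN).mpr le_rfl
  set X := H'.subgroupOf N with hX
  set Y := K.subgroupOf N with hY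
  have hcardH' : Nat.card H' = Nat.card H := by
    exact Nat.card_congr (H.equivMapOfInjective (MulAut.conj g).toMonoidHom (MulAut.conj g).injective).symm.toEquiv
  have hXcard : Nat.card X = Nat.card H := by
    rw [← hcardH']
    exact Nat.card_congr (Subgroup.subgroupOfEquivOfLe hH'N).toEquiv
  have hYcard : Nat.card Y = Nat.card K := Nat.card_congr (Subgroup.subgroupOfEquivOfLe hKN).toEquiv
  have hP'card : Nat.card P' = Nat.card P := Nat.card_congr (Subgroup.subgroupOfEquivOfLe hPN).toEquiv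
  have hP'X : P' ≤ X := fun y hy => hPH' hy
  have hP'Y : P' ≤ Y := fun y hy => hPK hy
  let f := QuotientGroup.mk' P'
  have hfsurj : Function.Surjective f := QuotientGroup.mk'_surjective P'
  have hfker : f.ker = P' := QuotientGroup.ker_mk' P'
  set Hb := X.map f with hHb
  set Kb := Y.map f with hKb
  have hbH : Nat.card Hb * Nat.card P' = Nat.card X := Cfsg.Agent.H01.card_map_mk_of_le P' X hP'X
  have hbK : Nat.card Kb * Nat.card P' = Nat.card Y := Cfsg.Agent.H01.card_map_mk_of_le P' Y hP'Y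
  have hXss : IsSupersolvable X := isSupersolvable_of_mulEquiv
    ((H.equivMapOfInjective (MulAut.conj g).toMonoidHom (MulAut.conj g).injective).trans
      (Subgroup.subgroupOfEquivOfLe hH'N).symm) hH
  have hYss : IsSupersolvable Y := isSupersolvable_of_mulEquiv (Subgroup.subgroupOfEquivOfLe hKN).symm hK
  have hHbss : IsSupersolvable Hb := isSupersolvable_of_surjective (f.subgroupMap X) (f.subgroupMap_surjective X) hXss
  have hKbss : IsSupersolvable Kb := isSupersolvable_of_surjective (f.subgroupMap Y) (f.subgroupMap_surjective Y) hYss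
  have hbcard : Nat.card Hb = Nat.card Kb := by
    apply Nat.eq_of_mul_eq_mul_right (Nat.card_pos (α := P'))
    rw [hbH, hbK, hXcard, hYcard, hcard]
  have hidxH' : H'.index = H.index := by
    have h1 := H'.card_mul_index
    have h2 := H.card_mul_index
    rw [hcardH'] at h1
    exact Nat.eq_of_mul_eq_mul_left Nat.card_pos (h1.trans h2.symm)
  have hbidx : Hb.index ∣ H.index := by
    have h1 : Hb.index = X.index := Subgroup.index_map_eq _ hfsurj (by rw [hfker]; exact hP'X)
    rw [h1, ← hidxH']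
    have h2 := Subgroup.relIndex_mul_index hH'N
    exact Dvd.intro _ h2
  have hbdvd : Nat.card Hb ∣ Nat.card H := by
    rw [← hXcard, ← hbH]
    exact Dvd.intro _ rfl
  have hbcop : (Nat.card Hb).Coprime Hb.index := Nat.Coprime.coprime_dvd_left hbdvd (Nat.Coprime.coprime_dvd_right hbidx hHall)
  have hP1 : 1 < Nat.card P := by
    have h1 : Nat.card P = p ^ (Nat.card G).factorization p := Sylow.card_eq_multiplicity S₂
    have hpG : p ∣ Nat.card G := hpH.trans (Subgroup.card_subgroup_dvd_card H)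
    have h2 : (Nat.card G).factorization p ≠ 0 := (hpp.factorization_pos_of_dvd Nat.card_pos.ne' hpG).ne'
    rw [h1]
    exact Nat.one_lt_pow h2 hpp.one_lt
  have hlt : Nat.card (N ⧸ P') < n := by
    rw [← hn]
    have h1 := Subgroup.card_eq_card_quotient_mul_card_subgroup P'
    have h2 : Nat.card N ≤ Nat.card G := Subgroup.card_le_card_group N
    have h3 : 0 < Nat.card (N ⧸ P') := Nat.card_pos
    rw [hP'card] at h1
    calc Nat.card (N ⧸ P') < Nat.card (N ⧸ P') * Nat.card P := lt_mul_of_one_lt_right h3 hP1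
      _ = Nat.card N := h1.symm
      _ ≤ Nat.card G := h2
  obtain ⟨nb, hnb⟩ := ih _ hlt (N ⧸ P') rfl Hb Kb hHbss hKbss hbcard hbcop
  obtain ⟨m, rfl⟩ := hfsurj nb
  have hle : MulAut.conj (m : G) • H' ≤ K := by
    intro y hy
    rw [mem_smul_conj_iff] at hy
    have hyX : (m : G)⁻¹ * y * m ∈ H' := hy
    have hyN : (m : G)⁻¹ * y * m ∈ N := hH'N hy
    have h1 : f ⟨(m : G)⁻¹ * y * m, hyN⟩ ∈ Hb := ⟨⟨_, hyN⟩, Subgroup.mem_subgroupOf.mpr hyX, rfl⟩
    have h2 : f m * f ⟨(m : G)⁻¹ * y * m, hyN⟩ * (f m)⁻¹ ∈ Kb := by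
      rw [← hnb, mem_smul_conj_iff]
      have : (f m)⁻¹ * (f m * f ⟨(m : G)⁻¹ * y * m, hyN⟩ * (f m)⁻¹) * f m = f ⟨(m : G)⁻¹ * y * m, hyN⟩ := by group
      rw [this]
      exact h1
    obtain ⟨k, hk, hke⟩ := h2
    rw [← map_inv, ← map_mul, ← map_mul] at hke
    have h3 : k⁻¹ * (m * ⟨(m : G)⁻¹ * y * m, hyN⟩ * m⁻¹) ∈ P' := QuotientGroup.eq.mp hke
    have h4 : (k : G)⁻¹ * y ∈ P := by
      have h5 := Subgroup.mem_subgroupOf.mp h3
      have h6 : ((k⁻¹ * (m * ⟨(m : G)⁻¹ * y * m, hyN⟩ * m⁻¹) : N) : G) = (k : G)⁻¹ * y := by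
        simp only [Subgroup.coe_mul, Subgroup.coe_inv]
        group
      rwa [h6] at h5
    have h7 : (k : G) ∈ K := Subgroup.mem_subgroupOf.mp hk
    have h8 := K.mul_mem h7 (hPK h4)
    simpa using h8
  refine ⟨(m : G) * g, ?_⟩
  rw [conj_smul_mul]
  apply Subgroup.eq_of_le_of_card_ge hle
  rw [← hcard, ← hcardH']
  exact (Nat.card_congr (H'.equivMapOfInjective (MulAut.conj (m : G)).toMonoidHom (MulAut.conj (m : G)).injective).toEquiv).le

end Cfsg.Agent.H02
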