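import Cfsg.Agent.Lib.H02.Sys2

/-!
System normalizers cover central chief factors and avoid eccentric ones.
-/

set_option autoImplicit false

namespace Cfsg.Agent.H02

open Cfsg
open scoped Pointwise commutatorElement

universe u

variable {G : Type u} [Group G] [Finite G] {K : Nat.Primes → Subgroup G}

/-- `[N, S] < N` for a nontrivial `N ≤ S` with `S` nilpotent: a chain through the lower central series. -/
theorem commutator_ne_self_of_nilpotent (S N : Subgroup G) (hS : Group.IsNilpotent S) (hN : N ≤ S) (hb : N ≠ ⊥) :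
    ⁅N, S⁆ ≠ N := by
  intro heq
  have hchain : ∀ k : ℕ, N ≤ S.lowerCentralSeries k := by
    intro k
    induction k with
    | zero => exact hN
    | succ k ih =>
      rw [← heq, Subgroup.lowerCentralSeries_succ]
      exact Subgroup.commutator_mono ih le_rfl
  obtain ⟨c, hc⟩ := (Subgroup.isNilpotent_iff_lowerCentralSeries S).mp hS
  apply hb
  rw [eq_bot_iff, ← hc]
  exact hchain c

/-- A minimal normal `p`-subgroup meeting the system normalizer nontrivially is central. -/
theorem central_of_mem_sysNorm [Group.IsSolvable G] (hK : IsComplementSystem K) (N : Subgroup G) [hNn : N.Normal]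
    (hN : N ≠ ⊥) (hmin : ∀ M : Subgroup G, M.Normal → M ≤ N → M = ⊥ ∨ M = N)
    {x : G} (hxN : x ∈ N) (hxD : x ∈ systemNormalizer K) (hx1 : x ≠ 1) :
    ⁅N, (⊤ : Subgroup G)⁆ = ⊥ := by
  classical
  obtain ⟨hab, p, hp, hNp⟩ := H01.minimal_normal_elementary_abelian N hN hmin
  haveI : Fact p.Prime := ⟨hp⟩
  have hNpg : IsPGroup p N := by
    intro y
    refine ⟨1, Subtype.ext ?_⟩
    simpa using hNp y y.2
  let pp : Nat.Primes := ⟨p, hp⟩
  obtain ⟨k, hk⟩ := IsPGroup.iff_card.mp hNpg
  have hcop : (Nat.card N).Coprime (Nat.card (K pp)) := by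
    rw [hk]
    exact Nat.Coprime.pow_left k (comp_card_coprime hK pp).symm
  have hdis : N ⊓ K pp = ⊥ := (Subgroup.disjoint_of_coprime_natCard hcop).eq_bot
  -- `x` centralizes `K p`
  have hcent : ∀ y ∈ K pp, y * x * y⁻¹ = x := by
    intro y hy
    have hxn := mem_sysNorm_iff.mp hxD pp
    have h1 : x * y * x⁻¹ ∈ K pp := (Subgroup.mem_normalizer_iff.mp hxn y).mp hy
    have h2 : x * y * x⁻¹ * y⁻¹ ∈ K pp := (K pp).mul_mem h1 ((K pp).inv_mem hy)
    have h3 : x * y * x⁻¹ * y⁻¹ ∈ N := by
      have h4 : y * x⁻¹ * y⁻¹ ∈ N := hNn.conj_mem _ (N.inv_mem hxN) y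
      have h5 : x * y * x⁻¹ * y⁻¹ = x * (y * x⁻¹ * y⁻¹) := by group
      rw [h5]; exact N.mul_mem hxN h4
    have h6 : x * y * x⁻¹ * y⁻¹ ∈ N ⊓ K pp := ⟨h3, h2⟩
    rw [hdis, Subgroup.mem_bot] at h6
    have h7 : x * y = y * x := by
      have : x * y = (x * y * x⁻¹ * y⁻¹) * (y * x) := by group
      rw [this, h6, one_mul]
    rw [← h7]; group
  -- a Sylow `p`-subgroup and the factorization
  obtain ⟨S⟩ : Nonempty (Sylow p G) := inferInstance
  have hNS : N ≤ (S : Subgroup G) := hNpg.le_sylow_of_normal S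
  have hcardS : Nat.card (S : Subgroup G) = (K pp).index := by
    rw [hK pp]
    exact Sylow.card_eq_multiplicity S
  have hfac : ∀ g : G, ∃ s ∈ (S : Subgroup G), ∃ y ∈ K pp, s * y = g := by
    intro g
    have hc : (Nat.card (S : Subgroup G)).Coprime (Nat.card (K pp)) := by
      obtain ⟨m, hm⟩ := IsPGroup.iff_card.mp S.2
      rw [hm]
      exact Nat.Coprime.pow_left m (comp_card_coprime hK pp).symm
    have hcompl : (S : Subgroup G).IsComplement' (K pp) := by
      apply Subgroup.isComplement'_of_coprime _ hc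
      rw [hcardS, mul_comm]
      exact (K pp).card_mul_index
    obtain ⟨⟨s, y⟩, hsy⟩ := hcompl.2 g
    exact ⟨s, s.2, y, y.2, hsy⟩
  -- the subgroup `Y`
  let Y : Subgroup G := Subgroup.closure {z | ∃ g : G, z = (g * x * g⁻¹) * x⁻¹}
  have hxconj : ∀ g : G, g * x * g⁻¹ ∈ N := fun g => hNn.conj_mem _ hxN g
  have hYN : Y ≤ N := by
    rw [Subgroup.closure_le]
    rintro _ ⟨g, rfl⟩
    exact N.mul_mem (hxconj g) (N.inv_mem hxN)
  have hYn : Y.Normal := by
    constructor
    intro y hy h
    induction hy using Subgroup.closure_induction with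
    | mem z hz =>
      obtain ⟨g, rfl⟩ := hz
      have h1 : h * ((g * x * g⁻¹) * x⁻¹) * h⁻¹ =
          (((h * g) * x * (h * g)⁻¹) * x⁻¹) * ((h * x * h⁻¹) * x⁻¹)⁻¹ := by group
      rw [h1]
      exact Y.mul_mem (Subgroup.subset_closure ⟨_, rfl⟩) (Y.inv_mem (Subgroup.subset_closure ⟨_, rfl⟩))
    | one => simp
    | mul a b _ _ ha hb =>
      have : h * (a * b) * h⁻¹ = (h * a * h⁻¹) * (h * b * h⁻¹) := by group
      rw [this]; exact Y.mul_mem ha hb
    | inv a _ ha =>
      have : h * a⁻¹ * h⁻¹ = (h * a * h⁻¹)⁻¹ := by group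
      rw [this]; exact Y.inv_mem ha
  have hYcomm : Y ≤ ⁅N, (S : Subgroup G)⁆ := by
    rw [Subgroup.closure_le]
    rintro _ ⟨g, rfl⟩
    obtain ⟨s, hs, y, hy, rfl⟩ := hfac g
    have h1 : (s * y) * x * (s * y)⁻¹ = s * x * s⁻¹ := by
      have h2 := hcent y hy
      calc (s * y) * x * (s * y)⁻¹ = s * (y * x * y⁻¹) * s⁻¹ := by group
        _ = s * x * s⁻¹ := by rw [h2]
    rw [h1]
    have h3 : ⁅s, x⁆ ∈ ⁅(S : Subgroup G), N⁆ := Subgroup.commutator_mem_commutator hs hxN
    rw [Subgroup.commutator_comm] at h3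
    rw [commutatorElement_def] at h3
    exact h3
  rcases hmin Y hYn hYN with h | h
  · -- `x` is central
    have hcentral : ∀ g : G, g * x = x * g := by
      intro g
      have h1 : (g * x * g⁻¹) * x⁻¹ ∈ Y := Subgroup.subset_closure ⟨g, rfl⟩
      rw [h, Subgroup.mem_bot] at h1
      have h2 : g * x * g⁻¹ = x := by
        have := mul_inv_eq_one.mp h1
        exact this
      calc g * x = (g * x * g⁻¹) * g := by group
        _ = x * g := by rw [h2]
    have hzn : (Subgroup.zpowers x).Normal := by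
      constructor
      intro y hy g
      obtain ⟨m, rfl⟩ := Subgroup.mem_zpowers_iff.mp hy
      have h1 : g * x ^ m * g⁻¹ = x ^ m := by
        rw [← conj_zpow]
        have h2 : g * x * g⁻¹ = x := by rw [hcentral g]; group
        rw [h2]
      rw [h1]
      exact Subgroup.zpow_mem_zpowers x m
    have hzle : Subgroup.zpowers x ≤ N := by
      rw [Subgroup.zpowers_le]; exact hxN
    rcases hmin _ hzn hzle with h1 | h1
    · exfalso
      apply hx1
      have : x ∈ Subgroup.zpowers x := Subgroup.mem_zpowers x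
      rw [h1, Subgroup.mem_bot] at this
      exact this
    · rw [Subgroup.commutator_eq_bot_iff_le_centralizer, ← h1]
      rw [Subgroup.zpowers_le, Subgroup.mem_centralizer_iff]
      intro g _
      exact hcentral g
  · exfalso
    have h1 : ⁅N, (S : Subgroup G)⁆ = N :=
      le_antisymm (Subgroup.commutator_le_left _ _) (by
        conv_lhs => rw [← h]
        exact hYcomm)
    exact commutator_ne_self_of_nilpotent (S : Subgroup G) N S.2.isNilpotent hNS hN h1

/-- S0568. -/
theorem chief_factor_sysNorm [Group.IsSolvable G] (hK : IsComplementSystem K) (A B : Subgroup G)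
    [hA : A.Normal] [hB : B.Normal] (hAB : A < B)
    (hchief : ∀ N : Subgroup G, N.Normal → A ≤ N → N ≤ B → N = A ∨ N = B) :
    (⁅B, (⊤ : Subgroup G)⁆ ≤ A → B ≤ A ⊔ systemNormalizer K) ∧
      (¬ ⁅B, (⊤ : Subgroup G)⁆ ≤ A → B ⊓ systemNormalizer K ≤ A) := by
  let f := QuotientGroup.mk' A
  have hf : Function.Surjective f := QuotientGroup.mk'_surjective A
  have hker : f.ker = A := QuotientGroup.ker_mk' A
  haveI : Group.IsSolvable (G ⧸ A) := solvable_of_surjective hf
  have hcomap : ∀ X : Subgroup G, A ≤ X → (X.map f).comap f = X := by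
    intro X hX
    rw [Subgroup.comap_map_eq, hker, sup_eq_left.mpr hX]
  let N := B.map f
  haveI hNn : N.Normal := Subgroup.Normal.map hB f hf
  have hNb : N ≠ ⊥ := by
    intro h
    have h1 := hcomap B hAB.le
    have h0 : Subgroup.map f B = ⊥ := h
    rw [h0, MonoidHom.comap_bot, hker] at h1
    exact hAB.ne h1
  have hmin : ∀ M : Subgroup (G ⧸ A), M.Normal → M ≤ N → M = ⊥ ∨ M = N := by
    intro M hM hMN
    have h1 : (M.comap f).Normal := Subgroup.Normal.comap hM f
    have h2 : A ≤ M.comap f := hker.symm.le.trans (Subgroup.ker_le_comap f M)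
    have h3 : M.comap f ≤ B := by
      have : M.comap f ≤ N.comap f := Subgroup.comap_mono hMN
      rwa [hcomap B hAB.le] at this
    have hMmap : (M.comap f).map f = M := Subgroup.map_comap_eq_self_of_surjective hf M
    rcases hchief _ h1 h2 h3 with h4 | h4
    · left
      rw [← hMmap, h4, Subgroup.map_eq_bot_iff, hker]
    · right
      rw [← hMmap, h4]
  have hD := sysNorm_map_eq hK A
  constructor
  · intro hc b hb
    have hcent : ∀ g : G, f g * f b = f b * f g := by
      intro g
      have h1 : ⁅b, g⁆ ∈ A := hc (Subgroup.commutator_mem_commutator hb (Subgroup.mem_top g))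
      have h2 : f ⁅b, g⁆ = 1 := (QuotientGroup.eq_one_iff _).mpr h1
      rw [commutatorElement_def, map_mul, map_mul, map_mul, map_inv, map_inv] at h2
      have h3 : f b * f g = f g * f b := by
        have h4 : f b * f g * (f b)⁻¹ * (f g)⁻¹ = 1 := h2
        calc f b * f g = (f b * f g * (f b)⁻¹ * (f g)⁻¹) * (f g * f b) := by group
          _ = f g * f b := by rw [h4, one_mul]
      exact h3.symm
    have hmem : f b ∈ systemNormalizer (fun p => (K p).map (QuotientGroup.mk' A)) := by
      rw [mem_sysNorm_iff]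
      intro p
      rw [Subgroup.mem_normalizer_iff]
      intro h
      obtain ⟨g, rfl⟩ := hf h
      have h1 : f b * f g * (f b)⁻¹ = f g := by
        rw [← hcent g]; group
      rw [h1]
    rw [hD] at hmem
    obtain ⟨d, hd, hdb⟩ := hmem
    have h1 : d⁻¹ * b ∈ A := by
      rw [← QuotientGroup.eq]
      exact hdb
    have h2 : b = d * (d⁻¹ * b) := by group
    rw [h2]
    exact Subgroup.mul_mem _ (Subgroup.mem_sup_right hd) (Subgroup.mem_sup_left h1)
  · intro hnc x hx
    by_contra hxA
    have h1 : f x ≠ 1 := by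
      intro h
      exact hxA ((QuotientGroup.eq_one_iff _).mp h)
    have h2 : f x ∈ N := ⟨x, hx.1, rfl⟩
    have h3 : f x ∈ systemNormalizer (fun p => (K p).map (QuotientGroup.mk' A)) :=
      map_sysNorm_le _ ⟨x, hx.2, rfl⟩
    have h4 := central_of_mem_sysNorm (comp_map f hf hK) N hNb hmin h2 h3 h1
    apply hnc
    have h5 : (⁅B, (⊤ : Subgroup G)⁆).map f = ⊥ := by
      rw [Subgroup.map_commutator, Subgroup.map_top_of_surjective f hf]
      exact h4
    rw [Subgroup.map_eq_bot_iff, hker] at h5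
    exact h5

end Cfsg.Agent.H02
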