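import Cfsg.Agent.Lib.H02.Hupp1
import Cfsg.Agent.Lib.H02.MinAb
import Cfsg.Agent.Lib.H02.Sys3
import Cfsg.Agent.Lib.H01.Fitting

/-!
Huppert's supersolvability criterion: the Frattini-type step.
-/

set_option autoImplicit false

namespace Cfsg.Agent.H02

open Cfsg Cfsg.Agent.H01 Subgroup
open scoped Pointwise commutatorElement

universe u

section eigen

variable {p : ℕ} [hp : Fact p.Prime]

theorem exists_power_eigen0 {M : Type*} [CommGroup M] [Nontrivial M] [Module (ZMod p) (Additive M)]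
    (f : M →* M) (hf : ∀ m, (f^[p - 1]) m = m) : ∃ m : M, m ≠ 1 ∧ ∃ j : ℕ, f m = m ^ j := by
  let g : Additive M →ₗ[ZMod p] Additive M := (MonoidHom.toAdditive f).toZModLinearMap p
  have hg : ∀ (k : ℕ) (v : Additive M), (g^[k]) v = Additive.ofMul ((f^[k]) (Additive.toMul v)) := by
    intro k v
    induction k with
    | zero => rfl
    | succ k ih =>
      rw [Function.iterate_succ_apply', Function.iterate_succ_apply', ih]
      rfl
  have hg1 : (g : Module.End (ZMod p) (Additive M)) ^ (p ^ 0 * (p - 1)) = 1 := by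
    rw [pow_zero, one_mul]
    ext v
    rw [Module.End.pow_apply, hg, hf]
    rfl
  have hk : (p - 1) ∣ Fintype.card (ZMod p) - 1 := by rw [ZMod.card]
  obtain ⟨v, hv0, μ, hv⟩ := exists_eigenvector (p := p) g 0 (p - 1) hg1 hk
  refine ⟨Additive.toMul v, hv0, μ.val, ?_⟩
  have h1 : g v = μ.val • v := by
    rw [hv]
    conv_lhs => rw [← ZMod.natCast_zmod_val μ]
    exact Nat.cast_smul_eq_nsmul _ _ _
  exact h1

theorem exists_power_eigen' {M : Type*} [CommGroup M] [Nontrivial M] (hexp : ∀ m : M, m ^ p = 1)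
    (f : M →* M) (hf : ∀ m, (f^[p - 1]) m = m) : ∃ m : M, m ≠ 1 ∧ ∃ j : ℕ, f m = m ^ j := by
  letI : Module (ZMod p) (Additive M) := AddCommGroup.zmodModule (fun x => by
    show Additive.ofMul ((Additive.toMul x) ^ p) = 0
    rw [hexp]; rfl)
  exact exists_power_eigen0 f hf

theorem exists_power_eigen {M : Type*} [Group M] [Nontrivial M] (hc : ∀ a b : M, a * b = b * a)
    (hexp : ∀ m : M, m ^ p = 1)
    (f : M →* M) (hf : ∀ m, (f^[p - 1]) m = m) : ∃ m : M, m ≠ 1 ∧ ∃ j : ℕ, f m = m ^ j := by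
  letI : CommGroup M := { ‹Group M› with mul_comm := hc }
  exact exists_power_eigen' hexp f hf

end eigen

variable {G : Type u} [Group G] [Finite G]

theorem top_of_sup_of_le_coatoms {N : Subgroup G} (hcoat : ∀ M : Subgroup G, IsCoatom M → N ≤ M)
    {H : Subgroup G} (h : H ⊔ N = ⊤) : H = ⊤ := by
  by_contra hne
  obtain ⟨M, hM, hHM⟩ := (eq_top_or_exists_le_coatom H).resolve_left hne
  apply hM.1
  rw [eq_top_iff, ← h]
  exact sup_le hHM (hcoat M hM)

theorem normal_of_conj_of_sup {E Q K : Subgroup G} (hsup : Q ⊔ K = ⊤)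
    (hQ : ∀ q ∈ Q, ∀ e ∈ E, q * e * q⁻¹ ∈ E) (hK : ∀ k ∈ K, ∀ e ∈ E, k * e * k⁻¹ ∈ E) : E.Normal := by
  have aux : ∀ (S : Subgroup G), (∀ q ∈ S, ∀ e ∈ E, q * e * q⁻¹ ∈ E) → S ≤ normalizer (E : Set G) := by
    intro S hS q hq
    rw [mem_normalizer_iff]
    intro h
    constructor
    · exact hS q hq h
    · intro h'
      have := hS q⁻¹ (S.inv_mem hq) _ h'
      have h2 : q⁻¹ * (q * h * q⁻¹) * q⁻¹⁻¹ = h := by group
      rwa [h2] at this
  rw [← normalizer_eq_top_iff, eq_top_iff, ← hsup]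
  exact sup_le (aux Q hQ) (aux K hK)

theorem quot_pCore_bot {p r : ℕ} [hp : Fact p.Prime] [hr : Fact r.Prime] (hrp : r ≠ p)
    {N : Subgroup G} [hN : N.Normal] (hNp : IsPGroup p N) (hNb : N ≠ ⊥)
    (hcoat : ∀ M : Subgroup G, IsCoatom M → N ≤ M)
    (huniq : ∀ T : Subgroup G, T.Normal → T ≠ ⊥ → N ≤ T) :
    pCore r (G ⧸ N) = ⊥ := by
  set Rb := pCore r (G ⧸ N) with hRb
  have hRbn : Rb.Normal := Cfsg.Agent.H01.pCore_normal r
  have hRbp : IsPGroup r Rb := pCore_isPGroup r
  set T := Rb.comap (QuotientGroup.mk' N) with hT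
  haveI hTn : T.Normal := hRbn.comap _
  obtain ⟨S⟩ : Nonempty (Sylow r T) := inferInstance
  set S0 := (S : Subgroup T).map T.subtype with hS0
  have hS0p : IsPGroup r S0 := S.isPGroup'.map _
  have hF : normalizer (S0 : Set G) ⊔ T = ⊤ := Sylow.normalizer_sup_eq_top S
  have hNT : N ≤ T := by
    intro n hn
    show (n : G ⧸ N) ∈ Rb
    rw [(QuotientGroup.eq_one_iff n).mpr hn]
    exact one_mem _
  have hTS : T ≤ S0 ⊔ N := by
    have hsurj := (QuotientGroup.mk' N).subgroupMap_surjective T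
    have hTmap : T.map (QuotientGroup.mk' N) = Rb :=
      Subgroup.map_comap_eq_self_of_surjective (QuotientGroup.mk'_surjective N) Rb
    have hmp : IsPGroup r (T.map (QuotientGroup.mk' N)) := by rw [hTmap]; exact hRbp
    let S' := S.mapSurjective hsurj
    have htop : (S' : Subgroup (T.map (QuotientGroup.mk' N))) = ⊤ := (S'.3 (hmp.to_subgroup ⊤) le_top).symm
    intro t ht
    have h1 : (QuotientGroup.mk' N).subgroupMap T ⟨t, ht⟩ ∈ (S' : Subgroup (T.map (QuotientGroup.mk' N))) := by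
      rw [htop]; trivial
    obtain ⟨s, hs, hst⟩ := h1
    have h2 : (QuotientGroup.mk' N (s : G)) = QuotientGroup.mk' N t := congrArg Subtype.val hst
    have h3 : (s : G)⁻¹ * t ∈ N := QuotientGroup.eq.mp h2
    have h4 : t = (s : G) * ((s : G)⁻¹ * t) := by group
    rw [h4]
    exact mul_mem (mem_sup_left (mem_map_of_mem _ hs)) (mem_sup_right h3)
  have htop : normalizer (S0 : Set G) ⊔ N = ⊤ := by
    rw [eq_top_iff, ← hF]
    refine sup_le le_sup_left (hTS.trans (sup_le ?_ le_sup_right))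
    exact le_normalizer.trans le_sup_left
  have hS0n : S0.Normal := normalizer_eq_top_iff.mp (top_of_sup_of_le_coatoms hcoat htop)
  have hS0b : S0 = ⊥ := by
    by_contra hb
    have hle := huniq S0 hS0n hb
    apply hNb
    rw [eq_bot_iff]
    intro n hn
    have h1 := hS0p.to_le hle ⟨n, hn⟩
    have h2 := hNp ⟨n, hn⟩
    obtain ⟨a, ha⟩ := h1
    obtain ⟨b, hb⟩ := h2
    have ha' : n ^ r ^ a = 1 := by simpa using congrArg Subtype.val ha
    have hb' : n ^ p ^ b = 1 := by simpa using congrArg Subtype.val hb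
    have hcop : (r ^ a).Coprime (p ^ b) :=
      Nat.Coprime.pow _ _ ((Nat.coprime_primes hr.out hp.out).mpr hrp)
    have := (pow_gcd_eq_one (a := n)).mpr ⟨ha', hb'⟩
    rw [Nat.Coprime.gcd_eq_one hcop, pow_one] at this
    exact this
  rw [eq_bot_iff]
  intro z hz
  obtain ⟨g, rfl⟩ := QuotientGroup.mk_surjective z
  have hgT : g ∈ T := hz
  have := hTS hgT
  rw [hS0b, bot_sup_eq] at this
  rw [mem_bot]
  exact (QuotientGroup.eq_one_iff g).mpr this

theorem comm_le_pCore_of_frattini {p : ℕ} [hp : Fact p.Prime]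
    {N : Subgroup G} [hN : N.Normal] (hNp : IsPGroup p N) (hNb : N ≠ ⊥)
    (hcoat : ∀ M : Subgroup G, IsCoatom M → N ≤ M)
    (huniq : ∀ T : Subgroup G, T.Normal → T ≠ ⊥ → N ≤ T) (hS : IsSupersolvable (G ⧸ N)) :
    commutator G ≤ pCore p G := by
  have hnil := commutator_isNilpotent hS
  have h1 := normal_nilpotent_le_iSup_pCore (inferInstance : (commutator (G ⧸ N)).Normal) hnil
  have h2 : commutator (G ⧸ N) ≤ pCore p (G ⧸ N) := by
    refine h1.trans (iSup_le ?_)
    rintro ⟨r, hr⟩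
    by_cases hrp : r = p
    · subst hrp; exact le_rfl
    · have := Fact.mk hr
      rw [quot_pCore_bot hrp hNp hNb hcoat huniq]
      exact bot_le
  set T := (pCore p (G ⧸ N)).comap (QuotientGroup.mk' N) with hT
  have hTn : T.Normal := (Cfsg.Agent.H01.pCore_normal p).comap _
  have hTp : IsPGroup p T := by
    refine IsPGroup.comap_of_ker_isPGroup (pCore_isPGroup p) _ ?_
    rw [QuotientGroup.ker_mk']
    exact hNp
  refine le_trans ?_ (le_pCore hTn hTp)
  intro c hc
  show QuotientGroup.mk' N c ∈ pCore p (G ⧸ N)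
  apply h2
  have h3 : (commutator G).map (QuotientGroup.mk' N) = commutator (G ⧸ N) := by
    rw [commutator_def, commutator_def, map_commutator,
      map_top_of_surjective _ (QuotientGroup.mk'_surjective N)]
  rw [← h3]
  exact mem_map_of_mem _ hc

end Cfsg.Agent.H02
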