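import Cfsg.Agent.Lib.H02.Hupp2

/-!
Huppert's supersolvability criterion: the main step.
-/

set_option autoImplicit false

namespace Cfsg.Agent.H02

open Cfsg Cfsg.Agent.H01 Subgroup
open scoped Pointwise commutatorElement

universe u

variable {G : Type u} [Group G] [Finite G]

theorem cyclic_of_frattini {p : ℕ} [hp : Fact p.Prime] [hsolv : Group.IsSolvable G]
    {N : Subgroup G} [hN : N.Normal] (hcomm : ∀ a ∈ N, ∀ b ∈ N, a * b = b * a)
    (hexp : ∀ x ∈ N, x ^ p = 1) (hNb : N ≠ ⊥)
    (hcoat : ∀ M : Subgroup G, IsCoatom M → N ≤ M)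
    (huniq : ∀ T : Subgroup G, T.Normal → T ≠ ⊥ → N ≤ T) (hS : IsSupersolvable (G ⧸ N)) :
    ∃ n₀ : G, N = zpowers n₀ := by
  have hNp : IsPGroup p N := fun x => ⟨1, by
    ext
    simpa using hexp x x.2⟩
  set Q := pCore p G with hQ
  have hQn : Q.Normal := Cfsg.Agent.H01.pCore_normal p
  have hQp : IsPGroup p Q := pCore_isPGroup p
  have hNQ : N ≤ Q := le_pCore inferInstance hNp
  have hGQ : commutator G ≤ Q := comm_le_pCore_of_frattini hNp hNb hcoat huniq hS
  -- `Q` is a Sylow subgroup
  obtain ⟨P⟩ : Nonempty (Sylow p G) := inferInstance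
  have hnormal_of_ge : ∀ L : Subgroup G, Q ≤ L → L.Normal := by
    intro L hL
    constructor
    intro l hl g
    have h1 : g * l * g⁻¹ * l⁻¹ ∈ commutator G := by
      rw [_root_.commutator_def]
      have := commutator_mem_commutator (mem_top g) (mem_top l)
      rwa [commutatorElement_def] at this
    have h2 : g * l * g⁻¹ = (g * l * g⁻¹ * l⁻¹) * l := by group
    rw [h2]
    exact mul_mem (hL (hGQ h1)) hl
  have hPQ : (P : Subgroup G) ≤ Q := by
    have h1 : IsPGroup p ((P : Subgroup G) ⊔ Q : Subgroup G) := IsPGroup.to_sup_of_normal_right' P.isPGroup' hQp (by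
      rw [normalizer_eq_top_iff.mpr hQn]; exact le_top)
    exact le_sup_left.trans (le_pCore (hnormal_of_ge _ le_sup_right) h1)
  have hQP : Q = P := P.3 hQp hPQ
  have hcop : (Nat.card Q).Coprime Q.index := by
    have h1 : ¬ p ∣ (P : Subgroup G).index := P.not_dvd_index
    rw [hQP]
    obtain ⟨k, hk⟩ := IsPGroup.iff_card.mp P.isPGroup'
    rw [hk]
    exact Nat.Coprime.pow_left _ ((Nat.Prime.coprime_iff_not_dvd hp.out).mpr h1)
  obtain ⟨K, hK⟩ := Subgroup.exists_right_complement'_of_coprime hcop
  have hQK : Q ⊓ K = ⊥ := hK.disjoint.eq_bot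
  have hsup : Q ⊔ K = ⊤ := hK.sup_eq_top
  have hKcomm : ∀ a ∈ K, ∀ b ∈ K, a * b = b * a := by
    intro a ha b hb
    have h1 : a * b * a⁻¹ * b⁻¹ ∈ Q := by
      apply hGQ
      rw [_root_.commutator_def]
      have := commutator_mem_commutator (mem_top a) (mem_top b)
      rwa [commutatorElement_def] at this
    have h2 : a * b * a⁻¹ * b⁻¹ ∈ K := by
      exact mul_mem (mul_mem (mul_mem ha hb) (K.inv_mem ha)) (K.inv_mem hb)
    have h3 : a * b * a⁻¹ * b⁻¹ ∈ Q ⊓ K := ⟨h1, h2⟩
    rw [hQK, mem_bot] at h3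
    calc a * b = a * b * a⁻¹ * b⁻¹ * (b * a) := by group
      _ = b * a := by rw [h3, one_mul]
  have hKcardcop : (Nat.card K).Coprime p := by
    have h1 : Nat.card K = Q.index := hK.symm.index_eq_card.symm
    rw [h1, hQ]
    have h2 : ¬ p ∣ (P : Subgroup G).index := P.not_dvd_index
    rw [← hQ, hQP, Nat.coprime_comm, Nat.Prime.coprime_iff_not_dvd hp.out]
    exact h2
  have hKord : ∀ x ∈ K, (orderOf x).Coprime p := by
    intro x hx
    refine Nat.Coprime.coprime_dvd_left ?_ hKcardcop
    have : orderOf (⟨x, hx⟩ : K) ∣ Nat.card K := orderOf_dvd_natCard _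
    rwa [Subgroup.orderOf_mk] at this
  -- the `p'`-core is trivial, so `C(Q) ≤ Q`
  have hpp : pPrimeCore p G = ⊥ := by
    by_contra hb
    have hle := huniq _ (Cfsg.Agent.H05.pp_normal p) hb
    apply hNb
    rw [eq_bot_iff]
    intro n hn
    have h1 := Cfsg.Agent.H05.pp_order_coprime p (hle hn)
    have h2 := hexp n hn
    have := (pow_gcd_eq_one (a := n)).mpr ⟨pow_orderOf_eq_one n, h2⟩
    rw [Nat.Coprime.gcd_eq_one h1, pow_one] at this
    exact this
  have hF : fittingSubgroup G = Q := Cfsg.Agent.H05.fitting_eq_pCore_of_pp_bot hpp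
  have hCQ : centralizer (Q : Set G) ≤ Q := by
    rw [← hF]
    exact centralizer_fitting_le
  -- `K` has exponent dividing `p - 1`
  have hKexp : ∀ x ∈ K, x ^ (p - 1) = 1 := by
    intro x hx
    set y := x ^ (p - 1) with hy
    have hyK : y ∈ K := pow_mem hx _
    have hcomm1 : ∀ q ∈ Q, (y : G ⧸ N) * (q : G ⧸ N) = (q : G ⧸ N) * (y : G ⧸ N) := by
      intro q hq
      have h1 := pow_pred_centralizes (p := p) _ (G ⧸ N) rfl hS (Q.map (QuotientGroup.mk' N))
        (hQn.map _ (QuotientGroup.mk'_surjective N)) (hQp.map _) (QuotientGroup.mk' N x)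
        (Nat.Coprime.coprime_dvd_left (orderOf_map_dvd _ _) (hKord x hx))
        (QuotientGroup.mk' N q) (mem_map_of_mem _ hq)
      rw [← map_pow] at h1
      exact h1
    set A := zpowers y with hA
    have hAK : A ≤ K := zpowers_le.mpr hyK
    have hAnorm : A ≤ normalizer (Q : Set G) := by
      rw [normalizer_eq_top_iff.mpr hQn]; exact le_top
    have hcopA : (Nat.card A).Coprime (Nat.card Q) := by
      have h1 : Nat.card A ∣ Nat.card K := Subgroup.card_dvd_of_le hAK
      obtain ⟨k, hk⟩ := IsPGroup.iff_card.mp hQp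
      rw [hk]
      exact Nat.Coprime.pow_right _ (Nat.Coprime.coprime_dvd_left h1 hKcardcop)
    have hCS := commutator_sup_centralizer hAnorm hcopA (Or.inl inferInstance)
    have hcommN : ⁅Q, A⁆ ≤ N := by
      rw [commutator_le]
      intro q hq a ha
      obtain ⟨i, rfl⟩ := mem_zpowers_iff.mp ha
      rw [← QuotientGroup.eq_one_iff]
      have h1 : Commute (y : G ⧸ N) (q : G ⧸ N) := hcomm1 q hq
      have h2 : Commute (q : G ⧸ N) (((y ^ i : G) : G ⧸ N)) := by
        rw [QuotientGroup.mk_zpow]
        exact (h1.zpow_left i).symm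
      have h3 : ((⁅q, y ^ i⁆ : G) : G ⧸ N) = ⁅(q : G ⧸ N), ((y ^ i : G) : G ⧸ N)⁆ :=
        map_commutatorElement (QuotientGroup.mk' N) _ _
      rw [h3, commutatorElement_eq_one_iff_mul_comm]
      exact h2
    set D := Q ⊓ centralizer (A : Set G) with hD
    have hKD : K ≤ normalizer (D : Set G) := by
      intro k hk
      apply mem_normalizer_of_conj_le
      intro d hd
      refine ⟨hQn.conj_mem d hd.1 k, ?_⟩
      show k * d * k⁻¹ ∈ centralizer (A : Set G)
      rw [mem_centralizer_iff]
      intro a ha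
      have hak : a * k = k * a := hKcomm a (hAK ha) k hk
      have hak' : a * k⁻¹ = k⁻¹ * a := by
        calc a * k⁻¹ = k⁻¹ * (k * a) * k⁻¹ := by group
          _ = k⁻¹ * (a * k) * k⁻¹ := by rw [hak]
          _ = k⁻¹ * a := by group
      have hda : a * d = d * a := (mem_centralizer_iff.mp hd.2) a ha
      calc a * (k * d * k⁻¹) = (a * k) * d * k⁻¹ := by group
        _ = k * (a * d) * k⁻¹ := by rw [hak]; group
        _ = k * d * (a * k⁻¹) := by rw [hda]; group
        _ = k * d * k⁻¹ * a := by rw [hak']; group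
    obtain ⟨S, hSs⟩ := exists_subgroup_mul_of_le_normalizer hKD
    have hKS : K ≤ S := by
      intro k hk
      have : k ∈ (S : Set G) := by
        rw [hSs]
        exact ⟨k, hk, 1, one_mem _, mul_one k⟩
      exact this
    have hDS : D ≤ S := by
      intro d hd
      have : d ∈ (S : Set G) := by
        rw [hSs]
        exact ⟨1, one_mem _, d, hd, one_mul d⟩
      exact this
    have hStop : S = ⊤ := by
      apply top_of_sup_of_le_coatoms hcoat
      rw [eq_top_iff, ← hsup]
      refine sup_le ?_ (hKS.trans le_sup_left)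
      rw [← hCS]
      exact sup_le (hcommN.trans le_sup_right) (hDS.trans le_sup_left)
    have hQD : Q ≤ D := by
      intro q hq
      have h1 : q ∈ (S : Set G) := by rw [hStop]; trivial
      rw [hSs] at h1
      obtain ⟨k, hk, d, hd, hkd⟩ := h1
      have hkd' : k * d = q := hkd
      have hkQ : k ∈ Q := by
        have : k = q * d⁻¹ := by rw [← hkd']; group
        rw [this]
        exact mul_mem hq (Q.inv_mem hd.1)
      have hk1 : k ∈ Q ⊓ K := ⟨hkQ, hk⟩
      rw [hQK, mem_bot] at hk1
      rw [hk1, one_mul] at hkd'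
      rw [← hkd']
      exact hd
    have hyC : y ∈ centralizer (Q : Set G) := by
      rw [mem_centralizer_iff]
      intro q hq
      exact ((mem_centralizer_iff.mp (hQD hq).2) y (mem_zpowers y)).symm
    have hy1 : y ∈ Q ⊓ K := ⟨hCQ hyC, hyK⟩
    rw [hQK, mem_bot] at hy1
    exact hy1
  -- `Q` centralizes `N`
  have hNQc : ⁅N, Q⁆ = ⊥ := by
    by_contra hb
    have h1 := huniq _ (Subgroup.commutator_normal N Q) hb
    have hnil : Group.IsNilpotent Q := hQp.isNilpotent
    exact commutator_ne_self_of_nilpotent Q N hnil hNQ hNb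
      (le_antisymm (commutator_le_left N Q) h1)
  have hQN : ∀ q ∈ Q, ∀ n ∈ N, q * n = n * q := by
    have h1 := commutator_eq_bot_iff_le_centralizer.mp hNQc
    intro q hq n hn
    exact (mem_centralizer_iff.mp (h1 hn)) q hq
  -- each `x ∈ K` acts on `N` as a power map
  have hKact : ∀ x ∈ K, ∃ j : ℕ, ∀ n ∈ N, x * n * x⁻¹ = n ^ j := by
    intro x hx
    haveI : Nontrivial N := by
      obtain ⟨n, hn, hn1⟩ := (Subgroup.ne_bot_iff_exists_ne_one.mp hNb |>.imp fun n h => h) |> fun ⟨n, h⟩ => (⟨n.1, n.2, by simpa using h⟩ : ∃ n : G, n ∈ N ∧ n ≠ 1)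
      exact ⟨⟨n, hn⟩, 1, by simpa [Subtype.ext_iff] using hn1⟩
    have hiter : ∀ (k : ℕ) (m : N), (((MulAut.conjNormal x : MulAut N).toMonoidHom : N →* N)^[k]) m = ⟨x ^ k * m * (x ^ k)⁻¹, hN.conj_mem _ m.2 _⟩ := by
      intro k m
      induction k with
      | zero => ext; simp
      | succ k ih =>
        rw [Function.iterate_succ_apply', ih]
        ext
        show x * (x ^ k * m * (x ^ k)⁻¹) * x⁻¹ = _
        rw [pow_succ']
        group
    obtain ⟨m, hm, j, hmj⟩ := exists_power_eigen (p := p) (M := N)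
      (fun a b => Subtype.ext (hcomm a a.2 b b.2))
      (fun a => Subtype.ext (hexp a a.2))
      (MulAut.conjNormal x : MulAut N).toMonoidHom
      (fun m => by
        rw [hiter]
        ext
        show x ^ (p - 1) * m * (x ^ (p - 1))⁻¹ = m
        rw [hKexp x hx]
        group)
    refine ⟨j, ?_⟩
    let E : Subgroup G :=
      { carrier := {n | n ∈ N ∧ x * n * x⁻¹ = n ^ j}
        mul_mem' := by
          rintro a b ⟨ha, ha'⟩ ⟨hb, hb'⟩
          refine ⟨mul_mem ha hb, ?_⟩
          have hab : Commute a b := hcomm a ha b hb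
          rw [hab.mul_pow, ← ha', ← hb']
          group
        one_mem' := ⟨one_mem _, by simp⟩
        inv_mem' := by
          rintro a ⟨ha, ha'⟩
          refine ⟨inv_mem ha, ?_⟩
          rw [inv_pow, ← ha']
          group }
    have hEn : E.Normal := by
      apply normal_of_conj_of_sup hsup
      · rintro q hq e ⟨he, he'⟩
        have h1 : q * e * q⁻¹ = e := by
          rw [hQN q hq e he]; group
        rw [h1]
        exact ⟨he, he'⟩
      · rintro k hk e ⟨he, he'⟩
        refine ⟨hN.conj_mem e he k, ?_⟩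
        have hxk : x * k = k * x := hKcomm x hx k hk
        have h2 : x⁻¹ * k⁻¹ = k⁻¹ * x⁻¹ := by
          rw [← mul_inv_rev, ← mul_inv_rev, hxk]
        calc x * (k * e * k⁻¹) * x⁻¹ = (x * k) * e * (k⁻¹ * x⁻¹) := by group
          _ = (k * x) * e * (x⁻¹ * k⁻¹) := by rw [hxk, h2]
          _ = k * (x * e * x⁻¹) * k⁻¹ := by group
          _ = (k * e * k⁻¹) ^ j := by rw [he', conj_pow]
    have hEb : E ≠ ⊥ := by
      intro hb
      apply hm
      have h1 : (m : G) ∈ E := ⟨m.2, by
        have := congrArg Subtype.val hmj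
        exact this⟩
      rw [hb, mem_bot] at h1
      exact Subtype.ext h1
    have hNE := huniq E hEn hEb
    intro n hn
    exact (hNE hn).2
  -- conclude
  obtain ⟨n₀, hn₀, hn₀1⟩ : ∃ n : G, n ∈ N ∧ n ≠ 1 := by
    obtain ⟨n, h⟩ := Subgroup.ne_bot_iff_exists_ne_one.mp hNb
    exact ⟨n.1, n.2, by simpa using h⟩
  refine ⟨n₀, le_antisymm ?_ (zpowers_le.mpr hn₀)⟩
  apply huniq
  · apply normal_of_conj_of_sup hsup
    · rintro q hq _ ⟨i, rfl⟩
      have h1 : q * n₀ ^ i * q⁻¹ = n₀ ^ i := by
        rw [hQN q hq _ (zpow_mem hn₀ i)]; group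
      simp only [h1]
      exact zpow_mem_zpowers _ _
    · rintro k hk _ ⟨i, rfl⟩
      obtain ⟨j, hj⟩ := hKact k hk
      simp only
      rw [← conj_zpow, hj n₀ hn₀]
      exact zpow_mem (pow_mem (mem_zpowers _) _) _
  · intro hb
    apply hn₀1
    have : n₀ ∈ zpowers n₀ := mem_zpowers _
    rw [hb, mem_bot] at this
    exact this

theorem huppert : ∀ (n : ℕ) (G : Type u) [Group G] [Finite G], Nat.card G = n →
    (∀ M : Subgroup G, IsCoatom M → M.index.Prime) → IsSupersolvable G := by
  intro n
  induction n using Nat.strong_induction_on with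
  | _ n ih =>
  intro G _ _ hn h
  by_cases htriv : Subsingleton G
  · exact isSupersolvable_of_trivial
  rw [not_subsingleton_iff_nontrivial] at htriv
  haveI hsolv : Group.IsSolvable G := solvable_of_prime_index n G hn h
  obtain ⟨N, hNn, hNb, hmin⟩ := exists_minimal_normal (G := G)
  haveI := hNn
  have hquot : ∀ (L : Subgroup G) [L.Normal], L ≠ ⊥ → IsSupersolvable (G ⧸ L) := by
    intro L _ hL
    refine ih _ ?_ (G ⧸ L) rfl ?_
    · rw [← hn]
      have h1 := Subgroup.card_mul_index L
      have h2 : L.index = Nat.card (G ⧸ L) := rfl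
      rw [← h2]
      have h3 : 1 < Nat.card L := by
        have : Nontrivial L := (Subgroup.nontrivial_iff_ne_bot L).mpr hL
        exact Finite.one_lt_card
      have h4 : 0 < L.index := Nat.pos_of_ne_zero Subgroup.index_ne_zero_of_finite
      nlinarith
    · intro M hM
      have := h _ (isCoatom_comap_of_surjective (QuotientGroup.mk' L) (QuotientGroup.mk'_surjective L) hM)
      rwa [Subgroup.index_comap_of_surjective _ (QuotientGroup.mk'_surjective L)] at this
  have hSN := hquot N hNb
  obtain ⟨hcomm, p, hp, hexp⟩ := minimal_normal_elementary_abelian N hNb hmin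
  have hcomm' : ∀ a ∈ N, ∀ b ∈ N, a * b = b * a := by
    intro a ha b hb
    have := hcomm.is_comm.comm ⟨a, ha⟩ ⟨b, hb⟩
    exact congrArg Subtype.val this
  haveI : Fact p.Prime := ⟨hp⟩
  by_cases huniq : ∀ T : Subgroup G, T.Normal → T ≠ ⊥ → N ≤ T
  · by_cases hcoat : ∀ M : Subgroup G, IsCoatom M → N ≤ M
    · obtain ⟨n₀, hn₀⟩ := cyclic_of_frattini hcomm' hexp hNb hcoat huniq hSN
      haveI : IsCyclic N := by rw [hn₀]; infer_instance
      exact isSupersolvable_of_cyclic_normal N hSN
    · push Not at hcoat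
      obtain ⟨M, hM, hNM⟩ := hcoat
      have hsup : M ⊔ N = ⊤ := by
        apply hM.2
        exact lt_of_le_of_ne le_sup_left (fun heq => hNM (by rw [heq]; exact le_sup_right))
      have hInfn : (M ⊓ N).Normal := by
        apply normal_of_conj_of_sup hsup
        · intro q hq e he
          exact ⟨mul_mem (mul_mem hq he.1) (M.inv_mem hq), hNn.conj_mem e he.2 q⟩
        · intro k hk e he
          have : k * e * k⁻¹ = e := by rw [hcomm' k hk e he.2]; group
          rw [this]
          exact he
      have hinf : M ⊓ N = ⊥ := by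
        rcases hmin _ hInfn inf_le_right with h1 | h1
        · exact h1
        · exact absurd (inf_eq_right.mp h1) hNM
      have hcard := card_sup_mul_card_inf M N
      rw [hsup, hinf, Subgroup.card_bot, mul_one, Subgroup.card_top] at hcard
      have hidx : M.index = Nat.card N := by
        have h1 := Subgroup.card_mul_index M
        rw [hcard] at h1
        exact Nat.eq_of_mul_eq_mul_left Nat.card_pos h1
      have hNprime : (Nat.card N).Prime := hidx ▸ h M hM
      haveI : Fact (Nat.card N).Prime := ⟨hNprime⟩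
      haveI : IsCyclic N := isCyclic_of_prime_card rfl
      exact isSupersolvable_of_cyclic_normal N hSN
  · push Not at huniq
    obtain ⟨T, hTn, hTb, hNT⟩ := huniq
    haveI := hTn
    have hinf : N ⊓ T = ⊥ := by
      rcases hmin (N ⊓ T) inferInstance inf_le_left with h1 | h1
      · exact h1
      · exact absurd (inf_eq_left.mp h1) hNT
    let φ : G →* (G ⧸ N) × (G ⧸ T) := (QuotientGroup.mk' N).prod (QuotientGroup.mk' T)
    have hφ : Function.Injective φ := by
      rw [injective_iff_map_eq_one]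
      intro g hg
      have h1 : (g : G ⧸ N) = 1 := congrArg Prod.fst hg
      have h2 : (g : G ⧸ T) = 1 := congrArg Prod.snd hg
      have h3 : g ∈ N ⊓ T := ⟨(QuotientGroup.eq_one_iff g).mp h1, (QuotientGroup.eq_one_iff g).mp h2⟩
      rw [hinf, mem_bot] at h3
      exact h3
    have hprod := isSupersolvable_prod hSN (hquot T hTb)
    have hrange := isSupersolvable_subgroup φ.range hprod
    exact isSupersolvable_of_mulEquiv (MonoidHom.ofInjective hφ).symm hrange

end Cfsg.Agent.H02
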