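import Cfsg.Agent.Lib.H02.SolvG
import Cfsg.Agent.Lib.H02.Prod1
import Cfsg.Agent.Lib.H02.SmallA
import Cfsg.Agent.Lib.H01.Basic
import Cfsg.Agent.Lib.H01.Solv

/-!
Itô: a product of two abelian groups has a nontrivial normal subgroup inside a factor.
-/

set_option autoImplicit false

namespace Cfsg.Agent.H02

open Cfsg
open scoped Pointwise commutatorElement

variable {G : Type*} [Group G] [Finite G]

/-- S0573. -/
theorem ito_normal [Nontrivial G] (A B : Subgroup G) [hAc : IsMulCommutative A] [hBc : IsMulCommutative B]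
    (hAB : ∀ g : G, ∃ a ∈ A, ∃ b ∈ B, g = a * b) :
    ∃ N : Subgroup G, N.Normal ∧ N ≠ ⊥ ∧ (N ≤ A ∨ N ≤ B) := by
  classical
  have hcomA : ∀ x ∈ A, ∀ y ∈ A, x * y = y * x := fun x hx y hy =>
    congrArg Subtype.val (hAc.is_comm.comm ⟨x, hx⟩ ⟨y, hy⟩)
  have hcomB : ∀ x ∈ B, ∀ y ∈ B, x * y = y * x := fun x hx y hy =>
    congrArg Subtype.val (hBc.is_comm.comm ⟨x, hx⟩ ⟨y, hy⟩)
  have hBA : ∀ g : G, ∃ b ∈ B, ∃ a ∈ A, g = b * a := by
    intro g
    obtain ⟨a, ha, b, hb, h⟩ := hAB g⁻¹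
    refine ⟨b⁻¹, B.inv_mem hb, a⁻¹, A.inv_mem ha, ?_⟩
    rw [← mul_inv_rev, ← h, inv_inv]
  -- central elements
  by_cases hZ : ∃ z : G, z ≠ 1 ∧ ∀ g, g * z = z * g
  · obtain ⟨z, hz1, hz⟩ := hZ
    obtain ⟨a, ha, b, hb, rfl⟩ := hAB z
    have hacen : ∀ g, g * a = a * g := by
      intro g
      obtain ⟨a', ha', b', hb', rfl⟩ := hAB g
      have h1 : a * b' = b' * a := by
        have h2 := hz b'
        have h3 : b' * b = b * b' := hcomB _ hb' _ hb
        have h4 : b' * a * b = a * b' * b := by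
          calc b' * a * b = b' * (a * b) := by group
            _ = a * b * b' := h2
            _ = a * (b * b') := by group
            _ = a * (b' * b) := by rw [h3]
            _ = a * b' * b := by group
        exact (mul_right_cancel h4).symm
      calc a' * b' * a = a' * (b' * a) := by group
        _ = a' * (a * b') := by rw [h1]
        _ = (a' * a) * b' := by group
        _ = (a * a') * b' := by rw [hcomA _ ha' _ ha]
        _ = a * (a' * b') := by group
    have hbcen : ∀ g, g * b = b * g := by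
      intro g
      have h1 := hz g
      have h2 := hacen g
      have h3 : a * (g * b) = a * (b * g) := by
        calc a * (g * b) = (a * g) * b := by group
          _ = (g * a) * b := by rw [h2]
          _ = g * (a * b) := by group
          _ = a * b * g := h1
          _ = a * (b * g) := by group
      exact mul_left_cancel h3
    have hzn : ∀ w : G, (∀ g, g * w = w * g) → (Subgroup.zpowers w).Normal := by
      intro w hw
      constructor
      intro y hy g
      obtain ⟨m, rfl⟩ := Subgroup.mem_zpowers_iff.mp hy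
      have h1 : g * w ^ m * g⁻¹ = w ^ m := by
        rw [← conj_zpow]
        have h2 : g * w * g⁻¹ = w := by rw [hw g]; group
        rw [h2]
      rw [h1]
      exact Subgroup.zpow_mem_zpowers w m
    by_cases ha1 : a = 1
    · have hb1 : b ≠ 1 := by
        rintro rfl
        apply hz1
        rw [ha1, one_mul]
      refine ⟨_, hzn b hbcen, ?_, Or.inr ?_⟩
      · rw [Ne, Subgroup.zpowers_eq_bot]; exact hb1
      · rw [Subgroup.zpowers_le]; exact hb
    · refine ⟨_, hzn a hacen, ?_, Or.inl ?_⟩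
      · rw [Ne, Subgroup.zpowers_eq_bot]; exact ha1
      · rw [Subgroup.zpowers_le]; exact ha
  have hZ1 : ∀ z : G, (∀ g, g * z = z * g) → z = 1 := by
    intro z hz
    by_contra h
    exact hZ ⟨z, h, hz⟩
  -- solvability
  have hder := ito A B hAB
  haveI hsolv : Group.IsSolvable G := (isSolvable_def G).mpr ⟨2, hder⟩
  have hG'ab : ∀ u ∈ commutator G, ∀ v ∈ commutator G, u * v = v * u := by
    intro u hu v hv
    have h1 : ⁅u, v⁆ ∈ derivedSeries G 2 := by
      rw [derivedSeries_succ, derivedSeries_one]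
      exact Subgroup.commutator_mem_commutator hu hv
    rw [hder, Subgroup.mem_bot, commutatorElement_eq_one_iff_mul_comm] at h1
    exact h1
  have hcommem : ∀ a b : G, ⁅a, b⁆ ∈ commutator G := by
    intro a b
    rw [commutator_def]
    exact Subgroup.commutator_mem_commutator (Subgroup.mem_top a) (Subgroup.mem_top b)
  obtain ⟨N, hNn, hNb, hmin⟩ := H01.exists_minimal_normal (G := G)
  haveI := hNn
  obtain ⟨hNab, p, hp, hNp⟩ := H01.minimal_normal_elementary_abelian N hNb hmin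
  haveI : Fact p.Prime := ⟨hp⟩
  have hNpg : IsPGroup p N := by
    intro y
    refine ⟨1, Subtype.ext ?_⟩
    simpa using hNp y y.2
  have hNcomm : ∀ u ∈ N, ∀ v ∈ N, u * v = v * u := fun x hx y hy =>
    congrArg Subtype.val (hNab.is_comm.comm ⟨x, hx⟩ ⟨y, hy⟩)
  -- `N ≤ G'`
  have hNG' : N ≤ commutator G := by
    have h1 : (N ⊓ commutator G).Normal := inferInstance
    rcases hmin _ h1 inf_le_left with h2 | h2
    · exfalso
      apply hNb
      rw [eq_bot_iff]
      intro n hn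
      rw [Subgroup.mem_bot]
      apply hZ1
      intro g
      have h3 : ⁅n, g⁆ ∈ N ⊓ commutator G := by
        refine ⟨?_, hcommem n g⟩
        rw [commutatorElement_def]
        have h4 : g * n⁻¹ * g⁻¹ ∈ N := hNn.conj_mem _ (N.inv_mem hn) g
        have h5 : n * g * n⁻¹ * g⁻¹ = n * (g * n⁻¹ * g⁻¹) := by group
        rw [h5]
        exact N.mul_mem hn h4
      rw [h2, Subgroup.mem_bot, commutatorElement_eq_one_iff_mul_comm] at h3
      exact h3.symm
    · exact inf_eq_left.mp h2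
  have hGC : ∀ c ∈ commutator G, ∀ n ∈ N, c * n = n * c := fun c hc n hn => hG'ab c hc n (hNG' hn)
  -- the dichotomy
  have hCn : ∀ z : G, (N ⊓ Subgroup.centralizer ({z} : Set G)).Normal := by
    intro z
    constructor
    rintro w ⟨hw1, hw2⟩ g
    replace hw2 := Subgroup.mem_centralizer_singleton_iff.mp hw2
    refine ⟨hNn.conj_mem w hw1 g, Subgroup.mem_centralizer_singleton_iff.mpr ?_⟩
    set c := ⁅g⁻¹, z⁆ with hc
    have hcG : c ∈ commutator G := hcommem _ _
    have h1 : g⁻¹ * z * g = c * z := by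
      rw [hc, commutatorElement_def]; group
    have h2 : c * w = w * c := hGC c hcG w hw1
    have h3 : (g⁻¹ * z * g) * w = w * (g⁻¹ * z * g) := by
      rw [h1]
      calc c * z * w = c * (z * w) := by group
        _ = c * (w * z) := by rw [hw2]
        _ = (c * w) * z := by group
        _ = (w * c) * z := by rw [h2]
        _ = w * (c * z) := by group
    calc g * w * g⁻¹ * z = g * (w * (g⁻¹ * z * g)) * g⁻¹ := by group
      _ = g * ((g⁻¹ * z * g) * w) * g⁻¹ := by rw [h3]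
      _ = z * (g * w * g⁻¹) := by group
  have hdich : ∀ z : G, (∀ n ∈ N, z * n = n * z) ∨ (∀ n ∈ N, z * n = n * z → n = 1) := by
    intro z
    rcases hmin _ (hCn z) inf_le_left with h | h
    · right
      intro n hn hc
      have h1 : n ∈ N ⊓ Subgroup.centralizer ({z} : Set G) :=
        ⟨hn, Subgroup.mem_centralizer_singleton_iff.mpr hc.symm⟩
      rw [h, Subgroup.mem_bot] at h1
      exact h1
    · left
      intro n hn
      have h1 : n ∈ N ⊓ Subgroup.centralizer ({z} : Set G) := by rw [h]; exact hn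
      exact (Subgroup.mem_centralizer_singleton_iff.mp h1.2).symm
  -- `p`-elements centralize `N`
  have hpcent : ∀ (z : G) (k : ℕ), z ^ p ^ k = 1 → ∀ n ∈ N, z * n = n * z := by
    intro z k hz
    rcases hmin _ (hCn z) inf_le_left with h | h
    · exfalso
      have h1 := card_modEq_centralizer N z
        (by rw [Subgroup.normalizer_eq_top_iff.mpr hNn]; exact Subgroup.mem_top _) p k hz
      rw [h, Subgroup.card_bot] at h1
      obtain ⟨t, ht⟩ := IsPGroup.iff_card.mp hNpg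
      have h2 : t ≠ 0 := by
        rintro rfl
        rw [pow_zero] at ht
        exact hNb (Subgroup.card_eq_one.mp ht)
      have h3 : p ∣ Nat.card N := by
        rw [ht]; exact dvd_pow_self p h2
      have h4 : Nat.card N % p = 0 := Nat.mod_eq_zero_of_dvd h3
      have h5 : Nat.card N % p = 1 % p := h1
      rw [h4, Nat.mod_eq_of_lt hp.one_lt] at h5
      exact zero_ne_one h5
    · intro n hn
      have h1 : n ∈ N ⊓ Subgroup.centralizer ({z} : Set G) := by rw [h]; exact hn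
      exact (Subgroup.mem_centralizer_singleton_iff.mp h1.2).symm
  by_cases hA : ∀ x ∈ A, ∀ n ∈ N, x * n = n * x
  · refine ⟨N, hNn, hNb, Or.inl ?_⟩
    intro n hn
    obtain ⟨a, ha, b, hb, hnab⟩ := hAB n
    have hb1 : b = 1 := by
      apply hZ1
      intro g
      obtain ⟨a', ha', b', hb', rfl⟩ := hAB g
      have hbe : b = a⁻¹ * n := by rw [hnab]; group
      have h1 : a' * b = b * a' := by
        rw [hbe]
        calc a' * (a⁻¹ * n) = (a' * a⁻¹) * n := by group
          _ = (a⁻¹ * a') * n := by rw [hcomA _ ha' _ (A.inv_mem ha)]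
          _ = a⁻¹ * (a' * n) := by group
          _ = a⁻¹ * (n * a') := by rw [hA a' ha' n hn]
          _ = a⁻¹ * n * a' := by group
      calc a' * b' * b = a' * (b' * b) := by group
        _ = a' * (b * b') := by rw [hcomB _ hb' _ hb]
        _ = (a' * b) * b' := by group
        _ = (b * a') * b' := by rw [h1]
        _ = b * (a' * b') := by group
    rw [hnab, hb1, mul_one]
    exact ha
  by_cases hB : ∀ x ∈ B, ∀ n ∈ N, x * n = n * x
  · refine ⟨N, hNn, hNb, Or.inr ?_⟩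
    intro n hn
    obtain ⟨a, ha, b, hb, hnab⟩ := hAB n
    have ha1 : a = 1 := by
      apply hZ1
      intro g
      obtain ⟨a', ha', b', hb', rfl⟩ := hAB g
      have hae : a = n * b⁻¹ := by rw [hnab]; group
      have h1 : b' * a = a * b' := by
        rw [hae]
        calc b' * (n * b⁻¹) = (b' * n) * b⁻¹ := by group
          _ = (n * b') * b⁻¹ := by rw [hB b' hb' n hn]
          _ = n * (b' * b⁻¹) := by group
          _ = n * (b⁻¹ * b') := by rw [hcomB _ hb' _ (B.inv_mem hb)]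
          _ = n * b⁻¹ * b' := by group
      calc a' * b' * a = a' * (b' * a) := by group
        _ = a' * (a * b') := by rw [h1]
        _ = (a' * a) * b' := by group
        _ = (a * a') * b' := by rw [hcomA _ ha' _ ha]
        _ = a * (a' * b') := by group
    rw [hnab, ha1, one_mul]
    exact hb
  exfalso
  push Not at hA hB
  obtain ⟨x, hxA, n₁, hn₁, hxn⟩ := hA
  obtain ⟨y, hyB, n₂, hn₂, hyn⟩ := hB
  have hCx : ∀ n ∈ N, x * n = n * x → n = 1 := by
    rcases hdich x with h | h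
    · exact absurd (h n₁ hn₁) hxn
    · exact h
  have hCy : ∀ n ∈ N, y * n = n * y → n = 1 := by
    rcases hdich y with h | h
    · exact absurd (h n₂ hn₂) hyn
    · exact h
  obtain ⟨⟨n₀, hn₀⟩, hn₀1⟩ := (Subgroup.ne_bot_iff_exists_ne_one).mp hNb
  have hn₀ne : n₀ ≠ 1 := fun h => hn₀1 (Subtype.ext h)
  obtain ⟨a₀, ha₀, b₀, hb₀, hn₀ab⟩ := hAB n₀
  have ha₀e : a₀ = n₀ * b₀⁻¹ := by rw [hn₀ab]; group
  -- conjugates of `a₀`
  have hconj : ∀ y' ∈ B, y' * a₀ * y'⁻¹ = ((y' * n₀ * y'⁻¹) * n₀⁻¹) * a₀ := by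
    intro y' hy'
    have h1 : y' * b₀⁻¹ * y'⁻¹ = b₀⁻¹ := by
      rw [hcomB _ hy' _ (B.inv_mem hb₀)]; group
    calc y' * a₀ * y'⁻¹ = (y' * n₀ * y'⁻¹) * (y' * b₀⁻¹ * y'⁻¹) := by rw [ha₀e]; group
      _ = (y' * n₀ * y'⁻¹) * b₀⁻¹ := by rw [h1]
      _ = ((y' * n₀ * y'⁻¹) * n₀⁻¹) * a₀ := by rw [ha₀e]; group
  -- the centralizer of all conjugates of `a₀`
  let X : Set G := {w | ∃ g : G, w = g * a₀ * g⁻¹}
  let C₀ : Subgroup G := Subgroup.centralizer X
  have hC₀n : C₀.Normal := by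
    constructor
    intro c hc g
    rw [Subgroup.mem_centralizer_iff] at hc ⊢
    rintro _ ⟨h, rfl⟩
    have h1 := hc ((g⁻¹ * h) * a₀ * (g⁻¹ * h)⁻¹) ⟨_, rfl⟩
    have h2 : g⁻¹ * (h * a₀ * h⁻¹) * g = (g⁻¹ * h) * a₀ * (g⁻¹ * h)⁻¹ := by group
    rw [← h2] at h1
    calc h * a₀ * h⁻¹ * (g * c * g⁻¹) = g * ((g⁻¹ * (h * a₀ * h⁻¹) * g) * c) * g⁻¹ := by group
      _ = g * (c * (g⁻¹ * (h * a₀ * h⁻¹) * g)) * g⁻¹ := by rw [h1]
      _ = g * c * g⁻¹ * (h * a₀ * h⁻¹) := by group
  -- a Sylow subgroup inside `C₀`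
  obtain ⟨P, Q, R, hR⟩ := exists_sylow_mul A B hAB p
  have hRC : (R : Subgroup G) ≤ C₀ := by
    intro r hr
    have hr' : r ∈ ((R : Subgroup G) : Set G) := hr
    rw [hR] at hr'
    obtain ⟨_, ⟨s, hs, rfl⟩, _, ⟨t, ht, rfl⟩, rfl⟩ := hr'
    have hsN : ∀ n ∈ N, (s : G) * n = n * s := by
      obtain ⟨k, hk⟩ := P.2 ⟨s, hs⟩
      have : (s : G) ^ p ^ k = 1 := by simpa using congrArg (fun z : (P : Subgroup A) => ((z : A) : G)) hk
      exact hpcent _ k this
    have htN : ∀ n ∈ N, (t : G) * n = n * t := by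
      obtain ⟨k, hk⟩ := Q.2 ⟨t, ht⟩
      have : (t : G) ^ p ^ k = 1 := by simpa using congrArg (fun z : (Q : Subgroup B) => ((z : B) : G)) hk
      exact hpcent _ k this
    have hsa : (s : G) * a₀ = a₀ * s := hcomA _ s.2 _ ha₀
    have hta : (t : G) * a₀ = a₀ * t := by
      have h1 := hconj t t.2
      have h2 : (t : G) * n₀ * (t : G)⁻¹ = n₀ := by rw [htN n₀ hn₀]; group
      rw [h2, mul_inv_cancel, one_mul] at h1
      calc (t : G) * a₀ = ((t : G) * a₀ * (t : G)⁻¹) * t := by group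
        _ = a₀ * t := by rw [h1]
    rw [Subgroup.mem_centralizer_iff]
    rintro _ ⟨g, rfl⟩
    obtain ⟨y', hy', a', ha', rfl⟩ := hBA g
    have h1 : (y' * a') * a₀ * (y' * a')⁻¹ = y' * a₀ * y'⁻¹ := by
      have h2 : a' * a₀ * a'⁻¹ = a₀ := by rw [hcomA _ ha' _ ha₀]; group
      calc (y' * a') * a₀ * (y' * a')⁻¹ = y' * (a' * a₀ * a'⁻¹) * y'⁻¹ := by group
        _ = y' * a₀ * y'⁻¹ := by rw [h2]
    rw [h1, hconj y' hy']
    set δ := (y' * n₀ * y'⁻¹) * n₀⁻¹ with hδ
    have hδN : δ ∈ N := N.mul_mem (hNn.conj_mem _ hn₀ y') (N.inv_mem hn₀)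
    calc δ * a₀ * ((s : G) * t) = δ * (a₀ * s) * t := by group
      _ = δ * (s * a₀) * t := by rw [hsa]
      _ = (δ * s) * (a₀ * t) := by group
      _ = (s * δ) * (t * a₀) := by rw [hsN δ hδN, hta]
      _ = s * (δ * t) * a₀ := by group
      _ = s * (t * δ) * a₀ := by rw [htN δ hδN]
      _ = (s : G) * t * (δ * a₀) := by group
  have hpC : ∀ (z : G) (k : ℕ), z ^ p ^ k = 1 → z ∈ C₀ := by
    intro z k hz
    have hzp : IsPGroup p (Subgroup.zpowers z) := by
      rw [IsPGroup.iff_card, Nat.card_zpowers]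
      obtain ⟨i, -, hi⟩ := (Nat.dvd_prime_pow hp).mp (orderOf_dvd_of_pow_eq_one hz)
      exact ⟨i, hi⟩
    obtain ⟨R', hR'⟩ := hzp.exists_le_sylow
    obtain ⟨g, hg⟩ := MulAction.exists_smul_eq G R R'
    have h1 : z ∈ (R' : Subgroup G) := hR' (Subgroup.mem_zpowers z)
    rw [← hg, Sylow.coe_subgroup_smul] at h1
    obtain ⟨r, hr, rfl⟩ := h1
    exact hC₀n.conj_mem r (hRC hr) g
  -- the element `u`
  set h := y * x * y⁻¹ with hh
  set u := h * x⁻¹ with hu
  have huG : u ∈ commutator G := by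
    have : u = ⁅y, x⁆ := by rw [hu, hh, commutatorElement_def]
    rw [this]; exact hcommem _ _
  have hhN : ∀ n ∈ N, h * n * h⁻¹ = x * n * x⁻¹ := by
    intro n hn
    have h1 : x * n * x⁻¹ ∈ N := hNn.conj_mem n hn x
    have h2 : h = u * x := by rw [hu]; group
    rw [h2]
    calc (u * x) * n * (u * x)⁻¹ = u * (x * n * x⁻¹) * u⁻¹ := by group
      _ = (x * n * x⁻¹) * u * u⁻¹ := by rw [hGC u huG _ h1]
      _ = x * n * x⁻¹ := by group
  set δ := (y * n₀ * y⁻¹) * n₀⁻¹ with hδ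
  have hδN : δ ∈ N := N.mul_mem (hNn.conj_mem _ hn₀ y) (N.inv_mem hn₀)
  have hδ1 : δ ≠ 1 := by
    intro h1
    apply hn₀ne
    apply hCy n₀ hn₀
    have h2 : y * n₀ * y⁻¹ = n₀ := mul_inv_eq_one.mp h1
    calc y * n₀ = (y * n₀ * y⁻¹) * y := by group
      _ = n₀ * y := by rw [h2]
  have hxa : x * a₀ * x⁻¹ = a₀ := by rw [hcomA _ hxA _ ha₀]; group
  have hya : y * a₀ * y⁻¹ = δ * a₀ := hconj y hyB
  set t := (x * δ * x⁻¹)⁻¹ * δ with ht
  have htN : t ∈ N := N.mul_mem (N.inv_mem (hNn.conj_mem _ hδN x)) hδN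
  have ht1 : t ≠ 1 := by
    intro h1
    apply hδ1
    apply hCx δ hδN
    have h3 : x * δ * x⁻¹ = δ := inv_mul_eq_one.mp h1
    calc x * δ = (x * δ * x⁻¹) * x := by group
      _ = δ * x := by rw [h3]
  have hha : h * a₀ * h⁻¹ = t * a₀ := by
    have h1 : h * (δ * a₀) * h⁻¹ = δ * a₀ := by
      rw [← hya, hh]
      calc (y * x * y⁻¹) * (y * a₀ * y⁻¹) * (y * x * y⁻¹)⁻¹ = y * (x * a₀ * x⁻¹) * y⁻¹ := by group
        _ = y * a₀ * y⁻¹ := by rw [hxa]
    have h2 : (h * δ * h⁻¹) * (h * a₀ * h⁻¹) = δ * a₀ := by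
      rw [← h1]; group
    rw [hhN δ hδN] at h2
    rw [ht]
    calc h * a₀ * h⁻¹ = (x * δ * x⁻¹)⁻¹ * ((x * δ * x⁻¹) * (h * a₀ * h⁻¹)) := by group
      _ = (x * δ * x⁻¹)⁻¹ * (δ * a₀) := by rw [h2]
      _ = (x * δ * x⁻¹)⁻¹ * δ * a₀ := by group
  have hua : u * a₀ * u⁻¹ = t * a₀ := by
    have h1 : x⁻¹ * a₀ * x = a₀ := by
      rw [hcomA _ (A.inv_mem hxA) _ ha₀]; group
    calc u * a₀ * u⁻¹ = h * (x⁻¹ * a₀ * x) * h⁻¹ := by rw [hu]; group
      _ = h * a₀ * h⁻¹ := by rw [h1]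
      _ = t * a₀ := hha
  have hiter : ∀ k : ℕ, u ^ k * a₀ * (u ^ k)⁻¹ = t ^ k * a₀ := by
    intro k
    induction k with
    | zero => simp
    | succ k ih =>
      have h1 : u * t ^ k * u⁻¹ = t ^ k := by
        rw [hGC u huG _ (N.pow_mem htN k)]; group
      calc u ^ (k + 1) * a₀ * (u ^ (k + 1))⁻¹ = u * (u ^ k * a₀ * (u ^ k)⁻¹) * u⁻¹ := by
            rw [pow_succ']; group
        _ = u * (t ^ k * a₀) * u⁻¹ := by rw [ih]
        _ = (u * t ^ k * u⁻¹) * (u * a₀ * u⁻¹) := by group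
        _ = t ^ k * (t * a₀) := by rw [h1, hua]
        _ = t ^ (k + 1) * a₀ := by rw [pow_succ]; group
  -- decompose the order of `u`
  obtain ⟨e, m, hm, hord⟩ : ∃ e m : ℕ, ¬ p ∣ m ∧ orderOf u = p ^ e * m := by
    have h0 : orderOf u ≠ 0 := (orderOf_pos u).ne'
    obtain ⟨e, m, hm, he⟩ := Nat.exists_eq_pow_mul_and_not_dvd h0 p hp.ne_one
    exact ⟨e, m, hm, he⟩
  have hu₁ : (u ^ m) ^ p ^ e = 1 := by
    rw [← pow_mul, mul_comm, ← hord, pow_orderOf_eq_one]
  have hu₁C : u ^ m ∈ C₀ := hpC _ e hu₁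
  have h1 : u ^ m * a₀ * (u ^ m)⁻¹ = a₀ := by
    have h2 := (Subgroup.mem_centralizer_iff.mp hu₁C) a₀ ⟨1, by simp⟩
    rw [← h2]; group
  rw [hiter m] at h1
  have h2 : t ^ m = 1 := by
    have := mul_right_cancel (h1.trans (one_mul a₀).symm)
    exact this
  have h3 : t ^ p = 1 := hNp t htN
  have h4 : t ^ Nat.gcd m p = 1 := pow_gcd_eq_one.mpr ⟨h2, h3⟩
  have h5 : Nat.Coprime m p := ((Nat.Prime.coprime_iff_not_dvd hp).mpr hm).symm
  rw [h5.gcd_eq_one, pow_one] at h4
  exact ht1 h4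

end Cfsg.Agent.H02
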