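import Cfsg.Agent.Lib.H02.Ito2
import Cfsg.Agent.Lib.H02.SuperSolv5

/-!
Douglas–Itô: a product of two cyclic groups is supersolvable.
-/

set_option autoImplicit false

namespace Cfsg.Agent.H02

open Cfsg

universe u

theorem isSupersolvable_of_two_cyclic_aux : ∀ (n : ℕ) (G : Type u) [Group G] [Finite G], Nat.card G = n →
    ∀ (A B : Subgroup G), IsCyclic A → IsCyclic B → (∀ g : G, ∃ a ∈ A, ∃ b ∈ B, g = a * b) →
    IsSupersolvable G := by
  intro n
  induction n using Nat.strong_induction_on with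
  | _ n ih =>
  intro G _ _ hn A B hA hB hAB
  by_cases hnt : Nontrivial G
  swap
  · rw [not_nontrivial_iff_subsingleton] at hnt
    exact isSupersolvable_of_trivial
  haveI hAc : IsMulCommutative A := ⟨⟨(IsCyclic.commGroup (α := A)).mul_comm⟩⟩
  haveI hBc : IsMulCommutative B := ⟨⟨(IsCyclic.commGroup (α := B)).mul_comm⟩⟩
  obtain ⟨N, hNn, hNb, hN⟩ := ito_normal A B hAB
  haveI := hNn
  haveI hNc : IsCyclic N := by
    rcases hN with h | h
    · exact isCyclic_of_injective (Subgroup.inclusion h) (Subgroup.inclusion_injective h)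
    · exact isCyclic_of_injective (Subgroup.inclusion h) (Subgroup.inclusion_injective h)
  apply isSupersolvable_of_cyclic_normal N
  let f := QuotientGroup.mk' N
  have hf : Function.Surjective f := QuotientGroup.mk'_surjective N
  have hlt : Nat.card (G ⧸ N) < n := by
    have h1 := N.card_mul_index
    have h2 : 1 < Nat.card N := by
      have : Nontrivial N := (Subgroup.nontrivial_iff_ne_bot N).mpr hNb
      exact Finite.one_lt_card
    rw [← hn, ← h1]
    have h3 : Nat.card (G ⧸ N) = N.index := rfl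
    rw [h3]
    exact lt_mul_of_one_lt_left (Nat.pos_of_ne_zero Subgroup.index_ne_zero_of_finite) h2
  apply ih _ hlt (G ⧸ N) rfl (A.map f) (B.map f)
  · exact isCyclic_of_surjective _ (f.subgroupMap_surjective A)
  · exact isCyclic_of_surjective _ (f.subgroupMap_surjective B)
  · intro g
    obtain ⟨x, rfl⟩ := hf g
    obtain ⟨a, ha, b, hb, rfl⟩ := hAB x
    exact ⟨f a, ⟨a, ha, rfl⟩, f b, ⟨b, hb, rfl⟩, map_mul f a b⟩

/-- S0571. -/
theorem isSupersolvable_of_two_cyclic {G : Type u} [Group G] [Finite G] (A B : Subgroup G) [hA : IsCyclic A]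
    [hB : IsCyclic B] (hAB : ∀ g : G, ∃ a ∈ A, ∃ b ∈ B, g = a * b) : IsSupersolvable G :=
  isSupersolvable_of_two_cyclic_aux _ G rfl A B hA hB hAB

end Cfsg.Agent.H02
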