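import Mathlib
import Cfsg.Prelude.Def_Spor_J3

/-!
Encoded 9 × 9 matrices over a field with four elements, with a fast product.
-/

set_option autoImplicit false
set_option maxRecDepth 100000

namespace Cfsg.Agent.H02.J3A

open Cfsg Cfsg.Spor

/-- The mask of the low bits of the pairs. -/
def M9 : ℕ := 87381

/-- Multiplication of a packed row by the root of unity. -/
def om (v : ℕ) : ℕ :=
  Nat.xor (Nat.land (Nat.shiftRight v 1) M9)
    (Nat.shiftLeft (Nat.xor (Nat.land v M9) (Nat.land (Nat.shiftRight v 1) M9)) 1)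

/-- An entry of a packed row. -/
def ent (v k : ℕ) : ℕ := Nat.land (Nat.shiftRight v (Nat.mul 2 k)) 3

/-- A scalar multiple of a packed row. -/
def scal (c v : ℕ) : ℕ := Nat.xor (Nat.mul (Nat.land c 1) v) (Nat.mul (Nat.shiftRight c 1) (om v))

/-- A matrix as nine packed rows. -/
structure Mx where
  r0 : ℕ
  r1 : ℕ
  r2 : ℕ
  r3 : ℕ
  r4 : ℕ
  r5 : ℕ
  r6 : ℕ
  r7 : ℕ
  r8 : ℕ

/-- The rows by index. -/
def Mx.row (m : Mx) : ℕ → ℕ
  | 0 => m.r0
  | 1 => m.r1
  | 2 => m.r2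
  | 3 => m.r3
  | 4 => m.r4
  | 5 => m.r5
  | 6 => m.r6
  | 7 => m.r7
  | _ => m.r8

/-- Boolean equality. -/
def eqB (a b : Mx) : Bool :=
  Nat.beq a.r0 b.r0 && Nat.beq a.r1 b.r1 && Nat.beq a.r2 b.r2 && Nat.beq a.r3 b.r3 && Nat.beq a.r4 b.r4 &&
    Nat.beq a.r5 b.r5 && Nat.beq a.r6 b.r6 && Nat.beq a.r7 b.r7 && Nat.beq a.r8 b.r8

theorem eq_of_eqB {a b : Mx} (h : eqB a b = true) : a = b := by
  cases a
  cases b
  simp only [eqB, Bool.and_eq_true] at h
  obtain ⟨⟨⟨⟨⟨⟨⟨⟨h0, h1⟩, h2⟩, h3⟩, h4⟩, h5⟩, h6⟩, h7⟩, h8⟩ := h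
  rw [Nat.eq_of_beq_eq_true h0, Nat.eq_of_beq_eq_true h1, Nat.eq_of_beq_eq_true h2, Nat.eq_of_beq_eq_true h3,
    Nat.eq_of_beq_eq_true h4, Nat.eq_of_beq_eq_true h5, Nat.eq_of_beq_eq_true h6, Nat.eq_of_beq_eq_true h7,
    Nat.eq_of_beq_eq_true h8]

/-- A row vector times a matrix. -/
def vm (v : ℕ) (m : Mx) : ℕ :=
  Nat.xor (scal (ent v 8) m.r8) (Nat.xor (scal (ent v 7) m.r7) (Nat.xor (scal (ent v 6) m.r6)
    (Nat.xor (scal (ent v 5) m.r5) (Nat.xor (scal (ent v 4) m.r4) (Nat.xor (scal (ent v 3) m.r3)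
      (Nat.xor (scal (ent v 2) m.r2) (Nat.xor (scal (ent v 1) m.r1) (scal (ent v 0) m.r0))))))))

/-- The product. -/
def mm (a b : Mx) : Mx :=
  ⟨vm a.r0 b, vm a.r1 b, vm a.r2 b, vm a.r3 b, vm a.r4 b, vm a.r5 b, vm a.r6 b, vm a.r7 b, vm a.r8 b⟩

theorem row_mm (a b : Mx) (i : ℕ) : (mm a b).row i = vm (a.row i) b := by
  match i with
  | 0 | 1 | 2 | 3 | 4 | 5 | 6 | 7 => rfl
  | n + 8 => rfl

section semantics

variable {F : Type*} [Field F] (ω : F)

/-- The field element of a pair of bits. -/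
def el (a b : Bool) : F := (if a then 1 else 0) + (if b then ω else 0)

/-- The entry of a packed row. -/
def BB (v j : ℕ) : F := el ω (v.testBit (2 * j)) (v.testBit (2 * j + 1))

/-- A code of a field element. -/
def DD (c : ℕ) : F := el ω (c.testBit 0) (c.testBit 1)

variable (h2 : (2 : F) = 0) (hω : ω * ω = ω + 1)

include h2 in
theorem add_self' (a : F) : a + a = 0 := by
  have : a + a = 2 * a := by ring
  rw [this, h2, zero_mul]

theorem ite_xor (a b : Bool) (c : F) (h : c + c = 0) :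
    (if (a ^^ b) = true then c else 0) = (if a = true then c else 0) + (if b = true then c else 0) := by
  cases a <;> cases b <;> simp [h]

include h2 in
theorem BB_xor (x y j : ℕ) : BB ω (Nat.xor x y) j = BB ω x j + BB ω y j := by
  have h3 : ∀ i, (Nat.xor x y).testBit i = (x.testBit i ^^ y.testBit i) := fun i => Nat.testBit_xor x y i
  unfold BB el
  rw [h3, h3, ite_xor _ _ _ (add_self' h2 1), ite_xor _ _ _ (add_self' h2 ω)]
  ring

theorem testBit_M9_even {j : ℕ} (hj : j < 9) : M9.testBit (2 * j) = true := by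
  interval_cases j <;> rfl

theorem testBit_M9_odd {j : ℕ} (hj : j < 9) : M9.testBit (2 * j + 1) = false := by
  interval_cases j <;> rfl

theorem testBit_om_even (v : ℕ) {j : ℕ} (hj : j < 9) : (om v).testBit (2 * j) = v.testBit (2 * j + 1) := by
  have e : om v = (Nat.land (Nat.shiftRight v 1) M9) ^^^
      ((Nat.xor (Nat.land v M9) (Nat.land (Nat.shiftRight v 1) M9)) <<< 1) := rfl
  rw [e, Nat.testBit_xor]
  have e2 : Nat.land (Nat.shiftRight v 1) M9 = (v >>> 1) &&& M9 := rfl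
  have h7 : (Nat.xor (Nat.land v M9) (Nat.land (Nat.shiftRight v 1) M9)) = (v &&& M9) ^^^ ((v >>> 1) &&& M9) := rfl
  rw [h7, e2, Nat.testBit_land, testBit_M9_even hj, Nat.testBit_shiftRight, Nat.testBit_shiftLeft]
  have e3 : 1 + 2 * j = 2 * j + 1 := by ring
  rw [e3]
  have h9 : (decide (2 * j ≥ 1) && ((v &&& M9) ^^^ ((v >>> 1) &&& M9)).testBit (2 * j - 1)) = false := by
    rcases j with _ | i
    · simp
    · have h8 : 2 * (i + 1) - 1 = 2 * i + 1 := by omega
      rw [h8, Nat.testBit_xor, Nat.testBit_land, Nat.testBit_land, testBit_M9_odd (by omega)]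
      simp
  rw [h9]
  simp

theorem testBit_om_odd (v : ℕ) {j : ℕ} (hj : j < 9) :
    (om v).testBit (2 * j + 1) = (v.testBit (2 * j) ^^ v.testBit (2 * j + 1)) := by
  have e : om v = (Nat.land (Nat.shiftRight v 1) M9) ^^^
      ((Nat.xor (Nat.land v M9) (Nat.land (Nat.shiftRight v 1) M9)) <<< 1) := rfl
  rw [e, Nat.testBit_xor]
  have e2 : Nat.land (Nat.shiftRight v 1) M9 = (v >>> 1) &&& M9 := rfl
  rw [e2, Nat.testBit_land, testBit_M9_odd hj, Nat.testBit_shiftLeft]
  have h7 : (Nat.xor (Nat.land v M9) ((v >>> 1) &&& M9)) = (v &&& M9) ^^^ ((v >>> 1) &&& M9) := rfl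
  rw [h7]
  simp only [Bool.and_false, Bool.false_bne]
  have h8 : 2 * j + 1 - 1 = 2 * j := by omega
  rw [h8, Nat.testBit_xor, Nat.testBit_land, Nat.testBit_land, testBit_M9_even hj, Nat.testBit_shiftRight]
  have e3 : 1 + 2 * j = 2 * j + 1 := by ring
  rw [e3]
  simp

include h2 hω in
theorem BB_om (v : ℕ) {j : ℕ} (hj : j < 9) : BB ω (om v) j = ω * BB ω v j := by
  unfold BB el
  rw [testBit_om_even v hj, testBit_om_odd v hj, ite_xor _ _ _ (add_self' h2 ω)]
  have e : ∀ b : Bool, (if b = true then ω else 0) = (if b = true then 1 else 0) * ω := by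
    intro b
    cases b <;> simp
  rw [e (v.testBit (2 * j)), e (v.testBit (2 * j + 1))]
  linear_combination (-(if v.testBit (2 * j + 1) = true then (1 : F) else 0)) * hω

theorem BB_zero (j : ℕ) : BB ω 0 j = 0 := by
  simp [BB, el]

theorem DD_0 : DD ω 0 = 0 := by
  simp [DD, el]

theorem DD_1 : DD ω 1 = 1 := by
  simp [DD, el, show Nat.testBit 1 0 = true from rfl, show Nat.testBit 1 1 = false from rfl]

theorem DD_2 : DD ω 2 = ω := by
  simp [DD, el, show Nat.testBit 2 0 = false from rfl, show Nat.testBit 2 1 = true from rfl]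

theorem DD_3 : DD ω 3 = 1 + ω := by
  simp [DD, el, show Nat.testBit 3 0 = true from rfl, show Nat.testBit 3 1 = true from rfl]

include h2 hω in
theorem BB_scal {c : ℕ} (hc : c < 4) (v : ℕ) {j : ℕ} (hj : j < 9) : BB ω (scal c v) j = DD ω c * BB ω v j := by
  have e0 : scal 0 v = 0 := by
    show Nat.xor (0 * v) (0 * om v) = 0
    simp [Nat.xor]
  have e1 : scal 1 v = v := by
    show Nat.xor (1 * v) (0 * om v) = v
    simp only [one_mul, zero_mul]
    exact Nat.xor_zero v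
  have e2 : scal 2 v = om v := by
    show Nat.xor (0 * v) (1 * om v) = om v
    simp only [one_mul, zero_mul]
    exact Nat.zero_xor _
  have e3 : scal 3 v = Nat.xor v (om v) := by
    show Nat.xor (1 * v) (1 * om v) = _
    simp only [one_mul]
  interval_cases c
  · rw [e0, BB_zero, DD_0, zero_mul]
  · rw [e1, DD_1, one_mul]
  · rw [e2, BB_om ω h2 hω v hj, DD_2]
  · rw [e3, BB_xor ω h2, BB_om ω h2 hω v hj, DD_3]
    ring

theorem ent_lt (v k : ℕ) : ent v k < 4 := by
  show ((v >>> (2 * k)) &&& 3) < 4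
  exact Nat.lt_of_le_of_lt Nat.and_le_right (by norm_num)

theorem DD_ent (v k : ℕ) : DD ω (ent v k) = BB ω v k := by
  have h0 : (ent v k).testBit 0 = v.testBit (2 * k) := by
    show ((v >>> (2 * k)) &&& 3).testBit 0 = _
    rw [Nat.testBit_land, Nat.testBit_shiftRight]
    simp
  have h1 : (ent v k).testBit 1 = v.testBit (2 * k + 1) := by
    show ((v >>> (2 * k)) &&& 3).testBit 1 = _
    rw [Nat.testBit_land, Nat.testBit_shiftRight]
    have : (3 : ℕ).testBit 1 = true := rfl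
    rw [this, Bool.and_true]
  unfold DD BB
  rw [h0, h1]

include h2 hω in
/-- The specification of the vector-matrix product. -/
theorem BB_vm (v : ℕ) (m : Mx) {j : ℕ} (hj : j < 9) :
    BB ω (vm v m) j = BB ω v 8 * BB ω m.r8 j + (BB ω v 7 * BB ω m.r7 j + (BB ω v 6 * BB ω m.r6 j +
      (BB ω v 5 * BB ω m.r5 j + (BB ω v 4 * BB ω m.r4 j + (BB ω v 3 * BB ω m.r3 j +
        (BB ω v 2 * BB ω m.r2 j + (BB ω v 1 * BB ω m.r1 j + BB ω v 0 * BB ω m.r0 j))))))) := by
  unfold vm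
  simp only [BB_xor ω h2, BB_scal ω h2 hω (ent_lt _ _) _ hj, DD_ent]

end semantics

/-- The index of a point of the field with nine elements. -/
def ix (z : F9) : ℕ := 3 * z.1.val + z.2.val

theorem ix_lt (z : F9) : ix z < 9 := by
  unfold ix
  have h1 := ZMod.val_lt z.1
  have h2 := ZMod.val_lt z.2
  omega

section matrices

variable {F : Type*} [Field F] (ω : F)

/-- The matrix of an encoded element. -/
def toM (m : Mx) : Matrix F9 F9 F := fun w z => BB ω (m.row (ix w)) (ix z)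

/-- Sums over the index set. -/
theorem sum_F9 (f : ℕ → F) : ∑ z : F9, f (ix z) =
    f 8 + (f 7 + (f 6 + (f 5 + (f 4 + (f 3 + (f 2 + (f 1 + f 0))))))) := by
  rw [Fintype.sum_prod_type]
  have h : ∀ g : ZMod 3 → F, ∑ x, g x = g 0 + g 1 + g 2 := fun g => Fin.sum_univ_three g
  simp only [h]
  have e : ∀ a b : ZMod 3, ix (a, b) = 3 * a.val + b.val := fun _ _ => rfl
  simp only [e]
  have v0 : (0 : ZMod 3).val = 0 := rfl
  have v1 : (1 : ZMod 3).val = 1 := rfl
  have v2 : (2 : ZMod 3).val = 2 := rfl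
  simp only [v0, v1, v2]
  norm_num
  ring

variable (h2 : (2 : F) = 0) (hω : ω * ω = ω + 1)

include h2 hω in
theorem toM_mm (a b : Mx) : toM ω (mm a b) = toM ω a * toM ω b := by
  ext w z
  rw [Matrix.mul_apply]
  show BB ω ((mm a b).row (ix w)) (ix z) = ∑ u : F9, BB ω (a.row (ix w)) (ix u) * BB ω (b.row (ix u)) (ix z)
  rw [row_mm, BB_vm ω h2 hω _ _ (ix_lt z)]
  rw [sum_F9 (fun k => BB ω (a.row (ix w)) k * BB ω (b.row k) (ix z))]
  rfl

end matrices

end Cfsg.Agent.H02.J3A
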