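import Cfsg.Agent.Lib.H02.J3A

/-!
Monomial action on packed matrices; group elements with encodings; counting closures by tables.
-/

set_option autoImplicit false
set_option maxRecDepth 100000

namespace Cfsg.Agent.H02.J3B

open Cfsg Cfsg.Spor Cfsg.Agent.H02.J3A
open scoped MatrixGroups

/-- A packed matrix row. -/
def prow (p i : ℕ) : ℕ := Nat.land (Nat.shiftRight p (Nat.mul 18 i)) 262143

/-- Unpacking a matrix. -/
def unpack (p : ℕ) : Mx :=
  ⟨prow p 0, prow p 1, prow p 2, prow p 3, prow p 4, prow p 5, prow p 6, prow p 7, prow p 8⟩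

theorem row_unpack (p : ℕ) {i : ℕ} (hi : i < 9) : (unpack p).row i = prow p i := by
  interval_cases i <;> rfl

/-- The part of a monomial code at a row. -/
def mcE (c i : ℕ) : ℕ := Nat.land (Nat.shiftRight c (Nat.mul 6 i)) 63

/-- A row of the left action of a monomial code. -/
def lrow (c p i : ℕ) : ℕ := scal (Nat.land (mcE c i) 3) (prow p (Nat.shiftRight (mcE c i) 2))

/-- The left action of a monomial code on a packed matrix. -/
def lact (c p : ℕ) : Mx :=
  ⟨lrow c p 0, lrow c p 1, lrow c p 2, lrow c p 3, lrow c p 4, lrow c p 5, lrow c p 6, lrow c p 7, lrow c p 8⟩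

theorem row_lact (c p : ℕ) {i : ℕ} (hi : i < 9) : (lact c p).row i = lrow c p i := by
  interval_cases i <;> rfl

/-- The packed unit matrix. -/
def pI : ℕ := 1461503031128807055631067903726780805968804446209

/-- Validity of a monomial code. -/
def mcOK (c : ℕ) : Bool :=
  Nat.blt (Nat.shiftRight (mcE c 0) 2) 9 && Nat.blt (Nat.shiftRight (mcE c 1) 2) 9 &&
  Nat.blt (Nat.shiftRight (mcE c 2) 2) 9 && Nat.blt (Nat.shiftRight (mcE c 3) 2) 9 &&
  Nat.blt (Nat.shiftRight (mcE c 4) 2) 9 && Nat.blt (Nat.shiftRight (mcE c 5) 2) 9 &&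
  Nat.blt (Nat.shiftRight (mcE c 6) 2) 9 && Nat.blt (Nat.shiftRight (mcE c 7) 2) 9 &&
  Nat.blt (Nat.shiftRight (mcE c 8) 2) 9

theorem mcOK_spec {c : ℕ} (h : mcOK c = true) {i : ℕ} (hi : i < 9) : Nat.shiftRight (mcE c i) 2 < 9 := by
  simp only [mcOK, Bool.and_eq_true] at h
  obtain ⟨⟨⟨⟨⟨⟨⟨⟨h0, h1⟩, h2⟩, h3⟩, h4⟩, h5⟩, h6⟩, h7⟩, h8⟩ := h
  have key : ∀ a : ℕ, Nat.blt a 9 = true → a < 9 := fun a ha => by
    have : Nat.ble (a + 1) 9 = true := ha
    exact Nat.le_of_ble_eq_true this
  interval_cases i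
  · exact key _ h0
  · exact key _ h1
  · exact key _ h2
  · exact key _ h3
  · exact key _ h4
  · exact key _ h5
  · exact key _ h6
  · exact key _ h7
  · exact key _ h8

theorem land3_lt (a : ℕ) : Nat.land a 3 < 4 := by
  show (a &&& 3) < 4
  exact Nat.lt_of_le_of_lt Nat.and_le_right (by norm_num)

section fields

variable {F : Type*} [Field F] (ω : F) (h2 : (2 : F) = 0) (hω : ω * ω = ω + 1)

theorem BB_one_row {q k : ℕ} (hq : q < 9) (hk : k < 9) :
    BB ω (prow pI q) k = if k = q then 1 else 0 := by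
  have h1 : ∀ q < 9, ∀ k < 9, (prow pI q).testBit (2 * k) = decide (k = q) ∧ (prow pI q).testBit (2 * k + 1) = false := by
    decide +kernel
  obtain ⟨a, b⟩ := h1 q hq k hk
  unfold BB el
  rw [a, b]
  by_cases e : k = q <;> simp [e]

include h2 hω in
/-- The left action is left multiplication by the monomial matrix. -/
theorem toM_lact {c : ℕ} (hc : mcOK c = true) (p : ℕ) :
    toM ω (lact c p) = toM ω (lact c pI) * toM ω (unpack p) := by
  ext w z
  rw [Matrix.mul_apply]
  set q := Nat.shiftRight (mcE c (ix w)) 2 with hq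
  have hq9 : q < 9 := mcOK_spec hc (ix_lt w)
  show BB ω ((lact c p).row (ix w)) (ix z) =
    ∑ u : F9, BB ω ((lact c pI).row (ix w)) (ix u) * BB ω ((unpack p).row (ix u)) (ix z)
  rw [row_lact _ _ (ix_lt w), row_lact _ _ (ix_lt w)]
  have h3 : ∀ u : F9, BB ω (lrow c pI (ix w)) (ix u) * BB ω ((unpack p).row (ix u)) (ix z) =
      DD ω (Nat.land (mcE c (ix w)) 3) * ((fun k => BB ω (prow pI q) k * BB ω ((unpack p).row k) (ix z)) (ix u)) := by
    intro u
    show BB ω (scal _ _) _ * _ = _
    rw [BB_scal ω h2 hω (land3_lt _) _ (ix_lt u)]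
    ring
  simp only [h3]
  rw [← Finset.mul_sum]
  rw [sum_F9 (fun k => BB ω (prow pI q) k * BB ω ((unpack p).row k) (ix z))]
  show BB ω (scal _ _) _ = _
  rw [BB_scal ω h2 hω (land3_lt _) _ (ix_lt z)]
  congr 1
  have h4 : ∀ k < 9, BB ω (prow pI q) k * BB ω ((unpack p).row k) (ix z) =
      if k = q then BB ω (prow p q) (ix z) else 0 := by
    intro k hk
    rw [BB_one_row ω hq9 hk]
    by_cases e : k = q
    · subst e
      rw [if_pos rfl, if_pos rfl, one_mul, row_unpack p hk]
    · rw [if_neg e, if_neg e, zero_mul]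
  simp only [h4 _ (show 0 < 9 by norm_num), h4 _ (show 1 < 9 by norm_num), h4 _ (show 2 < 9 by norm_num),
    h4 _ (show 3 < 9 by norm_num), h4 _ (show 4 < 9 by norm_num), h4 _ (show 5 < 9 by norm_num),
    h4 _ (show 6 < 9 by norm_num), h4 _ (show 7 < 9 by norm_num), h4 _ (show 8 < 9 by norm_num)]
  generalize BB ω (prow p q) (ix z) = X
  interval_cases q <;> simp

/-- The matrix of the unit code. -/
theorem toM_unpack_pI : toM ω (unpack pI) = (1 : Matrix F9 F9 F) := by
  ext w z
  show BB ω ((unpack pI).row (ix w)) (ix z) = _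
  rw [row_unpack _ (ix_lt w), BB_one_row ω (ix_lt w) (ix_lt z), Matrix.one_apply]
  have h : ∀ w z : F9, ix z = ix w ↔ w = z := by decide
  simp only [h]

end fields

section groups

variable {F : Type*} [Field F] (ω : F)

/-- Encodings of elements of the general linear group. -/
def RR (g : GL F9 F) (m : Mx) : Prop := (g : Matrix F9 F9 F) = toM ω m

variable {ω}
variable (h2 : (2 : F) = 0) (hω : ω * ω = ω + 1)

include h2 hω in
theorem RR_mul {g h : GL F9 F} {a b : Mx} (hg : RR ω g a) (hh : RR ω h b) : RR ω (g * h) (mm a b) := by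
  unfold RR at *
  rw [toM_mm ω h2 hω, ← hg, ← hh]
  rfl

theorem RR_one : RR ω (1 : GL F9 F) (unpack pI) := by
  unfold RR
  rw [toM_unpack_pI]
  rfl

include h2 hω in
theorem RR_lact {g h : GL F9 F} {c p : ℕ} (hc : mcOK c = true) (hg : RR ω g (lact c pI)) (hh : RR ω h (unpack p)) :
    RR ω (g * h) (lact c p) := by
  unfold RR at *
  rw [toM_lact ω h2 hω hc, ← hg, ← hh]
  rfl

theorem RR_unique {g h : GL F9 F} {a : Mx} (hg : RR ω g a) (hh : RR ω h a) : g = h :=
  Units.ext (hg.trans hh.symm)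

/-- A unit from an encoded matrix and its inverse. -/
def mkU (a a' : Mx) (h : toM ω a * toM ω a' = 1) (h' : toM ω a' * toM ω a = 1) : GL F9 F :=
  ⟨toM ω a, toM ω a', h, h'⟩

theorem RR_mkU (a a' : Mx) (h : toM ω a * toM ω a' = 1) (h' : toM ω a' * toM ω a = 1) :
    RR ω (mkU a a' h h') a := rfl

end groups

/-! ### Closure by right multiplication in a finite group -/

section closure

variable {G : Type*} [Group G] [Finite G]

theorem closure_right_induct (S : Set G) (P : G → Prop) (h1 : P 1) (hs : ∀ g, ∀ s ∈ S, P g → P (g * s)) :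
    ∀ g ∈ Subgroup.closure S, P g := by
  intro g hg
  have hpow : ∀ s ∈ S, ∀ n : ℕ, ∀ x, P x → P (x * s ^ n) := by
    intro s hs' n
    induction n with
    | zero =>
      intro x hx
      simpa using hx
    | succ n ih =>
      intro x hx
      rw [pow_succ, ← mul_assoc]
      exact hs _ s hs' (ih x hx)
  induction hg using Subgroup.closure_induction_right with
  | one => exact h1
  | mul_right x _ y hy ih => exact hs x y hy ih
  | mul_inv_cancel x _ y hy ih =>
    have h3 : y⁻¹ = y ^ (orderOf y - 1) := by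
      have hpos : 0 < orderOf y := orderOf_pos y
      apply inv_eq_of_mul_eq_one_right
      rw [← pow_succ', Nat.sub_add_cancel hpos, pow_orderOf_eq_one]
    rw [h3]
    exact hpow y hy _ x ih

/-- The order of a closure from an enumeration of it. -/
theorem card_closure_of_enum (S : Set G) (n : ℕ) (E : ℕ → G)
    (hE : ∀ g ∈ Subgroup.closure S, ∃ k < n, E k = g) (hE' : ∀ k < n, E k ∈ Subgroup.closure S)
    (hinj : ∀ k < n, ∀ k' < n, E k = E k' → k = k') : Nat.card (Subgroup.closure S) = n := by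
  have hb : Function.Bijective (fun k : Fin n => (⟨E k.1, hE' k.1 k.2⟩ : Subgroup.closure S)) := by
    constructor
    · intro a b hab
      exact Fin.ext (hinj _ a.2 _ b.2 (congrArg Subtype.val hab))
    · rintro ⟨g, hg⟩
      obtain ⟨k, hk, rfl⟩ := hE g hg
      exact ⟨⟨k, hk⟩, rfl⟩
  have := Nat.card_congr (Equiv.ofBijective _ hb)
  simpa using this.symm

end closure

end Cfsg.Agent.H02.J3B
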