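import Cfsg.Agent.Lib.H02.J3F
import Cfsg.Agent.Lib.Lead.Burnside

/-!
The group theory of the triple cover: the monomial subgroup, the cosets, maximality and the core.
-/

set_option autoImplicit false
set_option maxRecDepth 100000

namespace Cfsg.Agent.H02.J3G

open Cfsg Cfsg.Spor Cfsg.Agent.H02.J3A Cfsg.Agent.H02.J3B Cfsg.Agent.H02.J3D Cfsg.Agent.H02.J3E Cfsg.Agent.H02.J3F
open scoped MatrixGroups

section field

variable {F : Type*} [Field F] {ω : F}

theorem om_ne_zero (hω : ω * ω = ω + 1) : ω ≠ 0 := by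
  intro e
  rw [e] at hω
  simp at hω

theorem om_ne_one (h2 : (2 : F) = 0) (hω : ω * ω = ω + 1) : ω ≠ 1 := by
  intro e
  rw [e] at hω
  have : (1 : F) = 0 := by
    have h3 : (1 : F) + 1 = 2 := by norm_num
    rw [mul_one, h3, h2] at hω
    exact hω
  exact one_ne_zero this

theorem el_inj (h2 : (2 : F) = 0) (hω : ω * ω = ω + 1) {a b c d : Bool} (h : el ω a b = el ω c d) : a = c ∧ b = d := by
  have h0 := om_ne_zero hω
  have h1 := om_ne_one h2 hω
  have h3 : (1 : F) + ω ≠ 0 := by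
    intro e
    have : ω = 1 := by
      have e2 : ω + (1 + ω) = 1 := by
        have : ω + (1 + ω) = 1 + (2 * ω) := by ring
        rw [this, h2]
        simp
      rw [e, add_zero] at e2
      exact e2
    exact h1 this
  have h4 : (1 : F) + ω ≠ 1 := by
    intro e
    apply h0
    have e2 : (1 : F) + ω = 1 + 0 := by rw [e, add_zero]
    exact add_left_cancel e2
  have h5 : (1 : F) + ω ≠ ω := by
    intro e
    have e2 : (1 : F) + ω = 0 + ω := by rw [e, zero_add]
    exact one_ne_zero (add_right_cancel e2)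
  cases a <;> cases b <;> cases c <;> cases d <;> simp [el] at h ⊢ <;>
    first
    | exact h0 h
    | exact h0 h.symm
    | exact h1 h
    | exact h1 h.symm
    | exact h3 h
    | exact h3 h.symm
    | exact h4 h
    | exact h4 h.symm
    | exact h5 h
    | exact h5 h.symm

theorem row_eq (h2 : (2 : F) = 0) (hω : ω * ω = ω + 1) {r r' : ℕ} (hr : r ≤ 262143) (hr' : r' ≤ 262143)
    (h : ∀ j < 9, BB ω r j = BB ω r' j) : r = r' := by
  apply Nat.eq_of_testBit_eq
  intro i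
  by_cases hi : i < 18
  · obtain ⟨hj, e⟩ : i / 2 < 9 ∧ (i = 2 * (i / 2) ∨ i = 2 * (i / 2) + 1) := by omega
    have := el_inj h2 hω (h _ hj)
    rcases e with e | e
    · rw [e]
      exact this.1
    · rw [e]
      exact this.2
  · have h18 : (2 : ℕ) ^ 18 ≤ 2 ^ i := Nat.pow_le_pow_right (by norm_num) (by omega)
    rw [Nat.testBit_lt_two_pow (by omega), Nat.testBit_lt_two_pow (by omega)]

theorem row_le {a : Mx} (ha : rowsOK a = true) {i : ℕ} (hi : i < 9) : a.row i ≤ 262143 := by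
  simp only [rowsOK, Bool.and_eq_true] at ha
  obtain ⟨⟨⟨⟨⟨⟨⟨⟨h0, h1⟩, h2⟩, h3⟩, h4⟩, h5⟩, h6⟩, h7⟩, h8⟩ := ha
  interval_cases i
  · exact Nat.le_of_ble_eq_true h0
  · exact Nat.le_of_ble_eq_true h1
  · exact Nat.le_of_ble_eq_true h2
  · exact Nat.le_of_ble_eq_true h3
  · exact Nat.le_of_ble_eq_true h4
  · exact Nat.le_of_ble_eq_true h5
  · exact Nat.le_of_ble_eq_true h6
  · exact Nat.le_of_ble_eq_true h7
  · exact Nat.le_of_ble_eq_true h8

theorem ix_surj : ∀ i < 9, ∃ w : F9, ix w = i := by decide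

theorem toM_inj (h2 : (2 : F) = 0) (hω : ω * ω = ω + 1) {a b : Mx} (ha : rowsOK a = true) (hb : rowsOK b = true)
    (h : toM ω a = toM ω b) : a = b := by
  have key : ∀ i < 9, a.row i = b.row i := by
    intro i hi
    apply row_eq h2 hω (row_le ha hi) (row_le hb hi)
    intro j hj
    obtain ⟨w, rfl⟩ := ix_surj i hi
    obtain ⟨z, rfl⟩ := ix_surj j hj
    exact congrFun (congrFun h w) z
  cases a
  cases b
  have k0 := key 0 (by norm_num)
  have k1 := key 1 (by norm_num)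
  have k2 := key 2 (by norm_num)
  have k3 := key 3 (by norm_num)
  have k4 := key 4 (by norm_num)
  have k5 := key 5 (by norm_num)
  have k6 := key 6 (by norm_num)
  have k7 := key 7 (by norm_num)
  have k8 := key 8 (by norm_num)
  simp only [Mx.row] at k0 k1 k2 k3 k4 k5 k6 k7 k8
  subst k0 k1 k2 k3 k4 k5 k6 k7 k8
  rfl

theorem eqB_self (a : Mx) : eqB a a = true := by
  simp [eqB]

end field

section enum

variable {F : Type*} [Field F] {ω : F}

theorem enum_card [Finite F] (h2 : (2 : F) = 0) (hω : ω * ω = ω + 1) {S : Set (GL F9 F)} {n : ℕ} {E : ℕ → Mx} {k0 : ℕ}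
    (hk0 : k0 < n) (h1 : RR ω 1 (E k0)) (key : Mx → ℕ)
    (hrows : ∀ k < n, rowsOK (E k) = true)
    (hkey : ∀ k, k + 1 < n → key (E k) < key (E (k + 1)))
    (hstep : ∀ k < n, ∀ s ∈ S, ∀ g, RR ω g (E k) → ∃ k' < n, RR ω (g * s) (E k'))
    (pr dp : ℕ → ℕ)
    (htree : ∀ k < n, k ≠ k0 → pr k < n ∧ dp (pr k) < dp k ∧ ∃ s ∈ S, ∀ g, RR ω g (E (pr k)) → RR ω (g * s) (E k)) :
    (∀ g ∈ Subgroup.closure S, ∃ k < n, RR ω g (E k)) ∧ (∀ k < n, ∃ g ∈ Subgroup.closure S, RR ω g (E k)) ∧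
      Nat.card (Subgroup.closure S) = n := by
  have p1 : ∀ g ∈ Subgroup.closure S, ∃ k < n, RR ω g (E k) :=
    closure_right_induct S (fun g => ∃ k < n, RR ω g (E k)) ⟨k0, hk0, h1⟩ (by
      rintro g s hs ⟨k, hk, hr⟩
      exact hstep k hk s hs g hr)
  have p2' : ∀ d k, dp k = d → k < n → ∃ g ∈ Subgroup.closure S, RR ω g (E k) := by
    intro d
    induction d using Nat.strong_induction_on with
    | _ d ih =>
      intro k hd hk
      by_cases e : k = k0
      · subst e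
        exact ⟨1, Subgroup.one_mem _, h1⟩
      · obtain ⟨hp, hdp, s, hs, hst⟩ := htree k hk e
        obtain ⟨g, hg, hr⟩ := ih (dp (pr k)) (hd ▸ hdp) (pr k) rfl hp
        exact ⟨g * s, Subgroup.mul_mem _ hg (Subgroup.subset_closure hs), hst g hr⟩
  have p2 : ∀ k < n, ∃ g ∈ Subgroup.closure S, RR ω g (E k) := fun k hk => p2' _ k rfl hk
  refine ⟨p1, p2, ?_⟩
  have hmono : ∀ k k', k < k' → k' < n → key (E k) < key (E k') := by
    intro k k' hk
    induction k', hk using Nat.le_induction with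
    | base =>
      intro h
      exact hkey k h
    | succ m hm ih =>
      intro h
      exact lt_trans (ih (by omega)) (hkey m h)
  choose! e he1 he2 using p2
  refine card_closure_of_enum S n e ?_ he1 ?_
  · intro g hg
    obtain ⟨k, hk, hr⟩ := p1 g hg
    exact ⟨k, hk, RR_unique (he2 k hk) hr⟩
  · intro k hk k' hk' h
    have h3 : toM ω (E k) = toM ω (E k') := by
      have a1 := he2 k hk
      have a2 := he2 k' hk'
      rw [h] at a1
      unfold RR at a1 a2
      rw [← a1, ← a2]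
    have h4 := toM_inj h2 hω (hrows k hk) (hrows k' hk') h3
    rcases Nat.lt_trichotomy k k' with l | l | l
    · have := hmono k k' l hk'
      rw [h4] at this
      exact absurd this (lt_irrefl _)
    · exact l
    · have := hmono k' k l hk
      rw [h4] at this
      exact absurd this (lt_irrefl _)

/-- The powers of an encoded matrix. -/
def mpw (a : Mx) : ℕ → Mx
  | 0 => unpack pI
  | n + 1 => mm (mpw a n) a

theorem RR_pow (h2 : (2 : F) = 0) (hω : ω * ω = ω + 1) {g : GL F9 F} {a : Mx} (h : RR ω g a) (n : ℕ) :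
    RR ω (g ^ n) (mpw a n) := by
  induction n with
  | zero =>
    rw [pow_zero]
    exact RR_one
  | succ n ih =>
    rw [pow_succ]
    exact RR_mul h2 hω ih h

theorem RR_inv (h2 : (2 : F) = 0) (hω : ω * ω = ω + 1) {g : GL F9 F} {a b : Mx} (h : RR ω g a)
    (hb : eqB (mm b a) (unpack pI) = true) : RR ω g⁻¹ b := by
  have h1 : toM ω b * (g : Matrix F9 F9 F) = 1 := by
    rw [h, ← toM_mm ω h2 hω, eq_of_eqB hb, toM_unpack_pI]
  unfold RR
  have h3 : ((g⁻¹ : GL F9 F) : Matrix F9 F9 F) = (toM ω b * (g : Matrix F9 F9 F)) * ((g⁻¹ : GL F9 F) : Matrix F9 F9 F) := by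
    rw [h1, one_mul]
  rw [h3, mul_assoc, Units.mul_inv, mul_one]

theorem eq_one_of_RR {g : GL F9 F} {a : Mx} (h : RR ω g a) (hb : eqB a (unpack pI) = true) : g = 1 := by
  rw [eq_of_eqB hb] at h
  exact RR_unique h RR_one

/-- A matrix in range different from the unit. -/
def nonId (a : Mx) : Bool := rowsOK a && !eqB a (unpack pI)

theorem rowsOK_I : rowsOK (unpack pI) = true := by decide +kernel

theorem ne_one_of_RR (h2 : (2 : F) = 0) (hω : ω * ω = ω + 1) {g : GL F9 F} {a : Mx} (h : RR ω g a)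
    (hb : nonId a = true) : g ≠ 1 := by
  rintro rfl
  simp only [nonId, Bool.and_eq_true, Bool.not_eq_true'] at hb
  have h3 : toM ω a = toM ω (unpack pI) := by
    rw [← h, toM_unpack_pI]
    rfl
  have h4 := toM_inj h2 hω hb.1 rowsOK_I h3
  rw [h4, eqB_self] at hb
  exact absurd hb.2 (by simp)

/-- A prime order element. -/
theorem order_of_RR (h2 : (2 : F) = 0) (hω : ω * ω = ω + 1) {g : GL F9 F} {a : Mx} (h : RR ω g a) {p : ℕ} (hp : p.Prime)
    (h1 : nonId a = true) (h3 : eqB (mpw a p) (unpack pI) = true) : orderOf g = p := by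
  haveI : Fact p.Prime := ⟨hp⟩
  exact orderOf_eq_prime (eq_one_of_RR (RR_pow h2 hω h p) h3) (ne_one_of_RR h2 hω h h1)

end enum

/-! ### The concrete context -/

variable {F : Type*} [Field F] {ω : F}

/-- The data of the three generators. -/
structure Ctx (ω : F) where
  h2 : (2 : F) = 0
  hω : ω * ω = ω + 1
  gb : GL F9 F
  gd : GL F9 F
  gc : GL F9 F
  rb : RR ω gb xb
  rd : RR ω gd xd
  rc : RR ω gc xc

namespace Ctx

variable (X : Ctx ω)

/-- The monomial subgroup. -/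
def M : Subgroup (GL F9 F) := Subgroup.closure {X.gb, X.gd}

/-- The whole group. -/
def G : Subgroup (GL F9 F) := Subgroup.closure {X.gb, X.gd, X.gc}

theorem M_le : X.M ≤ X.G := by
  apply Subgroup.closure_mono
  intro x hx
  rcases hx with rfl | rfl
  · exact Or.inl rfl
  · exact Or.inr (Or.inl rfl)

theorem gb_mem : X.gb ∈ X.M := Subgroup.subset_closure (Or.inl rfl)
theorem gd_mem : X.gd ∈ X.M := Subgroup.subset_closure (Or.inr rfl)
theorem gc_mem : X.gc ∈ X.G := Subgroup.subset_closure (Or.inr (Or.inr rfl))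

/-- The generators by index. -/
def gn (s : ℕ) : GL F9 F := cond (Nat.beq s 0) X.gb (cond (Nat.beq s 1) X.gd X.gc)

theorem rg (s : ℕ) : RR ω (X.gn s) (xg s) := by
  unfold gn xg
  cases Nat.beq s 0
  · cases Nat.beq s 1
    · exact X.rc
    · exact X.rd
  · exact X.rb

theorem gn_mem (s : ℕ) : X.gn s ∈ X.G := by
  unfold gn
  cases Nat.beq s 0
  · cases Nat.beq s 1
    · exact X.gc_mem
    · exact X.M_le X.gd_mem
  · exact X.M_le X.gb_mem

theorem xb_eq : xb = unpack pb := eq_of_eqB (by decide +kernel)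
theorem xd_eq : xd = unpack pd := eq_of_eqB (by decide +kernel)
theorem xc_eq : xc = unpack pc := eq_of_eqB (by decide +kernel)

theorem testM_spec {k : ℕ} (hk : k < 5832) :
    mcOK (code k) = true ∧ rowsOK (Mk k) = true ∧ isMono (Mk k) = true ∧
    mnb k < 5832 ∧ lact (code k) pb = Mk (mnb k) ∧
    mnd k < 5832 ∧ lact (code k) pd = Mk (mnd k) ∧
    (k = 5373 ∨ (mpP k < 5832 ∧ mpD (mpP k) < mpD k ∧ cond (Nat.beq (mpG k) 0) (mnb (mpP k)) (mnd (mpP k)) = k)) ∧
    (k = 5831 ∨ decode (Mk k) < decode (Mk (k + 1))) := by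
  have h := cM_all hk
  simp only [testM, Bool.and_eq_true, Bool.or_eq_true] at h
  obtain ⟨⟨⟨⟨⟨⟨⟨⟨h0, h1⟩, h2⟩, h3⟩, h4⟩, h5⟩, h6⟩, h7⟩, h8⟩ := h
  refine ⟨h0, h1, h2, by have := Nat.le_of_ble_eq_true h3; omega, eq_of_eqB h4,
    by have := Nat.le_of_ble_eq_true h5; omega, eq_of_eqB h6, ?_, ?_⟩
  · rcases h7 with h7 | ⟨⟨h7, h9⟩, h10⟩
    · exact Or.inl (Nat.eq_of_beq_eq_true h7)
    · right
      refine ⟨by have := Nat.le_of_ble_eq_true h7; omega, ?_, Nat.eq_of_beq_eq_true h10⟩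
      exact Nat.le_of_ble_eq_true h9
  · rcases h8 with h8 | h8
    · exact Or.inl (Nat.eq_of_beq_eq_true h8)
    · exact Or.inr (Nat.le_of_ble_eq_true h8)

theorem mul_b {k : ℕ} (hk : k < 5832) {g : GL F9 F} (hg : RR ω g (Mk k)) : RR ω (g * X.gb) (Mk (mnb k)) := by
  obtain ⟨h0, -, -, -, h4, -⟩ := testM_spec hk
  rw [← h4]
  exact RR_lact X.h2 X.hω h0 hg (xb_eq ▸ X.rb)

theorem mul_d {k : ℕ} (hk : k < 5832) {g : GL F9 F} (hg : RR ω g (Mk k)) : RR ω (g * X.gd) (Mk (mnd k)) := by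
  obtain ⟨h0, -, -, -, -, -, h4, -⟩ := testM_spec hk
  rw [← h4]
  exact RR_lact X.h2 X.hω h0 hg (xd_eq ▸ X.rd)

theorem Mk_k0 : Mk 5373 = unpack pI := eq_of_eqB (by decide +kernel)

theorem M_facts [Finite F] : (∀ g ∈ X.M, ∃ k < 5832, RR ω g (Mk k)) ∧ (∀ k < 5832, ∃ g ∈ X.M, RR ω g (Mk k)) ∧
    Nat.card X.M = 5832 := by
  refine enum_card X.h2 X.hω (n := 5832) (E := Mk) (k0 := 5373) (by norm_num) (Mk_k0 ▸ RR_one) decode
    (fun k hk => (testM_spec hk).2.1) ?_ ?_ mpP mpD ?_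
  · intro k hk
    obtain ⟨-, -, -, -, -, -, -, -, h⟩ := testM_spec (show k < 5832 by omega)
    rcases h with h | h
    · omega
    · exact h
  · intro k hk s hs g hg
    rcases hs with rfl | rfl
    · exact ⟨_, (testM_spec hk).2.2.2.1, X.mul_b hk hg⟩
    · exact ⟨_, (testM_spec hk).2.2.2.2.2.1, X.mul_d hk hg⟩
  · intro k hk e
    obtain ⟨-, -, -, -, -, -, -, h, -⟩ := testM_spec hk
    rcases h with h | ⟨h1, h2, h3⟩
    · exact absurd h e
    · refine ⟨h1, h2, ?_⟩
      cases h4 : Nat.beq (mpG k) 0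
      · rw [h4] at h3
        refine ⟨X.gd, Or.inr rfl, fun g hg => ?_⟩
        have := X.mul_d h1 hg
        simp only [cond_false] at h3
        rwa [h3] at this
      · rw [h4] at h3
        refine ⟨X.gb, Or.inl rfl, fun g hg => ?_⟩
        have := X.mul_b h1 hg
        simp only [cond_true] at h3
        rwa [h3] at this

theorem testF_spec {f : ℕ} (hf : f < 25840) :
    (∀ s ≤ 2, cnF f s < 25840 ∧ cnK f s < 5832 ∧ mm (unpack (T f)) (xg s) = lact (code (cnK f s)) (T (cnF f s))) ∧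
    (f = 0 ∨ (parP f < f ∧ parG f ≤ 2 ∧ cnF (parP f) (parG f) = f ∧
      (parG f = 2 ∧ wordOK f = true ∨ (parG f ≠ 2 ∧ parP f ≠ 0)))) := by
  have h := cF_all hf
  simp only [testF, Bool.and_eq_true, Bool.or_eq_true] at h
  obtain ⟨⟨⟨h0, h1⟩, h2⟩, h3⟩ := h
  have key : ∀ s, testS f s = true →
      cnF f s < 25840 ∧ cnK f s < 5832 ∧ mm (unpack (T f)) (xg s) = lact (code (cnK f s)) (T (cnF f s)) := by
    intro s hs
    simp only [testS, Bool.and_eq_true] at hs
    obtain ⟨⟨a, b⟩, c⟩ := hs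
    exact ⟨by have := Nat.le_of_ble_eq_true a; omega, by have := Nat.le_of_ble_eq_true b; omega, eq_of_eqB c⟩
  refine ⟨?_, ?_⟩
  · intro s hs
    interval_cases s
    · exact key 0 h0
    · exact key 1 h1
    · exact key 2 h2
  · rcases h3 with h3 | ⟨⟨⟨a, b⟩, c⟩, d⟩
    · exact Or.inl (Nat.eq_of_beq_eq_true h3)
    · right
      refine ⟨Nat.le_of_ble_eq_true a, Nat.le_of_ble_eq_true b, Nat.eq_of_beq_eq_true c, ?_⟩
      cases e : Nat.beq (parG f) 2
      · rw [e] at d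
        right
        refine ⟨?_, ?_⟩
        · intro e2
          rw [e2] at e
          simp at e
        · simp only [cond_false, Bool.not_eq_true'] at d
          intro e2
          rw [e2] at d
          simp at d
      · rw [e] at d
        exact Or.inl ⟨Nat.eq_of_beq_eq_true e, d⟩

theorem T_zero : T 0 = pI := by decide +kernel

/-- The key fact on the coset table. -/
theorem coset_next {f s : ℕ} (hf : f < 25840) (hs : s ≤ 2) {t m : GL F9 F} (ht : RR ω t (unpack (T f)))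
    (hm : RR ω m (Mk (cnK f s))) : RR ω (m⁻¹ * (t * X.gn s)) (unpack (T (cnF f s))) := by
  obtain ⟨-, h2, h3⟩ := (testF_spec hf).1 s hs
  have h4 : RR ω (t * X.gn s) (mm (unpack (T f)) (xg s)) := RR_mul X.h2 X.hω ht (X.rg s)
  rw [h3] at h4
  have h5 := (testM_spec h2).1
  unfold RR at *
  rw [Units.val_mul, h4, toM_lact ω X.h2 X.hω h5]
  have h6 : toM ω (lact (code (cnK f s)) pI) = (m : Matrix F9 F9 F) := hm.symm
  rw [h6, ← mul_assoc, Units.inv_mul, one_mul]

theorem T_exists [Finite F] {f : ℕ} (hf : f < 25840) : ∃ t ∈ X.G, RR ω t (unpack (T f)) := by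
  induction f using Nat.strong_induction_on with
  | _ f ih =>
    rcases (testF_spec hf).2 with h | ⟨h1, h2, h3, -⟩
    · subst h
      rw [T_zero]
      exact ⟨1, Subgroup.one_mem _, RR_one⟩
    · obtain ⟨t, ht, hr⟩ := ih _ h1 (by omega)
      obtain ⟨-, hk, -⟩ := (testF_spec (show parP f < 25840 by omega)).1 _ h2
      obtain ⟨m, hm, hmr⟩ := X.M_facts.2.1 _ hk
      refine ⟨m⁻¹ * (t * X.gn (parG f)), ?_, ?_⟩
      · exact Subgroup.mul_mem _ (Subgroup.inv_mem _ (X.M_le hm)) (Subgroup.mul_mem _ ht (X.gn_mem _))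
      · have := X.coset_next (show parP f < 25840 by omega) h2 hr hmr
        rwa [h3] at this

theorem cover [Finite F] : ∀ g ∈ X.G, ∃ f < 25840, ∃ m ∈ X.M, ∃ t, RR ω t (unpack (T f)) ∧ g = m * t := by
  apply closure_right_induct
  · refine ⟨0, by norm_num, 1, Subgroup.one_mem _, 1, ?_, by simp⟩
    rw [T_zero]
    exact RR_one
  · rintro g s hs ⟨f, hf, m, hm, t, ht, rfl⟩
    have key : ∀ s0 ≤ 2, ∃ f' < 25840, ∃ m' ∈ X.M, ∃ t', RR ω t' (unpack (T f')) ∧ m * t * X.gn s0 = m' * t' := by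
      intro s0 hs0
      obtain ⟨h1, h2, -⟩ := (testF_spec hf).1 s0 hs0
      obtain ⟨m0, hm0, hr0⟩ := X.M_facts.2.1 _ h2
      refine ⟨_, h1, m * m0, Subgroup.mul_mem _ hm hm0, _, X.coset_next hf hs0 ht hr0, ?_⟩
      group
    rcases hs with rfl | rfl | rfl
    · exact key 0 (by norm_num)
    · exact key 1 (by norm_num)
    · exact key 2 (by norm_num)

theorem card_le [Finite F] : Nat.card X.G ≤ 150698880 := by
  have h := fun f (hf : f < 25840) => X.T_exists hf
  choose! t ht1 ht2 using h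
  let φ : X.M × Fin 25840 → X.G := fun p => ⟨p.1.1 * t p.2.1, Subgroup.mul_mem _ (X.M_le p.1.2) (ht1 _ p.2.2)⟩
  have hφ : Function.Surjective φ := by
    rintro ⟨g, hg⟩
    obtain ⟨f, hf, m, hm, t', hr, rfl⟩ := X.cover g hg
    refine ⟨(⟨m, hm⟩, ⟨f, hf⟩), ?_⟩
    apply Subtype.ext
    show m * t f = m * t'
    rw [RR_unique (ht2 f hf) hr]
  have h1 := Nat.card_le_card_of_surjective φ hφ
  rw [Nat.card_prod, X.M_facts.2.2] at h1
  simpa using h1

/-! ### The lower bound on the order -/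

/-- The third generator of the 2-subgroup exists. -/
theorem gy_exists [Finite F] : ∃ y ∈ X.G, RR ω y xy := by
  obtain ⟨t, ht, hr⟩ := X.T_exists (show fy < 25840 by decide)
  obtain ⟨m, hm, hmr⟩ := X.M_facts.2.1 ky (by decide)
  refine ⟨m * t, Subgroup.mul_mem _ (X.M_le hm) ht, ?_⟩
  exact RR_lact X.h2 X.hω (testM_spec (show ky < 5832 by decide)).1 hmr hr

theorem testQ_spec {k : ℕ} (hk : k < 128) :
    rowsOK (Qk k) = true ∧ (∀ s ≤ 2, Qn k s < 128 ∧ mm (Qk k) (qg s) = Qk (Qn k s)) ∧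
    (k = 46 ∨ (Qp k < 128 ∧ Qd (Qp k) < Qd k ∧ Qg k ≤ 2 ∧ Qn (Qp k) (Qg k) = k)) ∧
    (k = 127 ∨ keyMx (Qk k) < keyMx (Qk (k + 1))) := by
  have h := cQ_all hk
  simp only [testQ, Bool.and_eq_true, Bool.or_eq_true] at h
  obtain ⟨⟨⟨⟨⟨⟨⟨⟨h0, h1⟩, h2⟩, h3⟩, h4⟩, h5⟩, h6⟩, h7⟩, h8⟩ := h
  refine ⟨h0, ?_, ?_, ?_⟩
  · intro s hs
    interval_cases s
    · exact ⟨by have := Nat.le_of_ble_eq_true h1; omega, eq_of_eqB h2⟩
    · exact ⟨by have := Nat.le_of_ble_eq_true h3; omega, eq_of_eqB h4⟩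
    · exact ⟨by have := Nat.le_of_ble_eq_true h5; omega, eq_of_eqB h6⟩
  · rcases h7 with h7 | ⟨⟨⟨a, b⟩, c⟩, d⟩
    · exact Or.inl (Nat.eq_of_beq_eq_true h7)
    · right
      exact ⟨by have := Nat.le_of_ble_eq_true a; omega, Nat.le_of_ble_eq_true b, Nat.le_of_ble_eq_true c,
        Nat.eq_of_beq_eq_true d⟩
  · rcases h8 with h8 | h8
    · exact Or.inl (Nat.eq_of_beq_eq_true h8)
    · exact Or.inr (Nat.le_of_ble_eq_true h8)

theorem Qk_q0 : Qk 46 = unpack pI := eq_of_eqB (by decide +kernel)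

theorem card_Q_dvd [Finite F] : 128 ∣ Nat.card X.G := by
  obtain ⟨y, hy, ry⟩ := X.gy_exists
  set gq : ℕ → GL F9 F := fun s => cond (Nat.beq s 0) X.gb (cond (Nat.beq s 1) X.gc y) with hgq
  have rq : ∀ s, RR ω (gq s) (qg s) := by
    intro s
    simp only [hgq, qg]
    cases Nat.beq s 0
    · cases Nat.beq s 1
      · exact ry
      · exact X.rc
    · exact X.rb
  have hf := enum_card X.h2 X.hω (S := {X.gb, X.gc, y}) (n := 128) (E := Qk) (k0 := 46) (by norm_num) (Qk_q0 ▸ RR_one)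
    keyMx (fun k hk => (testQ_spec hk).1) ?_ ?_ Qp Qd ?_
  · have hle : Subgroup.closure {X.gb, X.gc, y} ≤ X.G := by
      rw [Subgroup.closure_le]
      rintro x (rfl | rfl | rfl)
      · exact X.M_le X.gb_mem
      · exact X.gc_mem
      · exact hy
    have := Subgroup.card_dvd_of_le hle
    rwa [hf.2.2] at this
  · intro k hk
    obtain ⟨-, -, -, h⟩ := testQ_spec (show k < 128 by omega)
    rcases h with h | h
    · omega
    · exact h
  · intro k hk s hs g hg
    have key : ∀ s0 ≤ 2, ∃ k' < 128, RR ω (g * gq s0) (Qk k') := by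
      intro s0 hs0
      obtain ⟨h1, h2⟩ := (testQ_spec hk).2.1 s0 hs0
      refine ⟨_, h1, ?_⟩
      rw [← h2]
      exact RR_mul X.h2 X.hω hg (rq s0)
    rcases hs with rfl | rfl | rfl
    · exact key 0 (by norm_num)
    · exact key 1 (by norm_num)
    · exact key 2 (by norm_num)
  · intro k hk e
    obtain ⟨-, -, h, -⟩ := testQ_spec hk
    rcases h with h | ⟨h1, h2, h3, h4⟩
    · exact absurd h e
    · refine ⟨h1, h2, gq (Qg k), ?_, ?_⟩
      · simp only [hgq]
        cases Nat.beq (Qg k) 0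
        · cases Nat.beq (Qg k) 1
          · exact Or.inr (Or.inr rfl)
          · exact Or.inr (Or.inl rfl)
        · exact Or.inl rfl
      · intro g hg
        obtain ⟨-, h6⟩ := (testQ_spec h1).2.1 _ h3
        have := RR_mul X.h2 X.hω hg (rq (Qg k))
        rw [h6, h4] at this
        exact this

/-- The word of order 15. -/
def x15 : Mx := mm (mm xb xd) xc
/-- The word of order 17. -/
def x17 : Mx := mm (mm (mm (mm xb xb) xd) xc) xd
/-- The word of order 19. -/
def x19 : Mx := mm (mm (mm (mm xb xd) xb) xd) xc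

theorem o5a : nonId (mpw x15 3) = true := by decide +kernel
theorem o5b : eqB (mpw (mpw x15 3) 5) (unpack pI) = true := by decide +kernel
theorem o17a : nonId x17 = true := by decide +kernel
theorem o17b : eqB (mpw x17 17) (unpack pI) = true := by decide +kernel
theorem o19a : nonId x19 = true := by decide +kernel
theorem o19b : eqB (mpw x19 19) (unpack pI) = true := by decide +kernel

theorem card_dvd [Finite F] : 150698880 ∣ Nat.card X.G := by
  have hb := X.M_le X.gb_mem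
  have hd := X.M_le X.gd_mem
  have hc := X.gc_mem
  have d1 : 5832 ∣ Nat.card X.G := by
    have := Subgroup.card_dvd_of_le X.M_le
    rwa [X.M_facts.2.2] at this
  have d2 := X.card_Q_dvd
  have G := X.G
  have d5 : 5 ∣ Nat.card X.G := by
    have r : RR ω (X.gb * X.gd * X.gc) x15 := RR_mul X.h2 X.hω (RR_mul X.h2 X.hω X.rb X.rd) X.rc
    have o := order_of_RR X.h2 X.hω (RR_pow X.h2 X.hω r 3) (show Nat.Prime 5 by norm_num) o5a o5b
    rw [← o]
    exact Subgroup.orderOf_dvd_natCard _ (Subgroup.pow_mem _ (Subgroup.mul_mem _ (Subgroup.mul_mem _ hb hd) hc) _)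
  have d17 : 17 ∣ Nat.card X.G := by
    have r : RR ω (X.gb * X.gb * X.gd * X.gc * X.gd) x17 :=
      RR_mul X.h2 X.hω (RR_mul X.h2 X.hω (RR_mul X.h2 X.hω (RR_mul X.h2 X.hω X.rb X.rb) X.rd) X.rc) X.rd
    have o := order_of_RR X.h2 X.hω r (show Nat.Prime 17 by norm_num) o17a o17b
    rw [← o]
    exact Subgroup.orderOf_dvd_natCard _
      (Subgroup.mul_mem _ (Subgroup.mul_mem _ (Subgroup.mul_mem _ (Subgroup.mul_mem _ hb hb) hd) hc) hd)
  have d19 : 19 ∣ Nat.card X.G := by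
    have r : RR ω (X.gb * X.gd * X.gb * X.gd * X.gc) x19 :=
      RR_mul X.h2 X.hω (RR_mul X.h2 X.hω (RR_mul X.h2 X.hω (RR_mul X.h2 X.hω X.rb X.rd) X.rb) X.rd) X.rc
    have o := order_of_RR X.h2 X.hω r (show Nat.Prime 19 by norm_num) o19a o19b
    rw [← o]
    exact Subgroup.orderOf_dvd_natCard _
      (Subgroup.mul_mem _ (Subgroup.mul_mem _ (Subgroup.mul_mem _ (Subgroup.mul_mem _ hb hd) hb) hd) hc)
  have e : (150698880 : ℕ) = Nat.lcm (Nat.lcm (Nat.lcm (Nat.lcm 5832 128) 5) 17) 19 := by norm_num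
  rw [e]
  exact Nat.lcm_dvd (Nat.lcm_dvd (Nat.lcm_dvd (Nat.lcm_dvd d1 d2) d5) d17) d19

theorem card_G [Finite F] : Nat.card X.G = 150698880 := by
  have h1 := X.card_le
  have h2 := X.card_dvd
  haveI : Finite (GL F9 F) := inferInstance
  have h3 : 0 < Nat.card X.G := Nat.card_pos
  exact le_antisymm h1 (Nat.le_of_dvd h3 h2)

/-! ### Maximality -/

theorem wEval_mem [Finite F] {K : Subgroup (GL F9 F)} (hK : X.M ≤ K) {H : Mx} {h : GL F9 F} (hh : h ∈ K) (rh : RR ω h H)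
    (l : List ℕ) (hl : l.all (fun i => Nat.ble i 5831) = true) {a : Mx} {y : GL F9 F} (hy : y ∈ K) (ry : RR ω y a) :
    ∃ y' ∈ K, RR ω y' (wEval H a l) := by
  induction l generalizing a y with
  | nil => exact ⟨y, hy, ry⟩
  | cons i l ih =>
    simp only [List.all_cons, Bool.and_eq_true] at hl
    have hi : i < 5832 := by have := Nat.le_of_ble_eq_true hl.1; omega
    obtain ⟨m, hm, rm⟩ := X.M_facts.2.1 i hi
    exact ih hl.2 (Subgroup.mul_mem _ (Subgroup.mul_mem _ hy (hK hm)) hh)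
      (RR_mul X.h2 X.hω (RR_mul X.h2 X.hω ry rm) rh)

theorem rep_mem [Finite F] {K : Subgroup (GL F9 F)} (hK : X.M ≤ K) {f : ℕ} (hw : wordOK f = true) {t : GL F9 F}
    (ht : t ∈ K) (rt : RR ω t (unpack (T f))) : X.gc ∈ K := by
  simp only [wordOK, Bool.and_eq_true] at hw
  obtain ⟨⟨⟨h1, h2⟩, h3⟩, h4⟩ := hw
  obtain ⟨y, hy, ry⟩ := X.wEval_mem hK ht rt _ h1 ht rt
  rw [eq_of_eqB h4] at ry
  have hu : (repW f).2.1 < 5832 := by have := Nat.le_of_ble_eq_true h2; omega
  have hv : (repW f).2.2 < 5832 := by have := Nat.le_of_ble_eq_true h3; omega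
  obtain ⟨mu, hmu, rmu⟩ := X.M_facts.2.1 _ hu
  obtain ⟨mv, hmv, rmv⟩ := X.M_facts.2.1 _ hv
  have r2 : RR ω (mu * X.gc * mv) (mm (lact (code (repW f).2.1) pc) (Mk (repW f).2.2)) :=
    RR_mul X.h2 X.hω (RR_lact X.h2 X.hω (testM_spec hu).1 rmu (xc_eq ▸ X.rc)) rmv
  have e := RR_unique ry r2
  have : X.gc = mu⁻¹ * y * mv⁻¹ := by
    rw [e]
    group
  rw [this]
  exact Subgroup.mul_mem _ (Subgroup.mul_mem _ (Subgroup.inv_mem _ (hK hmu)) hy) (Subgroup.inv_mem _ (hK hmv))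

theorem descend [Finite F] {K : Subgroup (GL F9 F)} (hK : X.M ≤ K) {f : ℕ} (hf : f < 25840) (h0 : f ≠ 0) {t : GL F9 F}
    (ht : t ∈ K) (rt : RR ω t (unpack (T f))) : X.gc ∈ K := by
  induction f using Nat.strong_induction_on generalizing t with
  | _ f ih =>
    rcases (testF_spec hf).2 with h | ⟨h1, h2, h3, h4⟩
    · exact absurd h h0
    · rcases h4 with ⟨-, h4⟩ | ⟨h5, h6⟩
      · exact X.rep_mem hK h4 ht rt
      · have hp : parP f < 25840 := by omega
        obtain ⟨tp, -, rp⟩ := X.T_exists hp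
        obtain ⟨-, hk, -⟩ := (testF_spec hp).1 _ h2
        obtain ⟨m, hm, hmr⟩ := X.M_facts.2.1 _ hk
        have r2 := X.coset_next hp h2 rp hmr
        rw [h3] at r2
        have e := RR_unique r2 rt
        have hg : X.gn (parG f) ∈ K := by
          have : parG f = 0 ∨ parG f = 1 := by omega
          rcases this with e1 | e1
          · rw [e1]
            exact hK X.gb_mem
          · rw [e1]
            exact hK X.gd_mem
        have : tp = m * t * (X.gn (parG f))⁻¹ := by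
          rw [← e]
          group
        refine ih _ h1 hp h6 ?_ rp
        rw [this]
        exact Subgroup.mul_mem _ (Subgroup.mul_mem _ (hK hm) ht) (Subgroup.inv_mem _ hg)

theorem maximal [Finite F] {K : Subgroup (GL F9 F)} (hK : X.M ≤ K) {g : GL F9 F} (hg : g ∈ K) (hG : g ∈ X.G)
    (hgM : g ∉ X.M) : X.G ≤ K := by
  obtain ⟨f, hf, m, hm, t, rt, rfl⟩ := X.cover g hG
  have h0 : f ≠ 0 := by
    rintro rfl
    rw [T_zero] at rt
    have := RR_unique rt RR_one
    rw [this, mul_one] at hgM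
    exact hgM hm
  have ht : t ∈ K := by
    have : t = m⁻¹ * (m * t) := by group
    rw [this]
    exact Subgroup.mul_mem _ (Subgroup.inv_mem _ (hK hm)) hg
  have hc := X.descend hK hf h0 ht rt
  rw [G, Subgroup.closure_le]
  rintro x (rfl | rfl | rfl)
  · exact hK X.gb_mem
  · exact hK X.gd_mem
  · exact hc

/-! ### The core -/

theorem xc_sq : eqB (mm xc xc) (unpack pI) = true := by decide +kernel
theorem y2i_mul : eqB (mm y2i (unpack (T y2))) (unpack pI) = true := by decide +kernel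

theorem isMono_Mk {k : ℕ} (hk : k < 5832) : isMono (Mk k) = true := (testM_spec hk).2.2.1

theorem core [Finite F] {N : Subgroup (GL F9 F)} (hN : N ≤ X.M) (hn : ∀ y ∈ X.G, ∀ x ∈ N, y⁻¹ * x * y ∈ N) {x : GL F9 F}
    (hx : x ∈ N) : ∃ k, (k = 5373 ∨ k = 5602 ∨ k = 5831) ∧ RR ω x (Mk k) := by
  obtain ⟨k, hk, rk⟩ := X.M_facts.1 x (hN hx)
  have key : ∀ (y : GL F9 F) (yi a : Mx), y ∈ X.G → RR ω y⁻¹ yi → RR ω y a → nonMono (mm (mm yi (Mk k)) a) = true → False := by
    intro y yi a hy ry1 ry2 h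
    obtain ⟨j, hj, rj⟩ := X.M_facts.1 _ (hN (hn y hy x hx))
    have r : RR ω (y⁻¹ * x * y) (mm (mm yi (Mk k)) a) := RR_mul X.h2 X.hω (RR_mul X.h2 X.hω ry1 rk) ry2
    simp only [nonMono, Bool.and_eq_true, Bool.not_eq_true'] at h
    have e : mm (mm yi (Mk k)) a = Mk j :=
      toM_inj X.h2 X.hω h.1 (testM_spec hj).2.1 (r.symm.trans rj)
    rw [e, isMono_Mk hj] at h
    exact absurd h.2 (by simp)
  have h := cC_all hk
  simp only [testC, Bool.or_eq_true] at h
  rcases h with ⟨⟨⟨h | h⟩ | h⟩ | h⟩ | h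
  · exact ⟨k, Or.inl (Nat.eq_of_beq_eq_true h), rk⟩
  · exact ⟨k, Or.inr (Or.inl (Nat.eq_of_beq_eq_true h)), rk⟩
  · exact ⟨k, Or.inr (Or.inr (Nat.eq_of_beq_eq_true h)), rk⟩
  · exact (key X.gc xc xc X.gc_mem (RR_inv X.h2 X.hω X.rc xc_sq) X.rc h).elim
  · obtain ⟨t, ht, rt⟩ := X.T_exists (show y2 < 25840 by decide)
    exact (key t y2i _ ht (RR_inv X.h2 X.hω rt y2i_mul) rt h).elim

end Ctx

end Cfsg.Agent.H02.J3G
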