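import Mathlib

/-!
A criterion for simplicity of a central quotient: a perfect group with a solvable maximal subgroup whose core is central.
-/

set_option autoImplicit false

namespace Cfsg.Agent.H02.J3H

variable {A : Type*} [Group A]

theorem eq_top_of_sup (hperf : commutator A = ⊤) (M : Subgroup A) [Group.IsSolvable M] (N : Subgroup A) [N.Normal]
    (hs : M ⊔ N = ⊤) : N = ⊤ := by
  let f : A →* A ⧸ N := QuotientGroup.mk' N
  have hf : Function.Surjective f := QuotientGroup.mk'_surjective N
  have hsurj : Function.Surjective (f.comp M.subtype) := by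
    intro q
    obtain ⟨a, rfl⟩ := hf q
    have ha : a ∈ ((M ⊔ N : Subgroup A) : Set A) := by
      rw [hs]
      trivial
    rw [Subgroup.mul_normal] at ha
    obtain ⟨m, hm, n, hn, rfl⟩ := Set.mem_mul.mp ha
    refine ⟨⟨m, hm⟩, ?_⟩
    show f m = f (m * n)
    rw [map_mul]
    have : f n = 1 := (QuotientGroup.eq_one_iff n).mpr hn
    rw [this, mul_one]
  haveI : Group.IsSolvable (A ⧸ N) := solvable_of_surjective hsurj
  have hcomm : commutator (A ⧸ N) = ⊤ := by
    rw [commutator_def, ← Subgroup.map_top_of_surjective f hf, ← Subgroup.map_commutator, ← commutator_def, hperf,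
      Subgroup.map_top_of_surjective f hf]
  have hsub : Subsingleton (A ⧸ N) := by
    by_contra hn
    rw [not_subsingleton_iff_nontrivial] at hn
    have := Group.IsSolvable.commutator_lt_top_of_nontrivial (A ⧸ N)
    rw [hcomm] at this
    exact lt_irrefl _ this
  rw [eq_top_iff]
  intro a _
  have : (a : A ⧸ N) = 1 := Subsingleton.elim _ _
  exact (QuotientGroup.eq_one_iff a).mp this

theorem normal_dichotomy (hperf : commutator A = ⊤) (M : Subgroup A) [Group.IsSolvable M]
    (hmax : ∀ K : Subgroup A, M ≤ K → K ≠ M → K = ⊤) (N : Subgroup A) [N.Normal] : N ≤ M ∨ N = ⊤ := by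
  by_cases h : N ≤ M
  · exact Or.inl h
  · right
    apply eq_top_of_sup hperf M N
    apply hmax _ le_sup_left
    intro e
    apply h
    rw [← e]
    exact le_sup_right

theorem simple_quotient (Z : Subgroup A) [Z.Normal] (hZ : Z ≠ ⊤) (h : ∀ N : Subgroup A, N.Normal → Z ≤ N → N ≤ Z ∨ N = ⊤) :
    IsSimpleGroup (A ⧸ Z) := by
  haveI : Nontrivial (A ⧸ Z) := by
    by_contra hn
    rw [not_nontrivial_iff_subsingleton] at hn
    apply hZ
    rw [eq_top_iff]
    intro a _
    have : (a : A ⧸ Z) = 1 := Subsingleton.elim _ _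
    exact (QuotientGroup.eq_one_iff a).mp this
  refine ⟨?_⟩
  intro H hH
  have hN : (H.comap (QuotientGroup.mk' Z)).Normal := Subgroup.Normal.comap hH _
  have hle : Z ≤ H.comap (QuotientGroup.mk' Z) := by
    intro z hz
    show (z : A ⧸ Z) ∈ H
    rw [(QuotientGroup.eq_one_iff z).mpr hz]
    exact H.one_mem
  rcases h _ hN hle with h1 | h1
  · left
    rw [eq_bot_iff]
    intro q hq
    obtain ⟨a, rfl⟩ := QuotientGroup.mk'_surjective Z q
    have : a ∈ Z := h1 hq
    rw [Subgroup.mem_bot]
    exact (QuotientGroup.eq_one_iff a).mpr this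
  · right
    rw [eq_top_iff]
    intro q _
    obtain ⟨a, rfl⟩ := QuotientGroup.mk'_surjective Z q
    have : a ∈ H.comap (QuotientGroup.mk' Z) := by
      rw [h1]
      trivial
    exact this

/-- The criterion. -/
theorem main_criterion (hperf : commutator A = ⊤) (M : Subgroup A) [Group.IsSolvable M]
    (hmax : ∀ K : Subgroup A, M ≤ K → K ≠ M → K = ⊤)
    (hcore : ∀ N : Subgroup A, N.Normal → N ≤ M → N ≤ Subgroup.center A) (hZ : Subgroup.center A ≠ ⊤) :
    IsSimpleGroup (A ⧸ Subgroup.center A) := by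
  apply simple_quotient _ hZ
  intro N hN _
  rcases normal_dichotomy hperf M hmax N with h | h
  · exact Or.inl (hcore N hN h)
  · exact Or.inr h

/-- The abelianization argument for the generators of the triple cover. -/
theorem comm_rel {Q : Type*} [CommGroup Q] {B C D : Q} (h1 : B ^ 8 = 1) (h2 : C ^ 2 = 1) (h3 : D ^ 9 = 1) (h4 : (B * C) ^ 2 = 1)
    (h5 : (B * D) ^ 8 = 1) (h6 : (B * B * D * C) ^ 9 = 1) (h7 : (B * D * C * D * C) ^ 15 = 1) :
    B = 1 ∧ C = 1 ∧ D = 1 := by
  have hB2 : B ^ 2 = 1 := by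
    rw [mul_pow, h2, mul_one] at h4
    exact h4
  have hD8 : D ^ 8 = 1 := by
    rw [mul_pow, h1, one_mul] at h5
    exact h5
  have hD : D = 1 := by
    have : D ^ 9 = D ^ 8 * D := pow_succ D 8
    rw [h3, hD8, one_mul] at this
    exact this.symm
  subst hD
  have hC : C = 1 := by
    simp only [mul_one, mul_pow] at h6
    have e1 : B ^ 9 * B ^ 9 = (B ^ 2) ^ 9 := by
      rw [← pow_add, ← pow_mul]
    have e2 : C ^ 9 = (C ^ 2) ^ 4 * C := by
      rw [← pow_mul, ← pow_succ]
    rw [e1, hB2, e2, h2] at h6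
    simpa using h6
  subst hC
  have hB : B = 1 := by
    simp only [mul_one] at h7
    have e2 : B ^ 15 = (B ^ 2) ^ 7 * B := by
      rw [← pow_mul, ← pow_succ]
    rw [e2, hB2] at h7
    simpa using h7
  exact ⟨hB, rfl, rfl⟩

end Cfsg.Agent.H02.J3H
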