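import Cfsg.Agent.Lib.H02.J3G
import Cfsg.Agent.Lib.H02.J3H

/-!
The triple cover of the third Janko group: the generators of the definition and the main theorem.
-/

set_option autoImplicit false
set_option maxRecDepth 100000

namespace Cfsg.Agent.H02.J3I

open Cfsg Cfsg.Spor Cfsg.Agent.H02.J3A Cfsg.Agent.H02.J3B Cfsg.Agent.H02.J3D Cfsg.Agent.H02.J3E Cfsg.Agent.H02.J3F
  Cfsg.Agent.H02.J3G Cfsg.Agent.H02.J3H
open scoped MatrixGroups

variable {F : Type*} [Field F] {ω : F}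

theorem toM_apply (m : Mx) (w z : F9) : toM ω m w z = DD ω (ent (m.row (ix w)) (ix z)) :=
  (DD_ent ω _ _).symm

theorem wc_spec (hω : ω * ω = ω + 1) (n : ZMod 3) : DD ω (n.val + 1) = omegaPow F ω n := by
  unfold omegaPow
  have : n = 0 ∨ n = 1 ∨ n = 2 := by decide +revert
  rcases this with rfl | rfl | rfl
  · exact (DD_1 ω).trans (by simp [show (0 : ZMod 3).val = 0 from rfl])
  · exact (DD_2 ω).trans (by simp [show (1 : ZMod 3).val = 1 from rfl])
  · refine (DD_3 ω).trans ?_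
    rw [show (2 : ZMod 3).val = 2 from rfl, pow_two, hω, add_comm]

/-- The code of the translation coefficient. -/
def lamC (Z z : F9) : ℕ :=
  if z = 0 then 1
  else if F9.div Z z = F9.I - F9.one then 2
  else if F9.div Z z = -F9.I - F9.one then 3
  else 1

theorem lam_spec (hω : ω * ω = ω + 1) (Z z : F9) : DD ω (lamC Z z) = j3Lam F ω Z z := by
  unfold lamC j3Lam
  split_ifs
  · exact DD_1 ω
  · exact DD_2 ω
  · refine (DD_3 ω).trans ?_
    rw [pow_two, hω, add_comm]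
  · exact DD_1 ω

/-- The code of the entries of the inversions. -/
def cC (Z : F9) (w z : F9) : ℕ :=
  if z = 0 then (if w = 0 then 1 else 0)
  else if w = -F9.div Z z ∨ w = F9.mul F9.I (F9.div Z z) ∨ w = -F9.mul F9.I (F9.div Z z) then 1 else 0

theorem cC_spec (Z w z : F9) : DD ω (cC Z w z) = j3C F Z w z := by
  unfold cC j3C
  simp only [Matrix.of_apply]
  split_ifs
  · exact DD_1 ω
  · exact DD_0 ω
  · exact DD_1 ω
  · exact DD_0 ω

theorem A_code : ∀ Z w z : F9, ent ((Mk (aIdx Z)).row (ix w)) (ix z) =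
    if w = z then (Z.1 * z.1 + Z.2 * z.2).val + 1 else 0 := by decide +kernel

theorem E_code : ∀ Z w z : F9, ent ((Mk (eIdx Z)).row (ix w)) (ix z) =
    if w = z then ((Z.1 - z.1) ^ 2 + (Z.2 - z.2) ^ 2).val + 1 else 0 := by decide +kernel

theorem D_code : ∀ Z w z : F9, ent ((Mk (dIdx Z)).row (ix w)) (ix z) =
    if w = z + Z then lamC Z z else 0 := by decide +kernel

theorem B_code : ∀ Z : F9, Z ≠ 0 → ∀ w z : F9, ent ((Mk (bIdx Z)).row (ix w)) (ix z) =
    if w = F9.mul Z z then 1 else 0 := by decide +kernel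

theorem C_code : ∀ Z : F9, Z ≠ 0 → ∀ w z : F9,
    ent ((mm (lact (code (c0Idx Z)) pc) (Mk (c1Idx Z))).row (ix w)) (ix z) = cC Z w z := by decide +kernel

theorem xb_code : ∀ w z : F9, ent (xb.row (ix w)) (ix z) =
    if w = F9.mul ((1 : ZMod 3), (1 : ZMod 3)) z then 1 else 0 := by decide +kernel

theorem xd_code : ∀ w z : F9, ent (xd.row (ix w)) (ix z) =
    if w = z + ((1 : ZMod 3), (0 : ZMod 3)) then lamC ((1 : ZMod 3), (0 : ZMod 3)) z else 0 := by decide +kernel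

theorem xc_code : ∀ w z : F9, ent (xc.row (ix w)) (ix z) = cC ((1 : ZMod 3), (0 : ZMod 3)) w z := by decide +kernel

theorem idx_lt : ∀ Z : F9, aIdx Z < 5832 ∧ eIdx Z < 5832 ∧ dIdx Z < 5832 ∧ bIdx Z < 5832 ∧ c0Idx Z < 5832 ∧ c1Idx Z < 5832 := by
  decide +kernel

section mats

variable (hω : ω * ω = ω + 1)

include hω

theorem toM_A (Z : F9) : toM ω (Mk (aIdx Z)) = j3A F ω Z := by
  ext w z
  rw [toM_apply, A_code]
  unfold j3A
  rw [Matrix.diagonal_apply]
  split_ifs with h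
  · subst h
    exact wc_spec hω _
  · exact DD_0 ω

theorem toM_E (Z : F9) : toM ω (Mk (eIdx Z)) = j3E F ω Z := by
  ext w z
  rw [toM_apply, E_code]
  unfold j3E
  rw [Matrix.diagonal_apply]
  split_ifs with h
  · subst h
    exact wc_spec hω _
  · exact DD_0 ω

theorem toM_D (Z : F9) : toM ω (Mk (dIdx Z)) = j3D F ω Z := by
  ext w z
  rw [toM_apply, D_code]
  unfold j3D
  simp only [Matrix.of_apply]
  split_ifs with h
  · exact lam_spec hω _ _
  · exact DD_0 ω

omit hω in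
theorem toM_B {Z : F9} (hZ : Z ≠ 0) : toM ω (Mk (bIdx Z)) = j3B F Z := by
  ext w z
  rw [toM_apply, B_code Z hZ]
  unfold j3B
  simp only [Matrix.of_apply]
  split_ifs with h
  · exact DD_1 ω
  · exact DD_0 ω

omit hω in
theorem toM_C {Z : F9} (hZ : Z ≠ 0) : toM ω (mm (lact (code (c0Idx Z)) pc) (Mk (c1Idx Z))) = j3C F Z := by
  ext w z
  rw [toM_apply, C_code Z hZ]
  exact cC_spec Z w z

omit hω in
theorem toM_xb : toM ω xb = j3B F ((1 : ZMod 3), (1 : ZMod 3)) := by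
  ext w z
  rw [toM_apply, xb_code]
  unfold j3B
  simp only [Matrix.of_apply]
  split_ifs with h
  · exact DD_1 ω
  · exact DD_0 ω

theorem toM_xd : toM ω xd = j3D F ω ((1 : ZMod 3), (0 : ZMod 3)) := by
  ext w z
  rw [toM_apply, xd_code]
  unfold j3D
  simp only [Matrix.of_apply]
  split_ifs with h
  · exact lam_spec hω _ _
  · exact DD_0 ω

omit hω in
theorem toM_xc : toM ω xc = j3C F ((1 : ZMod 3), (0 : ZMod 3)) := by
  ext w z
  rw [toM_apply, xc_code]
  exact cC_spec _ w z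

end mats

theorem xb_xbi : eqB (mm xb xbi) (unpack pI) = true := by decide +kernel
theorem xbi_xb : eqB (mm xbi xb) (unpack pI) = true := by decide +kernel
theorem xd_xdi : eqB (mm xd xdi) (unpack pI) = true := by decide +kernel
theorem xdi_xd : eqB (mm xdi xd) (unpack pI) = true := by decide +kernel

theorem toM_inv (h2 : (2 : F) = 0) (hω : ω * ω = ω + 1) {a b : Mx} (h : eqB (mm a b) (unpack pI) = true) :
    toM ω a * toM ω b = 1 := by
  rw [← toM_mm ω h2 hω, eq_of_eqB h, toM_unpack_pI]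

/-- The context of the generators. -/
def mkCtx (h2 : (2 : F) = 0) (hω : ω * ω = ω + 1) : Ctx ω where
  h2 := h2
  hω := hω
  gb := mkU xb xbi (toM_inv h2 hω xb_xbi) (toM_inv h2 hω xbi_xb)
  gd := mkU xd xdi (toM_inv h2 hω xd_xdi) (toM_inv h2 hω xdi_xd)
  gc := mkU xc xc (toM_inv h2 hω Ctx.xc_sq) (toM_inv h2 hω Ctx.xc_sq)
  rb := RR_mkU _ _ _ _
  rd := RR_mkU _ _ _ _
  rc := RR_mkU _ _ _ _

section main

variable [Finite F] (h2 : (2 : F) = 0) (hω : ω * ω = ω + 1)

theorem ne_b : ((1 : ZMod 3), (1 : ZMod 3)) ≠ (0 : F9) := by decide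
theorem ne_c : ((1 : ZMod 3), (0 : ZMod 3)) ≠ (0 : F9) := by decide

include h2 hω in
theorem threeJ3_eq : threeJ3 F ω = (mkCtx h2 hω).G := by
  set X := mkCtx h2 hω with hX
  apply le_antisymm
  · rw [threeJ3, Subgroup.closure_le]
    intro g hg
    have hM : ∀ k < 5832, RR ω g (Mk k) → g ∈ X.G := by
      intro k hk r
      obtain ⟨m, hm, rm⟩ := X.M_facts.2.1 k hk
      rw [RR_unique r rm]
      exact X.M_le hm
    rcases hg with ((((⟨Z, hZ⟩ | ⟨Z, hZ⟩) | ⟨Z, hZ⟩) | ⟨Z, hZ0, hZ⟩) | ⟨Z, hZ0, hZ⟩)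
    · exact hM _ (idx_lt Z).1 (by rw [RR, toM_A hω]; exact hZ.symm)
    · exact hM _ (idx_lt Z).2.1 (by rw [RR, toM_E hω]; exact hZ.symm)
    · exact hM _ (idx_lt Z).2.2.1 (by rw [RR, toM_D hω]; exact hZ.symm)
    · exact hM _ (idx_lt Z).2.2.2.1 (by rw [RR, toM_B hZ0]; exact hZ)
    · obtain ⟨mu, hmu, rmu⟩ := X.M_facts.2.1 _ (idx_lt Z).2.2.2.2.1
      obtain ⟨mv, hmv, rmv⟩ := X.M_facts.2.1 _ (idx_lt Z).2.2.2.2.2
      have r2 : RR ω (mu * X.gc * mv) (mm (lact (code (c0Idx Z)) pc) (Mk (c1Idx Z))) :=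
        RR_mul h2 hω (RR_lact h2 hω (Ctx.testM_spec (idx_lt Z).2.2.2.2.1).1 rmu (Ctx.xc_eq ▸ X.rc)) rmv
      have r : RR ω g (mm (lact (code (c0Idx Z)) pc) (Mk (c1Idx Z))) := by
        rw [RR, toM_C hZ0]
        exact hZ
      rw [RR_unique r r2]
      exact Subgroup.mul_mem _ (Subgroup.mul_mem _ (X.M_le hmu) X.gc_mem) (X.M_le hmv)
  · rw [Ctx.G, Subgroup.closure_le]
    rintro x (rfl | rfl | rfl)
    · refine Subgroup.subset_closure ?_
      refine Or.inl (Or.inr ⟨_, ne_b, ?_⟩)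
      exact (X.rb).trans (toM_xb)
    · refine Subgroup.subset_closure ?_
      refine Or.inl (Or.inl (Or.inr ⟨((1 : ZMod 3), (0 : ZMod 3)), ?_⟩))
      exact ((X.rd).trans (toM_xd hω)).symm
    · refine Subgroup.subset_closure ?_
      refine Or.inr ⟨_, ne_c, ?_⟩
      exact (X.rc).trans (toM_xc)

end main

end Cfsg.Agent.H02.J3I

namespace Cfsg.Agent.H02.J3G.Ctx

open Cfsg Cfsg.Spor Cfsg.Agent.H02.J3A Cfsg.Agent.H02.J3B Cfsg.Agent.H02.J3D Cfsg.Agent.H02.J3E Cfsg.Agent.H02.J3F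
  Cfsg.Agent.H02.J3G Cfsg.Agent.H02.J3H Cfsg.Agent.H02.J3I
open scoped MatrixGroups

variable {F : Type*} [Field F] {ω : F} (X : Ctx ω)

theorem rel1 : eqB (mpw xb 8) (unpack pI) = true := by decide +kernel
theorem rel2 : eqB (mpw xc 2) (unpack pI) = true := by decide +kernel
theorem rel3 : eqB (mpw xd 9) (unpack pI) = true := by decide +kernel
theorem rel4 : eqB (mpw (mm xb xc) 2) (unpack pI) = true := by decide +kernel
theorem rel5 : eqB (mpw (mm xb xd) 8) (unpack pI) = true := by decide +kernel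
theorem rel6 : eqB (mpw (mm (mm (mm xb xb) xd) xc) 9) (unpack pI) = true := by decide +kernel
theorem rel7 : eqB (mpw (mm (mm (mm (mm xb xd) xc) xd) xc) 15) (unpack pI) = true := by decide +kernel

theorem perfect : commutator X.G = ⊤ := by
  have hb := X.M_le X.gb_mem
  have hd := X.M_le X.gd_mem
  have hc := X.gc_mem
  let bA : X.G := ⟨X.gb, hb⟩
  let dA : X.G := ⟨X.gd, hd⟩
  let cA : X.G := ⟨X.gc, hc⟩
  have e1 : bA ^ 8 = 1 := Subtype.ext (eq_one_of_RR (RR_pow X.h2 X.hω X.rb 8) rel1)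
  have e2 : cA ^ 2 = 1 := Subtype.ext (eq_one_of_RR (RR_pow X.h2 X.hω X.rc 2) rel2)
  have e3 : dA ^ 9 = 1 := Subtype.ext (eq_one_of_RR (RR_pow X.h2 X.hω X.rd 9) rel3)
  have e4 : (bA * cA) ^ 2 = 1 :=
    Subtype.ext (eq_one_of_RR (RR_pow X.h2 X.hω (RR_mul X.h2 X.hω X.rb X.rc) 2) rel4)
  have e5 : (bA * dA) ^ 8 = 1 :=
    Subtype.ext (eq_one_of_RR (RR_pow X.h2 X.hω (RR_mul X.h2 X.hω X.rb X.rd) 8) rel5)
  have e6 : (bA * bA * dA * cA) ^ 9 = 1 :=
    Subtype.ext (eq_one_of_RR (RR_pow X.h2 X.hω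
      (RR_mul X.h2 X.hω (RR_mul X.h2 X.hω (RR_mul X.h2 X.hω X.rb X.rb) X.rd) X.rc) 9) rel6)
  have e7 : (bA * dA * cA * dA * cA) ^ 15 = 1 :=
    Subtype.ext (eq_one_of_RR (RR_pow X.h2 X.hω
      (RR_mul X.h2 X.hω (RR_mul X.h2 X.hω (RR_mul X.h2 X.hω (RR_mul X.h2 X.hω X.rb X.rd) X.rc) X.rd) X.rc) 15) rel7)
  let φ : X.G →* Abelianization X.G := Abelianization.of
  have key := comm_rel (B := φ bA) (C := φ cA) (D := φ dA)
    (by rw [← map_pow, e1, map_one]) (by rw [← map_pow, e2, map_one]) (by rw [← map_pow, e3, map_one])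
    (by rw [← map_mul, ← map_pow, e4, map_one]) (by rw [← map_mul, ← map_pow, e5, map_one])
    (by rw [← map_mul, ← map_mul, ← map_mul, ← map_pow, e6, map_one])
    (by rw [← map_mul, ← map_mul, ← map_mul, ← map_mul, ← map_pow, e7, map_one])
  rw [← Abelianization.ker_of]
  rw [eq_top_iff]
  rintro ⟨a, ha⟩ -
  have hle : X.G ≤ (Abelianization.of.ker (G := X.G)).map X.G.subtype := by
    rw [G, Subgroup.closure_le]
    rintro x (rfl | rfl | rfl)
    · exact ⟨bA, key.1, rfl⟩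
    · exact ⟨dA, key.2.2, rfl⟩
    · exact ⟨cA, key.2.1, rfl⟩
  obtain ⟨a', ha', e⟩ := hle ha
  have : a' = ⟨a, ha⟩ := Subtype.ext e
  rwa [this] at ha'

/-- The scalar elements of the monomial subgroup. -/
def kk : Fin 3 → ℕ := ![5373, 5602, 5831]

/-- The scalars by index. -/
def cs : Fin 3 → ℕ := ![1, 2, 3]

theorem kk_code : ∀ (i : Fin 3) (w z : F9), ent ((Mk (kk i)).row (ix w)) (ix z) = if w = z then cs i else 0 := by
  decide +kernel

theorem kk_inj : ∀ i j : Fin 3, decode (Mk (kk i)) = decode (Mk (kk j)) → i = j := by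
  decide +kernel

theorem kk_lt : ∀ i : Fin 3, kk i < 5832 := by decide

theorem kk_cases {k : ℕ} (h : k = 5373 ∨ k = 5602 ∨ k = 5831) : ∃ i, kk i = k := by
  rcases h with rfl | rfl | rfl
  · exact ⟨0, rfl⟩
  · exact ⟨1, rfl⟩
  · exact ⟨2, rfl⟩

omit [Field F] in
theorem scal_comm' {α : Type*} [Field α] {ω : α} {i : Fin 3} {g h : GL F9 α} (hg : RR ω g (Mk (kk i))) : g * h = h * g := by
  apply Units.ext
  have e : (g : Matrix F9 F9 α) = DD ω (cs i) • (1 : Matrix F9 F9 α) := by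
    rw [hg]
    ext w z
    rw [toM_apply, kk_code, Matrix.smul_apply, Matrix.one_apply]
    split_ifs
    · simp
    · simp [DD_0]
  rw [Units.val_mul, Units.val_mul, e]
  simp

section finite

variable [Finite F]

/-- The monomial subgroup inside the whole group. -/
def MA : Subgroup X.G := X.M.subgroupOf X.G

theorem card_MA : Nat.card X.MA = 5832 := by
  have := Nat.card_congr (Subgroup.subgroupOfEquivOfLe X.M_le).toEquiv
  rw [X.M_facts.2.2] at this
  exact this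

theorem solv_MA : Group.IsSolvable X.MA :=
  Cfsg.Agent.Lead.burnside_two_prime 2 3 3 6 (by norm_num) (by norm_num) (by rw [X.card_MA]; norm_num)

theorem max_MA (K : Subgroup X.G) (h : X.MA ≤ K) (hne : K ≠ X.MA) : K = ⊤ := by
  have hK' : X.M ≤ K.map X.G.subtype := by
    intro m hm
    exact ⟨⟨m, X.M_le hm⟩, h hm, rfl⟩
  have : ∃ a ∈ K, a ∉ X.MA := by
    by_contra hc
    push Not at hc
    exact hne (le_antisymm hc h)
  obtain ⟨a, ha, ha'⟩ := this
  have hle := X.maximal hK' (g := a.1) ⟨a, ha, rfl⟩ a.2 ha'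
  rw [eq_top_iff]
  rintro ⟨x, hx⟩ -
  obtain ⟨b, hb, e⟩ := hle hx
  have : b = ⟨x, hx⟩ := Subtype.ext e
  rwa [this] at hb

theorem core_A (N : Subgroup X.G) (hN : N.Normal) (hle : N ≤ X.MA) (x : X.G) (hx : x ∈ N) :
    ∃ i, RR ω x.1 (Mk (kk i)) := by
  have h1 : N.map X.G.subtype ≤ X.M := by
    rintro _ ⟨a, ha, rfl⟩
    exact hle ha
  have h3 : ∀ y ∈ X.G, ∀ u ∈ N.map X.G.subtype, y⁻¹ * u * y ∈ N.map X.G.subtype := by
    rintro y hy _ ⟨a, ha, rfl⟩
    have := hN.conj_mem a ha (⟨y, hy⟩⁻¹)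
    refine ⟨_, this, ?_⟩
    simp
  obtain ⟨k, hk, rk⟩ := X.core h1 h3 (x := x.1) ⟨x, hx, rfl⟩
  obtain ⟨i, rfl⟩ := kk_cases hk
  exact ⟨i, rk⟩

theorem core_center (N : Subgroup X.G) (hN : N.Normal) (hle : N ≤ X.MA) : N ≤ Subgroup.center X.G := by
  intro x hx
  obtain ⟨i, ri⟩ := X.core_A N hN hle x hx
  rw [Subgroup.mem_center_iff]
  intro y
  apply Subtype.ext
  exact (scal_comm' ri).symm

theorem card_G' : Nat.card X.G = 150698880 := X.card_G

theorem center_ne : Subgroup.center X.G ≠ ⊤ := by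
  intro e
  have h1 : commutator X.G = ⊥ := by
    rw [commutator_eq_bot_iff_center_eq_top]
    exact e
  have h2 := X.perfect
  rw [h1] at h2
  have h3 : Nat.card X.G = 1 := by
    rw [← Subgroup.card_top (G := X.G), ← h2, Subgroup.card_bot]
  rw [X.card_G] at h3
  norm_num at h3

theorem dichotomy (N : Subgroup X.G) (hN : N.Normal) : N ≤ X.MA ∨ N = ⊤ := by
  haveI := X.solv_MA
  haveI := hN
  exact normal_dichotomy X.perfect X.MA X.max_MA N

theorem center_le : Subgroup.center X.G ≤ X.MA := by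
  rcases X.dichotomy (Subgroup.center X.G) inferInstance with h | h
  · exact h
  · exact absurd h X.center_ne

theorem card_center : Nat.card (Subgroup.center X.G) = 3 := by
  have h := fun i : Fin 3 => X.M_facts.2.1 (kk i) (kk_lt i)
  choose z hz1 hz2 using h
  let φ : Fin 3 → Subgroup.center X.G := fun i => ⟨⟨z i, X.M_le (hz1 i)⟩, by
    rw [Subgroup.mem_center_iff]
    intro y
    apply Subtype.ext
    exact (scal_comm' (hz2 i)).symm⟩
  have hb : Function.Bijective φ := by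
    constructor
    · intro i j e
      have e1 : z i = z j := congrArg (fun u : Subgroup.center X.G => u.1.1) e
      have r1 := hz2 i
      rw [e1] at r1
      have e2 : Mk (kk i) = Mk (kk j) :=
        toM_inj X.h2 X.hω (testM_spec (kk_lt i)).2.1 (testM_spec (kk_lt j)).2.1 (r1.symm.trans (hz2 j))
      exact kk_inj i j (by rw [e2])
    · rintro ⟨x, hx⟩
      obtain ⟨i, ri⟩ := X.core_A (Subgroup.center X.G) inferInstance X.center_le x hx
      refine ⟨i, ?_⟩
      apply Subtype.ext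
      apply Subtype.ext
      exact RR_unique (hz2 i) ri
  have := Nat.card_congr (Equiv.ofBijective φ hb)
  simpa using this.symm

theorem card_quot : Nat.card (X.G ⧸ Subgroup.center X.G) = 50232960 := by
  have h := Subgroup.card_eq_card_quotient_mul_card_subgroup (Subgroup.center X.G)
  rw [X.card_center, X.card_G] at h
  omega

theorem simple_quot : IsSimpleGroup (X.G ⧸ Subgroup.center X.G) := by
  haveI := X.solv_MA
  exact main_criterion X.perfect X.MA X.max_MA X.core_center X.center_ne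

/-- Normal subgroups of the triple cover. -/
theorem normal_cases (N : Subgroup X.G) (hN : N.Normal) : N ≤ Subgroup.center X.G ∨ N = ⊤ := by
  rcases X.dichotomy N hN with h | h
  · exact Or.inl (X.core_center N hN h)
  · exact Or.inr h

end finite

end Cfsg.Agent.H02.J3G.Ctx

namespace Cfsg.Agent.H02.J3I

open Cfsg Cfsg.Spor Cfsg.Agent.H02.J3A Cfsg.Agent.H02.J3B Cfsg.Agent.H02.J3D Cfsg.Agent.H02.J3E Cfsg.Agent.H02.J3F
  Cfsg.Agent.H02.J3G Cfsg.Agent.H02.J3H
open scoped MatrixGroups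

theorem char_two {F : Type*} [Field F] [Fintype F] (hF : Fintype.card F = 4) : (2 : F) = 0 := by
  have h := FiniteField.cast_card_eq_zero F
  rw [hF] at h
  have h3 : (2 : F) * 2 = 0 := by
    have : (2 : F) * 2 = ((4 : ℕ) : F) := by norm_num
    rw [this, h]
  simpa using h3

theorem om_sq {F : Type*} [Field F] {ω : F} (h2 : (2 : F) = 0) (hω : ω ^ 2 + ω + 1 = 0) : ω * ω = ω + 1 := by
  linear_combination hω - (ω + 1) * h2

/-- The main theorem. -/
theorem main (F : Type*) [Field F] [Fintype F] (hF : Fintype.card F = 4) (ω : F) (hω : ω ^ 2 + ω + 1 = 0) :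
    Nat.card ↥(Subgroup.center ↥(threeJ3 F ω)) = 3 ∧ Nat.card ↥(threeJ3 F ω) = 150698880 ∧
      Nat.card (J3 F ω) = 50232960 ∧ IsSimpleGroup (J3 F ω) ∧
      ∀ N : Subgroup (threeJ3 F ω), N.Normal → N ≤ Subgroup.center (threeJ3 F ω) ∨ N = ⊤ := by
  have h2 := char_two hF
  have hω' := om_sq h2 hω
  have e := threeJ3_eq h2 hω'
  show Nat.card ↥(Subgroup.center ↥(threeJ3 F ω)) = 3 ∧ Nat.card ↥(threeJ3 F ω) = 150698880 ∧
      Nat.card (↥(threeJ3 F ω) ⧸ Subgroup.center ↥(threeJ3 F ω)) = 50232960 ∧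
      IsSimpleGroup (↥(threeJ3 F ω) ⧸ Subgroup.center ↥(threeJ3 F ω)) ∧
      ∀ N : Subgroup (threeJ3 F ω), N.Normal → N ≤ Subgroup.center (threeJ3 F ω) ∨ N = ⊤
  rw [e]
  set X := mkCtx h2 hω'
  exact ⟨X.card_center, X.card_G, X.card_quot, X.simple_quot, X.normal_cases⟩

end Cfsg.Agent.H02.J3I
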