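import Cfsg.Agent.Lib.H02.J3M
import Cfsg.Prelude.Def_Sporadic

/-!
The permutation representation of degree 6156 of the third Janko group.
-/

set_option autoImplicit false
set_option maxRecDepth 100000

namespace Cfsg.Agent.H02.J3N

open Cfsg Cfsg.Spor Cfsg.Agent.H02.J3A Cfsg.Agent.H02.J3B Cfsg.Agent.H02.J3D Cfsg.Agent.H02.J3E
  Cfsg.Agent.H02.J3G Cfsg.Agent.H02.J3I Cfsg.Agent.H02.J3L Cfsg.Agent.H02.J3M
open scoped MatrixGroups

/-- A field with four elements and a root. -/
theorem exists_F4 : ∃ (F : Type) (_ : Field F) (_ : Fintype F) (ω : F), Fintype.card F = 4 ∧ ω ^ 2 + ω + 1 = 0 := by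
  classical
  haveI : Fact (Nat.Prime 2) := ⟨Nat.prime_two⟩
  let F := GaloisField 2 2
  haveI : Finite F := Nat.finite_of_card_ne_zero (by
    rw [GaloisField.card 2 2 (by norm_num)]
    norm_num)
  letI : Fintype F := Fintype.ofFinite F
  have hc : Fintype.card F = 4 := by
    rw [← Nat.card_eq_fintype_card, GaloisField.card 2 2 (by norm_num)]
    norm_num
  obtain ⟨ω, hω⟩ : ∃ ω, ω ∉ ({0, 1} : Finset F) := by
    by_contra h
    push Not at h
    have : (Finset.univ : Finset F) ⊆ {0, 1} := fun x _ => h x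
    have h2 := Finset.card_le_card this
    have h3 : ({0, 1} : Finset F).card ≤ 2 := Finset.card_le_two
    rw [Finset.card_univ, hc] at h2
    omega
  simp only [Finset.mem_insert, Finset.mem_singleton, not_or] at hω
  refine ⟨F, inferInstance, inferInstance, ω, hc, ?_⟩
  have h3 : ω ^ (Fintype.card F - 1) = 1 := FiniteField.pow_card_sub_one_eq_one ω hω.1
  rw [hc] at h3
  have h4 : (ω - 1) * (ω ^ 2 + ω + 1) = 0 := by
    have : ω ^ 3 = 1 := h3
    linear_combination this
  rcases mul_eq_zero.mp h4 with h5 | h5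
  · exact absurd (sub_eq_zero.mp h5) hω.2
  · exact h5

section generic

variable {A : Type*} [Group A] [Finite A]

/-- The permutation representation on the cosets of a subgroup. -/
theorem exists_perm (L : Subgroup A) (n : ℕ) (hn : L.index = n) (hZ : Subgroup.center A ≤ L)
    (hnorm : ∀ N : Subgroup A, N.Normal → N ≤ Subgroup.center A ∨ N = ⊤) (hL : L ≠ ⊤) :
    ∃ H : Subgroup (Equiv.Perm (Fin n)), Nonempty (H ≃* A ⧸ Subgroup.center A) ∧
      MulAction.IsPretransitive H (Fin n) := by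
  classical
  have hcard : Nat.card (A ⧸ L) = n := hn
  let e : (A ⧸ L) ≃ Fin n := Finite.equivFinOfCardEq hcard
  let θ : A →* Equiv.Perm (Fin n) := (Equiv.permCongrHom e).toMonoidHom.comp (MulAction.toPermHom A (A ⧸ L))
  have hθ : ∀ (a : A) (x : A ⧸ L), θ a (e x) = e (a • x) := by
    intro a x
    show e ((MulAction.toPermHom A (A ⧸ L) a) (e.symm (e x))) = _
    rw [Equiv.symm_apply_apply]
    rfl
  have hker : θ.ker = Subgroup.center A := by
    apply le_antisymm
    · rcases hnorm θ.ker inferInstance with h | h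
      · exact h
      · exfalso
        apply hL
        rw [eq_top_iff]
        intro a _
        have ha : a ∈ θ.ker := by
          rw [h]
          trivial
        have h1 : θ a (e ((1 : A) : A ⧸ L)) = e ((1 : A) : A ⧸ L) := by
          rw [MonoidHom.mem_ker.mp ha]
          rfl
        rw [hθ] at h1
        have h3 := e.injective h1
        have h4 : ((a * 1 : A) : A ⧸ L) = ((1 : A) : A ⧸ L) := h3
        rw [mul_one] at h4
        have h5 := QuotientGroup.eq.mp h4
        simpa using h5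
    · intro z hz
      rw [MonoidHom.mem_ker]
      apply Equiv.ext
      intro i
      obtain ⟨x, rfl⟩ := e.surjective i
      rw [hθ]
      show e (z • x) = e x
      congr 1
      induction x using QuotientGroup.induction_on with
      | H a =>
        have h1 : z • (a : A ⧸ L) = ((z * a : A) : A ⧸ L) := rfl
        rw [h1, ← Subgroup.mem_center_iff.mp hz a, QuotientGroup.mk_mul_of_mem a (hZ hz)]
  refine ⟨θ.range, ⟨?_⟩, ?_⟩
  · exact (QuotientGroup.quotientKerEquivRange θ).symm.trans (QuotientGroup.quotientMulEquivOfEq hker)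
  · refine ⟨?_⟩
    intro i j
    obtain ⟨x, rfl⟩ := e.surjective i
    obtain ⟨y, rfl⟩ := e.surjective j
    obtain ⟨a, rfl⟩ := QuotientGroup.mk_surjective x
    obtain ⟨b, rfl⟩ := QuotientGroup.mk_surjective y
    refine ⟨⟨θ (b * a⁻¹), ⟨_, rfl⟩⟩, ?_⟩
    show θ (b * a⁻¹) (e _) = _
    rw [hθ]
    congr 1
    show ((b * a⁻¹ * a : A) : A ⧸ L) = _
    rw [inv_mul_cancel_right]

end generic

theorem stab_card {n : ℕ} (hn : 0 < n) (H : Subgroup (Equiv.Perm (Fin n))) (ht : MulAction.IsPretransitive H (Fin n))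
    (x : Fin n) : Nat.card (MulAction.stabilizer H x) * n = Nat.card H := by
  have h1 := Subgroup.card_mul_index (MulAction.stabilizer H x)
  rw [MulAction.index_stabilizer_of_transitive] at h1
  simpa using h1

section concrete

variable {F : Type*} [Field F] {ω : F} (X : Ctx ω)

theorem xu_factor : eqB xu (lact (code ku) (T fu)) = true := by decide +kernel
theorem xv_factor : eqB xv (lact (code kv) (T fv)) = true := by decide +kernel

theorem testL_spec {k : ℕ} (hk : k < 24480) :
    rowsOK (Lk k) = true ∧ Lu k < 24480 ∧ mm (Lk k) xu = Lk (Lu k) ∧ Lv k < 24480 ∧ mm (Lk k) xv = Lk (Lv k) ∧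
    (k = l0 ∨ (LP k < 24480 ∧ LD (LP k) < LD k ∧ cond (Nat.beq (LG k) 0) (Lu (LP k)) (Lv (LP k)) = k)) ∧
    (k = 24479 ∨ keyMx (Lk k) < keyMx (Lk (k + 1))) := by
  have h := cL_all hk
  simp only [testL, Bool.and_eq_true, Bool.or_eq_true] at h
  obtain ⟨⟨⟨⟨⟨⟨h0, h1⟩, h2⟩, h3⟩, h4⟩, h5⟩, h6⟩ := h
  refine ⟨h0, by have := Nat.le_of_ble_eq_true h1; omega, eq_of_eqB h2, by have := Nat.le_of_ble_eq_true h3; omega,
    eq_of_eqB h4, ?_, ?_⟩
  · rcases h5 with h5 | ⟨⟨a, b⟩, c⟩
    · exact Or.inl (Nat.eq_of_beq_eq_true h5)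
    · right
      exact ⟨by have := Nat.le_of_ble_eq_true a; omega, Nat.le_of_ble_eq_true b, Nat.eq_of_beq_eq_true c⟩
  · rcases h6 with h6 | h6
    · exact Or.inl (Nat.eq_of_beq_eq_true h6)
    · exact Or.inr (Nat.le_of_ble_eq_true h6)

theorem Lk_l0 : Lk l0 = unpack pI := eq_of_eqB (by decide +kernel)

theorem kz_code : ∀ i : Fin 3, eqB (Lk (kz i)) (Mk (Ctx.kk i)) = true ∧ kz i < 24480 := by decide +kernel

variable [Finite F]

theorem exists_L : ∃ L : Subgroup X.G, Nat.card L = 24480 ∧ Subgroup.center X.G ≤ L := by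
  obtain ⟨gu, hu, ru⟩ : ∃ y ∈ X.G, RR ω y xu := by
    obtain ⟨t, ht, hr⟩ := X.T_exists (show fu < 25840 by decide)
    obtain ⟨m, hm, hmr⟩ := X.M_facts.2.1 ku (by decide)
    refine ⟨m * t, Subgroup.mul_mem _ (X.M_le hm) ht, ?_⟩
    rw [eq_of_eqB xu_factor]
    exact RR_lact X.h2 X.hω (Ctx.testM_spec (show ku < 5832 by decide)).1 hmr hr
  obtain ⟨gv, hv, rv⟩ : ∃ y ∈ X.G, RR ω y xv := by
    obtain ⟨t, ht, hr⟩ := X.T_exists (show fv < 25840 by decide)
    obtain ⟨m, hm, hmr⟩ := X.M_facts.2.1 kv (by decide)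
    refine ⟨m * t, Subgroup.mul_mem _ (X.M_le hm) ht, ?_⟩
    rw [eq_of_eqB xv_factor]
    exact RR_lact X.h2 X.hω (Ctx.testM_spec (show kv < 5832 by decide)).1 hmr hr
  have mu : ∀ {k : ℕ}, k < 24480 → ∀ {g : GL F9 F}, RR ω g (Lk k) → RR ω (g * gu) (Lk (Lu k)) := by
    intro k hk g hg
    rw [← (testL_spec hk).2.2.1]
    exact RR_mul X.h2 X.hω hg ru
  have mv : ∀ {k : ℕ}, k < 24480 → ∀ {g : GL F9 F}, RR ω g (Lk k) → RR ω (g * gv) (Lk (Lv k)) := by
    intro k hk g hg
    rw [← (testL_spec hk).2.2.2.2.1]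
    exact RR_mul X.h2 X.hω hg rv
  have hf := enum_card X.h2 X.hω (S := {gu, gv}) (n := 24480) (E := Lk) (k0 := l0) (by decide) (Lk_l0 ▸ RR_one)
    keyMx (fun k hk => (testL_spec hk).1) ?_ ?_ LP LD ?_
  · have hle : Subgroup.closure {gu, gv} ≤ X.G := by
      rw [Subgroup.closure_le]
      rintro x (rfl | rfl)
      · exact hu
      · exact hv
    refine ⟨(Subgroup.closure {gu, gv}).subgroupOf X.G, ?_, ?_⟩
    · have := Nat.card_congr (Subgroup.subgroupOfEquivOfLe hle).toEquiv
      rw [hf.2.2] at this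
      exact this
    · intro x hx
      obtain ⟨i, ri⟩ := X.core_A (Subgroup.center X.G) inferInstance X.center_le x hx
      obtain ⟨h1, h3⟩ := kz_code i
      obtain ⟨g, hg, rg⟩ := hf.2.1 _ h3
      rw [eq_of_eqB h1] at rg
      have : x.1 = g := RR_unique ri rg
      show x.1 ∈ Subgroup.closure {gu, gv}
      rw [this]
      exact hg
  · intro k hk
    obtain ⟨-, -, -, -, -, -, h⟩ := testL_spec (show k < 24480 by omega)
    rcases h with h | h
    · omega
    · exact h
  · intro k hk s hs g hg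
    rcases hs with rfl | rfl
    · exact ⟨_, (testL_spec hk).2.1, mu hk hg⟩
    · exact ⟨_, (testL_spec hk).2.2.2.1, mv hk hg⟩
  · intro k hk e
    obtain ⟨-, -, -, -, -, h, -⟩ := testL_spec hk
    rcases h with h | ⟨h1, h2, h3⟩
    · exact absurd h e
    · refine ⟨h1, h2, ?_⟩
      cases h4 : Nat.beq (LG k) 0
      · rw [h4] at h3
        refine ⟨gv, Or.inr rfl, fun g hg => ?_⟩
        have := mv h1 hg
        simp only [cond_false] at h3
        rwa [h3] at this
      · rw [h4] at h3
        refine ⟨gu, Or.inl rfl, fun g hg => ?_⟩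
        have := mu h1 hg
        simp only [cond_true] at h3
        rwa [h3] at this

include X in
theorem perm_final : ∃ H : Subgroup (Equiv.Perm (Fin 6156)), IsJ3 H ∧ MulAction.IsPretransitive H (Fin 6156) ∧
    Nat.card (MulAction.stabilizer H (0 : Fin 6156)) = 8160 := by
  obtain ⟨L, hL, hZ⟩ := exists_L X
  have hi : L.index = 6156 := by
    have := Subgroup.card_mul_index L
    rw [hL, X.card_G] at this
    omega
  have hne : L ≠ ⊤ := by
    rintro rfl
    rw [Subgroup.card_top, X.card_G] at hL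
    norm_num at hL
  obtain ⟨H, ⟨e⟩, ht⟩ := exists_perm L 6156 hi hZ X.normal_cases hne
  haveI := X.simple_quot
  have hc : Nat.card H = 50232960 := by
    rw [Nat.card_congr e.toEquiv, X.card_quot]
  refine ⟨H, ⟨e.isSimpleGroup, hc⟩, ht, ?_⟩
  have := stab_card (by norm_num) H ht 0
  rw [hc] at this
  omega

end concrete

/-- The statement on the permutation representation. -/
theorem perm_main : ∃ H : Subgroup (Equiv.Perm (Fin 6156)), IsJ3 H ∧ MulAction.IsPretransitive H (Fin 6156) ∧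
    Nat.card (MulAction.stabilizer H (0 : Fin 6156)) = 8160 := by
  obtain ⟨F, _, _, ω, hc, hω⟩ := exists_F4
  have h2 := char_two hc
  have hω' := om_sq h2 hω
  exact perm_final (mkCtx h2 hω')

end Cfsg.Agent.H02.J3N
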