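import Cfsg.Agent.Lib.H02.J3N
import Cfsg.Prelude.Def_Classical

/-!
The triple cover of the third Janko group inside a special unitary group.
-/

set_option autoImplicit false
set_option maxRecDepth 100000

namespace Cfsg.Agent.H02.J3O

open Cfsg Cfsg.Spor Cfsg.Agent.H02.J3A Cfsg.Agent.H02.J3B Cfsg.Agent.H02.J3D Cfsg.Agent.H02.J3E
  Cfsg.Agent.H02.J3G Cfsg.Agent.H02.J3I Cfsg.Agent.H02.J3N
open scoped MatrixGroups Matrix

/-- The code of the square of a field element. -/
def cj (c : ℕ) : ℕ := if c = 2 then 3 else if c = 3 then 2 else c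

/-- Transpose. -/
def tb : Mx := ⟨1, 16384, 1024, 256, 16, 4096, 65536, 64, 4⟩

/-- Conjugate. -/
def cb : Mx := ⟨1, 65536, 256, 16384, 64, 16, 1024, 4, 4096⟩

/-- Transpose. -/
def td : Mx := ⟨64, 256, 1024, 4096, 32768, 196608, 1, 4, 16⟩

/-- Conjugate. -/
def cd : Mx := ⟨4096, 16384, 65536, 1, 4, 16, 64, 768, 2048⟩

/-- Transpose. -/
def tc : Mx := ⟨1, 4164, 4176, 4116, 66816, 17664, 84, 82944, 82176⟩

/-- Conjugate. -/
def cc : Mx := ⟨1, 4164, 4176, 4116, 66816, 17664, 84, 82944, 82176⟩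

theorem tb_code : ∀ w z : F9, ent (tb.row (ix w)) (ix z) = ent (xb.row (ix z)) (ix w) := by decide +kernel
theorem cb_code : ∀ w z : F9, ent (cb.row (ix w)) (ix z) = cj (ent (xb.row (ix w)) (ix z)) := by decide +kernel
theorem tb_mul : eqB (mm tb cb) (unpack pI) = true := by decide +kernel
theorem td_code : ∀ w z : F9, ent (td.row (ix w)) (ix z) = ent (xd.row (ix z)) (ix w) := by decide +kernel
theorem cd_code : ∀ w z : F9, ent (cd.row (ix w)) (ix z) = cj (ent (xd.row (ix w)) (ix z)) := by decide +kernel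
theorem td_mul : eqB (mm td cd) (unpack pI) = true := by decide +kernel
theorem tc_code : ∀ w z : F9, ent (tc.row (ix w)) (ix z) = ent (xc.row (ix z)) (ix w) := by decide +kernel
theorem cc_code : ∀ w z : F9, ent (cc.row (ix w)) (ix z) = cj (ent (xc.row (ix w)) (ix z)) := by decide +kernel
theorem tc_mul : eqB (mm tc cc) (unpack pI) = true := by decide +kernel

variable {F : Type*} [Field F] {ω : F}

theorem DD_cj (h2 : (2 : F) = 0) (hω : ω * ω = ω + 1) {c : ℕ} (hc : c < 4) : DD ω (cj c) = (DD ω c) ^ 2 := by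
  interval_cases c
  · show DD ω 0 = _
    rw [DD_0]
    simp
  · show DD ω 1 = _
    rw [DD_1]
    simp
  · show DD ω 3 = _
    rw [DD_3, DD_2, pow_two, hω, add_comm]
  · show DD ω 2 = _
    rw [DD_2, DD_3]
    linear_combination (-1 : F) * hω - (ω + 1) * h2

/-- The Hermitian form on the index set. -/
def herm9 (u v : F9 → F) : F := ∑ z, u z * (v z) ^ 2

theorem sq_sum (h2 : (2 : F) = 0) {ι : Type*} (s : Finset ι) (a : ι → F) : (∑ i ∈ s, a i) ^ 2 = ∑ i ∈ s, (a i) ^ 2 := by
  classical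
  induction s using Finset.induction_on with
  | empty => simp
  | insert i s hi ih =>
    rw [Finset.sum_insert hi, Finset.sum_insert hi, ← ih, add_sq, h2]
    ring

theorem pres_gen (h2 : (2 : F) = 0) (hω : ω * ω = ω + 1) {g : GL F9 F} {x t c : Mx} (hg : RR ω g x)
    (ht : ∀ w z : F9, ent (t.row (ix w)) (ix z) = ent (x.row (ix z)) (ix w))
    (hc : ∀ w z : F9, ent (c.row (ix w)) (ix z) = cj (ent (x.row (ix w)) (ix z)))
    (hm : eqB (mm t c) (unpack pI) = true) (u v : F9 → F) :
    herm9 ((g : Matrix F9 F9 F) *ᵥ u) ((g : Matrix F9 F9 F) *ᵥ v) = herm9 u v := by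
  have hid : toM ω t * toM ω c = 1 := by
    rw [← toM_mm ω h2 hω, eq_of_eqB hm, toM_unpack_pI]
  set G : Matrix F9 F9 F := (g : Matrix F9 F9 F) with hG
  have e1 : ∀ j i, toM ω t j i = G i j := by
    intro j i
    rw [hG, hg, toM_apply, toM_apply, ht]
  have e2 : ∀ i k, toM ω c i k = (G i k) ^ 2 := by
    intro i k
    rw [hG, hg, toM_apply, toM_apply, hc, DD_cj h2 hω (ent_lt _ _)]
  have e3 : ∀ j k, ∑ i, G i j * (G i k) ^ 2 = if j = k then 1 else 0 := by
    intro j k
    have := congrFun (congrFun hid j) k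
    rw [Matrix.mul_apply, Matrix.one_apply] at this
    simp only [e1, e2] at this
    exact this
  unfold herm9
  have e4 : ∀ i, (G *ᵥ u) i * ((G *ᵥ v) i) ^ 2 = ∑ j, ∑ k, (G i j * (G i k) ^ 2) * (u j * (v k) ^ 2) := by
    intro i
    simp only [Matrix.mulVec, dotProduct]
    rw [sq_sum h2, Finset.sum_mul_sum]
    refine Finset.sum_congr rfl fun j _ => Finset.sum_congr rfl fun k _ => ?_
    ring
  simp only [e4]
  rw [Finset.sum_comm]
  refine Finset.sum_congr rfl fun j _ => ?_
  rw [Finset.sum_comm]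
  have e5 : ∀ k, ∑ i, (G i j * (G i k) ^ 2) * (u j * (v k) ^ 2) = (if j = k then 1 else 0) * (u j * (v k) ^ 2) := by
    intro k
    rw [← Finset.sum_mul, e3]
  simp only [e5]
  simp

section group

variable {A B : Type*} [Group A] [Group B]

theorem center_map (e : A ≃* B) : (Subgroup.center A).map e.toMonoidHom = Subgroup.center B := by
  ext b
  constructor
  · rintro ⟨a, ha, rfl⟩
    rw [Subgroup.mem_center_iff]
    intro c
    have := Subgroup.mem_center_iff.mp ha (e.symm c)
    have h2 := congrArg e this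
    simpa using h2
  · intro hb
    refine ⟨e.symm b, ?_, by simp⟩
    rw [SetLike.mem_coe, Subgroup.mem_center_iff]
    intro c
    have := Subgroup.mem_center_iff.mp hb (e c)
    apply e.injective
    simpa using this

/-- Central quotients of isomorphic groups. -/
noncomputable def quotCongr (e : A ≃* B) : (A ⧸ Subgroup.center A) ≃* (B ⧸ Subgroup.center B) :=
  QuotientGroup.congr _ _ e (center_map e)

end group

variable (X : Ctx ω)

/-- The subgroup preserving the form. -/
def KK : Subgroup (GL F9 F) := preserving (Units.coeHom (Matrix F9 F9 F)) herm9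

theorem G_le_KK : X.G ≤ KK (F := F) := by
  rw [Ctx.G, Subgroup.closure_le]
  rintro x (rfl | rfl | rfl)
  · intro u v
    exact pres_gen X.h2 X.hω X.rb tb_code cb_code tb_mul u v
  · intro u v
    exact pres_gen X.h2 X.hω X.rd td_code cd_code td_mul u v
  · intro u v
    exact pres_gen X.h2 X.hω X.rc tc_code cc_code tc_mul u v

theorem det_one [Finite F] (a : X.G) : Matrix.det (a.1 : Matrix F9 F9 F) = 1 := by
  let f : X.G →* Fˣ := (Matrix.GeneralLinearGroup.det).comp X.G.subtype
  have h : commutator X.G ≤ f.ker := by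
    rw [commutator_def, Subgroup.commutator_le]
    intro g₁ _ g₂ _
    rw [MonoidHom.mem_ker, map_commutatorElement, commutatorElement_eq_one_iff_commute]
    exact Commute.all _ _
  rw [X.perfect] at h
  have h1 : f a = 1 := h (Subgroup.mem_top a)
  have h3 := congrArg Units.val h1
  rw [Units.val_one] at h3
  rw [← h3]
  exact (Matrix.GeneralLinearGroup.val_det_apply a.1).symm

/-- The indexing of the basis. -/
noncomputable def eF9 : F9 ≃ Fin 9 := Fintype.equivFinOfCardEq (by decide)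

section map

variable [Finite F]

/-- The element of the special linear group. -/
noncomputable def toSL (a : X.G) : Matrix.SpecialLinearGroup (Fin 9) F :=
  ⟨(a.1 : Matrix F9 F9 F).submatrix eF9.symm eF9.symm, by
    rw [Matrix.det_submatrix_equiv_self, det_one X a]⟩

theorem toSL_mem (a : X.G) : toSL X a ∈ SU 9 F 2 := by
  intro u v
  have hp := G_le_KK X a.2 (u ∘ eF9) (v ∘ eF9)
  have key : ∀ p : Fin 9 → F, ∀ i, ((toSL X a).1 *ᵥ p) i = ((a.1 : Matrix F9 F9 F) *ᵥ (p ∘ eF9)) (eF9.symm i) := by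
    intro p i
    show ∑ j, (a.1 : Matrix F9 F9 F) (eF9.symm i) (eF9.symm j) * p j = ∑ z, (a.1 : Matrix F9 F9 F) (eF9.symm i) z * p (eF9 z)
    rw [← Equiv.sum_comp eF9 (fun j => (a.1 : Matrix F9 F9 F) (eF9.symm i) (eF9.symm j) * p j)]
    simp
  show hermForm 9 F 2 ((toSL X a).1 *ᵥ u) ((toSL X a).1 *ᵥ v) = hermForm 9 F 2 u v
  unfold hermForm
  have e1 : ∑ i, ((toSL X a).1 *ᵥ u) i * (((toSL X a).1 *ᵥ v) i) ^ 2 =
      herm9 ((a.1 : Matrix F9 F9 F) *ᵥ (u ∘ eF9)) ((a.1 : Matrix F9 F9 F) *ᵥ (v ∘ eF9)) := by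
    unfold herm9
    simp only [key]
    exact Equiv.sum_comp eF9.symm (fun z => ((a.1 : Matrix F9 F9 F) *ᵥ (u ∘ eF9)) z * (((a.1 : Matrix F9 F9 F) *ᵥ (v ∘ eF9)) z) ^ 2)
  rw [e1]
  have hp' : herm9 ((a.1 : Matrix F9 F9 F) *ᵥ (u ∘ eF9)) ((a.1 : Matrix F9 F9 F) *ᵥ (v ∘ eF9)) = herm9 (u ∘ eF9) (v ∘ eF9) := hp
  rw [hp']
  unfold herm9
  exact Equiv.sum_comp eF9 (fun i => u i * (v i) ^ 2)

/-- The homomorphism to the special unitary group. -/
noncomputable def psi : X.G →* SU 9 F 2 :=
  MonoidHom.mk' (fun a => ⟨toSL X a, toSL_mem X a⟩) (by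
    intro a b
    apply Subtype.ext
    apply Subtype.ext
    show ((a * b : X.G).1 : Matrix F9 F9 F).submatrix eF9.symm eF9.symm =
      ((a.1 : Matrix F9 F9 F).submatrix eF9.symm eF9.symm) * ((b.1 : Matrix F9 F9 F).submatrix eF9.symm eF9.symm)
    rw [Matrix.submatrix_mul_equiv]
    rfl)

theorem psi_inj : Function.Injective (psi X) := by
  intro a b h
  have h1 : (a.1 : Matrix F9 F9 F).submatrix eF9.symm eF9.symm = (b.1 : Matrix F9 F9 F).submatrix eF9.symm eF9.symm :=
    congrArg (fun s : SU 9 F 2 => (s.1).1) h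
  apply Subtype.ext
  apply Units.ext
  ext w z
  have := congrFun (congrFun h1 (eF9 w)) (eF9 z)
  simpa using this

end map

/-- The statement on the unitary group. -/
theorem unitary_main : ∃ (F : Type) (_ : Field F) (_ : Fintype F), Fintype.card F = 4 ∧
    ∃ H : Subgroup (SU 9 F 2), Nat.card (Subgroup.center H) = 3 ∧ IsJ3 (H ⧸ Subgroup.center H) := by
  obtain ⟨F, _, _, ω, hc, hω⟩ := exists_F4
  have h2 := char_two hc
  have hω' := om_sq h2 hω
  let X := mkCtx h2 hω'
  refine ⟨F, inferInstance, inferInstance, hc, (psi X).range, ?_, ?_⟩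
  · have e := MonoidHom.ofInjective (psi_inj X)
    rw [← Nat.card_congr (Subgroup.centerCongr e).toEquiv]
    exact X.card_center
  · have e := quotCongr (MonoidHom.ofInjective (psi_inj X))
    haveI := X.simple_quot
    refine ⟨e.symm.isSimpleGroup, ?_⟩
    rw [← Nat.card_congr e.toEquiv]
    exact X.card_quot

end Cfsg.Agent.H02.J3O
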