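import Cfsg.Agent.Lib.H02.J3I
import Cfsg.Agent.Lib.H02.J3Q

/-!
The orbits of the triple cover of the third Janko group on lines.
-/

set_option autoImplicit false
set_option maxRecDepth 100000

namespace Cfsg.Agent.H02.J3R

open Cfsg Cfsg.Spor Cfsg.Agent.H02.J3A Cfsg.Agent.H02.J3B Cfsg.Agent.H02.J3D Cfsg.Agent.H02.J3E
  Cfsg.Agent.H02.J3G Cfsg.Agent.H02.J3I Cfsg.Agent.H02.J3Q
open scoped MatrixGroups Matrix

variable {F : Type*} [Field F] {ω : F}

/-- The vector of a code. -/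
def vec (ω : F) (n : ℕ) : F9 → F := fun z => BB ω n (ix z)

theorem tb_code : ∀ w z : F9, ent (tb.row (ix w)) (ix z) = ent (xb.row (ix z)) (ix w) := by decide +kernel
theorem td_code : ∀ w z : F9, ent (td.row (ix w)) (ix z) = ent (xd.row (ix z)) (ix w) := by decide +kernel
theorem tc_code : ∀ w z : F9, ent (tc.row (ix w)) (ix z) = ent (xc.row (ix z)) (ix w) := by decide +kernel

theorem act_vec (h2 : (2 : F) = 0) (hω : ω * ω = ω + 1) {g : GL F9 F} {x t : Mx} (hg : RR ω g x)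
    (ht : ∀ w z : F9, ent (t.row (ix w)) (ix z) = ent (x.row (ix z)) (ix w)) (n : ℕ) :
    (g : Matrix F9 F9 F) *ᵥ vec ω n = vec ω (vm n t) := by
  ext z
  have key : ∀ k < 9, BB ω (x.row (ix z)) k = BB ω (t.row k) (ix z) := by
    intro k hk
    obtain ⟨w, rfl⟩ := ix_surj k hk
    rw [← DD_ent, ← DD_ent, ht]
  show ∑ j, (g : Matrix F9 F9 F) z j * vec ω n j = BB ω (vm n t) (ix z)
  rw [BB_vm ω h2 hω _ _ (ix_lt z)]
  have e : ∀ j, (g : Matrix F9 F9 F) z j * vec ω n j =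
      (fun k => BB ω (x.row (ix z)) k * BB ω n k) (ix j) := by
    intro j
    rw [hg]
    rfl
  simp only [e]
  rw [sum_F9 (fun k => BB ω (x.row (ix z)) k * BB ω n k)]
  rw [key 8 (by norm_num), key 7 (by norm_num), key 6 (by norm_num), key 5 (by norm_num), key 4 (by norm_num),
    key 3 (by norm_num), key 2 (by norm_num), key 1 (by norm_num), key 0 (by norm_num)]
  simp only [Mx.row]
  ring

theorem vec_scal (h2 : (2 : F) = 0) (hω : ω * ω = ω + 1) {c : ℕ} (hc : c < 4) (n : ℕ) :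
    vec ω (scal c n) = DD ω c • vec ω n := by
  ext z
  exact BB_scal ω h2 hω hc n (ix_lt z)

theorem DD_ne (h2 : (2 : F) = 0) (hω : ω * ω = ω + 1) {c : ℕ} (h1 : 1 ≤ c) (h3 : c < 4) : DD ω c ≠ 0 := by
  intro e
  have h0 := om_ne_zero hω
  have h4 := om_ne_one h2 hω
  interval_cases c
  · rw [DD_1] at e
    exact one_ne_zero e
  · rw [DD_2] at e
    exact h0 e
  · rw [DD_3] at e
    apply h4
    have e2 : ω + (1 + ω) = 1 := by
      have : ω + (1 + ω) = 1 + (2 * ω) := by ring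
      rw [this, h2]
      simp
    rw [e, add_zero] at e2
    exact e2

theorem le_three_of_land (a : ℕ) : Nat.land a 3 < 4 := land3_lt a

/-- Left induction in a finite group. -/
theorem closure_left_induct {G : Type*} [Group G] [Finite G] (S : Set G) (P : G → Prop) (h1 : P 1)
    (hs : ∀ g, ∀ s ∈ S, P g → P (s * g)) : ∀ g ∈ Subgroup.closure S, P g := by
  intro g hg
  have hpow : ∀ s ∈ S, ∀ n : ℕ, ∀ x, P x → P (s ^ n * x) := by
    intro s hs' n
    induction n with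
    | zero =>
      intro x hx
      simpa using hx
    | succ n ih =>
      intro x hx
      rw [pow_succ', mul_assoc]
      exact hs _ s hs' (ih x hx)
  induction hg using Subgroup.closure_induction_left with
  | one => exact h1
  | mul_left x hx y _ ih => exact hs y x hx ih
  | inv_mul_cancel x hx y _ ih =>
    have h3 : x⁻¹ = x ^ (orderOf x - 1) := by
      have hpos : 0 < orderOf x := orderOf_pos x
      apply inv_eq_of_mul_eq_one_right
      rw [← pow_succ', Nat.sub_add_cancel hpos, pow_orderOf_eq_one]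
    rw [h3]
    exact hpow x hx _ y ih

section ctx

variable (X : Ctx ω)

theorem act_tg (s n : ℕ) : (X.gn s : Matrix F9 F9 F) *ᵥ vec ω n = vec ω (vm n (tg s)) := by
  unfold Ctx.gn tg
  cases Nat.beq s 0
  · cases Nat.beq s 1
    · exact act_vec X.h2 X.hω X.rc tc_code n
    · exact act_vec X.h2 X.hω X.rd td_code n
  · exact act_vec X.h2 X.hω X.rb tb_code n

theorem testW_spec {k : ℕ} (hk : k < 23256) :
    (∀ s ≤ 2, Wn k s < 23256 ∧ 1 ≤ Wc k s ∧ vm (Wv k) (tg s) = scal (Wc k s) (Wv (Wn k s))) ∧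
    scal 2 (Wv k) ≤ 262143 ∧ scal 3 (Wv k) ≤ 262143 ∧ scal 1 (Wv k) = Wv k ∧ canonOK (Wv k) = true ∧
    canonOK (scal 2 (Wv k)) = false ∧ canonOK (scal 3 (Wv k)) = false ∧
    (k = 23255 ∨ Wv k < Wv (k + 1)) ∧
    (k = 0 ∨ (Wp k < 23256 ∧ Wg k ≤ 2 ∧ Wd (Wp k) < Wd k ∧ Wn (Wp k) (Wg k) = k)) := by
  have h := cW_all hk
  simp only [testW, wStep, Bool.and_eq_true, Bool.or_eq_true, Bool.not_eq_true'] at h
  obtain ⟨⟨⟨⟨⟨⟨⟨⟨⟨⟨⟨a0, b0⟩, ⟨a1, b1⟩⟩, ⟨a2, b2⟩⟩, h1⟩, h2⟩, h3⟩, h4⟩, h5⟩, h6⟩, h7⟩, h8⟩ := h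
  refine ⟨?_, Nat.le_of_ble_eq_true h1, Nat.le_of_ble_eq_true h2, Nat.eq_of_beq_eq_true h3, h4, h5, h6, ?_, ?_⟩
  · intro s hs
    interval_cases s
    · exact ⟨by have := Nat.le_of_ble_eq_true a0.1; omega, Nat.le_of_ble_eq_true a0.2, Nat.eq_of_beq_eq_true b0⟩
    · exact ⟨by have := Nat.le_of_ble_eq_true a1.1; omega, Nat.le_of_ble_eq_true a1.2, Nat.eq_of_beq_eq_true b1⟩
    · exact ⟨by have := Nat.le_of_ble_eq_true a2.1; omega, Nat.le_of_ble_eq_true a2.2, Nat.eq_of_beq_eq_true b2⟩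
  · rcases h7 with h7 | h7
    · exact Or.inl (Nat.eq_of_beq_eq_true h7)
    · exact Or.inr (Nat.le_of_ble_eq_true h7)
  · rcases h8 with h8 | ⟨⟨⟨a, b⟩, c⟩, d⟩
    · exact Or.inl (Nat.eq_of_beq_eq_true h8)
    · right
      exact ⟨by have := Nat.le_of_ble_eq_true a; omega, Nat.le_of_ble_eq_true b, Nat.le_of_ble_eq_true c,
        Nat.eq_of_beq_eq_true d⟩

theorem Wc_lt (k s : ℕ) : Wc k s < 4 := land3_lt _

theorem Wv_le (k : ℕ) : Wv k ≤ 262143 := by
  show (Nat.land (We k) 262143) ≤ 262143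
  exact Nat.and_le_right

theorem smul_mulVec (c : F) (A : Matrix F9 F9 F) (v : F9 → F) : A *ᵥ (c • v) = c • (A *ᵥ v) :=
  Matrix.mulVec_smul A c v

theorem Wv_zero : Wv 0 = 1 := by decide +kernel

theorem vec_one : vec ω 1 = (Pi.single (0 : F9) (1 : F) : F9 → F) := by
  ext z
  have h : ∀ z : F9, ent 1 (ix z) = if z = 0 then 1 else 0 := by decide +kernel
  show BB ω 1 (ix z) = _
  rw [← DD_ent, h, Pi.single_apply]
  split_ifs
  · exact DD_1 ω
  · exact DD_0 ω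

variable [Finite F]

/-- The orbit is inside the table. -/
theorem orbit_sub : ∀ g ∈ X.G, ∃ k < 23256, ∃ c : F, c ≠ 0 ∧ (g : Matrix F9 F9 F) *ᵥ vec ω (Wv 0) = c • vec ω (Wv k) := by
  apply closure_left_induct
  · refine ⟨0, by norm_num, 1, one_ne_zero, ?_⟩
    simp
  · rintro g s hs ⟨k, hk, c, hc, e⟩
    have key : ∀ s0 ≤ 2, ∃ k' < 23256, ∃ c' : F, c' ≠ 0 ∧
        ((X.gn s0 * g : GL F9 F) : Matrix F9 F9 F) *ᵥ vec ω (Wv 0) = c' • vec ω (Wv k') := by
      intro s0 hs0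
      obtain ⟨h1, h2, h3⟩ := (testW_spec hk).1 s0 hs0
      refine ⟨_, h1, c * DD ω (Wc k s0), mul_ne_zero hc (DD_ne X.h2 X.hω h2 (Wc_lt _ _)), ?_⟩
      rw [Units.val_mul, ← Matrix.mulVec_mulVec, e, smul_mulVec, act_tg, h3, vec_scal X.h2 X.hω (Wc_lt _ _), smul_smul]
    rcases hs with rfl | rfl | rfl
    · exact key 0 (by norm_num)
    · exact key 1 (by norm_num)
    · exact key 2 (by norm_num)

/-- The table is inside the orbit. -/
theorem orbit_sup {k : ℕ} (hk : k < 23256) : ∃ g ∈ X.G, ∃ c : F, c ≠ 0 ∧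
    (g : Matrix F9 F9 F) *ᵥ vec ω (Wv 0) = c • vec ω (Wv k) := by
  have main : ∀ d k, Wd k = d → k < 23256 → ∃ g ∈ X.G, ∃ c : F, c ≠ 0 ∧
      (g : Matrix F9 F9 F) *ᵥ vec ω (Wv 0) = c • vec ω (Wv k) := by
    intro d
    induction d using Nat.strong_induction_on with
    | _ d ih =>
      intro k hd hk
      obtain ⟨-, -, -, -, -, -, -, -, h⟩ := testW_spec hk
      rcases h with h | ⟨h1, h2, h3, h4⟩
      · subst h
        exact ⟨1, Subgroup.one_mem _, 1, one_ne_zero, by simp⟩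
      · obtain ⟨g, hg, c, hc, e⟩ := ih _ (hd ▸ h3) _ rfl h1
        obtain ⟨-, a2, a3⟩ := (testW_spec h1).1 _ h2
        refine ⟨X.gn (Wg k) * g, Subgroup.mul_mem _ (X.gn_mem _) hg, c * DD ω (Wc (Wp k) (Wg k)),
          mul_ne_zero hc (DD_ne X.h2 X.hω a2 (Wc_lt _ _)), ?_⟩
        rw [Units.val_mul, ← Matrix.mulVec_mulVec, e, smul_mulVec, act_tg, a3, vec_scal X.h2 X.hω (Wc_lt _ _), smul_smul,
          h4]
  exact main _ k rfl hk

theorem code_cover (hc4 : ∀ x : F, ∃ c < 4, DD ω c = x) (x : F) (hx : x ≠ 0) : ∃ c, 1 ≤ c ∧ c < 4 ∧ DD ω c = x := by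
  obtain ⟨c, hc, e⟩ := hc4 x
  refine ⟨c, ?_, hc, e⟩
  rcases Nat.eq_zero_or_pos c with h | h
  · subst h
    rw [DD_0] at e
    exact absurd e.symm hx
  · exact h

theorem vec_inj {n n' : ℕ} (h : n ≤ 262143) (h' : n' ≤ 262143) (he : vec ω n = vec ω n') (h2 : (2 : F) = 0)
    (hω : ω * ω = ω + 1) : n = n' := by
  apply row_eq h2 hω h h'
  intro j hj
  obtain ⟨z, rfl⟩ := ix_surj j hj
  exact congrFun he z

include X in
theorem span_inj (hc4 : ∀ x : F, ∃ c < 4, DD ω c = x) {k k' : ℕ} (hk : k < 23256) (hk' : k' < 23256)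
    (he : (F ∙ vec ω (Wv k)) = (F ∙ vec ω (Wv k'))) : k = k' := by
  obtain ⟨u, hu⟩ := (Submodule.span_singleton_eq_span_singleton).mp he
  obtain ⟨d, h1, h3, hd⟩ := code_cover hc4 (u : F) u.ne_zero
  have e1 : vec ω (scal d (Wv k)) = vec ω (Wv k') := by
    rw [vec_scal X.h2 X.hω h3, hd]
    exact hu
  obtain ⟨-, s2, s3, s1, c0, c2, c3, mono, -⟩ := testW_spec hk
  obtain ⟨-, -, -, -, c0', -, -, -, -⟩ := testW_spec hk'
  have hmono : ∀ a b, a < b → b < 23256 → Wv a < Wv b := by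
    intro a b hab
    induction b, hab using Nat.le_induction with
    | base =>
      intro hb
      rcases (testW_spec (show a < 23256 by omega)).2.2.2.2.2.2.2.1 with h | h
      · omega
      · exact h
    | succ m hm ih =>
      intro hb
      rcases (testW_spec (show m < 23256 by omega)).2.2.2.2.2.2.2.1 with h | h
      · omega
      · exact lt_trans (ih (by omega)) h
  have hle : scal d (Wv k) ≤ 262143 := by
    interval_cases d
    · rw [s1]
      exact Wv_le k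
    · exact s2
    · exact s3
  have e2 := vec_inj hle (Wv_le k') e1 X.h2 X.hω
  interval_cases d
  · rw [s1] at e2
    rcases Nat.lt_trichotomy k k' with l | l | l
    · exact absurd e2 (ne_of_lt (hmono _ _ l hk'))
    · exact l
    · exact absurd e2.symm (ne_of_lt (hmono _ _ l hk))
  · rw [← e2, c2] at c0'
    exact absurd c0' (by simp)
  · rw [← e2, c3] at c0'
    exact absurd c0' (by simp)

theorem part1 (hc4 : ∀ x : F, ∃ c < 4, DD ω c = x) :
    {L : Submodule F (F9 → F) | ∃ g ∈ X.G, L = F ∙ ((g : Matrix F9 F9 F) *ᵥ (Pi.single (0 : F9) (1 : F) : F9 → F))}.ncard = 23256 := by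
  have hS : {L : Submodule F (F9 → F) | ∃ g ∈ X.G, L = F ∙ ((g : Matrix F9 F9 F) *ᵥ (Pi.single (0 : F9) (1 : F) : F9 → F))} =
      (fun k => (F ∙ vec ω (Wv k))) '' (↑(Finset.range 23256) : Set ℕ) := by
    ext L
    constructor
    · rintro ⟨g, hg, rfl⟩
      obtain ⟨k, hk, c, hc, e⟩ := orbit_sub X g hg
      refine ⟨k, by simpa using hk, ?_⟩
      rw [Wv_zero, vec_one] at e
      show (F ∙ vec ω (Wv k)) = _
      rw [e, Submodule.span_singleton_smul_eq (IsUnit.mk0 c hc)]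
    · rintro ⟨k, hk, rfl⟩
      have hk' : k < 23256 := by simpa using hk
      obtain ⟨g, hg, c, hc, e⟩ := orbit_sup X hk'
      refine ⟨g, hg, ?_⟩
      rw [Wv_zero, vec_one] at e
      show (F ∙ vec ω (Wv k)) = _
      rw [e, Submodule.span_singleton_smul_eq (IsUnit.mk0 c hc)]
  rw [hS, Set.ncard_image_of_injOn, Set.ncard_coe_finset, Finset.card_range]
  intro k hk k' hk' he
  have h1 : k < 23256 := by simpa using hk
  have h3 : k' < 23256 := by simpa using hk'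
  exact span_inj X hc4 h1 h3 he

theorem testV_spec {k : ℕ} (hk : k < 43605) :
    k = 0 ∨ (Vp k < k ∧ Vg k ≤ 2 ∧ 1 ≤ Vc k ∧ Vc k ≤ 3 ∧ vm (Vv (Vp k)) (tg (Vg k)) = scal (Vc k) (Vv k)) := by
  have h := cV_all hk
  simp only [testV, Bool.and_eq_true, Bool.or_eq_true] at h
  rcases h with h | ⟨⟨⟨⟨a, b⟩, c⟩, d⟩, e⟩
  · exact Or.inl (Nat.eq_of_beq_eq_true h)
  · exact Or.inr ⟨Nat.le_of_ble_eq_true a, Nat.le_of_ble_eq_true b, Nat.le_of_ble_eq_true c, Nat.le_of_ble_eq_true d,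
      Nat.eq_of_beq_eq_true e⟩

/-- The second orbit. -/
theorem V_tree {k : ℕ} (hk : k < 43605) : ∃ g ∈ X.G, ∃ c : F, c ≠ 0 ∧
    (g : Matrix F9 F9 F) *ᵥ vec ω (Vv 0) = c • vec ω (Vv k) := by
  induction k using Nat.strong_induction_on with
  | _ k ih =>
    rcases testV_spec hk with h | ⟨h1, h2, h3, h4, h5⟩
    · subst h
      exact ⟨1, Subgroup.one_mem _, 1, one_ne_zero, by simp⟩
    · obtain ⟨g, hg, c, hc, e⟩ := ih _ h1 (by omega)
      refine ⟨X.gn (Vg k) * g, Subgroup.mul_mem _ (X.gn_mem _) hg, c * DD ω (Vc k),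
        mul_ne_zero hc (DD_ne X.h2 X.hω h3 (by omega)), ?_⟩
      rw [Units.val_mul, ← Matrix.mulVec_mulVec, e, smul_mulVec, act_tg, h5, vec_scal X.h2 X.hω (by omega), smul_smul]

include X in
theorem cube_DD {c : ℕ} (hc : c < 4) : (DD ω c) ^ 3 = if c = 0 then 0 else 1 := by
  have h2 := X.h2
  have hω := X.hω
  interval_cases c
  · rw [DD_0]
    simp
  · rw [DD_1]
    simp
  · rw [DD_2]
    simp only [OfNat.ofNat_ne_zero, if_false]
    linear_combination (ω + 1) * hω + ω * h2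
  · rw [DD_3]
    simp only [OfNat.ofNat_ne_zero, if_false]
    have h3 : ω * ω * ω = 1 + ω * 2 := by
      rw [hω]
      have : (ω + 1) * ω = ω * ω + ω := by ring
      rw [this, hω]
      ring
    have h4 : (1 + ω) ^ 3 = 1 + 3 * ω + 3 * (ω * ω) + ω * ω * ω := by ring
    rw [h4, h3, hω]
    linear_combination (2 + 4 * ω) * h2

include X in
theorem iso_wt {n : ℕ} (h : ∑ z, (vec ω n z) ^ 3 = 0) : wtOdd n = false := by
  have e : ∀ z, (vec ω n z) ^ 3 = (fun k => if nz n k = true then (1 : F) else 0) (ix z) := by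
    intro z
    show (BB ω n (ix z)) ^ 3 = if nz n (ix z) = true then (1 : F) else 0
    rw [← DD_ent, cube_DD X (ent_lt _ _)]
    unfold nz
    cases h0 : Nat.beq (ent n (ix z)) 0
    · have : ent n (ix z) ≠ 0 := by
        intro e0
        rw [e0] at h0
        simp at h0
      simp [this]
    · have : ent n (ix z) = 0 := Nat.eq_of_beq_eq_true h0
      simp [this]
  simp only [e] at h
  rw [sum_F9 (fun k => if nz n k = true then (1 : F) else 0)] at h
  have h1 : (1 : F) + 1 = 0 := add_self' X.h2 1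
  have key : (if wtOdd n = true then (1 : F) else 0) = 0 := by
    unfold wtOdd
    simp only [ite_xor _ _ _ h1]
    exact h
  by_contra hn
  have : wtOdd n = true := by simpa using hn
  rw [this, if_pos rfl] at key
  exact one_ne_zero key

theorem testO_spec {n : ℕ} (hn : n < 262144) (h0 : n ≠ 0) (h1 : wtOdd n = false) :
    ∃ f < 43605, ∃ c, 1 ≤ c ∧ c < 4 ∧ scal c (Vv f) = n := by
  have h := cO_all hn
  simp only [testO, Bool.and_eq_true, Bool.or_eq_true, h1] at h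
  rcases h with (h | h) | ⟨⟨⟨a, b⟩, c⟩, d⟩
  · exact absurd (Nat.eq_of_beq_eq_true h) h0
  · simp at h
  · refine ⟨_, by have := Nat.le_of_ble_eq_true a; omega, _, Nat.le_of_ble_eq_true b,
      by have := Nat.le_of_ble_eq_true c; omega, Nat.eq_of_beq_eq_true d⟩

theorem ent_asm (c0 c1 c2 c3 c4 c5 c6 c7 c8 : ℕ) (h0 : c0 < 4) (h1 : c1 < 4) (h2 : c2 < 4) (h3 : c3 < 4) (h4 : c4 < 4)
    (h5 : c5 < 4) (h6 : c6 < 4) (h7 : c7 < 4) (h8 : c8 < 4) :
    (c0 + 4 * c1 + 16 * c2 + 64 * c3 + 256 * c4 + 1024 * c5 + 4096 * c6 + 16384 * c7 + 65536 * c8 < 262144) ∧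
    ∀ k, k < 9 → ent (c0 + 4 * c1 + 16 * c2 + 64 * c3 + 256 * c4 + 1024 * c5 + 4096 * c6 + 16384 * c7 + 65536 * c8) k =
      [c0, c1, c2, c3, c4, c5, c6, c7, c8].getD k 0 := by
  constructor
  · omega
  · intro k hk
    have e : ∀ x j : ℕ, ent x j = x / 2 ^ (2 * j) % 4 := by
      intro x j
      show ((x >>> (2 * j)) &&& 3) = _
      rw [Nat.shiftRight_eq_div_pow]
      exact Nat.and_two_pow_sub_one_eq_mod _ 2
    rw [e]
    interval_cases k <;> simp only [List.getD_cons_zero, List.getD_cons_succ] <;> norm_num <;> omega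

theorem encode (hc4 : ∀ x : F, ∃ c < 4, DD ω c = x) (v : F9 → F) : ∃ n < 262144, vec ω n = v := by
  choose c hc1 hc2 using fun z => hc4 (v z)
  obtain ⟨h1, h3⟩ := ent_asm (c (0, 0)) (c (0, 1)) (c (0, 2)) (c (1, 0)) (c (1, 1)) (c (1, 2)) (c (2, 0)) (c (2, 1)) (c (2, 2))
    (hc1 _) (hc1 _) (hc1 _) (hc1 _) (hc1 _) (hc1 _) (hc1 _) (hc1 _) (hc1 _)
  refine ⟨_, h1, ?_⟩
  ext z
  show BB ω _ (ix z) = v z
  rw [← DD_ent, h3 _ (ix_lt z), ← hc2 z]
  congr 1
  obtain ⟨x, y⟩ := z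
  have hx : x = 0 ∨ x = 1 ∨ x = 2 := by decide +revert
  have hy : y = 0 ∨ y = 1 ∨ y = 2 := by decide +revert
  rcases hx with rfl | rfl | rfl <;> rcases hy with rfl | rfl | rfl <;> rfl

theorem part2 (hc4 : ∀ x : F, ∃ c < 4, DD ω c = x) (v w : F9 → F) (hv : v ≠ 0) (hw : w ≠ 0)
    (hiv : ∑ z, (v z) ^ 3 = 0) (hiw : ∑ z, (w z) ^ 3 = 0) :
    ∃ g ∈ X.G, ∃ c : F, c ≠ 0 ∧ (g : Matrix F9 F9 F) *ᵥ v = c • w := by
  have vec0 : vec ω 0 = 0 := by
    ext z
    exact BB_zero ω _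
  have key : ∀ u : F9 → F, u ≠ 0 → ∑ z, (u z) ^ 3 = 0 → ∃ f < 43605, ∃ c : F, c ≠ 0 ∧ u = c • vec ω (Vv f) := by
    intro u hu hi
    obtain ⟨n, hn, rfl⟩ := encode hc4 u
    have h0 : n ≠ 0 := by
      rintro rfl
      exact hu vec0
    obtain ⟨f, hf, c, h1, h3, e⟩ := testO_spec hn h0 (iso_wt X hi)
    refine ⟨f, hf, DD ω c, DD_ne X.h2 X.hω h1 h3, ?_⟩
    rw [← vec_scal X.h2 X.hω h3, e]
  obtain ⟨f, hf, a, ha, e1⟩ := key v hv hiv
  obtain ⟨f', hf', a', ha', e2⟩ := key w hw hiw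
  obtain ⟨g, hg, b, hb, e3⟩ := V_tree X hf
  obtain ⟨g', hg', b', hb', e4⟩ := V_tree X hf'
  refine ⟨g' * g⁻¹, Subgroup.mul_mem _ hg' (Subgroup.inv_mem _ hg), a * b⁻¹ * b' * a'⁻¹,
    mul_ne_zero (mul_ne_zero (mul_ne_zero ha (inv_ne_zero hb)) hb') (inv_ne_zero ha'), ?_⟩
  have e5 : ((g⁻¹ : GL F9 F) : Matrix F9 F9 F) *ᵥ vec ω (Vv f) = b⁻¹ • vec ω (Vv 0) := by
    have h1 : ((g⁻¹ : GL F9 F) : Matrix F9 F9 F) *ᵥ ((g : Matrix F9 F9 F) *ᵥ vec ω (Vv 0)) = vec ω (Vv 0) := by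
      rw [Matrix.mulVec_mulVec, Units.inv_mul, Matrix.one_mulVec]
    rw [e3, smul_mulVec] at h1
    rw [← h1, smul_smul, inv_mul_cancel₀ hb, one_smul]
  rw [e1, e2, Units.val_mul, ← Matrix.mulVec_mulVec, smul_mulVec, e5, smul_mulVec, smul_mulVec, e4, smul_smul, smul_smul,
    smul_smul]
  congr 1
  field_simp

end ctx

theorem DD_surj {F : Type*} [Field F] [Fintype F] (hF : Fintype.card F = 4) {ω : F} (h2 : (2 : F) = 0) (hω : ω * ω = ω + 1) :
    ∀ x : F, ∃ c < 4, DD ω c = x := by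
  classical
  have hinj : Set.InjOn (DD ω) (↑(Finset.range 4) : Set ℕ) := by
    intro a ha b hb e
    have ha' : a < 4 := by simpa using ha
    have hb' : b < 4 := by simpa using hb
    obtain ⟨t0, t1⟩ := el_inj h2 hω (e : el ω (a.testBit 0) (a.testBit 1) = el ω (b.testBit 0) (b.testBit 1))
    revert t0 t1
    interval_cases a <;> interval_cases b <;> decide
  have hcard : ((Finset.range 4).image (DD ω)).card = Fintype.card F := by
    rw [Finset.card_image_of_injOn hinj, Finset.card_range, hF]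
  have huniv := Finset.eq_univ_of_card _ hcard
  intro x
  have hx : x ∈ (Finset.range 4).image (DD ω) := by
    rw [huniv]
    exact Finset.mem_univ x
  obtain ⟨c, hc, e⟩ := Finset.mem_image.mp hx
  exact ⟨c, by simpa using hc, e⟩

/-- The main theorem on lines. -/
theorem main (F : Type) [Field F] [Fintype F] (hF : Fintype.card F = 4) (ω : F) (hω : ω ^ 2 + ω + 1 = 0) :
    {L : Submodule F (F9 → F) | ∃ g ∈ threeJ3 F ω, L = F ∙ ((g : Matrix F9 F9 F) *ᵥ (Pi.single (0 : F9) (1 : F) : F9 → F))}.ncard = 23256 ∧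
    ∀ v w : F9 → F, v ≠ 0 → w ≠ 0 → ∑ z, (v z) ^ 3 = 0 → ∑ z, (w z) ^ 3 = 0 →
      ∃ g ∈ threeJ3 F ω, ∃ c : F, c ≠ 0 ∧ (g : Matrix F9 F9 F) *ᵥ v = c • w := by
  have h2 := char_two hF
  have hω' := om_sq h2 hω
  rw [threeJ3_eq h2 hω']
  have hc4 := DD_surj hF h2 hω'
  exact ⟨part1 _ hc4, fun v w hv hw hiv hiw => part2 _ hc4 v w hv hw hiv hiw⟩

end Cfsg.Agent.H02.J3R
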