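import Cfsg.Prelude.Def_Spor_J2

/-!
An integer model of the icosians: a quaternion with coefficients `(m + n τ) / 2` is recorded by eight integers.
-/

set_option autoImplicit false
set_option maxRecDepth 100000

namespace Cfsg.Agent.H02.JA

open Cfsg.Spor Quaternion

theorem sqrt5_sq : Real.sqrt 5 * Real.sqrt 5 = 5 := Real.mul_self_sqrt (by norm_num)

theorem tau_sq : tau * tau = tau + 1 := by
  unfold tau
  linear_combination sqrt5_sq / 4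

theorem sig_eq : sig = 1 - tau := by
  unfold sig tau
  ring

theorem sqrt5_eq : Real.sqrt 5 = 2 * tau - 1 := by
  unfold tau
  ring

theorem tau_irr (m n : ℤ) (h : (m : ℝ) + n * tau = 0) : m = 0 ∧ n = 0 := by
  have hi : Irrational (Real.sqrt 5) := by
    have := Nat.Prime.irrational_sqrt (p := 5) (by norm_num)
    simpa using this
  have hn : n = 0 := by
    by_contra hn
    have hn' : (n : ℝ) ≠ 0 := by exact_mod_cast hn
    apply hi
    refine ⟨-(2 * m + n) / n, ?_⟩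
    rw [sqrt5_eq] at *
    push_cast
    field_simp
    linear_combination (-2 : ℝ) * h
  subst hn
  refine ⟨?_, rfl⟩
  have : (m : ℝ) = 0 := by simpa using h
  exact_mod_cast this

/-- Eight integers. -/
@[ext] structure I8 where
  a0 : ℤ
  a1 : ℤ
  b0 : ℤ
  b1 : ℤ
  c0 : ℤ
  c1 : ℤ
  d0 : ℤ
  d1 : ℤ
  deriving DecidableEq

/-- The quaternion. -/
noncomputable def ph (x : I8) : ℍ[ℝ] :=
  ⟨((x.a0 : ℝ) + x.a1 * tau) / 2, ((x.b0 : ℝ) + x.b1 * tau) / 2, ((x.c0 : ℝ) + x.c1 * tau) / 2, ((x.d0 : ℝ) + x.d1 * tau) / 2⟩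

theorem ph_inj {x y : I8} (h : ph x = ph y) : x = y := by
  have key : ∀ {m n m' n' : ℤ}, ((m : ℝ) + n * tau) / 2 = ((m' : ℝ) + n' * tau) / 2 → m = m' ∧ n = n' := by
    intro m n m' n' e
    have := tau_irr (m - m') (n - n') (by push_cast; linear_combination 2 * e)
    omega
  have h1 := congrArg QuaternionAlgebra.re h
  have h2 := congrArg QuaternionAlgebra.imI h
  have h3 := congrArg QuaternionAlgebra.imJ h
  have h4 := congrArg QuaternionAlgebra.imK h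
  obtain ⟨e1, e2⟩ := key h1
  obtain ⟨e3, e4⟩ := key h2
  obtain ⟨e5, e6⟩ := key h3
  obtain ⟨e7, e8⟩ := key h4
  exact I8.ext e1 e2 e3 e4 e5 e6 e7 e8

/-- Product in `ℤ[τ]`, constant term. -/
def rm0 (p0 p1 q0 q1 : ℤ) : ℤ := p0 * q0 + p1 * q1

/-- Product in `ℤ[τ]`, coefficient of `τ`. -/
def rm1 (p0 p1 q0 q1 : ℤ) : ℤ := p0 * q1 + p1 * q0 + p1 * q1

/-- The raw product. -/
def mulR (x y : I8) : I8 where
  a0 := rm0 x.a0 x.a1 y.a0 y.a1 - rm0 x.b0 x.b1 y.b0 y.b1 - rm0 x.c0 x.c1 y.c0 y.c1 - rm0 x.d0 x.d1 y.d0 y.d1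
  a1 := rm1 x.a0 x.a1 y.a0 y.a1 - rm1 x.b0 x.b1 y.b0 y.b1 - rm1 x.c0 x.c1 y.c0 y.c1 - rm1 x.d0 x.d1 y.d0 y.d1
  b0 := rm0 x.a0 x.a1 y.b0 y.b1 + rm0 x.b0 x.b1 y.a0 y.a1 + rm0 x.c0 x.c1 y.d0 y.d1 - rm0 x.d0 x.d1 y.c0 y.c1
  b1 := rm1 x.a0 x.a1 y.b0 y.b1 + rm1 x.b0 x.b1 y.a0 y.a1 + rm1 x.c0 x.c1 y.d0 y.d1 - rm1 x.d0 x.d1 y.c0 y.c1
  c0 := rm0 x.a0 x.a1 y.c0 y.c1 - rm0 x.b0 x.b1 y.d0 y.d1 + rm0 x.c0 x.c1 y.a0 y.a1 + rm0 x.d0 x.d1 y.b0 y.b1
  c1 := rm1 x.a0 x.a1 y.c0 y.c1 - rm1 x.b0 x.b1 y.d0 y.d1 + rm1 x.c0 x.c1 y.a0 y.a1 + rm1 x.d0 x.d1 y.b0 y.b1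
  d0 := rm0 x.a0 x.a1 y.d0 y.d1 + rm0 x.b0 x.b1 y.c0 y.c1 - rm0 x.c0 x.c1 y.b0 y.b1 + rm0 x.d0 x.d1 y.a0 y.a1
  d1 := rm1 x.a0 x.a1 y.d0 y.d1 + rm1 x.b0 x.b1 y.c0 y.c1 - rm1 x.c0 x.c1 y.b0 y.b1 + rm1 x.d0 x.d1 y.a0 y.a1

theorem rm_eq (p0 p1 q0 q1 : ℤ) : ((p0 : ℝ) + p1 * tau) * ((q0 : ℝ) + q1 * tau) =
    ((rm0 p0 p1 q0 q1 : ℤ) : ℝ) + ((rm1 p0 p1 q0 q1 : ℤ) : ℝ) * tau := by
  unfold rm0 rm1
  push_cast
  linear_combination (p1 : ℝ) * q1 * tau_sq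

theorem ph_re (x : I8) : (ph x).re = ((x.a0 : ℝ) + x.a1 * tau) / 2 := rfl
theorem ph_imI (x : I8) : (ph x).imI = ((x.b0 : ℝ) + x.b1 * tau) / 2 := rfl
theorem ph_imJ (x : I8) : (ph x).imJ = ((x.c0 : ℝ) + x.c1 * tau) / 2 := rfl
theorem ph_imK (x : I8) : (ph x).imK = ((x.d0 : ℝ) + x.d1 * tau) / 2 := rfl

theorem ph_mul (x y : I8) : ph x * ph y = (1 / 2 : ℝ) • ph (mulR x y) := by
  have h := rm_eq
  apply Quaternion.ext <;> simp only [Quaternion.re_mul, Quaternion.imI_mul, Quaternion.imJ_mul, Quaternion.imK_mul,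
    Quaternion.re_smul, Quaternion.imI_smul, Quaternion.imJ_smul, Quaternion.imK_smul, ph_re, ph_imI, ph_imJ, ph_imK, mulR, smul_eq_mul]
  · push_cast
    linear_combination (1 / 4 : ℝ) * (h x.a0 x.a1 y.a0 y.a1 - h x.b0 x.b1 y.b0 y.b1 - h x.c0 x.c1 y.c0 y.c1 - h x.d0 x.d1 y.d0 y.d1)
  · push_cast
    linear_combination (1 / 4 : ℝ) * (h x.a0 x.a1 y.b0 y.b1 + h x.b0 x.b1 y.a0 y.a1 + h x.c0 x.c1 y.d0 y.d1 - h x.d0 x.d1 y.c0 y.c1)
  · push_cast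
    linear_combination (1 / 4 : ℝ) * (h x.a0 x.a1 y.c0 y.c1 - h x.b0 x.b1 y.d0 y.d1 + h x.c0 x.c1 y.a0 y.a1 + h x.d0 x.d1 y.b0 y.b1)
  · push_cast
    linear_combination (1 / 4 : ℝ) * (h x.a0 x.a1 y.d0 y.d1 + h x.b0 x.b1 y.c0 y.c1 - h x.c0 x.c1 y.b0 y.b1 + h x.d0 x.d1 y.a0 y.a1)

/-- Sum. -/
instance : Add I8 := ⟨fun x y => ⟨x.a0 + y.a0, x.a1 + y.a1, x.b0 + y.b0, x.b1 + y.b1, x.c0 + y.c0, x.c1 + y.c1, x.d0 + y.d0, x.d1 + y.d1⟩⟩
/-- Difference. -/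
instance : Sub I8 := ⟨fun x y => ⟨x.a0 - y.a0, x.a1 - y.a1, x.b0 - y.b0, x.b1 - y.b1, x.c0 - y.c0, x.c1 - y.c1, x.d0 - y.d0, x.d1 - y.d1⟩⟩
/-- Negative. -/
instance : Neg I8 := ⟨fun x => ⟨-x.a0, -x.a1, -x.b0, -x.b1, -x.c0, -x.c1, -x.d0, -x.d1⟩⟩
/-- Scalar. -/
def sc (k : ℤ) (x : I8) : I8 := ⟨k * x.a0, k * x.a1, k * x.b0, k * x.b1, k * x.c0, k * x.c1, k * x.d0, k * x.d1⟩
/-- Conjugate. -/
def st (x : I8) : I8 := ⟨x.a0, x.a1, -x.b0, -x.b1, -x.c0, -x.c1, -x.d0, -x.d1⟩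
/-- Zero. -/
def zr : I8 := ⟨0, 0, 0, 0, 0, 0, 0, 0⟩

theorem add_def (x y : I8) : x + y = ⟨x.a0 + y.a0, x.a1 + y.a1, x.b0 + y.b0, x.b1 + y.b1, x.c0 + y.c0, x.c1 + y.c1, x.d0 + y.d0, x.d1 + y.d1⟩ := rfl
theorem sub_def (x y : I8) : x - y = ⟨x.a0 - y.a0, x.a1 - y.a1, x.b0 - y.b0, x.b1 - y.b1, x.c0 - y.c0, x.c1 - y.c1, x.d0 - y.d0, x.d1 - y.d1⟩ := rfl
theorem neg_def (x : I8) : -x = ⟨-x.a0, -x.a1, -x.b0, -x.b1, -x.c0, -x.c1, -x.d0, -x.d1⟩ := rfl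

theorem ph_add (x y : I8) : ph (x + y) = ph x + ph y := by
  apply Quaternion.ext <;> simp only [Quaternion.re_add, Quaternion.imI_add, Quaternion.imJ_add, Quaternion.imK_add, ph_re, ph_imI, ph_imJ, ph_imK, add_def] <;> push_cast <;> ring

theorem ph_sub (x y : I8) : ph (x - y) = ph x - ph y := by
  apply Quaternion.ext <;> simp only [Quaternion.re_sub, Quaternion.imI_sub, Quaternion.imJ_sub, Quaternion.imK_sub, ph_re, ph_imI, ph_imJ, ph_imK, sub_def] <;> push_cast <;> ring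

theorem ph_neg (x : I8) : ph (-x) = - ph x := by
  apply Quaternion.ext <;> simp only [Quaternion.re_neg, Quaternion.imI_neg, Quaternion.imJ_neg, Quaternion.imK_neg, ph_re, ph_imI, ph_imJ, ph_imK, neg_def] <;> push_cast <;> ring

theorem ph_sc (k : ℤ) (x : I8) : ph (sc k x) = (k : ℝ) • ph x := by
  apply Quaternion.ext <;> simp only [Quaternion.re_smul, Quaternion.imI_smul, Quaternion.imJ_smul, Quaternion.imK_smul, ph_re, ph_imI, ph_imJ, ph_imK, sc, smul_eq_mul] <;> push_cast <;> ring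

theorem ph_st (x : I8) : ph (st x) = star (ph x) := by
  apply Quaternion.ext <;> simp only [Quaternion.re_star, Quaternion.imI_star, Quaternion.imJ_star, Quaternion.imK_star, ph_re, ph_imI, ph_imJ, ph_imK, st] <;> push_cast <;> ring

theorem ph_zr : ph zr = 0 := by
  apply Quaternion.ext <;> simp [ph, zr]

/-- The integers of `2I` modulo two: the four parity conditions of the icosians. -/
def inS (x : I8) : Prop :=
  (2 : ℤ) ∣ x.a1 + x.b0 + x.b1 + x.c0 ∧ (2 : ℤ) ∣ x.a0 + x.a1 + x.b0 + x.c1 ∧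
  (2 : ℤ) ∣ x.a0 + x.a1 + x.b1 + x.d0 ∧ (2 : ℤ) ∣ x.a0 + x.b0 + x.b1 + x.d1

instance (x : I8) : Decidable (inS x) := by unfold inS; infer_instance

theorem inS_add {x y : I8} (hx : inS x) (hy : inS y) : inS (x + y) := by
  obtain ⟨h1, h2, h3, h4⟩ := hx
  obtain ⟨h5, h6, h7, h8⟩ := hy
  simp only [inS, add_def]
  omega

theorem inS_sub {x y : I8} (hx : inS x) (hy : inS y) : inS (x - y) := by
  obtain ⟨h1, h2, h3, h4⟩ := hx
  obtain ⟨h5, h6, h7, h8⟩ := hy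
  simp only [inS, sub_def]
  omega

theorem inS_neg {x : I8} (hx : inS x) : inS (-x) := by
  obtain ⟨h1, h2, h3, h4⟩ := hx
  simp only [inS, neg_def]
  omega

theorem inS_st {x : I8} (hx : inS x) : inS (st x) := by
  obtain ⟨h1, h2, h3, h4⟩ := hx
  simp only [inS, st]
  omega

theorem inS_sc (k : ℤ) {x : I8} (hx : inS x) : inS (sc k x) := by
  obtain ⟨h1, h2, h3, h4⟩ := hx
  simp only [inS, sc]
  refine ⟨?_, ?_, ?_, ?_⟩
  · have : k * x.a1 + k * x.b0 + k * x.b1 + k * x.c0 = k * (x.a1 + x.b0 + x.b1 + x.c0) := by ring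
    rw [this]; exact Dvd.dvd.mul_left h1 k
  · have : k * x.a0 + k * x.a1 + k * x.b0 + k * x.c1 = k * (x.a0 + x.a1 + x.b0 + x.c1) := by ring
    rw [this]; exact Dvd.dvd.mul_left h2 k
  · have : k * x.a0 + k * x.a1 + k * x.b1 + k * x.d0 = k * (x.a0 + x.a1 + x.b1 + x.d0) := by ring
    rw [this]; exact Dvd.dvd.mul_left h3 k
  · have : k * x.a0 + k * x.b0 + k * x.b1 + k * x.d1 = k * (x.a0 + x.b0 + x.b1 + x.d1) := by ring
    rw [this]; exact Dvd.dvd.mul_left h4 k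

theorem mulR_add_left (x x' y : I8) : mulR (x + x') y = mulR x y + mulR x' y := by
  ext <;> simp only [mulR, add_def, rm0, rm1] <;> ring

theorem mulR_add_right (x y y' : I8) : mulR x (y + y') = mulR x y + mulR x y' := by
  ext <;> simp only [mulR, add_def, rm0, rm1] <;> ring

theorem mulR_sc_left (k : ℤ) (x y : I8) : mulR (sc k x) y = sc k (mulR x y) := by
  ext <;> simp only [mulR, sc, rm0, rm1] <;> ring

theorem mulR_sc_right (k : ℤ) (x y : I8) : mulR x (sc k y) = sc k (mulR x y) := by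
  ext <;> simp only [mulR, sc, rm0, rm1] <;> ring

theorem sc_add (k : ℤ) (x y : I8) : sc k (x + y) = sc k x + sc k y := by
  ext <;> simp only [sc, add_def] <;> ring

theorem sc_sc (k l : ℤ) (x : I8) : sc k (sc l x) = sc (k * l) x := by
  ext <;> simp only [sc] <;> ring

theorem sc_comm (k l : ℤ) (x : I8) : sc k (sc l x) = sc l (sc k x) := by
  rw [sc_sc, sc_sc, mul_comm]

/-- A product of icosians is an icosian. -/
def Good (x y : I8) : Prop := ∃ z, mulR x y = sc 2 z ∧ inS z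

/-- The basis. -/
def b1 : I8 := ⟨1, 0, 0, 0, 0, 1, 1, 1⟩
/-- The basis. -/
def b2 : I8 := ⟨0, 1, 0, 0, 1, 1, 1, 0⟩
/-- The basis. -/
def b3 : I8 := ⟨0, 0, 1, 0, 1, 1, 0, 1⟩
/-- The basis. -/
def b4 : I8 := ⟨0, 0, 0, 1, 1, 0, 1, 1⟩
/-- The basis. -/
def b5 : I8 := ⟨0, 0, 0, 0, 2, 0, 0, 0⟩
/-- The basis. -/
def b6 : I8 := ⟨0, 0, 0, 0, 0, 2, 0, 0⟩
/-- The basis. -/
def b7 : I8 := ⟨0, 0, 0, 0, 0, 0, 2, 0⟩
/-- The basis. -/
def b8 : I8 := ⟨0, 0, 0, 0, 0, 0, 0, 2⟩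

/-- An integer combination of the basis. -/
def comb (k1 k2 k3 k4 k5 k6 k7 k8 : ℤ) : I8 :=
  sc k1 b1 + (sc k2 b2 + (sc k3 b3 + (sc k4 b4 + (sc k5 b5 + (sc k6 b6 + (sc k7 b7 + sc k8 b8))))))

theorem exists_comb {x : I8} (hx : inS x) : ∃ k5 k6 k7 k8, x = comb x.a0 x.a1 x.b0 x.b1 k5 k6 k7 k8 := by
  obtain ⟨⟨k5, h5⟩, ⟨k6, h6⟩, ⟨k7, h7⟩, ⟨k8, h8⟩⟩ := hx
  refine ⟨k5 - x.a1 - x.b0 - x.b1, k6 - x.a0 - x.a1 - x.b0, k7 - x.a0 - x.a1 - x.b1, k8 - x.a0 - x.b0 - x.b1, ?_⟩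
  ext <;> simp only [comb, sc, add_def, b1, b2, b3, b4, b5, b6, b7, b8] <;> omega

/-- A property of icosians which is stable under the operations holds. -/
theorem lin_ind {P : I8 → Prop} (hadd : ∀ x y, P x → P y → P (x + y)) (hsc : ∀ k x, P x → P (sc k x))
    (h1 : P b1) (h2 : P b2) (h3 : P b3) (h4 : P b4) (h5 : P b5) (h6 : P b6) (h7 : P b7) (h8 : P b8) {x : I8} (hx : inS x) : P x := by
  obtain ⟨k5, k6, k7, k8, e⟩ := exists_comb hx
  rw [e]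
  unfold comb
  exact hadd _ _ (hsc _ _ h1) (hadd _ _ (hsc _ _ h2) (hadd _ _ (hsc _ _ h3) (hadd _ _ (hsc _ _ h4)
    (hadd _ _ (hsc _ _ h5) (hadd _ _ (hsc _ _ h6) (hadd _ _ (hsc _ _ h7) (hsc _ _ h8)))))))

/-- The half of an even vector. -/
def hf (x : I8) : I8 := ⟨x.a0 / 2, x.a1 / 2, x.b0 / 2, x.b1 / 2, x.c0 / 2, x.c1 / 2, x.d0 / 2, x.d1 / 2⟩

/-- All entries are even. -/
def evn (x : I8) : Prop :=
  (2 : ℤ) ∣ x.a0 ∧ (2 : ℤ) ∣ x.a1 ∧ (2 : ℤ) ∣ x.b0 ∧ (2 : ℤ) ∣ x.b1 ∧ (2 : ℤ) ∣ x.c0 ∧ (2 : ℤ) ∣ x.c1 ∧ (2 : ℤ) ∣ x.d0 ∧ (2 : ℤ) ∣ x.d1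

instance (x : I8) : Decidable (evn x) := by unfold evn; infer_instance

theorem good_of {x y : I8} (h1 : evn (mulR x y)) (h2 : inS (hf (mulR x y))) : Good x y := by
  refine ⟨_, ?_, h2⟩
  obtain ⟨e1, e2, e3, e4, e5, e6, e7, e8⟩ := h1
  ext <;> simp only [sc, hf] <;> omega

theorem good_add_left {x x' y : I8} (h : Good x y) (h' : Good x' y) : Good (x + x') y := by
  obtain ⟨z, e, hz⟩ := h
  obtain ⟨z', e', hz'⟩ := h'
  exact ⟨z + z', by rw [mulR_add_left, e, e', sc_add], inS_add hz hz'⟩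

theorem good_add_right {x y y' : I8} (h : Good x y) (h' : Good x y') : Good x (y + y') := by
  obtain ⟨z, e, hz⟩ := h
  obtain ⟨z', e', hz'⟩ := h'
  exact ⟨z + z', by rw [mulR_add_right, e, e', sc_add], inS_add hz hz'⟩

theorem good_sc_left (k : ℤ) {x y : I8} (h : Good x y) : Good (sc k x) y := by
  obtain ⟨z, e, hz⟩ := h
  exact ⟨sc k z, by rw [mulR_sc_left, e, sc_comm], inS_sc k hz⟩

theorem good_sc_right (k : ℤ) {x y : I8} (h : Good x y) : Good x (sc k y) := by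
  obtain ⟨z, e, hz⟩ := h
  exact ⟨sc k z, by rw [mulR_sc_right, e, sc_comm], inS_sc k hz⟩

/-- The list of the basis. -/
def bas : List I8 := [b1, b2, b3, b4, b5, b6, b7, b8]

theorem bas_good : ∀ x ∈ bas, ∀ y ∈ bas, evn (mulR x y) ∧ inS (hf (mulR x y)) := by decide +kernel

theorem good_bas {x y : I8} (hx : x ∈ bas) (hy : y ∈ bas) : Good x y :=
  good_of (bas_good x hx y hy).1 (bas_good x hx y hy).2

theorem good_all {x y : I8} (hx : inS x) (hy : inS y) : Good x y := by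
  have r : ∀ b ∈ bas, Good b y := by
    intro b hb
    exact lin_ind (P := fun y => Good b y) (fun _ _ => good_add_right) (fun k _ => good_sc_right k)
      (good_bas hb (by decide)) (good_bas hb (by decide)) (good_bas hb (by decide)) (good_bas hb (by decide))
      (good_bas hb (by decide)) (good_bas hb (by decide)) (good_bas hb (by decide)) (good_bas hb (by decide)) hy
  exact lin_ind (P := fun x => Good x y) (fun _ _ => good_add_left) (fun k _ => good_sc_left k)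
    (r _ (by decide)) (r _ (by decide)) (r _ (by decide)) (r _ (by decide))
    (r _ (by decide)) (r _ (by decide)) (r _ (by decide)) (r _ (by decide)) hx

theorem ph_mul_of {x y z : I8} (e : mulR x y = sc 2 z) : ph x * ph y = ph z := by
  rw [ph_mul, e, ph_sc, smul_smul]
  norm_num

/-- One. -/
def oneI : I8 := ⟨2, 0, 0, 0, 0, 0, 0, 0⟩

theorem ph_one : ph oneI = 1 := by
  apply Quaternion.ext <;> simp [ph, oneI]

theorem inS_one : inS oneI := by decide +kernel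

theorem inS_zr : inS zr := by decide +kernel

/-- The ring of icosians through the model. -/
noncomputable def RS : Subring ℍ[ℝ] where
  carrier := {q | ∃ x, inS x ∧ ph x = q}
  mul_mem' := by
    rintro _ _ ⟨x, hx, rfl⟩ ⟨y, hy, rfl⟩
    obtain ⟨z, e, hz⟩ := good_all hx hy
    exact ⟨z, hz, (ph_mul_of e).symm⟩
  one_mem' := ⟨oneI, inS_one, ph_one⟩
  add_mem' := by
    rintro _ _ ⟨x, hx, rfl⟩ ⟨y, hy, rfl⟩
    exact ⟨x + y, inS_add hx hy, ph_add x y⟩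
  zero_mem' := ⟨zr, inS_zr, ph_zr⟩
  neg_mem' := by
    rintro _ ⟨x, hx, rfl⟩
    exact ⟨-x, inS_neg hx, ph_neg x⟩

/-- The model of `i`. -/
def iI : I8 := ⟨0, 0, 2, 0, 0, 0, 0, 0⟩

/-- The model of the second generator. -/
def gI : I8 := ⟨1, 0, 1, -1, 0, 0, 0, 1⟩

theorem ph_iI : ph iI = qI := by
  apply Quaternion.ext <;> simp [ph, iI, qI]

theorem ph_gI : ph gI = ⟨1 / 2, sig / 2, 0, tau / 2⟩ := by
  apply Quaternion.ext <;> simp [ph, gI, sig_eq] <;> ring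

theorem icos_le : icosians ≤ RS := by
  unfold icosians
  rw [Subring.closure_le]
  rintro q (rfl | rfl)
  · exact ⟨iI, by decide +kernel, ph_iI⟩
  · exact ⟨gI, by decide +kernel, ph_gI⟩

theorem exists_of_icos {q : ℍ[ℝ]} (h : q ∈ icosians) : ∃ x, inS x ∧ ph x = q := icos_le h

theorem mem_oneI : ph oneI ∈ icosians := by
  rw [ph_one]; exact Subring.one_mem _

theorem mem_iI : ph iI ∈ icosians := by
  rw [ph_iI]; exact Subring.subset_closure (Set.mem_insert _ _)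

theorem mem_gI : ph gI ∈ icosians := by
  rw [ph_gI]; exact Subring.subset_closure (Set.mem_insert_of_mem _ rfl)

theorem mem_mul {x y z : I8} (hx : ph x ∈ icosians) (hy : ph y ∈ icosians) (e : mulR x y = sc 2 z) : ph z ∈ icosians := by
  rw [← ph_mul_of e]
  exact Subring.mul_mem _ hx hy

theorem mem_add {x y : I8} (hx : ph x ∈ icosians) (hy : ph y ∈ icosians) : ph (x + y) ∈ icosians := by
  rw [ph_add]
  exact Subring.add_mem _ hx hy

theorem mem_sub {x y : I8} (hx : ph x ∈ icosians) (hy : ph y ∈ icosians) : ph (x - y) ∈ icosians := by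
  rw [ph_sub]
  exact Subring.sub_mem _ hx hy

theorem mem_sc (k : ℤ) {x : I8} (hx : ph x ∈ icosians) : ph (sc k x) ∈ icosians := by
  rw [ph_sc]
  have : ((k : ℝ) • ph x) = (k : ℍ[ℝ]) * ph x := by
    apply Quaternion.ext <;> simp
  rw [this]
  exact Subring.mul_mem _ (intCast_mem _ k) hx

/-- The element `τ`. -/
def tauI : I8 := ⟨0, 2, 0, 0, 0, 0, 0, 0⟩

/-- A unit. -/
def u1 : I8 := ⟨0, 0, 2, 0, 0, 0, 0, 0⟩

/-- A unit. -/
def u2 : I8 := ⟨-1, 1, 1, 0, 0, -1, 0, 0⟩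

/-- A unit. -/
def u3 : I8 := ⟨-1, 0, -1, 1, 0, 0, 0, 1⟩

/-- A unit. -/
def u4 : I8 := ⟨0, -1, -1, 1, -1, 0, 0, 0⟩

/-- A unit. -/
def u5 : I8 := ⟨1, -1, 0, 0, -1, 0, 0, -1⟩

/-- A unit. -/
def u6 : I8 := ⟨0, 0, 1, -1, 0, -1, 1, 0⟩

/-- A unit. -/
def u7 : I8 := ⟨-1, 0, 0, -1, 1, -1, 0, 0⟩

/-- A unit. -/
def u8 : I8 := ⟨0, 1, -1, 0, 0, 0, -1, 1⟩

/-- A unit. -/
def u9 : I8 := ⟨0, 0, -1, 0, -1, 1, 0, 1⟩

/-- A unit. -/
def u10 : I8 := ⟨0, -1, 0, 0, -1, 1, 1, 0⟩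

/-- A unit. -/
def u11 : I8 := ⟨0, 0, 0, -1, 1, 0, 1, -1⟩

/-- A unit. -/
def u12 : I8 := ⟨0, 0, 0, 0, 2, 0, 0, 0⟩

/-- A unit. -/
def u13 : I8 := ⟨-2, 0, 0, 0, 0, 0, 0, 0⟩

/-- A unit. -/
def u14 : I8 := ⟨-1, 0, -1, 1, 0, 0, 0, -1⟩

/-- A unit. -/
def u15 : I8 := ⟨1, -1, -1, 0, 0, -1, 0, 0⟩

/-- A unit. -/
def u16 : I8 := ⟨1, -1, 0, -1, 0, 0, -1, 0⟩

/-- A unit. -/
def u17 : I8 := ⟨0, 0, 1, -1, 0, 1, -1, 0⟩

/-- A unit. -/
def u18 : I8 := ⟨-1, 1, 0, 0, -1, 0, 0, -1⟩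

/-- A unit. -/
def u19 : I8 := ⟨0, 1, -1, 0, 0, 0, 1, -1⟩

/-- A unit. -/
def u20 : I8 := ⟨1, 0, 0, 1, 1, -1, 0, 0⟩

/-- A unit. -/
def u21 : I8 := ⟨1, 0, 0, 0, 0, -1, -1, 1⟩

/-- A unit. -/
def u22 : I8 := ⟨0, 0, 0, -1, -1, 0, -1, 1⟩

/-- A unit. -/
def u23 : I8 := ⟨0, 1, 0, 0, -1, 1, 1, 0⟩

/-- A unit. -/
def u24 : I8 := ⟨0, 0, 0, 0, 0, 0, 2, 0⟩

/-- A unit. -/
def u25 : I8 := ⟨0, 0, -2, 0, 0, 0, 0, 0⟩

/-- A unit. -/
def u26 : I8 := ⟨1, -1, -1, 0, 0, 1, 0, 0⟩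

/-- A unit. -/
def u27 : I8 := ⟨1, 0, 1, -1, 0, 0, 0, -1⟩

/-- A unit. -/
def u28 : I8 := ⟨0, 1, 1, -1, 1, 0, 0, 0⟩

/-- A unit. -/
def u29 : I8 := ⟨-1, 1, 0, 1, 0, 0, -1, 0⟩

/-- A unit. -/
def u30 : I8 := ⟨0, 1, -1, 1, -1, 0, 0, 0⟩

/-- A unit. -/
def u31 : I8 := ⟨-1, 1, 0, 0, 1, 0, 0, 1⟩

/-- A unit. -/
def u32 : I8 := ⟨0, 1, 1, -1, -1, 0, 0, 0⟩

/-- A unit. -/
def u33 : I8 := ⟨-1, 1, 0, -1, 0, 0, 1, 0⟩

/-- A unit. -/
def u34 : I8 := ⟨-1, 0, -1, 0, 1, 0, 1, 0⟩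

/-- A unit. -/
def u35 : I8 := ⟨1, 0, -1, 0, 1, 0, -1, 0⟩

/-- A unit. -/
def u36 : I8 := ⟨1, 0, 0, 0, 0, 1, -1, 1⟩

/-- A unit. -/
def u37 : I8 := ⟨1, 0, 1, -1, 0, 0, 0, 1⟩

/-- A unit. -/
def u38 : I8 := ⟨-1, 0, 1, -1, 0, 0, 0, 1⟩

/-- A unit. -/
def u39 : I8 := ⟨-1, 1, -1, 0, 0, 1, 0, 0⟩

/-- A unit. -/
def u40 : I8 := ⟨0, 0, -1, 1, 0, 1, 1, 0⟩

/-- A unit. -/
def u41 : I8 := ⟨0, 0, 1, 0, -1, 1, 0, 1⟩

theorem mem_u1 : ph u1 ∈ icosians := mem_mul mem_oneI mem_iI (by decide +kernel)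

theorem mem_u2 : ph u2 ∈ icosians := mem_mul mem_u1 mem_gI (by decide +kernel)

theorem mem_u3 : ph u3 ∈ icosians := mem_mul mem_u2 mem_iI (by decide +kernel)

theorem mem_u4 : ph u4 ∈ icosians := mem_mul mem_u3 mem_gI (by decide +kernel)

theorem mem_u5 : ph u5 ∈ icosians := mem_mul mem_u4 mem_gI (by decide +kernel)

theorem mem_u6 : ph u6 ∈ icosians := mem_mul mem_u5 mem_iI (by decide +kernel)

theorem mem_u7 : ph u7 ∈ icosians := mem_mul mem_u6 mem_gI (by decide +kernel)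

theorem mem_u8 : ph u8 ∈ icosians := mem_mul mem_u7 mem_iI (by decide +kernel)

theorem mem_u9 : ph u9 ∈ icosians := mem_mul mem_u8 mem_gI (by decide +kernel)

theorem mem_u10 : ph u10 ∈ icosians := mem_mul mem_u9 mem_gI (by decide +kernel)

theorem mem_u11 : ph u11 ∈ icosians := mem_mul mem_u10 mem_iI (by decide +kernel)

theorem mem_u12 : ph u12 ∈ icosians := mem_mul mem_u11 mem_gI (by decide +kernel)

theorem mem_u13 : ph u13 ∈ icosians := mem_mul mem_u1 mem_iI (by decide +kernel)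

theorem mem_u14 : ph u14 ∈ icosians := mem_mul mem_u13 mem_gI (by decide +kernel)

theorem mem_u15 : ph u15 ∈ icosians := mem_mul mem_u14 mem_iI (by decide +kernel)

theorem mem_u16 : ph u16 ∈ icosians := mem_mul mem_u15 mem_gI (by decide +kernel)

theorem mem_u17 : ph u17 ∈ icosians := mem_mul mem_u16 mem_gI (by decide +kernel)

theorem mem_u18 : ph u18 ∈ icosians := mem_mul mem_u17 mem_iI (by decide +kernel)

theorem mem_u19 : ph u19 ∈ icosians := mem_mul mem_u18 mem_gI (by decide +kernel)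

theorem mem_u20 : ph u20 ∈ icosians := mem_mul mem_u19 mem_iI (by decide +kernel)

theorem mem_u21 : ph u21 ∈ icosians := mem_mul mem_u20 mem_gI (by decide +kernel)

theorem mem_u22 : ph u22 ∈ icosians := mem_mul mem_u21 mem_gI (by decide +kernel)

theorem mem_u23 : ph u23 ∈ icosians := mem_mul mem_u22 mem_iI (by decide +kernel)

theorem mem_u24 : ph u24 ∈ icosians := mem_mul mem_u23 mem_gI (by decide +kernel)

theorem mem_u25 : ph u25 ∈ icosians := mem_mul mem_u13 mem_iI (by decide +kernel)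

theorem mem_u26 : ph u26 ∈ icosians := mem_mul mem_u25 mem_gI (by decide +kernel)

theorem mem_u27 : ph u27 ∈ icosians := mem_mul mem_u26 mem_iI (by decide +kernel)

theorem mem_u28 : ph u28 ∈ icosians := mem_mul mem_u27 mem_gI (by decide +kernel)

theorem mem_u29 : ph u29 ∈ icosians := mem_mul mem_u28 mem_iI (by decide +kernel)

theorem mem_u30 : ph u30 ∈ icosians := mem_mul mem_u29 mem_gI (by decide +kernel)

theorem mem_u31 : ph u31 ∈ icosians := mem_mul mem_u28 mem_gI (by decide +kernel)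

theorem mem_u32 : ph u32 ∈ icosians := mem_mul mem_u16 mem_iI (by decide +kernel)

theorem mem_u33 : ph u33 ∈ icosians := mem_mul mem_u32 mem_gI (by decide +kernel)

theorem mem_u34 : ph u34 ∈ icosians := mem_mul mem_u33 mem_gI (by decide +kernel)

theorem mem_u35 : ph u35 ∈ icosians := mem_mul mem_u34 mem_iI (by decide +kernel)

theorem mem_u36 : ph u36 ∈ icosians := mem_mul mem_u35 mem_gI (by decide +kernel)

theorem mem_u37 : ph u37 ∈ icosians := mem_mul mem_oneI mem_gI (by decide +kernel)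

theorem mem_u38 : ph u38 ∈ icosians := mem_mul mem_u37 mem_gI (by decide +kernel)

theorem mem_u39 : ph u39 ∈ icosians := mem_mul mem_u38 mem_iI (by decide +kernel)

theorem mem_u40 : ph u40 ∈ icosians := mem_mul mem_u39 mem_gI (by decide +kernel)

theorem mem_u41 : ph u41 ∈ icosians := mem_mul mem_u36 mem_gI (by decide +kernel)

theorem mem_tau : ph tauI ∈ icosians := by
  have h := mem_add mem_u28 mem_u30
  have e : u28 + u30 = tauI := by decide +kernel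
  rwa [e] at h

theorem mem_b1 : ph b1 ∈ icosians := mem_mul mem_tau mem_u31 (by decide +kernel)

theorem mem_b2 : ph b2 ∈ icosians := mem_mul mem_tau mem_u36 (by decide +kernel)

theorem mem_b3 : ph b3 ∈ icosians := mem_mul mem_tau mem_u40 (by decide +kernel)

theorem mem_b4 : ph b4 ∈ icosians := mem_mul mem_tau mem_u41 (by decide +kernel)

theorem mem_b5 : ph b5 ∈ icosians := by
  have e : b5 = u12 := by decide +kernel
  rw [e]
  exact mem_u12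

theorem mem_b6 : ph b6 ∈ icosians := mem_mul mem_tau mem_u12 (by decide +kernel)

theorem mem_b7 : ph b7 ∈ icosians := by
  have e : b7 = u24 := by decide +kernel
  rw [e]
  exact mem_u24

theorem mem_b8 : ph b8 ∈ icosians := mem_mul mem_tau mem_u24 (by decide +kernel)


theorem mem_of_inS {x : I8} (hx : inS x) : ph x ∈ icosians :=
  lin_ind (P := fun x => ph x ∈ icosians) (fun _ _ => mem_add) (fun k _ => mem_sc k)
    mem_b1 mem_b2 mem_b3 mem_b4 mem_b5 mem_b6 mem_b7 mem_b8 hx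

theorem icos_iff {q : ℍ[ℝ]} : q ∈ icosians ↔ ∃ x, inS x ∧ ph x = q :=
  ⟨exists_of_icos, by rintro ⟨x, hx, rfl⟩; exact mem_of_inS hx⟩

theorem ph_mem_iff {x : I8} : ph x ∈ icosians ↔ inS x := by
  constructor
  · intro h
    obtain ⟨y, hy, e⟩ := exists_of_icos h
    rwa [← ph_inj e]
  · exact mem_of_inS

/-- The model of `h`. -/
def hI : I8 := ⟨1, -2, 1, 0, 1, 0, 1, 0⟩

/-- The model of the conjugate of `h`. -/
def kI : I8 := ⟨1, -2, -1, 0, -1, 0, -1, 0⟩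

/-- The model of two. -/
def twoI : I8 := ⟨4, 0, 0, 0, 0, 0, 0, 0⟩

theorem ph_two : ph twoI = 2 := by
  have e : twoI = oneI + oneI := by decide +kernel
  rw [e, ph_add, ph_one, one_add_one_eq_two]

theorem ph_hI : ph hI = icoH := by
  apply Quaternion.ext <;> simp [ph, hI, icoH, sqrt5_eq] <;> ring

theorem ph_kI : ph kI = star icoH := by
  rw [← ph_hI, ← ph_st]
  rfl

theorem hk : ph hI * ph kI = 2 := by
  rw [ph_mul_of (z := twoI) (by decide +kernel), ph_two]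

theorem kh : ph kI * ph hI = 2 := by
  rw [ph_mul_of (z := twoI) (by decide +kernel), ph_two]

theorem two_ne : (2 : ℍ[ℝ]) ≠ 0 := by
  rw [← ph_two, ← ph_zr]
  intro h
  exact absurd (ph_inj h) (by decide +kernel)

theorem ideal_iff {q p : I8} (h1 : ph q * ph p = 2) (h2 : ph p * ph q = 2) (X : I8) :
    ph X ∈ leftIdeal (ph q) ↔ ∃ A, inS A ∧ mulR X p = sc 4 A := by
  constructor
  · rintro ⟨a, ha, e⟩
    obtain ⟨A, hA, rfl⟩ := exists_of_icos ha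
    refine ⟨A, hA, ph_inj ?_⟩
    have e1 : ph X * ph p = ph A * 2 := by
      rw [e, mul_assoc, h1]
    rw [ph_mul] at e1
    rw [ph_sc]
    have e2 : ph (mulR X p) = (2 : ℝ) • ((1 / 2 : ℝ) • ph (mulR X p)) := by
      rw [smul_smul]; norm_num
    rw [e2, e1, mul_two]
    push_cast
    module
  · rintro ⟨A, hA, e⟩
    refine ⟨ph A, mem_of_inS hA, ?_⟩
    have e1 : ph X * ph p = (2 : ℝ) • ph A := by
      rw [ph_mul, e, ph_sc, smul_smul]
      norm_num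
    have e2 : ph X * 2 = ph A * ph q * 2 := by
      calc ph X * 2 = ph X * ph p * ph q := by rw [mul_assoc, h2]
        _ = ((2 : ℝ) • ph A) * ph q := by rw [e1]
        _ = ph A * ph q * 2 := by
          rw [smul_mul_assoc, mul_two, two_smul]
    exact mul_right_cancel₀ two_ne e2

/-- The quotient by four. -/
def qt (x : I8) : I8 := ⟨x.a0 / 4, x.a1 / 4, x.b0 / 4, x.b1 / 4, x.c0 / 4, x.c1 / 4, x.d0 / 4, x.d1 / 4⟩

/-- All entries are divisible by four. -/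
def ev4 (x : I8) : Prop :=
  (4 : ℤ) ∣ x.a0 ∧ (4 : ℤ) ∣ x.a1 ∧ (4 : ℤ) ∣ x.b0 ∧ (4 : ℤ) ∣ x.b1 ∧ (4 : ℤ) ∣ x.c0 ∧ (4 : ℤ) ∣ x.c1 ∧ (4 : ℤ) ∣ x.d0 ∧ (4 : ℤ) ∣ x.d1

instance (x : I8) : Decidable (ev4 x) := by unfold ev4; infer_instance

/-- The test for being `4 A` for `A` an icosian. -/
def idl (y : I8) : Prop := ev4 y ∧ inS (qt y)

instance (x : I8) : Decidable (idl x) := by unfold idl; infer_instance

theorem idl_iff (y : I8) : idl y ↔ ∃ A, inS A ∧ y = sc 4 A := by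
  constructor
  · rintro ⟨⟨e1, e2, e3, e4, e5, e6, e7, e8⟩, h⟩
    refine ⟨_, h, ?_⟩
    ext <;> simp only [sc, qt] <;> omega
  · rintro ⟨A, hA, rfl⟩
    have e : qt (sc 4 A) = A := by
      ext <;> simp only [sc, qt] <;> omega
    refine ⟨?_, by rwa [e]⟩
    simp only [ev4, sc]
    omega

/-- Vectors. -/
abbrev V3 : Type := I8 × I8 × I8

/-- The vector of quaternions. -/
noncomputable def Ph (v : V3) : Fin 3 → ℍ[ℝ] := ![ph v.1, ph v.2.1, ph v.2.2]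

theorem Ph_zero (v : V3) : Ph v 0 = ph v.1 := rfl
theorem Ph_one (v : V3) : Ph v 1 = ph v.2.1 := rfl
theorem Ph_two (v : V3) : Ph v 2 = ph v.2.2 := rfl

theorem Ph_inj {v w : V3} (h : Ph v = Ph w) : v = w := by
  have e0 := congrFun h 0
  have e1 := congrFun h 1
  have e2 := congrFun h 2
  rw [Ph_zero, Ph_zero] at e0
  rw [Ph_one, Ph_one] at e1
  rw [Ph_two, Ph_two] at e2
  exact Prod.ext (ph_inj e0) (Prod.ext (ph_inj e1) (ph_inj e2))

/-- The lattice conditions. -/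
def inL (v : V3) : Prop :=
  inS v.1 ∧ inS v.2.1 ∧ inS v.2.2 ∧ idl (mulR (v.1 - v.2.1) kI) ∧ idl (mulR (v.2.1 - v.2.2) kI) ∧
    idl (mulR (v.1 + v.2.1 + v.2.2) hI)

instance (v : V3) : Decidable (inL v) := by unfold inL; infer_instance

theorem leech_iff {v : Fin 3 → ℍ[ℝ]} : v ∈ icoLeech ↔ ∃ X, inL X ∧ v = Ph X := by
  constructor
  · rintro ⟨ht, h1, h2, h3⟩
    obtain ⟨X0, hX0, e0⟩ := exists_of_icos (ht 0)
    obtain ⟨X1, hX1, e1⟩ := exists_of_icos (ht 1)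
    obtain ⟨X2, hX2, e2⟩ := exists_of_icos (ht 2)
    refine ⟨(X0, X1, X2), ⟨hX0, hX1, hX2, ?_, ?_, ?_⟩, ?_⟩
    · rw [idl_iff]
      apply (ideal_iff hk kh _).mp
      rw [ph_sub, e0, e1, ph_hI]
      exact h1
    · rw [idl_iff]
      apply (ideal_iff hk kh _).mp
      rw [ph_sub, e1, e2, ph_hI]
      exact h2
    · rw [idl_iff]
      apply (ideal_iff kh hk _).mp
      rw [ph_add, ph_add, e0, e1, e2, ph_kI]
      exact h3
    · funext t
      fin_cases t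
      · exact e0.symm
      · exact e1.symm
      · exact e2.symm
  · rintro ⟨X, ⟨h0, h1, h2, h3, h4, h5⟩, rfl⟩
    refine ⟨?_, ?_, ?_, ?_⟩
    · intro t
      fin_cases t
      · exact mem_of_inS h0
      · exact mem_of_inS h1
      · exact mem_of_inS h2
    · rw [idl_iff] at h3
      have := (ideal_iff hk kh _).mpr h3
      rw [ph_sub, ph_hI] at this
      exact this
    · rw [idl_iff] at h4
      have := (ideal_iff hk kh _).mpr h4
      rw [ph_sub, ph_hI] at this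
      exact this
    · rw [idl_iff] at h5
      have := (ideal_iff kh hk _).mpr h5
      rw [ph_add, ph_add, ph_kI] at this
      exact this

/-- The Hermitian product in the model. -/
def ipR (v w : V3) : I8 := mulR v.1 (st w.1) + (mulR v.2.1 (st w.2.1) + mulR v.2.2 (st w.2.2))

theorem qip_Ph (v w : V3) : qip (Ph v) (Ph w) = (1 / 2 : ℝ) • ph (ipR v w) := by
  unfold qip ipR
  rw [Fin.sum_univ_three, Ph_zero, Ph_one, Ph_two, Ph_zero, Ph_one, Ph_two, ph_add, ph_add, smul_add, smul_add,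
    ← ph_st, ← ph_st, ← ph_st, ph_mul, ph_mul, ph_mul, add_assoc]

/-- The sum of the squares. -/
def AA (x : I8) : ℤ :=
  x.a0 * x.a0 + x.a1 * x.a1 + x.b0 * x.b0 + x.b1 * x.b1 + x.c0 * x.c0 + x.c1 * x.c1 + x.d0 * x.d0 + x.d1 * x.d1

/-- The second form. -/
def BB (x : I8) : ℤ :=
  (2 * x.a0 * x.a1 + x.a1 * x.a1) + (2 * x.b0 * x.b1 + x.b1 * x.b1) + (2 * x.c0 * x.c1 + x.c1 * x.c1) +
    (2 * x.d0 * x.d1 + x.d1 * x.d1)

theorem mulR_st (x : I8) : mulR x (st x) = ⟨AA x, BB x, 0, 0, 0, 0, 0, 0⟩ := by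
  ext <;> simp only [mulR, st, rm0, rm1, AA, BB] <;> ring

/-- The vector of norm four in the model: the value of the product. -/
def sixt : I8 := ⟨16, 0, 0, 0, 0, 0, 0, 0⟩

theorem ph_sixt : ph sixt = (8 : ℝ) • 1 := by
  have e : sixt = sc 8 oneI := by decide +kernel
  rw [e, ph_sc, ph_one]
  norm_num

theorem four_eq : (4 : ℍ[ℝ]) = (4 : ℝ) • 1 := by
  rw [Algebra.smul_def, mul_one, map_ofNat]

theorem qip_four_iff (v : V3) : qip (Ph v) (Ph v) = 4 ↔ ipR v v = sixt := by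
  rw [qip_Ph]
  constructor
  · intro h
    apply ph_inj
    rw [ph_sixt]
    have e2 : ph (ipR v v) = (2 : ℝ) • ((1 / 2 : ℝ) • ph (ipR v v)) := by
      rw [smul_smul]; norm_num
    rw [e2, h, four_eq, smul_smul]
    norm_num
  · intro h
    rw [h, ph_sixt, four_eq, smul_smul]
    norm_num

theorem ipR_self (v : V3) : ipR v v = ⟨AA v.1 + (AA v.2.1 + AA v.2.2), BB v.1 + (BB v.2.1 + BB v.2.2), 0, 0, 0, 0, 0, 0⟩ := by
  unfold ipR
  rw [mulR_st, mulR_st, mulR_st]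
  simp only [add_def]
  ext <;> simp

theorem norm_iff (v : V3) : ipR v v = sixt ↔ AA v.1 + (AA v.2.1 + AA v.2.2) = 16 ∧ BB v.1 + (BB v.2.1 + BB v.2.2) = 0 := by
  rw [ipR_self]
  constructor
  · intro h
    have h1 := congrArg I8.a0 h
    have h2 := congrArg I8.a1 h
    exact ⟨h1, h2⟩
  · rintro ⟨h1, h2⟩
    rw [h1, h2]
    rfl

end Cfsg.Agent.H02.JA
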