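import Cfsg.Agent.Lib.H02.JA

/-!
The icosian lattice: products are in `2I`, reflections are permutations, and the group preserves the product.
-/

set_option autoImplicit false
set_option maxRecDepth 100000

namespace Cfsg.Agent.H02.JB

open Cfsg.Spor Quaternion Cfsg.Agent.H02.JA

theorem key {R : Type*} [Ring R] (X y a b c p q s h k : R) (hk : h * k = 2) (kh : k * h = 2)
    (F1 : 3 * X + (a + 2 * b) * h = c * k) (F2 : 3 * y + k * (p + 2 * q) = h * s) :
    (X + (a + b) * h) * (y + k * (p + q)) + (X + b * h) * (y + k * q) + X * y =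
      2 * (-(X * k * p) - (a + 2 * b) * p + X * k * q + c * s - c * k * k * q - c * k * y + (a + b) * (p + q) + b * q) := by
  have e0 : (2 : R) * (c * s) = (c * k) * (h * s) := by
    have : (c * k) * (h * s) = c * (k * h) * s := by noncomm_ring
    rw [this, kh]
    noncomm_ring
  have e1 : (2 : R) * (-(X * k * p) - (a + 2 * b) * p + X * k * q + c * s - c * k * k * q - c * k * y + (a + b) * (p + q) + b * q) =
      2 * (-(X * k * p) - (a + 2 * b) * p + X * k * q + (a + b) * (p + q) + b * q) + (c * k) * (h * s) -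
        2 * ((c * k) * k * q) - 2 * ((c * k) * y) := by
    rw [← e0]
    noncomm_ring
  rw [e1, ← F1, ← F2]
  have e2 : (X + (a + b) * h) * (y + k * (p + q)) + (X + b * h) * (y + k * q) + X * y -
      (2 * (-(X * k * p) - (a + 2 * b) * p + X * k * q + (a + b) * (p + q) + b * q) +
        (3 * X + (a + 2 * b) * h) * (3 * y + k * (p + 2 * q)) -
        2 * ((3 * X + (a + 2 * b) * h) * k * q) - 2 * ((3 * X + (a + 2 * b) * h) * y)) =
      (a + b) * (h * k - 2) * (p + q) + b * (h * k - 2) * q - (a + 2 * b) * (h * k - 2) * p := by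
    noncomm_ring
  rw [hk, sub_self] at e2
  simp only [mul_zero, zero_mul, add_zero, sub_zero] at e2
  exact sub_eq_zero.mp e2

theorem star_icos {q : ℍ[ℝ]} (h : q ∈ icosians) : star q ∈ icosians := by
  obtain ⟨x, hx, rfl⟩ := exists_of_icos h
  rw [← ph_st]
  exact mem_of_inS (inS_st hx)

theorem h_icos : icoH ∈ icosians := by
  rw [← ph_hI]
  exact mem_of_inS (by decide +kernel)

theorem k_icos : star icoH ∈ icosians := star_icos h_icos

theorem hk' : icoH * star icoH = 2 := by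
  rw [← ph_hI, ← ph_st]
  exact hk

theorem kh' : star icoH * icoH = 2 := by
  rw [← ph_hI, ← ph_st]
  exact kh

theorem star_two : star (2 : ℍ[ℝ]) = 2 := by
  rw [← ph_two, ← ph_st]
  rfl

theorem star_three : star (3 : ℍ[ℝ]) = 3 := by
  have : (3 : ℍ[ℝ]) = 2 + 1 := by norm_num
  rw [this, star_add, star_two, star_one]

/-- Products in the lattice are in `2I`. -/
theorem ip_two {x r : Fin 3 → ℍ[ℝ]} (hx : x ∈ icoLeech) (hr : r ∈ icoLeech) : ∃ E ∈ icosians, qip x r = 2 * E := by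
  obtain ⟨tx, ⟨a, ha, e1⟩, ⟨b, hb, e2⟩, ⟨c, hc, e3⟩⟩ := hx
  obtain ⟨tr, ⟨a', ha', e1'⟩, ⟨b', hb', e2'⟩, ⟨c', hc', e3'⟩⟩ := hr
  have x1 : x 1 = x 2 + b * icoH := by rw [← e2]; abel
  have x0 : x 0 = x 2 + (a + b) * icoH := by
    have : x 0 = x 1 + a * icoH := by rw [← e1]; abel
    rw [this, x1, add_mul]; abel
  have r1 : r 1 = r 2 + b' * icoH := by rw [← e2']; abel
  have r0 : r 0 = r 2 + (a' + b') * icoH := by
    have : r 0 = r 1 + a' * icoH := by rw [← e1']; abel
    rw [this, r1, add_mul]; abel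
  have F1 : 3 * x 2 + (a + 2 * b) * icoH = c * star icoH := by
    rw [← e3, x0, x1]
    noncomm_ring
  have F2' : 3 * r 2 + (a' + 2 * b') * icoH = c' * star icoH := by
    rw [← e3', r0, r1]
    noncomm_ring
  have F2 : 3 * star (r 2) + star icoH * (star a' + 2 * star b') = icoH * star c' := by
    have h := congrArg star F2'
    simp only [star_add, star_mul, star_three, star_two, star_star] at h
    rw [← h]
    noncomm_ring
  have s1 : star (r 1) = star (r 2) + star icoH * star b' := by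
    rw [r1, star_add, star_mul]
  have s0 : star (r 0) = star (r 2) + star icoH * (star a' + star b') := by
    rw [r0, star_add, star_mul, star_add]
  refine ⟨-(x 2 * star icoH * star a') - (a + 2 * b) * star a' + x 2 * star icoH * star b' + c * star c' -
    c * star icoH * star icoH * star b' - c * star icoH * star (r 2) + (a + b) * (star a' + star b') + b * star b', ?_, ?_⟩
  · have ha2 : (2 : ℍ[ℝ]) ∈ icosians := by
      rw [← ph_two]; exact mem_of_inS (by decide +kernel)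
    have mp := star_icos ha'
    have mq := star_icos hb'
    have ms := star_icos hc'
    have my := star_icos (tr 2)
    have mX := tx 2
    have mk := k_icos
    have m1 : a + 2 * b ∈ icosians := Subring.add_mem _ ha (Subring.mul_mem _ ha2 hb)
    have m2 : a + b ∈ icosians := Subring.add_mem _ ha hb
    have m3 : star a' + star b' ∈ icosians := Subring.add_mem _ mp mq
    refine Subring.add_mem _ (Subring.add_mem _ (Subring.sub_mem _ (Subring.sub_mem _ (Subring.add_mem _ (Subring.add_mem _ (Subring.sub_mem _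
      (Subring.neg_mem _ (Subring.mul_mem _ (Subring.mul_mem _ mX mk) mp)) (Subring.mul_mem _ m1 mp))
      (Subring.mul_mem _ (Subring.mul_mem _ mX mk) mq)) (Subring.mul_mem _ hc ms))
      (Subring.mul_mem _ (Subring.mul_mem _ (Subring.mul_mem _ hc mk) mk) mq))
      (Subring.mul_mem _ (Subring.mul_mem _ hc mk) my)) (Subring.mul_mem _ m2 m3)) (Subring.mul_mem _ hb mq)
  · unfold qip
    rw [Fin.sum_univ_three, s0, s1, x0, x1]
    exact key (x 2) (star (r 2)) a b c (star a') (star b') (star c') icoH (star icoH) hk' kh' F1 F2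

theorem leech_sub {x y : Fin 3 → ℍ[ℝ]} (hx : x ∈ icoLeech) (hy : y ∈ icoLeech) : x - y ∈ icoLeech := by
  obtain ⟨tx, ⟨a, ha, e1⟩, ⟨b, hb, e2⟩, ⟨c, hc, e3⟩⟩ := hx
  obtain ⟨ty, ⟨a', ha', e1'⟩, ⟨b', hb', e2'⟩, ⟨c', hc', e3'⟩⟩ := hy
  refine ⟨fun t => Subring.sub_mem _ (tx t) (ty t), ⟨a - a', Subring.sub_mem _ ha ha', ?_⟩,
    ⟨b - b', Subring.sub_mem _ hb hb', ?_⟩, ⟨c - c', Subring.sub_mem _ hc hc', ?_⟩⟩
  · rw [sub_mul, ← e1, ← e1']
    simp only [Pi.sub_apply]
    abel
  · rw [sub_mul, ← e2, ← e2']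
    simp only [Pi.sub_apply]
    abel
  · rw [sub_mul, ← e3, ← e3']
    simp only [Pi.sub_apply]
    abel

theorem leech_lmul {u : ℍ[ℝ]} (hu : u ∈ icosians) {x : Fin 3 → ℍ[ℝ]} (hx : x ∈ icoLeech) : (fun t => u * x t) ∈ icoLeech := by
  obtain ⟨tx, ⟨a, ha, e1⟩, ⟨b, hb, e2⟩, ⟨c, hc, e3⟩⟩ := hx
  refine ⟨fun t => Subring.mul_mem _ hu (tx t), ⟨u * a, Subring.mul_mem _ hu ha, ?_⟩,
    ⟨u * b, Subring.mul_mem _ hu hb, ?_⟩, ⟨u * c, Subring.mul_mem _ hu hc, ?_⟩⟩
  · rw [mul_assoc, ← e1, mul_sub]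
  · rw [mul_assoc, ← e2, mul_sub]
  · rw [mul_assoc, ← e3, mul_add, mul_add]

theorem half_two (E : ℍ[ℝ]) : (1 / 2 : ℝ) • (2 * E) = E := by
  rw [two_mul, ← two_smul ℝ E, smul_smul]
  norm_num

/-- The reflection preserves the lattice. -/
theorem qrefl_mem {r x : Fin 3 → ℍ[ℝ]} (hr : r ∈ icoLeech) (hx : x ∈ icoLeech) : qrefl r x ∈ icoLeech := by
  obtain ⟨E, hE, e⟩ := ip_two hx hr
  have : qrefl r x = x - fun t => E * r t := by
    funext t
    simp only [qrefl, Pi.sub_apply, e, half_two]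
  rw [this]
  exact leech_sub hx (leech_lmul hE hr)

theorem qip_sub_left (x y z : Fin 3 → ℍ[ℝ]) : qip (x - y) z = qip x z - qip y z := by
  simp only [qip, Pi.sub_apply, sub_mul, Finset.sum_sub_distrib]

theorem qip_sub_right (x y z : Fin 3 → ℍ[ℝ]) : qip x (y - z) = qip x y - qip x z := by
  simp only [qip, Pi.sub_apply, star_sub, mul_sub, Finset.sum_sub_distrib]

theorem qip_lmul_left (a : ℍ[ℝ]) (x z : Fin 3 → ℍ[ℝ]) : qip (fun t => a * x t) z = a * qip x z := by
  simp only [qip, Finset.mul_sum, mul_assoc]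

theorem qip_lmul_right (a : ℍ[ℝ]) (x z : Fin 3 → ℍ[ℝ]) : qip x (fun t => a * z t) = qip x z * star a := by
  simp only [qip, star_mul, Finset.sum_mul, mul_assoc]

theorem star_qip (x y : Fin 3 → ℍ[ℝ]) : star (qip x y) = qip y x := by
  simp only [qip, star_sum, star_mul, star_star]

theorem qrefl_eq (r x : Fin 3 → ℍ[ℝ]) : qrefl r x = x - fun t => ((1 / 2 : ℝ) • qip x r) * r t := by
  funext t
  simp only [qrefl, Pi.sub_apply]

theorem smul_mul_four (a : ℍ[ℝ]) : ((1 / 2 : ℝ) • a) * 4 = 2 * a := by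
  rw [four_eq, mul_smul_comm, mul_one, smul_smul, two_mul, ← two_smul ℝ a]
  norm_num

/-- The product with a reflected vector. -/
theorem qip_qrefl_left {r : Fin 3 → ℍ[ℝ]} (hr : qip r r = 4) (x y : Fin 3 → ℍ[ℝ]) :
    qip (qrefl r x) y = qip x y - ((1 / 2 : ℝ) • qip x r) * qip r y := by
  rw [qrefl_eq, qip_sub_left, qip_lmul_left]

theorem qip_qrefl_right {r : Fin 3 → ℍ[ℝ]} (hr : qip r r = 4) (x y : Fin 3 → ℍ[ℝ]) :
    qip x (qrefl r y) = qip x y - qip x r * ((1 / 2 : ℝ) • qip r y) := by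
  rw [qrefl_eq, qip_sub_right, qip_lmul_right, Quaternion.star_smul, star_qip]

theorem star_smul_half (a : ℍ[ℝ]) : star ((1 / 2 : ℝ) • a) = (1 / 2 : ℝ) • star a := by
  simp

theorem qip_qrefl {r : Fin 3 → ℍ[ℝ]} (hr : qip r r = 4) (x y : Fin 3 → ℍ[ℝ]) : qip (qrefl r x) (qrefl r y) = qip x y := by
  have e1 : (4 : ℍ[ℝ]) * ((1 / 2 : ℝ) • qip r y) = 2 * qip r y := by
    rw [four_eq, smul_mul_assoc, one_mul, smul_smul, two_mul, ← two_smul ℝ (qip r y)]
    norm_num
  have e : qip r (qrefl r y) = - qip r y := by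
    rw [qip_qrefl_right hr, hr, e1, two_mul]
    abel
  rw [qip_qrefl_left hr, e, qip_qrefl_right hr, mul_neg, mul_smul_comm, smul_mul_assoc]
  abel

theorem qrefl_qrefl {r : Fin 3 → ℍ[ℝ]} (hr : qip r r = 4) (x : Fin 3 → ℍ[ℝ]) : qrefl r (qrefl r x) = x := by
  have e : qip (qrefl r x) r = - qip x r := by
    rw [qip_qrefl_left hr, hr, smul_mul_four, two_mul]
    abel
  funext t
  simp only [qrefl, e]
  simp only [qrefl, smul_neg, neg_mul]
  abel

/-- The lattice as a type. -/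
abbrev L : Type := ↥icoLeech

/-- The reflection as a permutation. -/
noncomputable def rf (r : L) (hr : qip r.1 r.1 = 4) : Equiv.Perm L where
  toFun x := ⟨qrefl r.1 x.1, qrefl_mem r.2 x.2⟩
  invFun x := ⟨qrefl r.1 x.1, qrefl_mem r.2 x.2⟩
  left_inv x := Subtype.ext (qrefl_qrefl hr x.1)
  right_inv x := Subtype.ext (qrefl_qrefl hr x.1)

theorem rf_apply (r : L) (hr : qip r.1 r.1 = 4) (x : L) : (rf r hr x).1 = qrefl r.1 x.1 := rfl

theorem rf_isRefl (r : L) (hr : qip r.1 r.1 = 4) : IsIcoReflection (rf r hr) := ⟨r, hr, fun _ => rfl⟩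

theorem rf_mem (r : L) (hr : qip r.1 r.1 = 4) : rf r hr ∈ twoJ2 := Subgroup.subset_closure (rf_isRefl r hr)

/-- The group preserves the product. -/
theorem iso_of_mem {g : Equiv.Perm L} (hg : g ∈ twoJ2) : ∀ x y : L, qip (g x).1 (g y).1 = qip x.1 y.1 := by
  induction hg using Subgroup.closure_induction with
  | mem f hf =>
    obtain ⟨r, hr, e⟩ := hf
    intro x y
    rw [e, e]
    exact qip_qrefl hr _ _
  | one => intro x y; rfl
  | mul a b _ _ ha hb =>
    intro x y
    show qip (a (b x)).1 (a (b y)).1 = _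
    rw [ha, hb]
  | inv a _ ha =>
    intro x y
    have := ha (a⁻¹ x) (a⁻¹ y)
    have ei : ∀ z : L, a (a⁻¹ z) = z := fun z => by simp
    rw [ei, ei] at this
    exact this.symm

/-- The vector with a single entry two. -/
def e1V : V3 := (twoI, zr, zr)
/-- The vector with a single entry two. -/
def e2V : V3 := (zr, twoI, zr)
/-- The vector with a single entry two. -/
def e3V : V3 := (zr, zr, twoI)

/-- A lattice element from the model. -/
noncomputable def mk (X : V3) (h : inL X) : L := ⟨Ph X, leech_iff.mpr ⟨X, h, rfl⟩⟩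

theorem inL_e1 : inL e1V := by decide +kernel
theorem inL_e2 : inL e2V := by decide +kernel
theorem inL_e3 : inL e3V := by decide +kernel

/-- The vector with a single entry two. -/
noncomputable def E1 : L := mk e1V inL_e1
/-- The vector with a single entry two. -/
noncomputable def E2 : L := mk e2V inL_e2
/-- The vector with a single entry two. -/
noncomputable def E3 : L := mk e3V inL_e3

theorem qip_E1 (a : Fin 3 → ℍ[ℝ]) : qip a E1.1 = a 0 * 2 := by
  show qip a (Ph e1V) = _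
  unfold qip
  rw [Fin.sum_univ_three]
  show a 0 * star (ph twoI) + a 1 * star (ph zr) + a 2 * star (ph zr) = _
  rw [ph_two, ph_zr, star_two]
  simp

theorem qip_E2 (a : Fin 3 → ℍ[ℝ]) : qip a E2.1 = a 1 * 2 := by
  show qip a (Ph e2V) = _
  unfold qip
  rw [Fin.sum_univ_three]
  show a 0 * star (ph zr) + a 1 * star (ph twoI) + a 2 * star (ph zr) = _
  rw [ph_two, ph_zr, star_two]
  simp

theorem qip_E3 (a : Fin 3 → ℍ[ℝ]) : qip a E3.1 = a 2 * 2 := by
  show qip a (Ph e3V) = _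
  unfold qip
  rw [Fin.sum_univ_three]
  show a 0 * star (ph zr) + a 1 * star (ph zr) + a 2 * star (ph twoI) = _
  rw [ph_two, ph_zr, star_two]
  simp

theorem eq_of_ip3 {a b : Fin 3 → ℍ[ℝ]} (h1 : qip a E1.1 = qip b E1.1) (h2 : qip a E2.1 = qip b E2.1) (h3 : qip a E3.1 = qip b E3.1) : a = b := by
  rw [qip_E1, qip_E1] at h1
  rw [qip_E2, qip_E2] at h2
  rw [qip_E3, qip_E3] at h3
  funext t
  fin_cases t
  · exact mul_right_cancel₀ two_ne h1
  · exact mul_right_cancel₀ two_ne h2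
  · exact mul_right_cancel₀ two_ne h3

theorem eq_of_ip {a b : Fin 3 → ℍ[ℝ]} (h : ∀ y : L, qip a y.1 = qip b y.1) : a = b :=
  eq_of_ip3 (h _) (h _) (h _)

/-- An element fixing the three vectors is the identity. -/
theorem eq_one_of_fix {g : Equiv.Perm L} (hg : g ∈ twoJ2) (h1 : g E1 = E1) (h2 : g E2 = E2) (h3 : g E3 = E3) : g = 1 := by
  ext1 x
  apply Subtype.ext
  apply eq_of_ip3
  · have := iso_of_mem hg x E1
    rwa [h1] at this
  · have := iso_of_mem hg x E2
    rwa [h2] at this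
  · have := iso_of_mem hg x E3
    rwa [h3] at this

/-- Two elements agreeing on the three vectors agree. -/
theorem eq_of_agree {g h : Equiv.Perm L} (hg : g ∈ twoJ2) (hh : h ∈ twoJ2) (h1 : g E1 = h E1) (h2 : g E2 = h E2) (h3 : g E3 = h E3) : g = h := by
  have : h⁻¹ * g = 1 := by
    apply eq_one_of_fix (Subgroup.mul_mem _ (Subgroup.inv_mem _ hh) hg)
    · show h⁻¹ (g E1) = E1
      rw [h1]; simp
    · show h⁻¹ (g E2) = E2
      rw [h2]; simp
    · show h⁻¹ (g E3) = E3
      rw [h3]; simp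
  exact (inv_mul_eq_one.mp this).symm

/-- Left multiplication by an icosian. -/
noncomputable def lm (u : ℍ[ℝ]) (hu : u ∈ icosians) (x : L) : L := ⟨fun t => u * x.1 t, leech_lmul hu x.2⟩

/-- The group commutes with left multiplication by icosians. -/
theorem g_lm {g : Equiv.Perm L} (hg : g ∈ twoJ2) (u : ℍ[ℝ]) (hu : u ∈ icosians) (x : L) : g (lm u hu x) = lm u hu (g x) := by
  apply Subtype.ext
  apply eq_of_ip
  intro y
  have ei : ∀ z : L, g (g⁻¹ z) = z := fun z => by simp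
  have e1 : qip (g (lm u hu x)).1 y.1 = qip (lm u hu x).1 (g⁻¹ y).1 := by
    have := iso_of_mem hg (lm u hu x) (g⁻¹ y)
    rwa [ei] at this
  have e2 : qip (g x).1 y.1 = qip x.1 (g⁻¹ y).1 := by
    have := iso_of_mem hg x (g⁻¹ y)
    rwa [ei] at this
  rw [e1]
  show qip (fun t => u * x.1 t) _ = qip (fun t => u * (g x).1 t) y.1
  rw [qip_lmul_left, qip_lmul_left, e2]

/-- The conjugate of a reflection is a reflection. -/
theorem conj_refl {g f : Equiv.Perm L} (hg : g ∈ twoJ2) {r : L} (hr : qip r.1 r.1 = 4) (hf : ∀ x : L, (f x).1 = qrefl r.1 x.1) :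
    ∀ x : L, ((g * f * g⁻¹) x).1 = qrefl (g r).1 x.1 := by
  intro x
  apply eq_of_ip
  intro y
  show qip (g (f (g⁻¹ x))).1 y.1 = _
  have hgr : qip (g r).1 (g r).1 = 4 := by rw [iso_of_mem hg, hr]
  rw [qip_qrefl_left hgr]
  have ei : ∀ z : L, g (g⁻¹ z) = z := fun z => by simp
  have e0 : qip (g (f (g⁻¹ x))).1 y.1 = qip (g (f (g⁻¹ x))).1 (g (g⁻¹ y)).1 := by rw [ei]
  rw [e0, iso_of_mem hg, hf, qip_qrefl_left hr]
  have e1 : qip x.1 (g r).1 = qip (g⁻¹ x).1 r.1 := by
    have := iso_of_mem hg (g⁻¹ x) r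
    rwa [ei] at this
  have e2 : qip x.1 y.1 = qip (g⁻¹ x).1 (g⁻¹ y).1 := by
    have := iso_of_mem hg (g⁻¹ x) (g⁻¹ y)
    rwa [ei, ei] at this
  have e3 : qip (g r).1 y.1 = qip r.1 (g⁻¹ y).1 := by
    have := iso_of_mem hg r (g⁻¹ y)
    rwa [ei] at this
  rw [e1, e2, e3]

end Cfsg.Agent.H02.JB
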