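import Cfsg.Agent.Lib.H02.JB

/-!
Enumerating the vectors of norm four of the icosian lattice: definitions and the reduction to a finite check.
-/

set_option autoImplicit false
set_option maxRecDepth 100000

namespace Cfsg.Agent.H02.JC

open Cfsg.Spor Quaternion Cfsg.Agent.H02.JA Cfsg.Agent.H02.JB

/-- A digit. -/
def dg (c k : ℕ) : ℤ := Int.subNatNat (c / k % 16) 4

/-- Decode an icosian. -/
def dI (c : ℕ) : I8 := ⟨dg c 1, dg c 16, dg c 256, dg c 4096, dg c 65536, dg c 1048576, dg c 16777216, dg c 268435456⟩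

/-- Encode an icosian. -/
def enc (x : I8) : ℕ :=
  (x.a0 + 4).toNat + 16 * (x.a1 + 4).toNat + 256 * (x.b0 + 4).toNat + 4096 * (x.b1 + 4).toNat +
    65536 * (x.c0 + 4).toNat + 1048576 * (x.c1 + 4).toNat + 16777216 * (x.d0 + 4).toNat + 268435456 * (x.d1 + 4).toNat

/-- The entries are small. -/
def bnd (x : I8) : Prop :=
  (-4 ≤ x.a0 ∧ x.a0 ≤ 4) ∧ (-4 ≤ x.a1 ∧ x.a1 ≤ 4) ∧ (-4 ≤ x.b0 ∧ x.b0 ≤ 4) ∧ (-4 ≤ x.b1 ∧ x.b1 ≤ 4) ∧
  (-4 ≤ x.c0 ∧ x.c0 ≤ 4) ∧ (-4 ≤ x.c1 ∧ x.c1 ≤ 4) ∧ (-4 ≤ x.d0 ∧ x.d0 ≤ 4) ∧ (-4 ≤ x.d1 ∧ x.d1 ≤ 4)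

theorem dg_eq (c k : ℕ) : dg c k = ((c / k % 16 : ℕ) : ℤ) - 4 := by
  unfold dg
  rw [Int.subNatNat_eq_coe]
  rfl

theorem digs (n0 n1 n2 n3 n4 n5 n6 n7 : ℕ) (h0 : n0 < 16) (h1 : n1 < 16) (h2 : n2 < 16) (h3 : n3 < 16) (h4 : n4 < 16) (h5 : n5 < 16)
    (h6 : n6 < 16) (h7 : n7 < 16) (c : ℕ) (hc : c = n0 + 16 * n1 + 256 * n2 + 4096 * n3 + 65536 * n4 + 1048576 * n5 + 16777216 * n6 + 268435456 * n7) :
    c / 1 % 16 = n0 ∧ c / 16 % 16 = n1 ∧ c / 256 % 16 = n2 ∧ c / 4096 % 16 = n3 ∧ c / 65536 % 16 = n4 ∧ c / 1048576 % 16 = n5 ∧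
      c / 16777216 % 16 = n6 ∧ c / 268435456 % 16 = n7 := by
  refine ⟨?_, ?_, ?_, ?_, ?_, ?_, ?_, ?_⟩ <;> omega

theorem dI_enc {x : I8} (h : bnd x) : dI (enc x) = x := by
  obtain ⟨⟨h1, h2⟩, ⟨h3, h4⟩, ⟨h5, h6⟩, ⟨h7, h8⟩, ⟨h9, h10⟩, ⟨h11, h12⟩, ⟨h13, h14⟩, ⟨h15, h16⟩⟩ := h
  obtain ⟨e0, e1, e2, e3, e4, e5, e6, e7⟩ := digs (x.a0 + 4).toNat (x.a1 + 4).toNat (x.b0 + 4).toNat (x.b1 + 4).toNat (x.c0 + 4).toNat (x.c1 + 4).toNat
    (x.d0 + 4).toNat (x.d1 + 4).toNat (by omega) (by omega) (by omega) (by omega) (by omega) (by omega) (by omega) (by omega) (enc x) rfl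
  unfold dI
  simp only [dg_eq]
  rw [e0, e1, e2, e3, e4, e5, e6, e7]
  apply I8.ext <;> show _ = _ <;> simp only [] <;> omega

theorem bnd_of_sq {v : ℤ} (h : v * v ≤ 16) : -4 ≤ v ∧ v ≤ 4 := by
  constructor <;> nlinarith

theorem AA_nonneg (x : I8) : 0 ≤ AA x := by
  unfold AA
  have h1 := mul_self_nonneg x.a0
  have h2 := mul_self_nonneg x.a1
  have h3 := mul_self_nonneg x.b0
  have h4 := mul_self_nonneg x.b1
  have h5 := mul_self_nonneg x.c0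
  have h6 := mul_self_nonneg x.c1
  have h7 := mul_self_nonneg x.d0
  have h8 := mul_self_nonneg x.d1
  linarith

theorem bnd_of_AA {x : I8} (h : AA x ≤ 16) : bnd x := by
  unfold AA at h
  have h1 := mul_self_nonneg x.a0
  have h2 := mul_self_nonneg x.a1
  have h3 := mul_self_nonneg x.b0
  have h4 := mul_self_nonneg x.b1
  have h5 := mul_self_nonneg x.c0
  have h6 := mul_self_nonneg x.c1
  have h7 := mul_self_nonneg x.d0
  have h8 := mul_self_nonneg x.d1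
  exact ⟨bnd_of_sq (by linarith), bnd_of_sq (by linarith), bnd_of_sq (by linarith), bnd_of_sq (by linarith),
    bnd_of_sq (by linarith), bnd_of_sq (by linarith), bnd_of_sq (by linarith), bnd_of_sq (by linarith)⟩

/-- The class key modulo the left ideal. -/
def ck (x : I8) : ℕ :=
  (((mulR x kI).a0 % 4).toNat) + 4 * (((mulR x kI).a1 % 4).toNat) + 16 * (((mulR x kI).b0 % 4).toNat) +
  64 * (((mulR x kI).b1 % 4).toNat) + 256 * (((mulR x kI).c0 % 4).toNat) + 1024 * (((mulR x kI).c1 % 4).toNat) +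
  4096 * (((mulR x kI).d0 % 4).toNat) + 16384 * (((mulR x kI).d1 % 4).toNat)

theorem mulR_sub_left (x x' y : I8) : mulR (x - x') y = mulR x y - mulR x' y := by
  ext <;> simp only [mulR, sub_def, rm0, rm1] <;> ring

theorem ck_eq {x y : I8} (h : idl (mulR (x - y) kI)) : ck x = ck y := by
  obtain ⟨⟨h1, h2, h3, h4, h5, h6, h7, h8⟩, -⟩ := h
  rw [mulR_sub_left] at h1 h2 h3 h4 h5 h6 h7 h8
  simp only [sub_def] at h1 h2 h3 h4 h5 h6 h7 h8
  unfold ck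
  generalize mulR x kI = P at *
  generalize mulR y kI = Q at *
  have key : ∀ a b : ℤ, (4 : ℤ) ∣ a - b → a % 4 = b % 4 := by
    intro a b h
    omega
  rw [key _ _ h1, key _ _ h2, key _ _ h3, key _ _ h4, key _ _ h5, key _ _ h6, key _ _ h7, key _ _ h8]

/-- Values with squares and parities. -/
def vs : List (ℤ × ℕ × ℕ) := [(-4, 16, 0), (-3, 9, 1), (-2, 4, 0), (-1, 1, 1), (0, 0, 0), (1, 1, 1), (2, 4, 0), (3, 9, 1), (4, 16, 0)]

/-- The even values. -/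
def vsE : List (ℤ × ℕ × ℕ) := [(-4, 16, 0), (-2, 4, 0), (0, 0, 0), (2, 4, 0), (4, 16, 0)]

/-- The odd values. -/
def vsO : List (ℤ × ℕ × ℕ) := [(-3, 9, 1), (-1, 1, 1), (1, 1, 1), (3, 9, 1)]

/-- The values of a given parity. -/
def vsP (n : ℕ) : List (ℤ × ℕ × ℕ) := cond (Nat.beq (n % 2) 0) vsE vsO

theorem mem_vs (v : ℤ) (h : -4 ≤ v ∧ v ≤ 4) : ∃ n q : ℕ, (v, n, q) ∈ vs ∧ (n : ℤ) = v * v ∧ (q : ℤ) = v % 2 := by
  obtain ⟨h1, h2⟩ := h
  interval_cases v <;> first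
    | exact ⟨16, 0, by decide, by norm_num, by norm_num⟩
    | exact ⟨9, 1, by decide, by norm_num, by norm_num⟩
    | exact ⟨4, 0, by decide, by norm_num, by norm_num⟩
    | exact ⟨1, 1, by decide, by norm_num, by norm_num⟩
    | exact ⟨0, 0, by decide, by norm_num, by norm_num⟩

theorem mem_vsP {p : ℤ × ℕ × ℕ} (hp : p ∈ vs) {n : ℕ} (hn : n % 2 = p.2.2) : p ∈ vsP n := by
  have h1 : ∀ p ∈ vs, (p.2.2 = 0 ∧ p ∈ vsE) ∨ (p.2.2 = 1 ∧ p ∈ vsO) := by decide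
  unfold vsP
  rcases h1 p hp with ⟨a, b⟩ | ⟨a, b⟩
  · have e0 : n % 2 = 0 := by omega
    have : Nat.beq (n % 2) 0 = true := by
      rw [e0]
      rfl
    rw [this]
    exact b
  · have : Nat.beq (n % 2) 0 = false := by
      rw [Bool.eq_false_iff]
      intro e
      have := Nat.eq_of_beq_eq_true e
      omega
    rw [this]
    exact b

/-- The pruned loops over six of the entries. -/
def sub6 (t : I8 → Bool) (p0 p1 : ℤ × ℕ × ℕ) : Bool :=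
  vs.all fun p2 => cond (Nat.ble p2.2.1 (16 - p0.2.1 - p1.2.1)) (
  vs.all fun p3 => cond (Nat.ble p3.2.1 (16 - p0.2.1 - p1.2.1 - p2.2.1)) (
  (vsP (p1.2.2 + p2.2.2 + p3.2.2)).all fun p4 => cond (Nat.ble p4.2.1 (16 - p0.2.1 - p1.2.1 - p2.2.1 - p3.2.1)) (
  (vsP (p0.2.2 + p1.2.2 + p2.2.2)).all fun p5 => cond (Nat.ble p5.2.1 (16 - p0.2.1 - p1.2.1 - p2.2.1 - p3.2.1 - p4.2.1)) (
  (vsP (p0.2.2 + p1.2.2 + p3.2.2)).all fun p6 => cond (Nat.ble p6.2.1 (16 - p0.2.1 - p1.2.1 - p2.2.1 - p3.2.1 - p4.2.1 - p5.2.1)) (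
  (vsP (p0.2.2 + p2.2.2 + p3.2.2)).all fun p7 => cond (Nat.ble p7.2.1 (16 - p0.2.1 - p1.2.1 - p2.2.1 - p3.2.1 - p4.2.1 - p5.2.1 - p6.2.1))
    (t ⟨p0.1, p1.1, p2.1, p3.1, p4.1, p5.1, p6.1, p7.1⟩) true
  ) true) true) true) true) true

theorem cond_step {b t : Bool} (h : cond b t true = true) (hb : b = true) : t = true := by
  subst hb
  exact h

theorem par4 {a b c d : ℤ} {qa qb qc qd : ℕ} (h : (2 : ℤ) ∣ a + b + c + d) (e1 : (qa : ℤ) = a % 2) (e2 : (qb : ℤ) = b % 2)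
    (e3 : (qc : ℤ) = c % 2) (e4 : (qd : ℤ) = d % 2) : (qa + qb + qc) % 2 = qd := by
  omega

theorem budgets (n0 n1 n2 n3 n4 n5 n6 n7 : ℕ) (hs : n0 + n1 + n2 + n3 + n4 + n5 + n6 + n7 ≤ 16) :
    n0 + n1 ≤ 16 ∧ n2 ≤ 16 - n0 - n1 ∧ n3 ≤ 16 - n0 - n1 - n2 ∧ n4 ≤ 16 - n0 - n1 - n2 - n3 ∧ n5 ≤ 16 - n0 - n1 - n2 - n3 - n4 ∧
      n6 ≤ 16 - n0 - n1 - n2 - n3 - n4 - n5 ∧ n7 ≤ 16 - n0 - n1 - n2 - n3 - n4 - n5 - n6 := by
  omega

theorem all8_spec {t : I8 → Bool} (h : ∀ p0 ∈ vs, ∀ p1 ∈ vs, p0.2.1 + p1.2.1 ≤ 16 → sub6 t p0 p1 = true) {x : I8} (hS : inS x) (hA : AA x ≤ 16) : t x = true := by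
  obtain ⟨b1, b2, b3, b4, b5, b6, b7, b8⟩ := bnd_of_AA hA
  obtain ⟨n0, q0, m0, e0, f0⟩ := mem_vs _ b1
  obtain ⟨n1, q1, m1, e1, f1⟩ := mem_vs _ b2
  obtain ⟨n2, q2, m2, e2, f2⟩ := mem_vs _ b3
  obtain ⟨n3, q3, m3, e3, f3⟩ := mem_vs _ b4
  obtain ⟨n4, q4, m4, e4, f4⟩ := mem_vs _ b5
  obtain ⟨n5, q5, m5, e5, f5⟩ := mem_vs _ b6
  obtain ⟨n6, q6, m6, e6, f6⟩ := mem_vs _ b7
  obtain ⟨n7, q7, m7, e7, f7⟩ := mem_vs _ b8
  have hs : n0 + n1 + n2 + n3 + n4 + n5 + n6 + n7 ≤ 16 := by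
    unfold AA at hA
    rw [← e0, ← e1, ← e2, ← e3, ← e4, ← e5, ← e6, ← e7] at hA
    exact_mod_cast hA
  obtain ⟨s1, s2, s3, s4⟩ := hS
  have m4' := mem_vsP m4 (n := q1 + q2 + q3) (par4 s1 f1 f2 f3 f4)
  have m5' := mem_vsP m5 (n := q0 + q1 + q2) (par4 s2 f0 f1 f2 f5)
  have m6' := mem_vsP m6 (n := q0 + q1 + q3) (par4 s3 f0 f1 f3 f6)
  have m7' := mem_vsP m7 (n := q0 + q2 + q3) (par4 s4 f0 f2 f3 f7)
  obtain ⟨u1, u2, u3, u4, u5, u6, u7⟩ := budgets n0 n1 n2 n3 n4 n5 n6 n7 hs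
  have h1 := h _ m0 _ m1 u1
  unfold sub6 at h1
  have h2 := cond_step (List.all_eq_true.mp h1 _ m2) (Nat.ble_eq.mpr u2)
  have h3 := cond_step (List.all_eq_true.mp h2 _ m3) (Nat.ble_eq.mpr u3)
  have h4 := cond_step (List.all_eq_true.mp h3 _ m4') (Nat.ble_eq.mpr u4)
  have h5 := cond_step (List.all_eq_true.mp h4 _ m5') (Nat.ble_eq.mpr u5)
  have h6 := cond_step (List.all_eq_true.mp h5 _ m6') (Nat.ble_eq.mpr u6)
  exact cond_step (List.all_eq_true.mp h6 _ m7') (Nat.ble_eq.mpr u7)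

/-- A group of icosians with the values of the two forms. -/
abbrev Grp : Type := ℤ × ℤ × List ℕ

/-- Look for the class. -/
def lkp (D : List (ℕ × List Grp)) (c : ℕ) : List Grp :=
  match D with
  | [] => []
  | a :: D => cond (Nat.beq a.1 c) a.2 (lkp D c)

/-- Membership in the table. -/
def memG (D : List (ℕ × List Grp)) (x : I8) : Bool :=
  (lkp D (ck x)).any fun g => decide (g.1 = AA x) && decide (g.2.1 = BB x) && g.2.2.contains (enc x)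

/-- The triples in a class. -/
def enC (L : List Grp) : List ℕ :=
  L.flatMap fun g1 => L.flatMap fun g2 =>
    (L.filter fun g3 => decide (g3.1 = 16 - g1.1 - g2.1) && decide (g3.2.1 = -g1.2.1 - g2.2.1)).flatMap fun g3 =>
      g1.2.2.flatMap fun x => g2.2.2.flatMap fun y => g3.2.2.filterMap fun z =>
        if idl (mulR (dI x + dI y + dI z) hI) then some (x + y * 4294967296 + z * 18446744073709551616) else none

/-- The code of a vector. -/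
def enc3 (X : V3) : ℕ := enc X.1 + enc X.2.1 * 4294967296 + enc X.2.2 * 18446744073709551616

/-- Decode a vector. -/
def dV (c : ℕ) : V3 := (dI (c % 4294967296), dI (c / 4294967296 % 4294967296), dI (c / 18446744073709551616))

theorem enc_lt (x : I8) (h : bnd x) : enc x < 4294967296 := by
  obtain ⟨⟨h1, h2⟩, ⟨h3, h4⟩, ⟨h5, h6⟩, ⟨h7, h8⟩, ⟨h9, h10⟩, ⟨h11, h12⟩, ⟨h13, h14⟩, ⟨h15, h16⟩⟩ := h
  unfold enc
  omega

theorem dV_enc3 {X : V3} (h0 : bnd X.1) (h1 : bnd X.2.1) (h2 : bnd X.2.2) : dV (enc3 X) = X := by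
  have l0 := enc_lt _ h0
  have l1 := enc_lt _ h1
  have l2 := enc_lt _ h2
  have e0 : enc3 X % 4294967296 = enc X.1 := by unfold enc3; omega
  have e1 : enc3 X / 4294967296 % 4294967296 = enc X.2.1 := by unfold enc3; omega
  have e2 : enc3 X / 18446744073709551616 = enc X.2.2 := by unfold enc3; omega
  unfold dV
  rw [e0, e1, e2, dI_enc h0, dI_enc h1, dI_enc h2]

theorem lkp_mem (D : List (ℕ × List Grp)) (c : ℕ) : lkp D c = [] ∨ ∃ a ∈ D, lkp D c = a.2 := by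
  induction D with
  | nil => exact Or.inl rfl
  | cons a D ih =>
    unfold lkp
    cases h : Nat.beq a.1 c with
    | true => exact Or.inr ⟨a, List.mem_cons_self, rfl⟩
    | false =>
      rcases ih with e | ⟨b, hb, e⟩
      · exact Or.inl e
      · exact Or.inr ⟨b, List.mem_cons_of_mem _ hb, e⟩

/-- The multiple by an icosian in the model. -/
def lmulV (u : I8) (v : V3) : V3 := (hf (mulR u v.1), hf (mulR u v.2.1), hf (mulR u v.2.2))

/-- The check of the decomposition of the list into lines. -/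
def chkP (U R : List ℕ) : List ℕ → List ℕ → Bool
  | [], _ => true
  | _ :: _, [] => false
  | t :: T, p :: P =>
    decide (dV t = lmulV (dI (U.getD (p % 120) 0)) (dV (R.getD (p / 120) 0))) && Nat.blt (p / 120) 315 && chkP U R T P

theorem chkP_spec {U R : List ℕ} {T P : List ℕ} (h : chkP U R T P = true) :
    ∀ v ∈ T, ∃ j < 315, ∃ u < 120, dV v = lmulV (dI (U.getD u 0)) (dV (R.getD j 0)) := by
  induction T generalizing P with
  | nil => simp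
  | cons t T ih =>
    cases P with
    | nil => simp [chkP] at h
    | cons p P =>
      simp only [chkP, Bool.and_eq_true, decide_eq_true_eq] at h
      intro v hv
      rcases List.mem_cons.mp hv with rfl | hv
      · exact ⟨p / 120, Nat.le_of_ble_eq_true h.1.2, p % 120, Nat.mod_lt _ (by norm_num), h.1.1⟩
      · exact ih h.2 v hv

/-- The vector of norm four is in the enumeration of its class. -/
theorem enum_mem {D : List (ℕ × List Grp)} (hb : ∀ p0 ∈ vs, ∀ p1 ∈ vs, p0.2.1 + p1.2.1 ≤ 16 → sub6 (memG D) p0 p1 = true) {X : V3} (hX : inL X)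
    (hA : AA X.1 + (AA X.2.1 + AA X.2.2) = 16) (hB : BB X.1 + (BB X.2.1 + BB X.2.2) = 0) :
    enc3 X ∈ enC (lkp D (ck X.1)) := by
  obtain ⟨h0, h1, h2, h3, h4, h5⟩ := hX
  have a0 := AA_nonneg X.1
  have a1 := AA_nonneg X.2.1
  have a2 := AA_nonneg X.2.2
  have l0 : AA X.1 ≤ 16 := by omega
  have l1 : AA X.2.1 ≤ 16 := by omega
  have l2 : AA X.2.2 ≤ 16 := by omega
  have key : ∀ x : I8, inS x → AA x ≤ 16 → ∃ g ∈ lkp D (ck x), g.1 = AA x ∧ g.2.1 = BB x ∧ enc x ∈ g.2.2 := by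
    intro x hx hl
    have := all8_spec hb hx hl
    obtain ⟨g, hg, e⟩ := List.any_eq_true.mp this
    simp only [Bool.and_eq_true, decide_eq_true_eq, List.contains_iff_mem] at e
    exact ⟨g, hg, e.1.1, e.1.2, e.2⟩
  obtain ⟨g1, m1, p1, q1, r1⟩ := key _ h0 l0
  obtain ⟨g2, m2, p2, q2, r2⟩ := key _ h1 l1
  obtain ⟨g3, m3, p3, q3, r3⟩ := key _ h2 l2
  have c1 : ck X.1 = ck X.2.1 := ck_eq h3
  have c2 : ck X.2.1 = ck X.2.2 := ck_eq h4
  rw [← c1] at m2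
  rw [← c2, ← c1] at m3
  unfold enC
  refine List.mem_flatMap.mpr ⟨g1, m1, List.mem_flatMap.mpr ⟨g2, m2, List.mem_flatMap.mpr ⟨g3, ?_, ?_⟩⟩⟩
  · refine List.mem_filter.mpr ⟨m3, ?_⟩
    simp only [Bool.and_eq_true, decide_eq_true_eq]
    constructor <;> omega
  · refine List.mem_flatMap.mpr ⟨_, r1, List.mem_flatMap.mpr ⟨_, r2, List.mem_filterMap.mpr ⟨_, r3, ?_⟩⟩⟩
    rw [dI_enc (bnd_of_AA l0), dI_enc (bnd_of_AA l1), dI_enc (bnd_of_AA l2)]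
    rw [if_pos h5]
    rfl

end Cfsg.Agent.H02.JC
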