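import Cfsg.Agent.Lib.H02.JD0

/-!
The table of small icosians, by class and the values of the two forms.
-/

set_option autoImplicit false
set_option Elab.async false
set_option maxRecDepth 1000000
set_option maxHeartbeats 0

namespace Cfsg.Agent.H02.JD

open Cfsg.Agent.H02.JA Cfsg.Agent.H02.JB Cfsg.Agent.H02.JC 

/-- A class. -/
theorem c25 : sub6 (memG GD) (0, 0, 0) (1, 1, 1) = true := by decide +kernel
theorem c26 : sub6 (memG GD) (0, 0, 0) (2, 4, 0) = true := by decide +kernel
theorem c27 : sub6 (memG GD) (0, 0, 0) (3, 9, 1) = true := by decide +kernel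
theorem c28 : sub6 (memG GD) (0, 0, 0) (4, 16, 0) = true := by decide +kernel
theorem c29 : sub6 (memG GD) (1, 1, 1) (-3, 9, 1) = true := by decide +kernel
theorem c30 : sub6 (memG GD) (1, 1, 1) (-2, 4, 0) = true := by decide +kernel
theorem c31 : sub6 (memG GD) (1, 1, 1) (-1, 1, 1) = true := by decide +kernel
theorem c32 : sub6 (memG GD) (1, 1, 1) (0, 0, 0) = true := by decide +kernel
theorem c33 : sub6 (memG GD) (1, 1, 1) (1, 1, 1) = true := by decide +kernel
theorem c34 : sub6 (memG GD) (1, 1, 1) (2, 4, 0) = true := by decide +kernel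
theorem c35 : sub6 (memG GD) (1, 1, 1) (3, 9, 1) = true := by decide +kernel
theorem c36 : sub6 (memG GD) (2, 4, 0) (-3, 9, 1) = true := by decide +kernel

end Cfsg.Agent.H02.JD
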