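import Cfsg.Agent.Lib.H02.JD1
import Cfsg.Agent.Lib.H02.JD2
import Cfsg.Agent.Lib.H02.JD3
import Cfsg.Agent.Lib.H02.JD4

/-!
The table of small icosians, by class and the values of the two forms.
-/

set_option autoImplicit false
set_option Elab.async false
set_option maxRecDepth 1000000
set_option maxHeartbeats 0

namespace Cfsg.Agent.H02.JD

open Cfsg.Agent.H02.JA Cfsg.Agent.H02.JB Cfsg.Agent.H02.JC 

/-- A class. -/
theorem box : ∀ p0 ∈ vs, ∀ p1 ∈ vs, p0.2.1 + p1.2.1 ≤ 16 → sub6 (memG GD) p0 p1 = true := by
  intro p0 h0 p1 h1 h
  simp only [vs, List.mem_cons, List.not_mem_nil, or_false] at h0 h1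
  rcases h0 with rfl | rfl | rfl | rfl | rfl | rfl | rfl | rfl | rfl <;> rcases h1 with rfl | rfl | rfl | rfl | rfl | rfl | rfl | rfl | rfl
  · exact absurd h (by decide)
  · exact absurd h (by decide)
  · exact absurd h (by decide)
  · exact absurd h (by decide)
  · exact c0
  · exact absurd h (by decide)
  · exact absurd h (by decide)
  · exact absurd h (by decide)
  · exact absurd h (by decide)
  · exact absurd h (by decide)
  · exact absurd h (by decide)
  · exact c1
  · exact c2
  · exact c3
  · exact c4
  · exact c5
  · exact absurd h (by decide)
  · exact absurd h (by decide)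
  · exact absurd h (by decide)
  · exact c6
  · exact c7
  · exact c8
  · exact c9
  · exact c10
  · exact c11
  · exact c12
  · exact absurd h (by decide)
  · exact absurd h (by decide)
  · exact c13
  · exact c14
  · exact c15
  · exact c16
  · exact c17
  · exact c18
  · exact c19
  · exact absurd h (by decide)
  · exact c20
  · exact c21
  · exact c22
  · exact c23
  · exact c24
  · exact c25
  · exact c26
  · exact c27
  · exact c28
  · exact absurd h (by decide)
  · exact c29
  · exact c30
  · exact c31
  · exact c32
  · exact c33
  · exact c34
  · exact c35
  · exact absurd h (by decide)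
  · exact absurd h (by decide)
  · exact c36
  · exact c37
  · exact c38
  · exact c39
  · exact c40
  · exact c41
  · exact c42
  · exact absurd h (by decide)
  · exact absurd h (by decide)
  · exact absurd h (by decide)
  · exact c43
  · exact c44
  · exact c45
  · exact c46
  · exact c47
  · exact absurd h (by decide)
  · exact absurd h (by decide)
  · exact absurd h (by decide)
  · exact absurd h (by decide)
  · exact absurd h (by decide)
  · exact absurd h (by decide)
  · exact c48
  · exact absurd h (by decide)
  · exact absurd h (by decide)
  · exact absurd h (by decide)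
  · exact absurd h (by decide)

end Cfsg.Agent.H02.JD
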