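import Cfsg.Agent.Lib.H02.JD0

/-!
The table of small icosians, by class and the values of the two forms.
-/

set_option autoImplicit false
set_option Elab.async false
set_option maxRecDepth 1000000
set_option maxHeartbeats 0

namespace Cfsg.Agent.H02.JD

open Cfsg.Agent.H02.JA Cfsg.Agent.H02.JB Cfsg.Agent.H02.JC 

/-- A class. -/
theorem c0 : sub6 (memG GD) (-4, 16, 0) (0, 0, 0) = true := by decide +kernel
theorem c1 : sub6 (memG GD) (-3, 9, 1) (-2, 4, 0) = true := by decide +kernel
theorem c2 : sub6 (memG GD) (-3, 9, 1) (-1, 1, 1) = true := by decide +kernel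
theorem c3 : sub6 (memG GD) (-3, 9, 1) (0, 0, 0) = true := by decide +kernel
theorem c4 : sub6 (memG GD) (-3, 9, 1) (1, 1, 1) = true := by decide +kernel
theorem c5 : sub6 (memG GD) (-3, 9, 1) (2, 4, 0) = true := by decide +kernel
theorem c6 : sub6 (memG GD) (-2, 4, 0) (-3, 9, 1) = true := by decide +kernel
theorem c7 : sub6 (memG GD) (-2, 4, 0) (-2, 4, 0) = true := by decide +kernel
theorem c8 : sub6 (memG GD) (-2, 4, 0) (-1, 1, 1) = true := by decide +kernel
theorem c9 : sub6 (memG GD) (-2, 4, 0) (0, 0, 0) = true := by decide +kernel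
theorem c10 : sub6 (memG GD) (-2, 4, 0) (1, 1, 1) = true := by decide +kernel
theorem c11 : sub6 (memG GD) (-2, 4, 0) (2, 4, 0) = true := by decide +kernel
theorem c12 : sub6 (memG GD) (-2, 4, 0) (3, 9, 1) = true := by decide +kernel

end Cfsg.Agent.H02.JD
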