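import Cfsg.Agent.Lib.H02.JD
import Cfsg.Agent.Lib.H02.JE

/-!
Vectors of norm four: unit multiples of 315 lines; the reflection formula in the model; words.
-/

set_option autoImplicit false
set_option maxRecDepth 100000

namespace Cfsg.Agent.H02.JF

open Cfsg.Spor Quaternion Cfsg.Agent.H02.JA Cfsg.Agent.H02.JB Cfsg.Agent.H02.JC Cfsg.Agent.H02.JD Cfsg.Agent.H02.JE

/-- A unit. -/
def Un (u : ℕ) : I8 := dI (Ul.getD u 0)

/-- A line. -/
def Rn (j : ℕ) : V3 := dV (Rl.getD j 0)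

theorem hf_sc (z : I8) : hf (sc 2 z) = z := by
  ext <;> simp only [hf, sc] <;> omega

theorem qt_sc (z : I8) : qt (sc 4 z) = z := by
  ext <;> simp only [qt, sc] <;> omega

/-- The multiple in the model. -/
theorem Ph_lmulV {u : I8} (hu : inS u) {v : V3} (hv : inL v) : Ph (lmulV u v) = fun t => ph u * Ph v t := by
  obtain ⟨h0, h1, h2, -⟩ := hv
  obtain ⟨z0, e0, -⟩ := good_all hu h0
  obtain ⟨z1, e1, -⟩ := good_all hu h1
  obtain ⟨z2, e2, -⟩ := good_all hu h2
  funext t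
  fin_cases t
  · show ph (hf (mulR u v.1)) = ph u * ph v.1
    rw [ph_mul_of e0, e0, hf_sc]
  · show ph (hf (mulR u v.2.1)) = ph u * ph v.2.1
    rw [ph_mul_of e1, e1, hf_sc]
  · show ph (hf (mulR u v.2.2)) = ph u * ph v.2.2
    rw [ph_mul_of e2, e2, hf_sc]

/-- Vectors of norm four have a code in the list. -/
theorem min_code {X : V3} (hX : inL X) (hn : ipR X X = sixt) :
    (∃ j < 315, ∃ u < 120, X = lmulV (Un u) (Rn j)) ∧ ∃ l ∈ Tall, enc3 X ∈ l := by
  obtain ⟨hA, hB⟩ := (norm_iff X).mp hn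
  have h := enum_mem box hX hA hB
  have a0 := AA_nonneg X.1
  have a1 := AA_nonneg X.2.1
  have a2 := AA_nonneg X.2.2
  have ed := dV_enc3 (X := X) (bnd_of_AA (by omega)) (bnd_of_AA (by omega)) (bnd_of_AA (by omega))
  rcases lkp_mem GD (ck X.1) with e | ⟨a, ha, e⟩
  · rw [e] at h
    simp [enC] at h
  · rw [e] at h
    constructor
    · obtain ⟨j, hj, u, hu, e2⟩ := all_lines a ha _ h
      rw [ed] at e2
      exact ⟨j, hj, u, hu, e2⟩
    · exact all_T a ha _ h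

theorem Un_ok : ∀ u < 120, inS (Un u) ∧ mulR (Un u) (st (Un u)) = ⟨4, 0, 0, 0, 0, 0, 0, 0⟩ := by
  decide +kernel

theorem Rn_ok : ∀ j < 315, inL (Rn j) ∧ ipR (Rn j) (Rn j) = sixt := by
  decide +kernel

theorem Un_inj : ∀ u < 120, ∀ v < 120, Un u = Un v → u = v := by
  decide +kernel

/-- The reflection in the model. -/
def reflM (r x : V3) : V3 :=
  (x.1 - hf (mulR (qt (ipR x r)) r.1), x.2.1 - hf (mulR (qt (ipR x r)) r.2.1), x.2.2 - hf (mulR (qt (ipR x r)) r.2.2))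

theorem Ph_reflM {r x : V3} (hr : inL r) (hx : inL x) : Ph (reflM r x) = qrefl (Ph r) (Ph x) := by
  obtain ⟨E, hE, e⟩ := ip_two (leech_iff.mpr ⟨x, hx, rfl⟩) (leech_iff.mpr ⟨r, hr, rfl⟩)
  obtain ⟨A, hA, rfl⟩ := exists_of_icos hE
  have e1 : ipR x r = sc 4 A := by
    apply ph_inj
    rw [qip_Ph] at e
    have e2 : ph (ipR x r) = (2 : ℝ) • ((1 / 2 : ℝ) • ph (ipR x r)) := by
      rw [smul_smul]; norm_num
    rw [e2, e, ph_sc, two_mul]
    push_cast
    module
  have e3 : qt (ipR x r) = A := by rw [e1, qt_sc]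
  have e4 : (1 / 2 : ℝ) • qip (Ph x) (Ph r) = ph A := by rw [e, half_two]
  obtain ⟨h0, h1, h2, -⟩ := hr
  obtain ⟨z0, f0, -⟩ := good_all hA h0
  obtain ⟨z1, f1, -⟩ := good_all hA h1
  obtain ⟨z2, f2, -⟩ := good_all hA h2
  funext t
  simp only [qrefl, e4]
  fin_cases t
  · show ph (x.1 - hf (mulR (qt (ipR x r)) r.1)) = ph x.1 - ph A * ph r.1
    rw [e3, ph_sub, ph_mul_of f0, f0, hf_sc]
  · show ph (x.2.1 - hf (mulR (qt (ipR x r)) r.2.1)) = ph x.2.1 - ph A * ph r.2.1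
    rw [e3, ph_sub, ph_mul_of f1, f1, hf_sc]
  · show ph (x.2.2 - hf (mulR (qt (ipR x r)) r.2.2)) = ph x.2.2 - ph A * ph r.2.2
    rw [e3, ph_sub, ph_mul_of f2, f2, hf_sc]

theorem inL_reflM {r x : V3} (hr : inL r) (hx : inL x) : inL (reflM r x) := by
  have h := qrefl_mem (leech_iff.mpr ⟨r, hr, rfl⟩) (leech_iff.mpr ⟨x, hx, rfl⟩)
  obtain ⟨Y, hY, e⟩ := leech_iff.mp h
  rw [← Ph_reflM hr hx] at e
  rwa [Ph_inj e]

/-- The reflection in a line. -/
noncomputable def fR (j : ℕ) : Equiv.Perm L :=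
  if h : j < 315 then rf (mk (Rn j) (Rn_ok j h).1) ((qip_four_iff _).mpr (Rn_ok j h).2) else 1

theorem fR_mem (j : ℕ) : fR j ∈ twoJ2 := by
  unfold fR
  split_ifs with h
  · exact rf_mem _ _
  · exact Subgroup.one_mem _

theorem fR_apply {j : ℕ} (h : j < 315) (x : L) : (fR j x).1 = qrefl (Ph (Rn j)) x.1 := by
  unfold fR
  rw [dif_pos h]
  rfl

/-- Evaluation of a word. -/
def evW : List ℕ → V3 → V3
  | [], x => x
  | j :: W, x => reflM (Rn j) (evW W x)

/-- The element of a word. -/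
noncomputable def elW : List ℕ → Equiv.Perm L
  | [] => 1
  | j :: W => fR j * elW W

theorem elW_mem (W : List ℕ) : elW W ∈ twoJ2 := by
  induction W with
  | nil => exact Subgroup.one_mem _
  | cons j W ih => exact Subgroup.mul_mem _ (fR_mem j) ih

/-- A word is valid if its letters are in range. -/
def okW (W : List ℕ) : Bool := W.all (fun j => Nat.blt j 315)

theorem elW_apply {W : List ℕ} (hW : okW W = true) {X : V3} (hX : inL X) :
    inL (evW W X) ∧ (elW W (mk X hX)).1 = Ph (evW W X) := by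
  induction W with
  | nil => exact ⟨hX, rfl⟩
  | cons j W ih =>
    simp only [okW, List.all_cons, Bool.and_eq_true] at hW
    have hj : j < 315 := Nat.le_of_ble_eq_true hW.1
    obtain ⟨h1, h2⟩ := ih hW.2
    have hr := (Rn_ok j hj).1
    refine ⟨inL_reflM hr h1, ?_⟩
    show (fR j (elW W (mk X hX))).1 = Ph (reflM (Rn j) (evW W X))
    rw [fR_apply hj, h2, Ph_reflM hr h1]

/-- A word acting on a vector. -/
theorem elW_eq {W : List ℕ} (hW : okW W = true) {X Y : V3} (hX : inL X) (hY : inL Y) (e : evW W X = Y) :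
    elW W (mk X hX) = mk Y hY := by
  apply Subtype.ext
  rw [(elW_apply hW hX).2, e]
  rfl

/-- The vector of a line. -/
noncomputable def Rv {j : ℕ} (h : j < 315) : L := mk (Rn j) (Rn_ok j h).1

theorem Rv_norm {j : ℕ} (h : j < 315) : qip (Rv h).1 (Rv h).1 = 4 := (qip_four_iff _).mpr (Rn_ok j h).2

theorem unit_mem {u : ℕ} (h : u < 120) : ph (Un u) ∈ icosians := mem_of_inS (Un_ok u h).1

theorem unit_mul {u : ℕ} (h : u < 120) : ph (Un u) * star (ph (Un u)) = 1 := by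
  rw [← ph_st, ph_mul, (Un_ok u h).2]
  have e : (⟨4, 0, 0, 0, 0, 0, 0, 0⟩ : I8) = sc 2 oneI := by decide +kernel
  rw [e, ph_sc, smul_smul, ph_one]
  norm_num

theorem unit_mul' {u : ℕ} (h : u < 120) : star (ph (Un u)) * ph (Un u) = 1 := by
  have h1 := unit_mul h
  exact (eq_inv_of_mul_eq_one_right h1 ▸ inv_mul_cancel₀ (left_ne_zero_of_mul_eq_one h1))

/-- Every vector of norm four is a unit multiple of a line. -/
theorem min_form {r : L} (hr : qip r.1 r.1 = 4) :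
    ∃ j, ∃ hj : j < 315, ∃ u, ∃ hu : u < 120, r = lm (ph (Un u)) (unit_mem hu) (Rv hj) := by
  obtain ⟨X, hX, e⟩ := leech_iff.mp r.2
  rw [e] at hr
  obtain ⟨⟨j, hj, u, hu, e2⟩, -⟩ := min_code hX ((qip_four_iff _).mp hr)
  refine ⟨j, hj, u, hu, Subtype.ext ?_⟩
  rw [e, e2, Ph_lmulV (Un_ok u hu).1 (Rn_ok j hj).1]
  rfl

/-- The reflection in a unit multiple. -/
theorem qrefl_unit {q : ℍ[ℝ]} (hq : star q * q = 1) (r x : Fin 3 → ℍ[ℝ]) : qrefl (fun t => q * r t) x = qrefl r x := by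
  funext t
  simp only [qrefl]
  rw [qip_lmul_right, smul_mul_assoc, smul_mul_assoc, mul_assoc, ← mul_assoc (star q), hq, one_mul]

/-- The reflection of a vector in itself. -/
theorem qrefl_self {r : Fin 3 → ℍ[ℝ]} (hr : qip r r = 4) : qrefl r r = -r := by
  funext t
  simp only [qrefl, hr, Pi.neg_apply]
  have : (1 / 2 : ℝ) • (4 : ℍ[ℝ]) = 2 := by
    rw [four_eq, smul_smul]
    have e : (1 / 2 * 4 : ℝ) = 2 := by norm_num
    rw [e, two_smul, one_add_one_eq_two]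
  rw [this, two_mul]
  abel

end Cfsg.Agent.H02.JF
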