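import Cfsg.Agent.Lib.H02.JH

/-!
The reflection group: transitivity, the reflections, the order and the centre.
-/

set_option autoImplicit false
set_option maxRecDepth 100000

namespace Cfsg.Agent.H02.JG

open Cfsg.Spor Quaternion MulAction Cfsg.Agent.H02.JA Cfsg.Agent.H02.JB Cfsg.Agent.H02.JC Cfsg.Agent.H02.JE Cfsg.Agent.H02.JF Cfsg.Agent.H02.JH

/-- The vectors of norm four. -/
def Mn : Set L := {x | qip x.1 x.1 = 4}

theorem E1_norm : qip E1.1 E1.1 = 4 := (qip_four_iff _).mpr (by decide +kernel)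
theorem E2_norm : qip E2.1 E2.1 = 4 := (qip_four_iff _).mpr (by decide +kernel)
theorem E3_norm : qip E3.1 E3.1 = 4 := (qip_four_iff _).mpr (by decide +kernel)

theorem g_Mn {g : Equiv.Perm L} (hg : g ∈ twoJ2) {x : L} (hx : x ∈ Mn) : g x ∈ Mn := by
  show qip (g x).1 (g x).1 = 4
  rw [iso_of_mem hg]
  exact hx

/-- The multiple in the model as a lattice vector. -/
theorem lm_mk {u : ℕ} (hu : u < 120) {X : V3} (hX : inL X) (hY : inL (lmulV (Un u) X)) :
    mk (lmulV (Un u) X) hY = lm (ph (Un u)) (unit_mem hu) (mk X hX) := by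
  apply Subtype.ext
  show Ph (lmulV (Un u) X) = fun t => ph (Un u) * Ph X t
  exact Ph_lmulV (Un_ok u hu).1 hX

theorem inL_lmul {u : ℕ} (hu : u < 120) {X : V3} (hX : inL X) : inL (lmulV (Un u) X) := by
  have h := leech_lmul (unit_mem hu) (leech_iff.mpr ⟨X, hX, rfl⟩)
  obtain ⟨Y, hY, e⟩ := leech_iff.mp h
  rw [← Ph_lmulV (Un_ok u hu).1 hX] at e
  rwa [Ph_inj e]

/-- Transitivity on the vectors of norm four. -/
theorem trans_E1 {r : L} (hr : r ∈ Mn) : ∃ g ∈ twoJ2, g E1 = r := by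
  obtain ⟨j, hj, u, hu, e⟩ := min_form hr
  have a1 : elW (wRl.getD j []) E1 = Rv hj :=
    elW_eq (wR_ok j hj).1 inL_e1 (Rn_ok j hj).1 (wR_ok j hj).2
  have b1 : elW (wUl.getD u []) E1 = lm (ph (Un u)) (unit_mem hu) E1 := by
    have := elW_eq (wU_ok u hu).1 inL_e1 (inL_lmul hu inL_e1) (wU_ok u hu).2
    rw [lm_mk hu inL_e1] at this
    exact this
  refine ⟨elW (wRl.getD j []) * elW (wUl.getD u []), Subgroup.mul_mem _ (elW_mem _) (elW_mem _), ?_⟩
  show elW (wRl.getD j []) (elW (wUl.getD u []) E1) = r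
  rw [b1, g_lm (elW_mem _), a1, e]

/-- The group acts. -/
abbrev G : Type := ↥twoJ2

theorem smul_def (g : G) (x : L) : g • x = g.1 x := rfl

theorem orbit_E1 : orbit G E1 = Mn := by
  ext r
  constructor
  · rintro ⟨g, rfl⟩
    exact g_Mn g.2 E1_norm
  · intro hr
    obtain ⟨g, hg, e⟩ := trans_E1 hr
    exact ⟨⟨g, hg⟩, e⟩

/-- The fingerprint of a line. -/
def fp (j : ℕ) : ℕ :=
  enc3 (reflM (Rn j) e1V) + enc3 (reflM (Rn j) e2V) * 2 ^ 96 + enc3 (reflM (Rn j) e3V) * 2 ^ 192

theorem fp_mono : ∀ j < 314, fp j < fp (j + 1) := by decide +kernel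

theorem fp_lt {a b : ℕ} (hab : a < b) (hb : b < 315) : fp a < fp b := by
  induction b, hab using Nat.le_induction with
  | base => exact fp_mono a (by omega)
  | succ m hm ih => exact lt_trans (ih (by omega)) (fp_mono m (by omega))

/-- Equal reflections are in the same line. -/
theorem line_inj {i j : ℕ} (hi : i < 315) (hj : j < 315)
    (h : ∀ x : L, qrefl (Ph (Rn i)) x.1 = qrefl (Ph (Rn j)) x.1) : i = j := by
  have key : ∀ X (hX : inL X), reflM (Rn i) X = reflM (Rn j) X := by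
    intro X hX
    apply Ph_inj
    rw [Ph_reflM (Rn_ok i hi).1 hX, Ph_reflM (Rn_ok j hj).1 hX]
    exact h (mk X hX)
  have e : fp i = fp j := by
    unfold fp
    rw [key _ inL_e1, key _ inL_e2, key _ inL_e3]
  rcases Nat.lt_trichotomy i j with l | l | l
  · exact absurd e (ne_of_lt (fp_lt l hj))
  · exact l
  · exact absurd e.symm (ne_of_lt (fp_lt l hi))

/-- The reflection of a unit multiple of a line. -/
theorem qrefl_lm {j u : ℕ} (hj : j < 315) (hu : u < 120) (x : Fin 3 → ℍ[ℝ]) :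
    qrefl (lm (ph (Un u)) (unit_mem hu) (Rv hj)).1 x = qrefl (Ph (Rn j)) x :=
  qrefl_unit (unit_mul' hu) _ _

theorem lm_norm {j u : ℕ} (hj : j < 315) (hu : u < 120) : lm (ph (Un u)) (unit_mem hu) (Rv hj) ∈ Mn := by
  show qip (fun t => ph (Un u) * (Rv hj).1 t) (fun t => ph (Un u) * (Rv hj).1 t) = 4
  rw [qip_lmul_left, qip_lmul_right, Rv_norm hj]
  have : (4 : ℍ[ℝ]) * star (ph (Un u)) = star (ph (Un u)) * 4 := by noncomm_ring
  rw [this, ← mul_assoc, unit_mul hu, one_mul]

/-- The parametrisation of the vectors of norm four. -/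
theorem lm_inj {j j' u u' : ℕ} (hj : j < 315) (hj' : j' < 315) (hu : u < 120) (hu' : u' < 120)
    (h : lm (ph (Un u)) (unit_mem hu) (Rv hj) = lm (ph (Un u')) (unit_mem hu') (Rv hj')) : j = j' ∧ u = u' := by
  have e1 : j = j' := by
    apply line_inj hj hj'
    intro x
    rw [← qrefl_lm hj hu, ← qrefl_lm hj' hu', h]
  subst e1
  refine ⟨rfl, ?_⟩
  have e2 := congrArg (fun y : L => qip y.1 (Rv hj).1) h
  simp only [lm, qip_lmul_left, Rv_norm hj] at e2
  have h4 : (4 : ℍ[ℝ]) ≠ 0 := by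
    rw [four_eq]
    intro h0
    have := congrArg QuaternionAlgebra.re h0
    simp at this
  have e3 : ph (Un u) = ph (Un u') := mul_right_cancel₀ h4 e2
  exact Un_inj u hu u' hu' (ph_inj e3)

theorem ncard_Mn : Mn.ncard = 37800 := by
  classical
  let F : ℕ × ℕ → L := fun p =>
    if h : p.1 < 315 ∧ p.2 < 120 then lm (ph (Un p.2)) (unit_mem h.2) (Rv h.1) else E1
  have e : Mn = F '' (↑(Finset.range 315 ×ˢ Finset.range 120) : Set (ℕ × ℕ)) := by
    ext r
    constructor
    · intro hr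
      obtain ⟨j, hj, u, hu, e⟩ := min_form hr
      refine ⟨(j, u), by simp [hj, hu], ?_⟩
      simp only [F]
      rw [dif_pos ⟨hj, hu⟩, e]
    · rintro ⟨⟨j, u⟩, hp, rfl⟩
      have hp' : j < 315 ∧ u < 120 := by simpa using hp
      simp only [F]
      rw [dif_pos hp']
      exact lm_norm hp'.1 hp'.2
  rw [e, Set.InjOn.ncard_image, Set.ncard_coe_finset, Finset.card_product, Finset.card_range, Finset.card_range]
  rintro ⟨j, u⟩ hp ⟨j', u'⟩ hp' h
  have h1 : j < 315 ∧ u < 120 := by simpa using hp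
  have h2 : j' < 315 ∧ u' < 120 := by simpa using hp'
  simp only [F] at h
  rw [dif_pos h1, dif_pos h2] at h
  obtain ⟨a, b⟩ := lm_inj h1.1 h2.1 h1.2 h2.2 h
  rw [a, b]

/-- The count of the vectors of norm four. -/
theorem ncard_min_vec : {r : Fin 3 → ℍ[ℝ] | r ∈ icoLeech ∧ qip r r = 4}.ncard = 37800 := by
  have e : {r : Fin 3 → ℍ[ℝ] | r ∈ icoLeech ∧ qip r r = 4} = Subtype.val '' Mn := by
    ext r
    constructor
    · rintro ⟨a, b⟩
      exact ⟨⟨r, a⟩, b, rfl⟩
    · rintro ⟨y, hy, rfl⟩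
      exact ⟨y.2, hy⟩
  rw [e, Set.ncard_image_of_injective _ Subtype.val_injective, ncard_Mn]

/-- The reflections are those of the lines. -/
theorem refl_iff {f : Equiv.Perm L} : IsIcoReflection f ↔ ∃ j < 315, f = fR j := by
  constructor
  · rintro ⟨r, hr, e⟩
    obtain ⟨j, hj, u, hu, e2⟩ := min_form hr
    refine ⟨j, hj, ?_⟩
    ext1 x
    apply Subtype.ext
    rw [e, fR_apply hj, e2]
    exact qrefl_lm hj hu _
  · rintro ⟨j, hj, rfl⟩
    unfold fR
    rw [dif_pos hj]
    exact rf_isRefl _ _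

theorem fR_inj {i j : ℕ} (hi : i < 315) (hj : j < 315) (h : fR i = fR j) : i = j := by
  apply line_inj hi hj
  intro x
  rw [← fR_apply hi, ← fR_apply hj, h]

theorem ncard_refl : {f : Equiv.Perm L | IsIcoReflection f}.ncard = 315 := by
  have e : {f : Equiv.Perm L | IsIcoReflection f} = fR '' (↑(Finset.range 315) : Set ℕ) := by
    ext f
    constructor
    · intro hf
      obtain ⟨j, hj, rfl⟩ := refl_iff.mp hf
      exact ⟨j, by simpa using hj, rfl⟩
    · rintro ⟨j, hj, rfl⟩
      exact refl_iff.mpr ⟨j, by simpa using hj, rfl⟩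
  rw [e, Set.InjOn.ncard_image, Set.ncard_coe_finset, Finset.card_range]
  intro a ha b hb h
  exact fR_inj (by simpa using ha) (by simpa using hb) h

/-- Transitivity on reflections. -/
theorem refl_trans (f f' : Equiv.Perm L) (hf : IsIcoReflection f) (hf' : IsIcoReflection f') :
    ∃ g ∈ twoJ2, g * f * g⁻¹ = f' := by
  obtain ⟨r, hr, e⟩ := hf
  obtain ⟨r', hr', e'⟩ := hf'
  obtain ⟨a, ha, ea⟩ := trans_E1 (r := r) hr
  obtain ⟨b, hb, eb⟩ := trans_E1 (r := r') hr'
  refine ⟨b * a⁻¹, Subgroup.mul_mem _ hb (Subgroup.inv_mem _ ha), ?_⟩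
  ext1 x
  apply Subtype.ext
  have hc : (b * a⁻¹) r = r' := by
    show b (a⁻¹ r) = r'
    rw [← ea]
    simp [eb]
  rw [conj_refl (Subgroup.mul_mem _ hb (Subgroup.inv_mem _ ha)) hr e x, hc, e']

theorem Mn_finite : Mn.Finite := Set.finite_of_ncard_ne_zero (by rw [ncard_Mn]; norm_num)

instance : Finite G := by
  have : Finite Mn := Mn_finite
  let F : G → Mn × Mn × Mn := fun g => (⟨g.1 E1, g_Mn g.2 E1_norm⟩, ⟨g.1 E2, g_Mn g.2 E2_norm⟩, ⟨g.1 E3, g_Mn g.2 E3_norm⟩)
  apply Finite.of_injective F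
  intro g h e
  apply Subtype.ext
  have e1 := congrArg (fun p => (p.1 : L)) e
  have e2 := congrArg (fun p => (p.2.1 : L)) e
  have e3 := congrArg (fun p => (p.2.2 : L)) e
  exact eq_of_agree g.2 h.2 e1 e2 e3

/-- An element fixing `E1` and a list of vectors fixes the vector which is pinned by them. -/
theorem fix_of_scan {g : Equiv.Perm L} (hg : g ∈ twoJ2) (h1 : g E1 = E1) {As : List V3} (hAs : ∀ A ∈ As, ∃ hA : inL A, g (mk A hA) = mk A hA)
    {X : V3} (hX : inL X) (hn : ipR X X = sixt) (hs : scanB As X = true) : g (mk X hX) = mk X hX := by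
  obtain ⟨Y, hY, e⟩ := leech_iff.mp (g (mk X hX)).2
  have hnY : ipR Y Y = sixt := by
    rw [← qip_four_iff, ← e]
    exact g_Mn hg ((qip_four_iff _).mpr hn)
  obtain ⟨-, l, hl, hc⟩ := min_code hY hnY
  obtain ⟨hA, hB⟩ := (norm_iff Y).mp hnY
  have a0 := AA_nonneg Y.1
  have a1 := AA_nonneg Y.2.1
  have a2 := AA_nonneg Y.2.2
  have ed : dV (enc3 Y) = Y := dV_enc3 (bnd_of_AA (by omega)) (bnd_of_AA (by omega)) (bnd_of_AA (by omega))
  have ip : ∀ (A : V3) (hA : inL A), g (mk A hA) = mk A hA → ipR Y A = ipR X A := by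
    intro A hA hf
    apply ph_inj
    have h2 := iso_of_mem hg (mk X hX) (mk A hA)
    rw [hf, e] at h2
    show _ = _
    have h3 : qip (Ph Y) (Ph A) = qip (Ph X) (Ph A) := h2
    rw [qip_Ph, qip_Ph] at h3
    have e2 : ∀ q : ℍ[ℝ], q = (2 : ℝ) • ((1 / 2 : ℝ) • q) := by
      intro q
      rw [smul_smul]; norm_num
    rw [e2 (ph (ipR Y A)), h3, ← e2]
  have h1' : Y.1 = X.1 := by
    have h2 := iso_of_mem hg (mk X hX) E1
    rw [h1, e] at h2
    have h3 : qip (Ph Y) E1.1 = qip (Ph X) E1.1 := h2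
    rw [qip_E1, qip_E1] at h3
    exact ph_inj (mul_right_cancel₀ two_ne h3)
  have hc1 : enc3 Y % 4294967296 = enc X.1 := by
    have l0 := enc_lt Y.1 (bnd_of_AA (by omega))
    rw [← h1']
    unfold enc3
    omega
  have h4 := List.all_eq_true.mp (List.all_eq_true.mp hs l hl) _ hc
  simp only [Bool.or_eq_true, Bool.not_eq_true'] at h4
  have h5 : Nat.beq (enc3 Y % 4294967296) (enc X.1) = true := by
    rw [hc1]
    exact Nat.beq_refl _
  have h6 : (As.all fun A => decide (ipR (dV (enc3 Y)) A = ipR X A)) = true := by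
    rw [List.all_eq_true]
    intro A hAm
    obtain ⟨hA', hf⟩ := hAs A hAm
    rw [ed]
    exact decide_eq_true (ip A hA' hf)
  rcases h4 with (h4 | h4) | h4
  · rw [h5] at h4
    exact absurd h4 (by simp)
  · rw [h6] at h4
    exact absurd h4 (by simp)
  · have h7 : dV (enc3 Y) = X := of_decide_eq_true h4
    rw [ed] at h7
    subst h7
    exact Subtype.ext e

/-- The second vector. -/
noncomputable def W1 : L := mk W0 W0_ok.1

/-- An element fixing `E1` and `W1` is the identity. -/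
theorem eq_one_of_two {g : Equiv.Perm L} (hg : g ∈ twoJ2) (h1 : g E1 = E1) (h2 : g W1 = W1) : g = 1 := by
  have f0 : g (mk X0 X0_ok.1) = mk X0 X0_ok.1 := by
    refine fix_of_scan hg h1 ?_ X0_ok.1 X0_ok.2 scan1
    intro A hA
    simp only [List.mem_singleton] at hA
    subst hA
    exact ⟨W0_ok.1, h2⟩
  have f1 : g (mk X1 X1_ok.1) = mk X1 X1_ok.1 := by
    refine fix_of_scan hg h1 ?_ X1_ok.1 X1_ok.2 scan2
    intro A hA
    simp only [List.mem_cons, List.not_mem_nil, or_false] at hA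
    rcases hA with rfl | rfl
    · exact ⟨W0_ok.1, h2⟩
    · exact ⟨X0_ok.1, f0⟩
  have f2 : g (mk X2 X2_ok.1) = mk X2 X2_ok.1 := by
    refine fix_of_scan hg h1 ?_ X2_ok.1 X2_ok.2 scan3
    intro A hA
    simp only [List.mem_cons, List.not_mem_nil, or_false] at hA
    rcases hA with rfl | rfl | rfl
    · exact ⟨W0_ok.1, h2⟩
    · exact ⟨X0_ok.1, f0⟩
    · exact ⟨X1_ok.1, f1⟩
  have e2 : mk X1 X1_ok.1 = E2 := by
    have : X1 = e2V := by decide +kernel
    apply Subtype.ext
    show Ph X1 = Ph e2V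
    rw [this]
  have e3 : mk X2 X2_ok.1 = E3 := by
    have : X2 = e3V := by decide +kernel
    apply Subtype.ext
    show Ph X2 = Ph e3V
    rw [this]
  rw [e2] at f1
  rw [e3] at f2
  exact eq_one_of_fix hg h1 f1 f2

/-- The stabiliser of the first vector. -/
noncomputable abbrev S1 : Subgroup G := stabilizer G E1

theorem orbit_W1_ncard : (orbit (↥S1) W1).ncard = 32 := by
  classical
  let F : ℕ → L := fun i => if h : i < 32 then mk (dV (Ol.getD i 0)) (Ol_ok i h) else E1
  have hn : ipR W0 W0 = sixt := W0_ok.2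
  have e : orbit (↥S1) W1 = F '' (↑(Finset.range 32) : Set ℕ) := by
    ext r
    constructor
    · rintro ⟨g, rfl⟩
      have hg1 : g.1.1 E1 = E1 := g.2
      -- the image is a vector of norm four with the same first entry
      obtain ⟨Y, hY, e⟩ := leech_iff.mp (g.1.1 W1).2
      have hnY : ipR Y Y = sixt := by
        rw [← qip_four_iff, ← e]
        exact g_Mn g.1.2 ((qip_four_iff _).mpr hn)
      obtain ⟨-, l, hl, hc⟩ := min_code hY hnY
      obtain ⟨hA, hB⟩ := (norm_iff Y).mp hnY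
      have a0 := AA_nonneg Y.1
      have a1 := AA_nonneg Y.2.1
      have a2 := AA_nonneg Y.2.2
      have ed : dV (enc3 Y) = Y := dV_enc3 (bnd_of_AA (by omega)) (bnd_of_AA (by omega)) (bnd_of_AA (by omega))
      have h1' : Y.1 = W0.1 := by
        have h2 := iso_of_mem g.1.2 W1 E1
        rw [hg1, e] at h2
        have h3 : qip (Ph Y) E1.1 = qip (Ph W0) E1.1 := h2
        rw [qip_E1, qip_E1] at h3
        exact ph_inj (mul_right_cancel₀ two_ne h3)
      have hc1 : enc3 Y % 4294967296 = enc W0.1 := by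
        have l0 := enc_lt Y.1 (bnd_of_AA (by omega))
        rw [← h1']
        unfold enc3
        omega
      have h4 := List.all_eq_true.mp (List.all_eq_true.mp scan0_ok l hl) _ hc
      simp only [Bool.or_eq_true, Bool.not_eq_true'] at h4
      have h5 : Nat.beq (enc3 Y % 4294967296) (enc W0.1) = true := by
        rw [hc1]
        exact Nat.beq_refl _
      rcases h4 with h4 | h4
      · rw [h5] at h4
        exact absurd h4 (by simp)
      · have h6 : enc3 Y ∈ Ol := List.contains_iff_mem.mp h4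
        obtain ⟨i, hi, hie⟩ := List.mem_iff_getElem.mp h6
        have hi' : i < 32 := hi
        refine ⟨i, by simpa using hi', ?_⟩
        simp only [F]
        rw [dif_pos hi']
        apply Subtype.ext
        show Ph (dV (Ol.getD i 0)) = (g.1.1 W1).1
        rw [e]
        have : Ol.getD i 0 = enc3 Y := by
          rw [List.getD_eq_getElem _ _ hi, hie]
        rw [this, ed]
    · rintro ⟨i, hi, rfl⟩
      have hi' : i < 32 := by simpa using hi
      simp only [F]
      rw [dif_pos hi']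
      obtain ⟨a, b, c⟩ := Ow_ok i hi'
      have h1 : elW (Owl.getD i []) E1 = E1 := elW_eq a inL_e1 inL_e1 b
      have h2 : elW (Owl.getD i []) W1 = mk (dV (Ol.getD i 0)) (Ol_ok i hi') := elW_eq a W0_ok.1 (Ol_ok i hi') c
      exact ⟨⟨⟨elW (Owl.getD i []), elW_mem _⟩, h1⟩, h2⟩
  rw [e, Set.InjOn.ncard_image, Set.ncard_coe_finset, Finset.card_range]
  intro a ha b hb h
  have ha' : a < 32 := by simpa using ha
  have hb' : b < 32 := by simpa using hb
  simp only [F] at h
  rw [dif_pos ha', dif_pos hb'] at h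
  apply Ol_inj a ha' b hb'
  apply Ph_inj
  exact congrArg Subtype.val h

theorem card_S1 : Nat.card S1 = 32 := by
  have h1 : (stabilizer (↥S1) W1).index = 32 := by
    rw [index_stabilizer, orbit_W1_ncard]
  have h2 : Nat.card (stabilizer (↥S1) W1) = 1 := by
    rw [Nat.card_eq_one_iff_unique]
    refine ⟨⟨?_⟩, ⟨1⟩⟩
    rintro ⟨a, ha⟩ ⟨b, hb⟩
    have key : ∀ c : ↥S1, c ∈ stabilizer (↥S1) W1 → c = 1 := by
      intro c hc
      apply Subtype.ext
      apply Subtype.ext
      exact eq_one_of_two c.1.2 c.2 hc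
    apply Subtype.ext
    show a = b
    rw [key a ha, key b hb]
  have h3 := Subgroup.card_mul_index (stabilizer (↥S1) W1)
  rw [h1, h2] at h3
  omega

theorem card_G : Nat.card G = 1209600 := by
  have h1 : (stabilizer G E1).index = 37800 := by
    rw [index_stabilizer, orbit_E1, ncard_Mn]
  have h3 := Subgroup.card_mul_index (stabilizer G E1)
  have h4 : Nat.card (stabilizer G E1) = 32 := card_S1
  rw [h1, h4] at h3
  omega

end Cfsg.Agent.H02.JG
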