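import Cfsg.Agent.Lib.H02.JG

/-!
The centre of the reflection group.
-/

set_option autoImplicit false
set_option maxRecDepth 100000

namespace Cfsg.Agent.H02.JI

open Cfsg.Spor Quaternion MulAction Cfsg.Agent.H02.JA Cfsg.Agent.H02.JB Cfsg.Agent.H02.JC Cfsg.Agent.H02.JE Cfsg.Agent.H02.JF Cfsg.Agent.H02.JH Cfsg.Agent.H02.JG

/-- The negative in the model. -/
def negV (v : V3) : V3 := (-v.1, -v.2.1, -v.2.2)

theorem Ph_negV (v : V3) : Ph (negV v) = - Ph v := by
  funext t
  fin_cases t
  · exact ph_neg v.1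
  · exact ph_neg v.2.1
  · exact ph_neg v.2.2

/-- A word for the negative. -/
def negW : List ℕ := [282, 32, 273]

theorem neg_ok : okW negW = true ∧ inL (negV e1V) ∧ inL (negV e2V) ∧ inL (negV e3V) ∧
    evW negW e1V = negV e1V ∧ evW negW e2V = negV e2V ∧ evW negW e3V = negV e3V := by decide +kernel

/-- The negative as an element. -/
noncomputable def zE : Equiv.Perm L := elW negW

theorem zE_mem : zE ∈ twoJ2 := elW_mem _

theorem zE1 : (zE E1).1 = - E1.1 := by
  have := elW_apply neg_ok.1 inL_e1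
  rw [neg_ok.2.2.2.2.1, Ph_negV] at this
  exact this.2

theorem zE2 : (zE E2).1 = - E2.1 := by
  have := elW_apply neg_ok.1 inL_e2
  rw [neg_ok.2.2.2.2.2.1, Ph_negV] at this
  exact this.2

theorem zE3 : (zE E3).1 = - E3.1 := by
  have := elW_apply neg_ok.1 inL_e3
  rw [neg_ok.2.2.2.2.2.2, Ph_negV] at this
  exact this.2

theorem qip_neg_right (a b : Fin 3 → ℍ[ℝ]) : qip a (-b) = - qip a b := by
  simp only [qip, Pi.neg_apply, star_neg, mul_neg, Finset.sum_neg_distrib]

theorem qip_neg_left (a b : Fin 3 → ℍ[ℝ]) : qip (-a) b = - qip a b := by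
  simp only [qip, Pi.neg_apply, neg_mul, Finset.sum_neg_distrib]

/-- The element acts as the negative. -/
theorem zE_apply (x : L) : (zE x).1 = - x.1 := by
  apply eq_of_ip3
  · have := iso_of_mem zE_mem x E1
    rw [zE1, qip_neg_right] at this
    rw [qip_neg_left, ← this, neg_neg]
  · have := iso_of_mem zE_mem x E2
    rw [zE2, qip_neg_right] at this
    rw [qip_neg_left, ← this, neg_neg]
  · have := iso_of_mem zE_mem x E3
    rw [zE3, qip_neg_right] at this
    rw [qip_neg_left, ← this, neg_neg]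

theorem neg_one_mem : (-1 : ℍ[ℝ]) ∈ icosians := Subring.neg_mem _ (Subring.one_mem _)

theorem zE_eq_lm (x : L) : zE x = lm (-1) neg_one_mem x := by
  apply Subtype.ext
  rw [zE_apply]
  funext t
  simp [lm]

theorem zE_comm {g : Equiv.Perm L} (hg : g ∈ twoJ2) (x : L) : g (zE x) = zE (g x) := by
  rw [zE_eq_lm, zE_eq_lm, g_lm hg]

/-- The central element of the group. -/
noncomputable def zG : G := ⟨zE, zE_mem⟩

theorem zG_center : zG ∈ Subgroup.center G := by
  rw [Subgroup.mem_center_iff]
  intro g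
  apply Subtype.ext
  ext1 x
  show g.1 (zE x) = zE (g.1 x)
  exact zE_comm g.2 x

theorem zG_ne : zG ≠ 1 := by
  intro h
  have h1 : zE = 1 := congrArg Subtype.val h
  have h2 := zE1
  rw [h1] at h2
  have h3 : Ph e1V = Ph (negV e1V) := by
    rw [Ph_negV]
    exact h2
  exact absurd (Ph_inj h3) (by decide +kernel)

/-- The unit `j`. -/
noncomputable def qJ : ℍ[ℝ] := ⟨0, 0, 1, 0⟩

/-- The model of `j`. -/
def jI : I8 := ⟨0, 0, 0, 0, 2, 0, 0, 0⟩

theorem ph_jI : ph jI = qJ := by
  apply Quaternion.ext <;> simp [ph, jI, qJ]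

theorem star_qI_mul : qI * star qI = 1 := by
  rw [← ph_iI, ← ph_st, ph_mul_of (z := oneI) (by decide +kernel), ph_one]

theorem star_qJ_mul : qJ * star qJ = 1 := by
  rw [← ph_jI, ← ph_st, ph_mul_of (z := oneI) (by decide +kernel), ph_one]

theorem comm_real {q : ℍ[ℝ]} (h1 : q * qI = qI * q) (h2 : q * qJ = qJ * q) : q.imI = 0 ∧ q.imJ = 0 ∧ q.imK = 0 := by
  have a1 := congrArg QuaternionAlgebra.imJ h1
  have a2 := congrArg QuaternionAlgebra.imK h1
  have a3 := congrArg QuaternionAlgebra.imK h2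
  rw [Quaternion.imJ_mul, Quaternion.imJ_mul] at a1
  rw [Quaternion.imK_mul, Quaternion.imK_mul] at a2
  rw [Quaternion.imK_mul, Quaternion.imK_mul] at a3
  simp [qI] at a1 a2
  simp [qJ] at a3
  refine ⟨?_, ?_, ?_⟩ <;> linarith

theorem four_comm (a : ℍ[ℝ]) : (4 : ℍ[ℝ]) * a = a * 4 := by noncomm_ring

theorem four_ne : (4 : ℍ[ℝ]) ≠ 0 := by
  rw [four_eq]
  intro h0
  have := congrArg QuaternionAlgebra.re h0
  simp at this

/-- A central element acts as a sign on the vectors of norm four. -/
theorem central_form {c : Equiv.Perm L} (hc : c ∈ twoJ2) (hcc : ∀ g ∈ twoJ2, c * g = g * c) :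
    (∀ s ∈ Mn, c s = s) ∨ (∀ s ∈ Mn, (c s).1 = - s.1) := by
  set r : L := c E1 with hr
  have hr4 : qip r.1 r.1 = 4 := g_Mn hc E1_norm
  have hf : ∀ x : L, ((c * rf E1 E1_norm * c⁻¹) x).1 = qrefl r.1 x.1 := conj_refl hc E1_norm (fun _ => rfl)
  have hcf : c * rf E1 E1_norm * c⁻¹ = rf E1 E1_norm := by
    rw [hcc _ (rf_mem _ _), mul_inv_cancel_right]
  have h1 : qrefl r.1 E1.1 = - E1.1 := by
    rw [← hf, hcf, rf_apply]
    exact qrefl_self E1_norm
  set a := (1 / 2 : ℝ) • qip E1.1 r.1 with ha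
  have h2 : ∀ t, a * r.1 t = 2 * E1.1 t := by
    intro t
    have h5 := congrFun h1 t
    simp only [qrefl, Pi.neg_apply] at h5
    have h6 : E1.1 t - a * r.1 t = - E1.1 t := h5
    have h3 : a * r.1 t = E1.1 t - (E1.1 t - a * r.1 t) := by abel
    rw [h3, h6, two_mul]
    abel
  have e10 : E1.1 0 = 2 := ph_two
  have e11 : E1.1 1 = 0 := ph_zr
  have e12 : E1.1 2 = 0 := ph_zr
  have ha0 : a ≠ 0 := by
    intro h0
    have := h2 0
    rw [h0, zero_mul, e10] at this
    exact (mul_ne_zero two_ne two_ne) this.symm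
  have r1 : r.1 1 = 0 := by
    have := h2 1
    rw [e11, mul_zero] at this
    exact (mul_eq_zero.mp this).resolve_left ha0
  have r2 : r.1 2 = 0 := by
    have := h2 2
    rw [e12, mul_zero] at this
    exact (mul_eq_zero.mp this).resolve_left ha0
  set q : ℍ[ℝ] := (1 / 2 : ℝ) • r.1 0 with hq
  have hq2 : q * 2 = r.1 0 := by
    rw [hq, smul_mul_assoc, mul_two, smul_add, ← add_smul]
    norm_num
  have hrq : r.1 = fun t => q * E1.1 t := by
    funext t
    fin_cases t
    · show r.1 0 = q * E1.1 0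
      rw [e10, hq2]
    · show r.1 1 = q * E1.1 1
      rw [e11, r1, mul_zero]
    · show r.1 2 = q * E1.1 2
      rw [e12, r2, mul_zero]
  have hqq : q * star q = 1 := by
    have e := hr4
    rw [hrq, qip_lmul_left, qip_lmul_right, E1_norm] at e
    have e2 : (4 : ℍ[ℝ]) * (q * star q) = 4 * 1 := by
      have e7 : (4 : ℍ[ℝ]) * (q * star q) = q * (4 * star q) := by noncomm_ring
      rw [e7, e, mul_one]
    exact mul_left_cancel₀ four_ne e2
  have hqq' : star q * q = 1 := by
    exact (eq_inv_of_mul_eq_one_right hqq ▸ inv_mul_cancel₀ (left_ne_zero_of_mul_eq_one hqq))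
  -- every vector of norm four is multiplied by `q`
  have hall : ∀ s ∈ Mn, (c s).1 = fun t => q * s.1 t := by
    intro s hs
    obtain ⟨g, hg, rfl⟩ := trans_E1 hs
    have e1 : c (g E1) = g r := by
      have := hcc g hg
      have e2 := congrArg (fun f : Equiv.Perm L => f E1) this
      exact e2
    rw [e1]
    apply eq_of_ip
    intro y
    have ei : ∀ z : L, g (g⁻¹ z) = z := fun z => by simp
    have e3 : qip (g r).1 y.1 = qip r.1 (g⁻¹ y).1 := by
      have := iso_of_mem hg r (g⁻¹ y)
      rwa [ei] at this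
    have e4 : qip (g E1).1 y.1 = qip E1.1 (g⁻¹ y).1 := by
      have := iso_of_mem hg E1 (g⁻¹ y)
      rwa [ei] at this
    rw [e3, hrq, qip_lmul_left, qip_lmul_left, e4]
  -- commutation
  have comm : ∀ w : ℍ[ℝ], ∀ hw : w ∈ icosians, w * star w = 1 → q * star w = star w * q := by
    intro w hw hw1
    have hs : lm w hw E1 ∈ Mn := by
      show qip (fun t => w * E1.1 t) (fun t => w * E1.1 t) = 4
      rw [qip_lmul_left, qip_lmul_right, E1_norm]
      have e7 : w * (4 * star w) = 4 * (w * star w) := by noncomm_ring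
      rw [e7, hw1, mul_one]
    have e1 := iso_of_mem hc E1 (lm w hw E1)
    rw [hall _ hs, ← hr, hrq] at e1
    rw [qip_lmul_left, qip_lmul_right] at e1
    have e0 : qip E1.1 (lm w hw E1).1 = 4 * star w := by
      show qip E1.1 (fun t => w * E1.1 t) = _
      rw [qip_lmul_right, E1_norm]
    rw [e0] at e1
    have e8 : (4 : ℍ[ℝ]) * (q * (star w * star q)) = 4 * star w := by
      rw [← e1]
      noncomm_ring
    have e2 : q * (star w * star q) = star w := mul_left_cancel₀ four_ne e8
    calc q * star w = q * star w * (star q * q) := by rw [hqq', mul_one]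
      _ = (q * (star w * star q)) * q := by noncomm_ring
      _ = star w * q := by rw [e2]
  have c1 := comm qI (by rw [← ph_iI]; exact mem_iI) star_qI_mul
  have c2 := comm qJ (by rw [← ph_jI]; exact mem_of_inS (by decide +kernel)) star_qJ_mul
  have s1 : star qI = -qI := by
    apply Quaternion.ext
    · rw [Quaternion.re_star]
      show (0 : ℝ) = -0
      simp
    · rfl
    · rfl
    · rfl
  have s2 : star qJ = -qJ := by
    apply Quaternion.ext
    · rw [Quaternion.re_star]
      show (0 : ℝ) = -0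
      simp
    · rfl
    · rfl
    · rfl
  rw [s1, mul_neg, neg_mul, neg_inj] at c1
  rw [s2, mul_neg, neg_mul, neg_inj] at c2
  obtain ⟨q1, q2, q3⟩ := comm_real c1 c2
  have hre : q.re * q.re = 1 := by
    have := congrArg QuaternionAlgebra.re hqq
    simp [q1, q2, q3] at this
    exact this
  have hsign : q.re = 1 ∨ q.re = -1 := by
    have : (q.re - 1) * (q.re + 1) = 0 := by linarith
    rcases mul_eq_zero.mp this with h | h
    · left; linarith
    · right; linarith
  rcases hsign with h | h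
  · left
    intro s hs
    apply Subtype.ext
    rw [hall s hs]
    have : q = 1 := by
      apply Quaternion.ext <;> simp [h, q1, q2, q3]
    rw [this]
    funext t
    simp
  · right
    intro s hs
    rw [hall s hs]
    have : q = -1 := by
      apply Quaternion.ext <;> simp [h, q1, q2, q3]
    rw [this]
    funext t
    simp

theorem center_cases {c : G} (hc : c ∈ Subgroup.center G) : c = 1 ∨ c = zG := by
  have hcc : ∀ g ∈ twoJ2, c.1 * g = g * c.1 := by
    intro g hg
    have := (Subgroup.mem_center_iff.mp hc) ⟨g, hg⟩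
    exact (congrArg Subtype.val this).symm
  rcases central_form c.2 hcc with h | h
  · left
    apply Subtype.ext
    exact eq_one_of_fix c.2 (h _ E1_norm) (h _ E2_norm) (h _ E3_norm)
  · right
    apply Subtype.ext
    apply eq_of_agree c.2 zE_mem
    · apply Subtype.ext; rw [h _ E1_norm, zE1]
    · apply Subtype.ext; rw [h _ E2_norm, zE2]
    · apply Subtype.ext; rw [h _ E3_norm, zE3]

theorem card_center : Nat.card (Subgroup.center G) = 2 := by
  rw [Nat.card_eq_two_iff]
  refine ⟨⟨1, Subgroup.one_mem _⟩, ⟨zG, zG_center⟩, ?_, ?_⟩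
  · intro h
    exact zG_ne (congrArg Subtype.val h).symm
  · ext ⟨c, hc⟩
    simp only [Set.mem_insert_iff, Set.mem_singleton_iff, Set.mem_univ, iff_true, Subtype.mk.injEq]
    exact center_cases hc

theorem card_J2 : Nat.card J2 = 604800 := by
  have h := Subgroup.card_eq_card_quotient_mul_card_subgroup (Subgroup.center G)
  rw [card_G, card_center] at h
  show Nat.card (G ⧸ Subgroup.center G) = 604800
  omega

/-- The statement about the order. -/
theorem order_main : Nat.card ↥twoJ2 = 1209600 ∧ Nat.card ↥(Subgroup.center ↥twoJ2) = 2 ∧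
    (∃ z ∈ Subgroup.center ↥twoJ2, ∀ x : ↥icoLeech, (((z : Equiv.Perm ↥icoLeech) x : ↥icoLeech) : Fin 3 → ℍ[ℝ]) = -(x : Fin 3 → ℍ[ℝ])) ∧
    Nat.card J2 = 604800 :=
  ⟨card_G, card_center, ⟨zG, zG_center, zE_apply⟩, card_J2⟩

end Cfsg.Agent.H02.JI
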