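import Cfsg.Agent.Lib.H02.JK

/-!
The quotient of the reflection group by its centre is simple.
-/

set_option autoImplicit false
set_option maxRecDepth 100000

namespace Cfsg.Agent.H02.JJ

open Cfsg.Spor Quaternion MulAction Cfsg.Agent.H02.JA Cfsg.Agent.H02.JB Cfsg.Agent.H02.JC Cfsg.Agent.H02.JE Cfsg.Agent.H02.JF
  Cfsg.Agent.H02.JH Cfsg.Agent.H02.JG Cfsg.Agent.H02.JI Cfsg.Agent.H02.JK

theorem fR_invol {j : ℕ} (hj : j < 315) : fR j * fR j = 1 := by
  ext1 x
  apply Subtype.ext
  show (fR j (fR j x)).1 = x.1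
  rw [fR_apply hj, fR_apply hj]
  exact qrefl_qrefl (Rv_norm hj) _

theorem fR_inv {j : ℕ} (hj : j < 315) : (fR j)⁻¹ = fR j := inv_eq_of_mul_eq_one_left (fR_invol hj)

theorem elW_append (a b : List ℕ) : elW (a ++ b) = elW a * elW b := by
  induction a with
  | nil => simp [elW]
  | cons j a ih => simp only [List.cons_append, elW, ih, mul_assoc]

theorem elW_reverse {W : List ℕ} (hW : okW W = true) : elW W.reverse = (elW W)⁻¹ := by
  induction W with
  | nil => simp [elW]
  | cons j W ih =>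
    simp only [okW, List.all_cons, Bool.and_eq_true] at hW
    have hj : j < 315 := Nat.le_of_ble_eq_true hW.1
    rw [List.reverse_cons, elW_append, ih hW.2]
    simp only [elW, mul_one, mul_inv_rev, fR_inv hj]

/-- Reflection of the first vector. -/
theorem fR0_apply (x : L) : (fR 282 x).1 = qrefl E1.1 x.1 := by
  rw [fR_apply (by norm_num)]
  have e : E1 = lm (ph (Un 59)) (unit_mem (by norm_num)) (Rv (j := 282) (by norm_num)) := by
    have h := lm_mk (u := 59) (by norm_num) (X := Rn 282) (Rn_ok 282 (by norm_num)).1 (by rw [e1_line]; exact inL_e1)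
    have h2 : mk (lmulV (Un 59) (Rn 282)) (by rw [e1_line]; exact inL_e1) = E1 := by
      apply Subtype.ext
      show Ph _ = Ph e1V
      rw [e1_line]
    rw [← h2]
    exact h
  rw [e]
  exact (qrefl_lm (j := 282) (u := 59) (by norm_num) (by norm_num) _).symm

/-- The conjugate of a reflection in a line. -/
theorem conj_line {g : Equiv.Perm L} (hg : g ∈ twoJ2) {p k u : ℕ} (hp : p < 315) (hk : k < 315) (hu : u < 120)
    (e : g (Rv hp) = lm (ph (Un u)) (unit_mem hu) (Rv hk)) : g * fR p * g⁻¹ = fR k := by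
  ext1 x
  apply Subtype.ext
  rw [conj_refl hg (Rv_norm hp) (fR_apply hp) x, e, qrefl_lm hk hu, fR_apply hk]

theorem conj_any {g : Equiv.Perm L} (hg : g ∈ twoJ2) {p : ℕ} (hp : p < 315) : ∃ k < 315, g * fR p * g⁻¹ = fR k := by
  obtain ⟨k, hk, u, hu, e⟩ := min_form (g_Mn hg (Rv_norm hp))
  exact ⟨k, hk, conj_line hg hp hk hu e⟩

theorem conj_E1 {g : Equiv.Perm L} (hg : g ∈ twoJ2) {p : ℕ} (hp : p < 315) (e : g (Rv hp) = E1) : g * fR p * g⁻¹ = fR 282 := by
  ext1 x
  apply Subtype.ext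
  rw [conj_refl hg (Rv_norm hp) (fR_apply hp) x, e, fR0_apply]

/-- An element multiplying the first vector by a unit commutes with its reflection. -/
theorem conj_unit {g : Equiv.Perm L} (hg : g ∈ twoJ2) {u : ℕ} (hu : u < 120) (e : g E1 = lm (ph (Un u)) (unit_mem hu) E1) :
    g * fR 282 * g⁻¹ = fR 282 := by
  ext1 x
  apply Subtype.ext
  rw [conj_refl hg E1_norm fR0_apply x, e, fR0_apply]
  exact qrefl_unit (unit_mul' hu) _ _

/-- The reflection as a group element. -/
noncomputable def fG (j : ℕ) : G := ⟨fR j, fR_mem j⟩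

/-- The word as a group element. -/
noncomputable def eW (W : List ℕ) : G := ⟨elW W, elW_mem W⟩

theorem okW_append {a b : List ℕ} (ha : okW a = true) (hb : okW b = true) : okW (a ++ b) = true := by
  simp only [okW, List.all_append, Bool.and_eq_true] at *
  exact ⟨ha, hb⟩

theorem okW_reverse {a : List ℕ} (ha : okW a = true) : okW a.reverse = true := by
  simp only [okW, List.all_reverse] at *
  exact ha

theorem okW_fW {b : ℕ} (hb : b < 315) {xs : List (List ℕ)} (hx : ∀ x ∈ xs, okW x = true) : okW (fW b xs) = true := by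
  induction xs with
  | nil => rfl
  | cons x xs ih =>
    have hx0 := hx x (List.mem_cons_self)
    have hxs := fun y hy => hx y (List.mem_cons_of_mem x hy)
    have : fW b (x :: xs) = x ++ [282, b] ++ x.reverse ++ fW b xs := by
      simp [fW]
    rw [this]
    refine okW_append (okW_append (okW_append hx0 ?_) (okW_reverse hx0)) (ih hxs)
    simp [okW, hb]

/-- Words which agree on the three vectors give the same element. -/
theorem eW_eq {a b : List ℕ} (ha : okW a = true) (hb : okW b = true) (h1 : evW a e1V = evW b e1V) (h2 : evW a e2V = evW b e2V)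
    (h3 : evW a e3V = evW b e3V) : eW a = eW b := by
  apply Subtype.ext
  apply eq_of_agree (elW_mem a) (elW_mem b)
  · apply Subtype.ext
    rw [show E1 = mk e1V inL_e1 from rfl, (elW_apply ha inL_e1).2, (elW_apply hb inL_e1).2, h1]
  · apply Subtype.ext
    rw [show E2 = mk e2V inL_e2 from rfl, (elW_apply ha inL_e2).2, (elW_apply hb inL_e2).2, h2]
  · apply Subtype.ext
    rw [show E3 = mk e3V inL_e3 from rfl, (elW_apply ha inL_e3).2, (elW_apply hb inL_e3).2, h3]

section normal

variable (N : Subgroup G) [hN : N.Normal]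

/-- The product of two reflections is in the subgroup. -/
def Q (k : ℕ) : Prop := fG 282 * fG k ∈ N

include hN

theorem Q_step {w : List ℕ} (hw : okW w = true) {p k u1 u2 : ℕ} (hp : p < 315) (hk : k < 315) (h1 : u1 < 120) (h2 : u2 < 120)
    (e1 : evW w e1V = lmulV (Un u1) e1V) (e2 : evW w (Rn p) = lmulV (Un u2) (Rn k)) (h : Q N k) : Q N p := by
  have a1 : elW w E1 = lm (ph (Un u1)) (unit_mem h1) E1 := by
    have := elW_eq hw inL_e1 (inL_lmul h1 inL_e1) e1
    rw [lm_mk h1 inL_e1] at this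
    exact this
  have a2 : elW w (Rv hp) = lm (ph (Un u2)) (unit_mem h2) (Rv hk) := by
    have := elW_eq hw (Rn_ok p hp).1 (inL_lmul h2 (Rn_ok k hk).1) e2
    rw [lm_mk h2 (Rn_ok k hk).1] at this
    exact this
  have c1 := conj_unit (elW_mem w) h1 a1
  have c2 := conj_line (elW_mem w) hp hk h2 a2
  have := hN.conj_mem _ h (eW w)⁻¹
  unfold Q
  convert this using 1
  apply Subtype.ext
  show fR 282 * fR p = (elW w)⁻¹ * (fR 282 * fR k) * (elW w)⁻¹⁻¹
  have c1' : (elW w)⁻¹ * fR 282 * elW w = fR 282 := by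
    conv_lhs => rw [← c1]
    group
  have c2' : (elW w)⁻¹ * fR k * elW w = fR p := by
    rw [← c2]
    group
  have e5 : (elW w)⁻¹ * (fR 282 * fR k) * (elW w)⁻¹⁻¹ = ((elW w)⁻¹ * fR 282 * elW w) * ((elW w)⁻¹ * fR k * elW w) := by
    group
  rw [e5, c1', c2']

theorem Q_root (k : ℕ) (hk : k < 315) (hk0 : k ≠ 282) (h : Q N k) : Q N 0 ∨ Q N 8 ∨ Q N 32 ∨ Q N 69 ∨ Q N 129 := by
  have key : ∀ n k, (Fl.getD k (0, 0, 0, 0, 0)).2.2.1 = n → k < 315 → k ≠ 282 → Q N k → Q N 0 ∨ Q N 8 ∨ Q N 32 ∨ Q N 69 ∨ Q N 129 := by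
    intro n
    induction n using Nat.strong_induction_on with
    | _ n ih =>
      intro k hl hk hk0 h
      have hf := fOK_all k hk
      unfold fOK at hf
      generalize he : Fl.getD k (0, 0, 0, 0, 0) = ent at hf hl
      obtain ⟨p, g, l, u1, u2⟩ := ent
      simp only [Bool.or_eq_true, Bool.and_eq_true, Bool.not_eq_true', decide_eq_true_eq] at hf
      rcases hf with (hf | hf) | hf
      · exact absurd (Nat.eq_of_beq_eq_true hf) hk0
      · rcases hf.2 with ((((hf | hf) | hf) | hf) | hf) <;> have e := Nat.eq_of_beq_eq_true hf <;> subst e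
        · exact Or.inl h
        · exact Or.inr (Or.inl h)
        · exact Or.inr (Or.inr (Or.inl h))
        · exact Or.inr (Or.inr (Or.inr (Or.inl h)))
        · exact Or.inr (Or.inr (Or.inr (Or.inr h)))
      · obtain ⟨⟨⟨⟨⟨⟨⟨a1, a2⟩, a3⟩, a4⟩, a5⟩, a6⟩, a7⟩, a8⟩ := hf
        have hp : p < 315 := Nat.le_of_ble_eq_true a1
        have hu1 : u1 < 120 := Nat.le_of_ble_eq_true a3
        have hu2 : u2 < 120 := Nat.le_of_ble_eq_true a4
        have hl2 : l = (Fl.getD p (0, 0, 0, 0, 0)).2.2.1 + 1 := Nat.eq_of_beq_eq_true a5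
        have hp0 : p ≠ 282 := by
          intro e
          rw [e] at a2
          exact absurd a2 (by decide)
        have hQ := Q_step N a6 hp hk hu1 hu2 a7 a8 h
        have hl3 : (Fl.getD p (0, 0, 0, 0, 0)).2.2.1 < n := by
          simp only at hl
          omega
        exact ih _ hl3 p rfl hp hp0 hQ
  exact key _ k rfl hk hk0 h

theorem fW_mem {b : ℕ} (h : Q N b) {xs : List (List ℕ)} (hx : ∀ x ∈ xs, okW x = true) : eW (fW b xs) ∈ N := by
  induction xs with
  | nil =>
    have : eW (fW b []) = 1 := rfl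
    rw [this]
    exact Subgroup.one_mem _
  | cons x xs ih =>
    have hx0 := hx x (List.mem_cons_self)
    have hxs := fun y hy => hx y (List.mem_cons_of_mem x hy)
    have e : eW (fW b (x :: xs)) = (eW x * (fG 282 * fG b) * (eW x)⁻¹) * eW (fW b xs) := by
      apply Subtype.ext
      show elW (fW b (x :: xs)) = elW x * (fR 282 * fR b) * (elW x)⁻¹ * elW (fW b xs)
      have : fW b (x :: xs) = x ++ [282, b] ++ x.reverse ++ fW b xs := by
        simp [fW]
      rw [this, elW_append, elW_append, elW_append, elW_reverse hx0]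
      simp only [elW, mul_one, mul_assoc]
    rw [e]
    exact Subgroup.mul_mem _ (hN.conj_mem _ h _) (ih hxs)

theorem one_refl_in (h : Q N 0 ∨ Q N 8 ∨ Q N 32 ∨ Q N 69 ∨ Q N 129) : ∃ t < 315, fG t ∈ N := by
  have st : ∀ {b t : ℕ} {xs : List (List ℕ)}, b < 315 → t < 315 → Q N b → (∀ x ∈ xs, okW x = true) →
      evW (fW b xs) e1V = evW [t] e1V → evW (fW b xs) e2V = evW [t] e2V → evW (fW b xs) e3V = evW [t] e3V → ∃ t < 315, fG t ∈ N := by
    intro b t xs hb ht hQ hx e1 e2 e3
    refine ⟨t, ht, ?_⟩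
    have h1 := fW_mem N hQ hx
    have hokt : okW [t] = true := by simp [okW, ht]
    rw [eW_eq (okW_fW hb hx) hokt e1 e2 e3] at h1
    convert h1 using 1
    apply Subtype.ext
    show fR t = fR t * 1
    rw [mul_one]
  have q8 : Q N 8 → ∃ t < 315, fG t ∈ N := fun hQ =>
    st (b := 8) (t := 208) (xs := xs8) (by norm_num) (by norm_num) hQ xs8_ok.1 xs8_ok.2.1 xs8_ok.2.2.1 xs8_ok.2.2.2
  rcases h with h | h | h | h | h
  · exact st (b := 0) (t := 267) (xs := xs0) (by norm_num) (by norm_num) h xs0_ok.1 xs0_ok.2.1 xs0_ok.2.2.1 xs0_ok.2.2.2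
  · exact q8 h
  · apply q8
    have h1 := fW_mem N h xs32_ok.1
    have hok : okW [282, 8] = true := by decide
    rw [eW_eq (a := fW 32 xs32) (b := [282, 8]) (okW_fW (by norm_num) xs32_ok.1) hok xs32_ok.2.1 xs32_ok.2.2.1 xs32_ok.2.2.2] at h1
    unfold Q
    convert h1 using 1
    apply Subtype.ext
    show fR 282 * fR 8 = fR 282 * (fR 8 * 1)
    rw [mul_one]
  · exact st (b := 69) (t := 73) (xs := xs69) (by norm_num) (by norm_num) h xs69_ok.1 xs69_ok.2.1 xs69_ok.2.2.1 xs69_ok.2.2.2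
  · exact st (b := 129) (t := 175) (xs := xs129) (by norm_num) (by norm_num) h xs129_ok.1 xs129_ok.2.1 xs129_ok.2.2.1 xs129_ok.2.2.2

theorem top_of_refl (h : ∃ t < 315, fG t ∈ N) : N = ⊤ := by
  obtain ⟨t, ht, hN'⟩ := h
  have hall : ∀ f, IsIcoReflection f → ∀ hf : f ∈ twoJ2, (⟨f, hf⟩ : G) ∈ N := by
    intro f hf hm
    obtain ⟨g, hg, e⟩ := refl_trans (fR t) f (refl_iff.mpr ⟨t, ht, rfl⟩) hf
    have := hN.conj_mem _ hN' ⟨g, hg⟩
    convert this using 1
    apply Subtype.ext
    exact e.symm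
  rw [eq_top_iff]
  rintro ⟨x, hx⟩ -
  induction hx using Subgroup.closure_induction with
  | mem f hf => exact hall f hf _
  | one => exact Subgroup.one_mem _
  | mul a b ha hb iha ihb => exact Subgroup.mul_mem _ iha ihb
  | inv a ha iha => exact Subgroup.inv_mem _ iha

theorem main_normal (hn : ¬ N ≤ Subgroup.center G) : N = ⊤ := by
  obtain ⟨g, hg, hgc⟩ := Set.not_subset.mp hn
  have hj : ∃ j < 315, g * fG j * g⁻¹ ≠ fG j := by
    by_contra hcon
    push_neg at hcon
    apply hgc
    show g ∈ Subgroup.center G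
    have key : ∀ x ∈ twoJ2, x * g.1 = g.1 * x := by
      intro x hx
      induction hx using Subgroup.closure_induction with
      | mem f hf =>
        obtain ⟨j, hj, rfl⟩ := refl_iff.mp hf
        have h1 := hcon j hj
        have h2 : g * fG j = fG j * g := mul_inv_eq_iff_eq_mul.mp h1
        exact (congrArg Subtype.val h2).symm
      | one => simp
      | mul a b ha hb iha ihb => rw [mul_assoc, ihb, ← mul_assoc, iha, mul_assoc]
      | inv a ha iha => rw [inv_mul_eq_iff_eq_mul, ← mul_assoc, iha, mul_assoc, mul_inv_cancel, mul_one]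
    rw [Subgroup.mem_center_iff]
    intro x
    exact Subtype.ext (key x.1 x.2)
  obtain ⟨j, hj, hne⟩ := hj
  -- the commutator
  set p : G := g * fG j * g⁻¹ * (fG j)⁻¹ with hp
  have hpN : p ∈ N := by
    have h1 : fG j * g⁻¹ * (fG j)⁻¹ ∈ N := hN.conj_mem _ (Subgroup.inv_mem _ hg) _
    have : p = g * (fG j * g⁻¹ * (fG j)⁻¹) := by rw [hp]; group
    rw [this]
    exact Subgroup.mul_mem _ hg h1
  have hp1 : p ≠ 1 := by
    intro e
    apply hne
    rw [hp] at e
    exact mul_inv_eq_one.mp e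
  -- move the first reflection to the first vector
  obtain ⟨x, hx, ex⟩ := trans_E1 (g_Mn g.2 (Rv_norm hj))
  set y : G := (⟨x, hx⟩ : G)⁻¹ with hy
  have ey : (y * g).1 (Rv hj) = E1 := by
    show x⁻¹ (g.1 (Rv hj)) = E1
    rw [← ex]
    simp
  obtain ⟨k, hk, ek⟩ := conj_any y.2 hj
  have e0 := conj_E1 (y * g).2 hj ey
  have hyp : y * p * y⁻¹ = fG 282 * fG k := by
    apply Subtype.ext
    show y.1 * (g.1 * fR j * g.1⁻¹ * (fR j)⁻¹) * y.1⁻¹ = fR 282 * fR k
    rw [← e0, ← ek, fR_inv hj]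
    have : fR j = (fR j)⁻¹ := (fR_inv hj).symm
    show y.1 * (g.1 * fR j * g.1⁻¹ * fR j) * y.1⁻¹ = (y.1 * g.1) * fR j * (y.1 * g.1)⁻¹ * (y.1 * fR j * y.1⁻¹)
    group
  have hQ : Q N k := by
    unfold Q
    rw [← hyp]
    exact hN.conj_mem _ hpN _
  have hk0 : k ≠ 282 := by
    intro e
    subst e
    apply hp1
    have h2 : y * p * y⁻¹ = 1 := by
      rw [hyp]
      apply Subtype.ext
      exact fR_invol (by norm_num)
    have := congrArg (fun z => y⁻¹ * z * y) h2
    simpa [mul_assoc] using this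
  exact top_of_refl N (one_refl_in N (Q_root N k hk hk0 hQ))

end normal

theorem noncomm : ∃ a b : J2, a * b ≠ b * a := by
  refine ⟨QuotientGroup.mk (fG 282), QuotientGroup.mk (fG 8), ?_⟩
  intro h
  have h1 : (fG 282 * fG 8)⁻¹ * (fG 8 * fG 282) ∈ Subgroup.center G := by
    rw [← QuotientGroup.eq]
    exact h
  have hW : okW [282, 8, 282, 8] = true ∧ evW [282, 8, 282, 8] e1V ≠ e1V ∧ evW [282, 8, 282, 8] e1V ≠ negV e1V := by decide +kernel
  have e2 : (fG 282 * fG 8)⁻¹ * (fG 8 * fG 282) = eW [8, 282, 8, 282] := by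
    apply Subtype.ext
    show (fR 282 * fR 8)⁻¹ * (fR 8 * fR 282) = fR 8 * (fR 282 * (fR 8 * (fR 282 * 1)))
    rw [mul_inv_rev, fR_inv (by norm_num), fR_inv (by norm_num)]
    group
  have hW2 : okW [8, 282, 8, 282] = true ∧ evW [8, 282, 8, 282] e1V ≠ e1V ∧ evW [8, 282, 8, 282] e1V ≠ negV e1V := by decide +kernel
  rw [e2] at h1
  have e3 := (elW_apply hW2.1 inL_e1).2
  rcases center_cases h1 with h2 | h2
  · have : (eW [8, 282, 8, 282]).1 E1 = E1 := by rw [h2]; rfl
    apply hW2.2.1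
    apply Ph_inj
    rw [← e3]
    exact congrArg Subtype.val this
  · have : ((eW [8, 282, 8, 282]).1 E1).1 = - E1.1 := by rw [h2]; exact zE1
    apply hW2.2.2
    apply Ph_inj
    rw [← e3, Ph_negV]
    exact this

theorem simple_J2 : IsSimpleGroup J2 := by
  haveI : Nontrivial J2 := by
    obtain ⟨a, b, h⟩ := noncomm
    by_contra hn
    rw [not_nontrivial_iff_subsingleton] at hn
    exact h (Subsingleton.elim _ _)
  refine ⟨?_⟩
  intro H hH
  let π : G →* J2 := QuotientGroup.mk' (Subgroup.center G)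
  have hπ : Function.Surjective π := QuotientGroup.mk'_surjective _
  haveI hn : (H.comap π).Normal := Subgroup.Normal.comap hH π
  by_cases hc : H.comap π ≤ Subgroup.center G
  · left
    rw [eq_bot_iff]
    intro z hz
    obtain ⟨g, rfl⟩ := hπ z
    have := hc (show g ∈ H.comap π from hz)
    rw [Subgroup.mem_bot]
    exact (QuotientGroup.eq_one_iff g).mpr this
  · right
    have := main_normal (H.comap π) hc
    rw [eq_top_iff]
    intro z _
    obtain ⟨g, rfl⟩ := hπ z
    have h2 : g ∈ H.comap π := by rw [this]; trivial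
    exact h2

end Cfsg.Agent.H02.JJ
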