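import Cfsg.Agent.Lib.H02.JJ
import Cfsg.Agent.Lib.H02.JL
import Cfsg.Prelude.Def_Sporadic

/-!
The action of the reflection group on 100 subsets of lines, and the simple group of order 604800 on 100 points.
-/

set_option autoImplicit false
set_option maxRecDepth 100000

namespace Cfsg.Agent.H02.JM

open Cfsg.Spor Quaternion MulAction Cfsg.Agent.H02.JA Cfsg.Agent.H02.JB Cfsg.Agent.H02.JC Cfsg.Agent.H02.JE Cfsg.Agent.H02.JF
  Cfsg.Agent.H02.JH Cfsg.Agent.H02.JG Cfsg.Agent.H02.JI Cfsg.Agent.H02.JK Cfsg.Agent.H02.JJ Cfsg.Agent.H02.JL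

/-- The conjugate of a set of permutations. -/
def act (g : Equiv.Perm L) (S : Set (Equiv.Perm L)) : Set (Equiv.Perm L) := (fun f => g * f * g⁻¹) '' S

theorem act_one (S : Set (Equiv.Perm L)) : act 1 S = S := by
  simp [act]

theorem act_mul (g h : Equiv.Perm L) (S : Set (Equiv.Perm L)) : act (g * h) S = act g (act h S) := by
  unfold act
  rw [Set.image_image]
  apply Set.image_congr
  intro f _
  group

/-- A subset of lines as a set of reflections. -/
def Os (i : ℕ) : Set (Equiv.Perm L) := fR '' {j | j ∈ Sl.getD i []}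

/-- The family of subsets. -/
def Fam : Set (Set (Equiv.Perm L)) := {S | ∃ i < 100, S = Os i}

theorem Sl_lt' {i j : ℕ} (hi : i < 100) (hj : j ∈ Sl.getD i []) : j < 315 :=
  Nat.le_of_ble_eq_true (List.all_eq_true.mp (Sl_lt i hi) j hj)

theorem okW_single {l : ℕ} (h : l < 315) : okW [l] = true := by
  simp [okW, h]

/-- Conjugating by a letter. -/
theorem conj_letter {a p : ℕ} (ha : a < 4) (hp : p < 315) :
    fR (Lt.getD a 0) * fR p * (fR (Lt.getD a 0))⁻¹ = fR (piK a p) := by
  obtain ⟨hk, hu, e⟩ := pi_ok a ha p hp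
  have hl := Lt_lt a ha
  have hw : okW [Lt.getD a 0] = true := okW_single hl
  have hY : inL (lmulV (Un (piU a p)) (Rn (piK a p))) := inL_lmul hu (Rn_ok _ hk).1
  have a2 : elW [Lt.getD a 0] (Rv hp) = lm (ph (Un (piU a p))) (unit_mem hu) (Rv hk) := by
    have := elW_eq hw (Rn_ok p hp).1 hY e
    rw [lm_mk hu (Rn_ok _ hk).1] at this
    exact this
  have c := conj_line (elW_mem _) hp hk hu a2
  have e1 : elW [Lt.getD a 0] = fR (Lt.getD a 0) := mul_one _
  rwa [e1] at c

theorem act_letter {a i : ℕ} (ha : a < 4) (hi : i < 100) : act (fR (Lt.getD a 0)) (Os i) = Os (tauF a i) := by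
  obtain ⟨ht, h1, h2⟩ := tau_ok a ha i hi
  have hl := Lt_lt a ha
  ext f
  constructor
  · rintro ⟨_, ⟨j, hj, rfl⟩, rfl⟩
    have hj' : j ∈ Sl.getD i [] := hj
    refine ⟨piK a j, ?_, ?_⟩
    · exact List.contains_iff_mem.mp (List.all_eq_true.mp h1 j hj')
    · exact (conj_letter ha (Sl_lt' hi hj')).symm
  · rintro ⟨k, hk, rfl⟩
    have hk' : k ∈ Sl.getD (tauF a i) [] := hk
    have hk3 := Sl_lt' ht hk'
    have hp : piK a k ∈ Sl.getD i [] := List.contains_iff_mem.mp (List.all_eq_true.mp h2 k hk')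
    refine ⟨fR (piK a k), ⟨_, hp, rfl⟩, ?_⟩
    show fR (Lt.getD a 0) * fR (piK a k) * (fR (Lt.getD a 0))⁻¹ = fR k
    rw [← conj_letter ha hk3, fR_inv hl]
    have := fR_invol hl
    calc fR (Lt.getD a 0) * (fR (Lt.getD a 0) * fR k * fR (Lt.getD a 0)) * fR (Lt.getD a 0)
        = (fR (Lt.getD a 0) * fR (Lt.getD a 0)) * fR k * (fR (Lt.getD a 0) * fR (Lt.getD a 0)) := by group
      _ = fR k := by rw [this]; simp

/-- The permutations preserving the family. -/
def Hs : Subgroup (Equiv.Perm L) where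
  carrier := {g | ∀ S, act g S ∈ Fam ↔ S ∈ Fam}
  one_mem' := fun S => by rw [act_one]
  mul_mem' := fun {g h} hg hh S => by
    rw [act_mul, hg, hh]
  inv_mem' := fun {g} hg S => by
    have h := hg (act g⁻¹ S)
    rw [← act_mul, mul_inv_cancel, act_one] at h
    exact h.symm

theorem letter_mem {a : ℕ} (ha : a < 4) : fR (Lt.getD a 0) ∈ Hs := by
  have hl := Lt_lt a ha
  have key : ∀ S, S ∈ Fam → act (fR (Lt.getD a 0)) S ∈ Fam := by
    rintro S ⟨i, hi, rfl⟩
    rw [act_letter ha hi]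
    exact ⟨_, (tau_ok a ha i hi).1, rfl⟩
  intro S
  refine ⟨fun h => ?_, key S⟩
  have h2 := key _ h
  rw [← act_mul, fR_invol hl, act_one] at h2
  exact h2

theorem elW_letters_mem {W : List ℕ} (h : ∀ x ∈ W, ∃ a < 4, x = Lt.getD a 0) : elW W ∈ Hs := by
  induction W with
  | nil => exact Subgroup.one_mem _
  | cons j W ih =>
    obtain ⟨a, ha, e⟩ := h j (List.mem_cons_self)
    refine Subgroup.mul_mem _ ?_ (ih fun x hx => h x (List.mem_cons_of_mem j hx))
    rw [e]
    exact letter_mem ha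

/-- A reflection in a line as a conjugate of the first. -/
theorem fR_conj {j : ℕ} (hj : j < 315) :
    elW (wRl.getD j []) * fR 282 * (elW (wRl.getD j []))⁻¹ = fR j := by
  have a1 : elW (wRl.getD j []) E1 = Rv hj :=
    elW_eq (wR_ok j hj).1 inL_e1 (Rn_ok j hj).1 (wR_ok j hj).2
  ext1 x
  apply Subtype.ext
  rw [conj_refl (elW_mem _) E1_norm fR0_apply x, a1, fR_apply hj]
  rfl

theorem fR282_mem : fR 282 ∈ Hs := by
  have e := fR_conj (j := 118) (by norm_num)
  have h1 := elW_letters_mem (wR_letters 118 (by norm_num))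
  have h2 : fR 118 ∈ Hs := letter_mem (a := 0) (by norm_num)
  have e2 : fR 282 = (elW (wRl.getD 118 []))⁻¹ * fR 118 * elW (wRl.getD 118 []) := by
    rw [← e]
    group
  rw [e2]
  exact Subgroup.mul_mem _ (Subgroup.mul_mem _ (Subgroup.inv_mem _ h1) h2) h1

theorem fR_mem_Hs {j : ℕ} (hj : j < 315) : fR j ∈ Hs := by
  rw [← fR_conj hj]
  have h1 := elW_letters_mem (wR_letters j hj)
  exact Subgroup.mul_mem _ (Subgroup.mul_mem _ h1 fR282_mem) (Subgroup.inv_mem _ h1)

theorem le_Hs : twoJ2 ≤ Hs := by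
  unfold twoJ2
  rw [Subgroup.closure_le]
  intro f hf
  obtain ⟨j, hj, rfl⟩ := refl_iff.mp hf
  exact fR_mem_Hs hj

/-- The group acts on the family. -/
noncomputable instance famAction : MulAction G ↥Fam where
  smul g S := ⟨act g.1 S.1, (le_Hs g.2 S.1).mpr S.2⟩
  one_smul S := Subtype.ext (act_one _)
  mul_smul g h S := Subtype.ext (act_mul _ _ _)

theorem smul_val (g : G) (S : ↥Fam) : (g • S).1 = act g.1 S.1 := rfl

/-- The permutation representation. -/
noncomputable def phi : G →* Equiv.Perm ↥Fam := MulAction.toPermHom G ↥Fam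

theorem phi_apply (g : G) (S : ↥Fam) : (phi g S).1 = act g.1 S.1 := rfl

theorem Os_inj {i i' : ℕ} (hi : i < 100) (hi' : i' < 100) (h : Os i = Os i') : i = i' := by
  rcases Sl_inj i hi i' hi' with e | e
  · exact e
  · exfalso
    obtain ⟨j, hj, hn⟩ := List.any_eq_true.mp e
    have h1 : fR j ∈ Os i' := by
      rw [← h]
      exact ⟨j, hj, rfl⟩
    obtain ⟨j', hj', e2⟩ := h1
    have : j' = j := fR_inj (Sl_lt' hi' hj') (Sl_lt' hi hj) e2
    subst this
    have hj'' : j' ∈ Sl.getD i' [] := hj'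
    have h5 : (Sl.getD i' []).contains j' = true := List.contains_iff_mem.mpr hj''
    simp only [h5, Bool.not_true] at hn
    exact absurd hn (by simp)

theorem center_le : Subgroup.center G ≤ phi.ker := by
  intro c hc
  rw [MonoidHom.mem_ker]
  ext1 S
  apply Subtype.ext
  rw [phi_apply]
  obtain ⟨S, i, hi, rfl⟩ := S
  show act c.1 (Os i) = Os i
  unfold act Os
  rw [Set.image_image]
  apply Set.image_congr
  intro j _
  have := (Subgroup.mem_center_iff.mp hc) (fG j)
  have h2 : fR j * c.1 = c.1 * fR j := congrArg Subtype.val this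
  rw [← h2]
  group

theorem ker_ne_top : phi.ker ≠ ⊤ := by
  intro h
  have hm : fG (Lt.getD 0 0) ∈ phi.ker := by rw [h]; trivial
  rw [MonoidHom.mem_ker] at hm
  have h0 : Os 0 ∈ Fam := ⟨0, by norm_num, rfl⟩
  have e := congrArg (fun p : Equiv.Perm ↥Fam => (p ⟨Os 0, h0⟩).1) hm
  simp only [phi_apply, Equiv.Perm.coe_one, id_eq] at e
  have e2 : act (fR (Lt.getD 0 0)) (Os 0) = Os 0 := e
  rw [act_letter (by norm_num) (by norm_num)] at e2
  exact moved (Os_inj (tau_ok 0 (by norm_num) 0 (by norm_num)).1 (by norm_num) e2)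

theorem ker_le : phi.ker ≤ Subgroup.center G := by
  by_contra h
  exact ker_ne_top (main_normal phi.ker h)

/-- The representation of the quotient. -/
noncomputable def psi : J2 →* Equiv.Perm ↥Fam := QuotientGroup.lift (Subgroup.center G) phi center_le

theorem psi_inj : Function.Injective psi := by
  rw [injective_iff_map_eq_one]
  intro x hx
  obtain ⟨g, rfl⟩ := QuotientGroup.mk_surjective x
  have h : phi g = 1 := hx
  exact (QuotientGroup.eq_one_iff g).mpr (ker_le h)

/-- The family has 100 members. -/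
noncomputable def famEquiv : Fin 100 ≃ ↥Fam :=
  Equiv.ofBijective (fun i => ⟨Os i.1, i.1, i.2, rfl⟩) (by
    constructor
    · intro a b h
      exact Fin.ext (Os_inj a.2 b.2 (congrArg Subtype.val h))
    · rintro ⟨S, i, hi, rfl⟩
      exact ⟨⟨i, hi⟩, rfl⟩)

/-- The simple group on 100 points. -/
theorem exists_J2 : ∃ G : Subgroup (Equiv.Perm (Fin 100)), Cfsg.IsJ2 G := by
  let Ψ : J2 →* Equiv.Perm (Fin 100) := (famEquiv.symm.permCongrHom.toMonoidHom).comp psi
  have hΨ : Function.Injective Ψ := famEquiv.symm.permCongrHom.injective.comp psi_inj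
  let e : J2 ≃* Ψ.range := MonoidHom.ofInjective hΨ
  refine ⟨Ψ.range, ?_, ?_⟩
  · haveI : IsSimpleGroup J2 := simple_J2
    exact e.symm.isSimpleGroup
  · rw [← Nat.card_congr e.toEquiv]
    exact card_J2

end Cfsg.Agent.H02.JM
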