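import Cfsg.Prelude.Def_Transfer
import Mathlib

/-!
Criteria for extraspecial groups of order 32 and transport along isomorphisms.
-/

set_option autoImplicit false

namespace Cfsg.Agent.H02.JO

universe u v

open scoped commutatorElement

theorem coatom_of_index_two {P : Type u} [Group P] {M : Subgroup P} (h : M.index = 2) : IsCoatom M := by
  constructor
  · intro e
    rw [e, Subgroup.index_top] at h
    omega
  · intro K hK
    have h1 := Subgroup.relIndex_mul_index hK.le
    rw [h] at h1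
    have h2 : K.index ∣ 2 := ⟨_, by rw [← h1, mul_comm]⟩
    rcases (Nat.dvd_prime Nat.prime_two).mp h2 with h3 | h3
    · exact Subgroup.index_eq_one.mp h3
    · exfalso
      rw [h3] at h1
      have h4 : M.relIndex K = 1 := by omega
      have h5 : K ≤ M := Subgroup.relIndex_eq_one.mp h4
      exact absurd (le_antisymm hK.le h5) (ne_of_lt hK)

theorem commutator_le_of_index_two {P : Type u} [Group P] {M : Subgroup P} (h : M.index = 2) : commutator P ≤ M := by
  haveI hn : M.Normal := Subgroup.normal_of_index_eq_two h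
  rw [← Subgroup.Normal.quotient_commutative_iff_commutator_le]
  have hc : Nat.card (P ⧸ M) = 2 := h
  haveI : Fact (Nat.Prime (Nat.card (P ⧸ M))) := ⟨by rw [hc]; exact Nat.prime_two⟩
  haveI : IsCyclic (P ⧸ M) := isCyclic_of_prime_card rfl
  exact IsCyclic.commutative

theorem comm_central {P : Type u} [Group P] {m₁ m₂ c₁ c₂ : P} (h1 : c₁ ∈ Subgroup.center P) (h2 : c₂ ∈ Subgroup.center P) :
    ⁅m₁ * c₁, m₂ * c₂⁆ = ⁅m₁, m₂⁆ := by
  have a1 := Subgroup.mem_center_iff.mp h1
  have a2 := Subgroup.mem_center_iff.mp h2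
  have a3 := Subgroup.mem_center_iff.mp (Subgroup.inv_mem _ h1)
  have a4 := Subgroup.mem_center_iff.mp (Subgroup.inv_mem _ h2)
  simp only [commutatorElement_def, mul_inv_rev]
  calc m₁ * c₁ * (m₂ * c₂) * (c₁⁻¹ * m₁⁻¹) * (c₂⁻¹ * m₂⁻¹)
      = m₁ * (c₁ * m₂) * c₂ * c₁⁻¹ * m₁⁻¹ * c₂⁻¹ * m₂⁻¹ := by group
    _ = m₁ * (m₂ * c₁) * c₂ * c₁⁻¹ * m₁⁻¹ * c₂⁻¹ * m₂⁻¹ := by rw [a1 m₂]
    _ = m₁ * m₂ * (c₁ * c₂ * c₁⁻¹ * (m₁⁻¹ * c₂⁻¹)) * m₂⁻¹ := by group
    _ = m₁ * m₂ * (c₁ * c₂ * c₁⁻¹ * (c₂⁻¹ * m₁⁻¹)) * m₂⁻¹ := by rw [a4 m₁⁻¹]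
    _ = m₁ * m₂ * (c₁ * (c₂ * c₁⁻¹) * c₂⁻¹ * m₁⁻¹) * m₂⁻¹ := by group
    _ = m₁ * m₂ * (c₁ * (c₁⁻¹ * c₂) * c₂⁻¹ * m₁⁻¹) * m₂⁻¹ := by rw [a3 c₂]
    _ = m₁ * m₂ * m₁⁻¹ * m₂⁻¹ := by group

/-- The criterion for being extraspecial. -/
theorem extraspecial_of {P : Type u} [Group P] (hc : Nat.card P = 32) (ζ : P) (hζ : ζ ≠ 1)
    (hcen : ∀ x, x ∈ Subgroup.center P ↔ x = 1 ∨ x = ζ) (a b : P) (hab : ⁅a, b⁆ = ζ)
    {ι : Type} (M : ι → Subgroup P) (hM : ∀ j, (M j).index = 2) (hI : ∀ x, (∀ j, x ∈ M j) → x = 1 ∨ x = ζ) :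
    Cfsg.IsExtraspecial 2 P := by
  have hzc : ζ ∈ Subgroup.center P := (hcen ζ).mpr (Or.inr rfl)
  refine ⟨⟨?_, ?_, ?_⟩, ?_⟩
  · exact IsPGroup.of_card (n := 5) (by rw [hc]; norm_num)
  · apply le_antisymm
    · intro x hx
      apply (hcen x).mpr
      apply hI x
      intro j
      exact frattini_le_coatom (coatom_of_index_two (hM j)) hx
    · intro x hx
      rcases (hcen x).mp hx with rfl | rfl
      · exact Subgroup.one_mem _
      · -- the element is in every coatom
        show x ∈ Order.radical (Subgroup P)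
        simp only [Order.radical, Subgroup.mem_iInf]
        intro K hK
        by_contra hn
        have h1 : K ⊔ Subgroup.center P = ⊤ := by
          apply hK.2
          refine lt_of_le_of_ne le_sup_left ?_
          intro e
          apply hn
          rw [e]
          exact Subgroup.mem_sup_right hzc
        have ha : a ∈ K ⊔ Subgroup.center P := by rw [h1]; trivial
        have hb : b ∈ K ⊔ Subgroup.center P := by rw [h1]; trivial
        obtain ⟨m₁, h1m, c₁, h1c, rfl⟩ := Subgroup.mem_sup_of_normal_right.mp ha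
        obtain ⟨m₂, h2m, c₂, h2c, rfl⟩ := Subgroup.mem_sup_of_normal_right.mp hb
        rw [comm_central h1c h2c] at hab
        apply hn
        rw [← hab]
        simp only [commutatorElement_def]
        exact K.mul_mem (K.mul_mem (K.mul_mem h1m h2m) (K.inv_mem h1m)) (K.inv_mem h2m)
  · apply le_antisymm
    · intro x hx
      apply (hcen x).mpr
      apply hI x
      intro j
      exact commutator_le_of_index_two (hM j) hx
    · intro x hx
      rcases (hcen x).mp hx with rfl | rfl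
      · exact Subgroup.one_mem _
      · rw [← hab]
        exact Subgroup.commutator_mem_commutator (Subgroup.mem_top a) (Subgroup.mem_top b)
  · rw [Nat.card_eq_two_iff]
    refine ⟨⟨1, Subgroup.one_mem _⟩, ⟨ζ, hzc⟩, ?_, ?_⟩
    · intro h
      exact hζ (congrArg Subtype.val h).symm
    · ext ⟨c, hc'⟩
      simp only [Set.mem_insert_iff, Set.mem_singleton_iff, Set.mem_univ, iff_true, Subtype.mk.injEq]
      exact (hcen c).mp hc'

/-- Being extraspecial passes along isomorphisms. -/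
theorem extraspecial_congr {P : Type u} {P' : Type v} [Group P] [Group P'] (e : P ≃* P') (h : Cfsg.IsExtraspecial 2 P) :
    Cfsg.IsExtraspecial 2 P' := by
  obtain ⟨⟨h1, h2, h3⟩, h4⟩ := h
  have hcen : ∀ x : P, x ∈ Subgroup.center P ↔ e x ∈ Subgroup.center P' := by
    intro x
    rw [Subgroup.mem_center_iff, Subgroup.mem_center_iff]
    constructor
    · intro hx g
      obtain ⟨y, rfl⟩ := e.surjective g
      rw [← map_mul, ← map_mul, hx]
    · intro hx g
      apply e.injective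
      rw [map_mul, map_mul, hx]
  have hfr : ∀ x : P, x ∈ frattini P ↔ e x ∈ frattini P' := by
    intro x
    constructor
    · intro hx
      exact frattini_le_comap_frattini_of_surjective (φ := e.toMonoidHom) e.surjective hx
    · intro hx
      have := frattini_le_comap_frattini_of_surjective (φ := e.symm.toMonoidHom) e.symm.surjective hx
      simpa using this
  have hco : ∀ x : P, x ∈ commutator P ↔ e x ∈ commutator P' := by
    intro x
    have h5 : (commutator P).map e.toMonoidHom = commutator P' := by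
      rw [commutator_def, commutator_def, Subgroup.map_commutator]
      rw [Subgroup.map_top_of_surjective _ e.surjective]
    constructor
    · intro hx
      rw [← h5]
      exact ⟨x, hx, rfl⟩
    · intro hx
      rw [← h5] at hx
      obtain ⟨y, hy, e2⟩ := hx
      have : y = x := e.injective e2
      rwa [← this]
  refine ⟨⟨IsPGroup.of_surjective h1 e.toMonoidHom e.surjective, ?_, ?_⟩, ?_⟩
  · ext x
    obtain ⟨y, rfl⟩ := e.surjective x
    rw [← hfr, ← hcen, h2]
  · ext x
    obtain ⟨y, rfl⟩ := e.surjective x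
    rw [← hco, ← hcen, h3]
  · rw [← h4]
    symm
    apply Nat.card_congr
    exact Equiv.subtypeEquiv e.toEquiv hcen

section conj

variable {Γ : Type u} [Group Γ]

/-- Conjugation between centralisers. -/
def cEquiv {x y : Γ} (c : Γ) (h : c * x * c⁻¹ = y) :
    ↥(Subgroup.centralizer ({x} : Set Γ)) ≃* ↥(Subgroup.centralizer ({y} : Set Γ)) where
  toFun a := ⟨c * a.1 * c⁻¹, by
    have ha := Subgroup.mem_centralizer_iff.mp a.2 x rfl
    apply Subgroup.mem_centralizer_iff.mpr
    intro w hw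
    have hw' : w = y := hw
    rw [hw', ← h]
    have : c * x * c⁻¹ * (c * a.1 * c⁻¹) = c * (x * a.1) * c⁻¹ := by group
    rw [this, ha]
    group⟩
  invFun b := ⟨c⁻¹ * b.1 * c, by
    have hb := Subgroup.mem_centralizer_iff.mp b.2 y rfl
    have hb' : (c * x * c⁻¹) * b.1 = b.1 * (c * x * c⁻¹) := by rw [h]; exact hb
    apply Subgroup.mem_centralizer_iff.mpr
    intro w hw
    have hw' : w = x := hw
    rw [hw']
    have e1 : c⁻¹ * b.1 * c * x = c⁻¹ * (b.1 * (c * x * c⁻¹)) * c := by group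
    have e2 : x * (c⁻¹ * b.1 * c) = c⁻¹ * ((c * x * c⁻¹) * b.1) * c := by group
    rw [e1, e2, hb']⟩
  left_inv a := by
    apply Subtype.ext
    show c⁻¹ * (c * a.1 * c⁻¹) * c = a.1
    group
  right_inv b := by
    apply Subtype.ext
    show c * (c⁻¹ * b.1 * c) * c⁻¹ = b.1
    group
  map_mul' a b := by
    apply Subtype.ext
    show c * (a.1 * b.1) * c⁻¹ = c * a.1 * c⁻¹ * (c * b.1 * c⁻¹)
    group

/-- The property of a centraliser. -/
def CProp (x : Γ) : Prop :=
  ∃ (Q : Subgroup ↥(Subgroup.centralizer ({x} : Set Γ))) (_ : Q.Normal), Nat.card Q = 32 ∧ Cfsg.IsExtraspecial 2 Q ∧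
    Nonempty (↥(Subgroup.centralizer ({x} : Set Γ)) ⧸ Q ≃* alternatingGroup (Fin 5))

theorem CProp_conj {x y : Γ} (c : Γ) (h : c * x * c⁻¹ = y) (hx : CProp x) : CProp y := by
  obtain ⟨Q, hQ, h1, h2, ⟨e⟩⟩ := hx
  let φ := cEquiv c h
  let Q' := Q.map φ.toMonoidHom
  have hQ' : Q'.Normal := Subgroup.Normal.map hQ φ.toMonoidHom φ.surjective
  let eQ : ↥Q ≃* ↥Q' := Q.equivMapOfInjective φ.toMonoidHom φ.injective
  refine ⟨Q', hQ', ?_, extraspecial_congr eQ h2, ?_⟩
  · rw [← h1]
    exact Nat.card_congr eQ.toEquiv.symm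
  · exact ⟨(QuotientGroup.congr Q Q' φ rfl).symm.trans e⟩

end conj

end Cfsg.Agent.H02.JO
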