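import Cfsg.Agent.Lib.H02.JJ
import Cfsg.Agent.Lib.H02.JO
import Cfsg.Agent.Lib.H02.JP

/-!
The centraliser of the image of a reflection in the simple quotient.
-/

set_option autoImplicit false
set_option maxRecDepth 100000

namespace Cfsg.Agent.H02.JN

open Cfsg.Spor Quaternion MulAction Cfsg.Agent.H02.JA Cfsg.Agent.H02.JB Cfsg.Agent.H02.JC Cfsg.Agent.H02.JE Cfsg.Agent.H02.JF
  Cfsg.Agent.H02.JH Cfsg.Agent.H02.JG Cfsg.Agent.H02.JI Cfsg.Agent.H02.JK Cfsg.Agent.H02.JJ Cfsg.Agent.H02.JO Cfsg.Agent.H02.JP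

open scoped commutatorElement

/-- The quotient map. -/
noncomputable abbrev pq : G →* J2 := QuotientGroup.mk' (Subgroup.center G)

theorem fR_E1 {p : ℕ} (hp : p < 315) : (fR p E1).1 = Ph (reflM (Rn p) e1V) := by
  rw [fR_apply hp]
  exact (Ph_reflM (Rn_ok p hp).1 inL_e1).symm

theorem fR_E2 {p : ℕ} (hp : p < 315) : (fR p E2).1 = Ph (reflM (Rn p) e2V) := by
  rw [fR_apply hp]
  exact (Ph_reflM (Rn_ok p hp).1 inL_e2).symm

theorem fR_E3 {p : ℕ} (hp : p < 315) : (fR p E3).1 = Ph (reflM (Rn p) e3V) := by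
  rw [fR_apply hp]
  exact (Ph_reflM (Rn_ok p hp).1 inL_e3).symm

theorem E1_val : E1.1 = Ph e1V := rfl
theorem E2_val : E2.1 = Ph e2V := rfl
theorem E3_val : E3.1 = Ph e3V := rfl

theorem zz (x : L) : zE (zE x) = x := by
  apply Subtype.ext
  rw [zE_apply, zE_apply, neg_neg]

theorem r_E1 : fR 282 E1 = zE E1 := by
  apply Subtype.ext
  rw [fR_E1 (by norm_num), r_ok.1, Ph_negV, zE_apply]
  rfl

theorem r_E2 : fR 282 E2 = E2 := by
  apply Subtype.ext
  rw [fR_E2 (by norm_num), r_ok.2.1]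
  rfl

theorem r_E3 : fR 282 E3 = E3 := by
  apply Subtype.ext
  rw [fR_E3 (by norm_num), r_ok.2.2]
  rfl

theorem neg_fR_E1 {p : ℕ} (hp : p < 315) : (zE (fR p E1)).1 = Ph (negV (reflM (Rn p) e1V)) := by
  rw [zE_apply, fR_E1 hp, Ph_negV]

theorem neg_fR_E2 {p : ℕ} (hp : p < 315) : (zE (fR p E2)).1 = Ph (negV (reflM (Rn p) e2V)) := by
  rw [zE_apply, fR_E2 hp, Ph_negV]

theorem neg_fR_E3 {p : ℕ} (hp : p < 315) : (zE (fR p E3)).1 = Ph (negV (reflM (Rn p) e3V)) := by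
  rw [zE_apply, fR_E3 hp, Ph_negV]

theorem fp_of_z {p q : ℕ} (hp : p < 315) (hq : q < 315) (h : fR q = zE * fR p) : fp q = fpn p := by
  have e1 : reflM (Rn q) e1V = negV (reflM (Rn p) e1V) := by
    apply Ph_inj
    rw [← fR_E1 hq, ← neg_fR_E1 hp, h]
    rfl
  have e2 : reflM (Rn q) e2V = negV (reflM (Rn p) e2V) := by
    apply Ph_inj
    rw [← fR_E2 hq, ← neg_fR_E2 hp, h]
    rfl
  have e3 : reflM (Rn q) e3V = negV (reflM (Rn p) e3V) := by
    apply Ph_inj
    rw [← fR_E3 hq, ← neg_fR_E3 hp, h]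
    rfl
  unfold fp fpn
  rw [e1, e2, e3]

theorem fp_of_alt1 {p q : ℕ} (hp : p < 315) (hq : q < 315) (h : fR q = fR p * fR 282) : fp q = alt1 p := by
  have e1 : reflM (Rn q) e1V = negV (reflM (Rn p) e1V) := by
    apply Ph_inj
    rw [← fR_E1 hq, ← neg_fR_E1 hp, h]
    show (fR p (fR 282 E1)).1 = _
    rw [r_E1, zE_comm (fR_mem p)]
  have e2 : reflM (Rn q) e2V = reflM (Rn p) e2V := by
    apply Ph_inj
    rw [← fR_E2 hq, ← fR_E2 hp, h]
    show (fR p (fR 282 E2)).1 = _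
    rw [r_E2]
  have e3 : reflM (Rn q) e3V = reflM (Rn p) e3V := by
    apply Ph_inj
    rw [← fR_E3 hq, ← fR_E3 hp, h]
    show (fR p (fR 282 E3)).1 = _
    rw [r_E3]
  unfold fp alt1
  rw [e1, e2, e3]

theorem fp_of_alt2 {p q : ℕ} (hp : p < 315) (hq : q < 315) (h : fR q = fR p * (zE * fR 282)) : fp q = alt2 p := by
  have e1 : reflM (Rn q) e1V = reflM (Rn p) e1V := by
    apply Ph_inj
    rw [← fR_E1 hq, ← fR_E1 hp, h]
    show (fR p (zE (fR 282 E1))).1 = _
    rw [r_E1, zz]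
  have e2 : reflM (Rn q) e2V = negV (reflM (Rn p) e2V) := by
    apply Ph_inj
    rw [← fR_E2 hq, ← neg_fR_E2 hp, h]
    show (fR p (zE (fR 282 E2))).1 = _
    rw [r_E2, zE_comm (fR_mem p)]
  have e3 : reflM (Rn q) e3V = negV (reflM (Rn p) e3V) := by
    apply Ph_inj
    rw [← fR_E3 hq, ← neg_fR_E3 hp, h]
    show (fR p (zE (fR 282 E3))).1 = _
    rw [r_E3, zE_comm (fR_mem p)]
  unfold fp alt2
  rw [e1, e2, e3]

theorem mem_FP {q : ℕ} (hq : q < 315) : FP.contains (fp q) = true := by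
  apply List.contains_iff_mem.mpr
  rw [← FP_ok q hq, List.getD_eq_getElem _ _ (by rw [FP_len]; exact hq)]
  exact List.getElem_mem _

theorem fp_inj {a b : ℕ} (ha : a < 315) (hb : b < 315) (e : fp a = fp b) : a = b := by
  rcases Nat.lt_trichotomy a b with l | l | l
  · exact absurd e (ne_of_lt (fp_lt l hb))
  · exact l
  · exact absurd e.symm (ne_of_lt (fp_lt l ha))

theorem pq_eq {a b : G} (h : pq a = pq b) : b = a ∨ b = a * zG := by
  have h1 : a⁻¹ * b ∈ Subgroup.center G := QuotientGroup.eq.mp h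
  rcases center_cases h1 with h2 | h2
  · left
    exact (inv_mul_eq_one.mp h2).symm
  · right
    rw [← h2]
    group

theorem zG_comm (g : G) : g * zG = zG * g := (Subgroup.mem_center_iff.mp zG_center) g

theorem zE_comm' (p : ℕ) : fR p * zE = zE * fR p := congrArg Subtype.val (zG_comm (fG p))

theorem pq_fG_inj {p q : ℕ} (hp : p < 315) (hq : q < 315) (h : pq (fG p) = pq (fG q)) : p = q := by
  rcases pq_eq h with e | e
  · exact (fR_inj hq hp (congrArg Subtype.val e)).symm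
  · exfalso
    have e2 : fR q = zE * fR p := by
      have e3 : fR q = fR p * zE := congrArg Subtype.val e
      rw [e3, zE_comm']
    have h3 := scan_neg p hp
    rw [← fp_of_z hp hq e2, mem_FP hq] at h3
    exact absurd h3 (by simp)

theorem pairs {p q : ℕ} (hp : p < 315) (hq : q < 315) (h : pq (fG p) * pq (fG q) = pq (fG 282)) :
    ∃ j < 5, (p = aL.getD j 0 ∧ q = bL.getD j 0) ∨ (p = bL.getD j 0 ∧ q = aL.getD j 0) := by
  have h1 : pq (fG 282) = pq (fG p * fG q) := by rw [map_mul, h]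
  rcases pq_eq h1 with e | e
  · exfalso
    have e2 : fR q = fR p * fR 282 := by
      have e3 : fR p * fR q = fR 282 := congrArg Subtype.val e
      rw [← e3, ← mul_assoc, fR_invol hp, one_mul]
    have h3 := scan_alt1 p hp
    rw [← fp_of_alt1 hp hq e2, mem_FP hq] at h3
    exact absurd h3 (by simp)
  · have e2 : fR q = fR p * (zE * fR 282) := by
      have e3 : fR p * fR q = fR 282 * zE := congrArg Subtype.val e
      rw [← zE_comm', ← e3, ← mul_assoc, fR_invol hp, one_mul]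
    have e4 := fp_of_alt2 hp hq e2
    rcases scan_alt2 p hp with s | ⟨j, hj, s⟩
    · rw [← e4, mem_FP hq] at s
      exact absurd s (by simp)
    · refine ⟨j, hj, ?_⟩
      rcases s with ⟨s1, s2⟩ | ⟨s1, s2⟩
      · left
        exact ⟨s1, fp_inj hq (pair_ok j hj).2.1 (by rw [e4, s2])⟩
      · right
        exact ⟨s1, fp_inj hq (pair_ok j hj).1 (by rw [e4, s2])⟩

/-- The images of the reflections. -/
def Tb : Set J2 := {a | ∃ j < 315, a = pq (fG j)}

/-- The image of the first reflection. -/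
noncomputable def xb : J2 := pq (fG 282)

/-- The pairs of images of reflections with product the first one. -/
def Fb : Set (Set J2) := {S | ∃ a ∈ Tb, ∃ b ∈ Tb, a ≠ b ∧ a * b = xb ∧ S = {a, b}}

/-- The centraliser. -/
abbrev Cb : Subgroup J2 := Subgroup.centralizer ({xb} : Set J2)

/-- The blocks. -/
noncomputable def pB (j : ℕ) : Set J2 := {pq (fG (aL.getD j 0)), pq (fG (bL.getD j 0))}

theorem pz : pq zG = 1 := (QuotientGroup.eq_one_iff zG).mpr zG_center

theorem okW_two {a b : ℕ} (ha : a < 315) (hb : b < 315) : okW [a, b] = true := by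
  simp [okW, ha, hb]

theorem pair_mul {j : ℕ} (hj : j < 5) : pq (fG (aL.getD j 0)) * pq (fG (bL.getD j 0)) = xb := by
  obtain ⟨ha, hb, -, e1, e2, e3⟩ := pair_ok j hj
  have hok1 : okW [aL.getD j 0, bL.getD j 0] = true := okW_two ha hb
  have hok2 : okW (negW ++ [282]) = true := by decide
  have e := eW_eq hok1 hok2 e1 e2 e3
  have e4 : fG (aL.getD j 0) * fG (bL.getD j 0) = zG * fG 282 := by
    apply Subtype.ext
    have h4 := congrArg Subtype.val e
    show fR (aL.getD j 0) * fR (bL.getD j 0) = zE * fR 282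
    have h5 : elW [aL.getD j 0, bL.getD j 0] = fR (aL.getD j 0) * fR (bL.getD j 0) := by simp [elW]
    have h6 : elW (negW ++ [282]) = zE * fR 282 := by
      rw [elW_append]
      simp [elW, zE]
    rw [← h5, ← h6]
    exact h4
  rw [← map_mul, e4, map_mul, pz, one_mul]
  rfl

theorem Fb_iff {S : Set J2} : S ∈ Fb ↔ ∃ j < 5, S = pB j := by
  constructor
  · rintro ⟨a, ⟨p, hp, rfl⟩, b, ⟨q, hq, rfl⟩, hne, hab, rfl⟩
    obtain ⟨j, hj, h⟩ := pairs hp hq hab
    rcases h with ⟨h1, h2⟩ | ⟨h1, h2⟩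
    · subst h1
      subst h2
      exact ⟨j, hj, rfl⟩
    · subst h1
      subst h2
      exact ⟨j, hj, Set.pair_comm _ _⟩
  · rintro ⟨j, hj, rfl⟩
    obtain ⟨ha, hb, hne, -⟩ := pair_ok j hj
    exact ⟨_, ⟨_, ha, rfl⟩, _, ⟨_, hb, rfl⟩, fun e => hne (pq_fG_inj ha hb e), pair_mul hj, rfl⟩

theorem Tb_conj (c : J2) {a : J2} (ha : a ∈ Tb) : c * a * c⁻¹ ∈ Tb := by
  obtain ⟨g, rfl⟩ := QuotientGroup.mk_surjective c
  obtain ⟨j, hj, rfl⟩ := ha
  obtain ⟨k, hk, e⟩ := conj_any g.2 hj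
  refine ⟨k, hk, ?_⟩
  have e2 : g * fG j * g⁻¹ = fG k := Subtype.ext e
  rw [← e2, map_mul, map_mul, map_inv]
  rfl

/-- The conjugate of a set. -/
def cact (c : J2) (S : Set J2) : Set J2 := (fun y => c * y * c⁻¹) '' S

theorem cact_mem (c : ↥Cb) {S : Set J2} (hS : S ∈ Fb) : cact c.1 S ∈ Fb := by
  obtain ⟨a, ha, b, hb, hne, hab, rfl⟩ := hS
  refine ⟨c.1 * a * c.1⁻¹, Tb_conj _ ha, c.1 * b * c.1⁻¹, Tb_conj _ hb, ?_, ?_, ?_⟩
  · intro e
    apply hne
    exact mul_left_cancel (mul_right_cancel e)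
  · have hc := Subgroup.mem_centralizer_iff.mp c.2 xb rfl
    calc c.1 * a * c.1⁻¹ * (c.1 * b * c.1⁻¹) = c.1 * (a * b) * c.1⁻¹ := by group
      _ = c.1 * xb * c.1⁻¹ := by rw [hab]
      _ = xb * c.1 * c.1⁻¹ := by rw [hc]
      _ = xb := by group
  · unfold cact
    rw [Set.image_pair]

/-- The centraliser permutes the blocks. -/
noncomputable instance blockAction : MulAction ↥Cb ↥Fb where
  smul c S := ⟨cact c.1 S.1, cact_mem c S.2⟩
  one_smul S := Subtype.ext (by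
    show cact 1 S.1 = S.1
    simp [cact])
  mul_smul c d S := Subtype.ext (by
    show cact (c.1 * d.1) S.1 = cact c.1 (cact d.1 S.1)
    unfold cact
    rw [Set.image_image]
    apply Set.image_congr
    intro y _
    group)

/-- The permutation representation on the blocks. -/
noncomputable def Th : ↥Cb →* Equiv.Perm ↥Fb := MulAction.toPermHom ↥Cb ↥Fb

theorem Th_apply (c : ↥Cb) (S : ↥Fb) : (Th c S).1 = cact c.1 S.1 := rfl

theorem pB_inj {i j : ℕ} (hi : i < 5) (hj : j < 5) (h : pB i = pB j) : i = j := by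
  have h1 : pq (fG (aL.getD i 0)) ∈ pB j := by
    rw [← h]
    exact Or.inl rfl
  obtain ⟨hai, -⟩ := pair_ok i hi
  obtain ⟨haj, hbj, -⟩ := pair_ok j hj
  simp only [pB, Set.mem_insert_iff, Set.mem_singleton_iff] at h1
  rcases h1 with e | e
  · exact block_inj i hi j hj (Or.inl (pq_fG_inj hai haj e))
  · exact block_inj i hi j hj (Or.inr (pq_fG_inj hai hbj e))

/-- There are five blocks. -/
noncomputable def five : Fin 5 ≃ ↥Fb :=
  Equiv.ofBijective (fun j => ⟨pB j.1, Fb_iff.mpr ⟨j.1, j.2, rfl⟩⟩) (by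
    constructor
    · intro i j h
      exact Fin.ext (pB_inj i.2 j.2 (congrArg Subtype.val h))
    · rintro ⟨S, hS⟩
      obtain ⟨j, hj, rfl⟩ := Fb_iff.mp hS
      exact ⟨⟨j, hj⟩, rfl⟩)

theorem comm_of_mem {g : G} (h : pq g ∈ Cb) : g.1 * fR 282 * g.1⁻¹ = fR 282 := by
  obtain ⟨k, hk, e⟩ := conj_any g.2 (p := 282) (by norm_num)
  have h1 := Subgroup.mem_centralizer_iff.mp h xb rfl
  have h2 : pq (fG k) = pq (fG 282) := by
    have e2 : g * fG 282 * g⁻¹ = fG k := Subtype.ext e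
    rw [← e2, map_mul, map_mul, map_inv]
    show pq g * xb * (pq g)⁻¹ = xb
    rw [← h1]
    group
  rw [e, pq_fG_inj hk (by norm_num) h2]

theorem mem_of_comm {g : G} (h : g.1 * fR 282 * g.1⁻¹ = fR 282) : pq g ∈ Cb := by
  apply Subgroup.mem_centralizer_iff.mpr
  intro w hw
  have hw' : w = xb := hw
  rw [hw']
  have e : g * fG 282 * g⁻¹ = fG 282 := Subtype.ext h
  have e2 : g * fG 282 = fG 282 * g := mul_inv_eq_iff_eq_mul.mp e
  show pq (fG 282) * pq g = pq g * pq (fG 282)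
  rw [← map_mul, ← map_mul, e2]

theorem comm_of_fix {g : Equiv.Perm L} (hg : g ∈ twoJ2) (h : g E1 = E1) : g * fR 282 * g⁻¹ = fR 282 := by
  ext1 x
  apply Subtype.ext
  rw [conj_refl hg E1_norm fR0_apply x, h, fR0_apply]

theorem inv_mul_fix {a b : Equiv.Perm L} {v : L} (h : b v = a v) : (a⁻¹ * b) v = v := by
  show a⁻¹ (b v) = v
  rw [h]
  simp

theorem eq_of_two {a b : Equiv.Perm L} (ha : a ∈ twoJ2) (hb : b ∈ twoJ2) (h1 : b E1 = a E1) (h2 : b W1 = a W1) : a = b := by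
  have hm : a⁻¹ * b ∈ twoJ2 := Subgroup.mul_mem _ (Subgroup.inv_mem _ ha) hb
  exact inv_mul_eq_one.mp (eq_one_of_two hm (inv_mul_fix h1) (inv_mul_fix h2))

/-- The orbit of the second vector under the stabiliser of the first. -/
theorem orbit_form {g : Equiv.Perm L} (hg : g ∈ twoJ2) (hg1 : g E1 = E1) :
    ∃ i, ∃ hi : i < 32, g W1 = mk (dV (Ol.getD i 0)) (Ol_ok i hi) := by
  have hn : ipR W0 W0 = sixt := W0_ok.2
  obtain ⟨Y, hY, e⟩ := leech_iff.mp (g W1).2
  have hnY : ipR Y Y = sixt := by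
    rw [← qip_four_iff, ← e]
    exact g_Mn hg ((qip_four_iff _).mpr hn)
  obtain ⟨-, l, hl, hc⟩ := min_code hY hnY
  obtain ⟨hA, hB⟩ := (norm_iff Y).mp hnY
  have a0 := AA_nonneg Y.1
  have a1 := AA_nonneg Y.2.1
  have a2 := AA_nonneg Y.2.2
  have ed : dV (enc3 Y) = Y := dV_enc3 (bnd_of_AA (by omega)) (bnd_of_AA (by omega)) (bnd_of_AA (by omega))
  have h1' : Y.1 = W0.1 := by
    have h2 := iso_of_mem hg W1 E1
    rw [hg1, e] at h2
    have h3 : qip (Ph Y) E1.1 = qip (Ph W0) E1.1 := h2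
    rw [qip_E1, qip_E1] at h3
    exact ph_inj (mul_right_cancel₀ two_ne h3)
  have hc1 : enc3 Y % 4294967296 = enc W0.1 := by
    have l0 := enc_lt Y.1 (bnd_of_AA (by omega))
    rw [← h1']
    unfold enc3
    omega
  have h4 := List.all_eq_true.mp (List.all_eq_true.mp scan0_ok l hl) _ hc
  simp only [Bool.or_eq_true, Bool.not_eq_true'] at h4
  have h5 : Nat.beq (enc3 Y % 4294967296) (enc W0.1) = true := by
    rw [hc1]
    exact Nat.beq_refl _
  rcases h4 with h4 | h4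
  · rw [h5] at h4
    exact absurd h4 (by simp)
  · have h6 : enc3 Y ∈ Ol := List.contains_iff_mem.mp h4
    obtain ⟨i, hi, hie⟩ := List.mem_iff_getElem.mp h6
    have hi' : i < 32 := hi
    refine ⟨i, hi', ?_⟩
    apply Subtype.ext
    show (g W1).1 = Ph (dV (Ol.getD i 0))
    rw [e]
    have : Ol.getD i 0 = enc3 Y := by
      rw [List.getD_eq_getElem _ _ hi, hie]
    rw [this, ed]

/-- The elements fixing the first vector. -/
noncomputable def oE (i : ℕ) : Equiv.Perm L := elW (Owl.getD i [])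

theorem oE_mem (i : ℕ) : oE i ∈ twoJ2 := elW_mem _

theorem oE_E1 {i : ℕ} (hi : i < 32) : oE i E1 = E1 :=
  elW_eq (Ow_ok i hi).1 inL_e1 inL_e1 (Ow_ok i hi).2.1

theorem oE_W1 {i : ℕ} (hi : i < 32) : (oE i W1).1 = Ph (evW (Owl.getD i []) W0) :=
  (elW_apply (Ow_ok i hi).1 W0_ok.1).2

theorem S1_form {g : Equiv.Perm L} (hg : g ∈ twoJ2) (h1 : g E1 = E1) : ∃ i < 32, g = oE i := by
  obtain ⟨i, hi, e⟩ := orbit_form hg h1
  refine ⟨i, hi, eq_of_two hg (oE_mem i) ((oE_E1 hi).trans h1.symm) ?_⟩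
  rw [e]
  exact elW_eq (Ow_ok i hi).1 W0_ok.1 (Ol_ok i hi) (Ow_ok i hi).2.2

/-- The central element of the stabiliser. -/
noncomputable def zeta : Equiv.Perm L := zE * fR 282

theorem zeta_mem : zeta ∈ twoJ2 := Subgroup.mul_mem _ zE_mem (fR_mem 282)

theorem zeta_E1 : zeta E1 = E1 := by
  show zE (fR 282 E1) = E1
  rw [r_E1, zz]

theorem zeta_val (x : L) : ((zeta x)).1 = - (fR 282 x).1 := zE_apply _

theorem zeta_W {X : V3} (hX : inL X) : (zeta (mk X hX)).1 = Ph (negV (reflM (Rn 282) X)) := by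
  rw [zeta_val, fR_apply (by norm_num), Ph_negV, Ph_reflM (Rn_ok 282 (by norm_num)).1 hX]
  rfl

theorem W1_val : W1 = mk W0 W0_ok.1 := rfl

theorem oE_one {i : ℕ} (hi : i < 32) (h : evW (Owl.getD i []) W0 = W0) : oE i = 1 := by
  refine (eq_of_two (Subgroup.one_mem _) (oE_mem i) (oE_E1 hi) ?_).symm
  apply Subtype.ext
  rw [oE_W1 hi, h]
  rfl

theorem oE_zeta {i : ℕ} (hi : i < 32) (h : evW (Owl.getD i []) W0 = Wz) : oE i = zeta := by
  refine (eq_of_two zeta_mem (oE_mem i) ((oE_E1 hi).trans zeta_E1.symm) ?_).symm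
  apply Subtype.ext
  rw [oE_W1 hi, h, W1_val, zeta_W]
  rfl

/-- The conjugate of a reflection under a word. -/
theorem conj_word_apply {w : List ℕ} (hw : okW w = true) {p : ℕ} (hp : p < 315) (x : L) :
    ((elW w * fR p * (elW w)⁻¹) x).1 = qrefl (Ph (evW w (Rn p))) x.1 := by
  rw [conj_refl (elW_mem w) (Rv_norm hp) (fR_apply hp) x]
  have h1 : (elW w (Rv hp)).1 = Ph (evW w (Rn p)) := (elW_apply hw (Rn_ok p hp).1).2
  rw [h1]

theorem conj_of_lineEq {w : List ℕ} (hw : okW w = true) {p k : ℕ} (hp : p < 315) (hk : k < 315)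
    (h : lineEq (evW w (Rn p)) k = true) : elW w * fR p * (elW w)⁻¹ = fR k := by
  have hY := (elW_apply hw (Rn_ok p hp).1).1
  simp only [lineEq, Bool.and_eq_true, decide_eq_true_eq] at h
  obtain ⟨⟨h1, h2⟩, h3⟩ := h
  have hm : elW w * fR p * (elW w)⁻¹ ∈ twoJ2 :=
    Subgroup.mul_mem _ (Subgroup.mul_mem _ (elW_mem w) (fR_mem p)) (Subgroup.inv_mem _ (elW_mem w))
  apply eq_of_agree hm (fR_mem k)
  · apply Subtype.ext
    rw [conj_word_apply hw hp, fR_E1 hk, E1_val, ← Ph_reflM hY inL_e1, h1]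
  · apply Subtype.ext
    rw [conj_word_apply hw hp, fR_E2 hk, E2_val, ← Ph_reflM hY inL_e2, h2]
  · apply Subtype.ext
    rw [conj_word_apply hw hp, fR_E3 hk, E3_val, ← Ph_reflM hY inL_e3, h3]

theorem lineEq_of_conj {w : List ℕ} (hw : okW w = true) {p k : ℕ} (hp : p < 315) (hk : k < 315)
    (h : elW w * fR p * (elW w)⁻¹ = fR k) : lineEq (evW w (Rn p)) k = true := by
  have hY := (elW_apply hw (Rn_ok p hp).1).1
  simp only [lineEq, Bool.and_eq_true, decide_eq_true_eq]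
  refine ⟨⟨?_, ?_⟩, ?_⟩
  · apply Ph_inj
    rw [← fR_E1 hk, ← h, conj_word_apply hw hp, E1_val, Ph_reflM hY inL_e1]
  · apply Ph_inj
    rw [← fR_E2 hk, ← h, conj_word_apply hw hp, E2_val, Ph_reflM hY inL_e2]
  · apply Ph_inj
    rw [← fR_E3 hk, ← h, conj_word_apply hw hp, E3_val, Ph_reflM hY inL_e3]

theorem line_stab {g : Equiv.Perm L} (hg : g ∈ twoJ2) (h : g * fR 282 * g⁻¹ = fR 282) :
    ∃ v, ∃ hv : v < 120, g E1 = lm (ph (Un v)) (unit_mem hv) E1 := by
  obtain ⟨j, hj, u, hu, e⟩ := min_form (g_Mn hg E1_norm)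
  have h2 : fR j = fR 282 := by
    ext1 x
    apply Subtype.ext
    rw [← h, conj_refl hg E1_norm fR0_apply x, e, qrefl_lm hj hu, fR_apply hj]
  have hj2 := fR_inj hj (by norm_num) h2
  subst hj2
  obtain ⟨v, hv, e3⟩ := unit_tr u hu
  refine ⟨v, hv, ?_⟩
  rw [e]
  apply Subtype.ext
  show (fun t => ph (Un u) * Ph (Rn 282) t) = fun t => ph (Un v) * Ph e1V t
  rw [← Ph_lmulV (Un_ok u hu).1 (Rn_ok _ hj).1, ← Ph_lmulV (Un_ok v hv).1 inL_e1, e3]

section stabiliser

/-- The central element in the stabiliser. -/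
noncomputable def zetaS : ↥S1 := ⟨⟨zeta, zeta_mem⟩, zeta_E1⟩

theorem zetaS_ne : zetaS ≠ 1 := by
  intro h
  have h1 : zeta = 1 := congrArg (fun s : ↥S1 => s.1.1) h
  have h2 := zeta_W inL_e2
  have h3 : (zeta (mk e2V inL_e2)).1 = Ph e2V := by rw [h1]; rfl
  rw [h3] at h2
  have := Ph_inj h2
  rw [r_ok.2.1] at this
  exact absurd this (by decide +kernel)

theorem S1_eq {s t : ↥S1} (h : s.1.1 = t.1.1) : s = t := Subtype.ext (Subtype.ext h)

theorem S1_mem (i : ℕ) (hi : i < 32) : (⟨oE i, oE_mem i⟩ : G) ∈ S1 := oE_E1 hi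

/-- An element of the stabiliser from a word. -/
noncomputable def oS (i : ℕ) (hi : i < 32) : ↥S1 := ⟨⟨oE i, oE_mem i⟩, S1_mem i hi⟩

theorem okW_O {i j : ℕ} (hi : i < 32) (hj : j < 32) : okW (Owl.getD i [] ++ Owl.getD j []) = true :=
  okW_append (Ow_ok i hi).1 (Ow_ok j hj).1

theorem oE_mul_W1 {i j : ℕ} (hi : i < 32) (hj : j < 32) :
    ((oE i * oE j) W1).1 = Ph (evW (Owl.getD i [] ++ Owl.getD j []) W0) := by
  have h := (elW_apply (okW_O hi hj) W0_ok.1).2
  rw [elW_append] at h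
  exact h

theorem zeta_comm (s : ↥S1) : s * zetaS = zetaS * s := by
  apply S1_eq
  show s.1.1 * (zE * fR 282) = zE * fR 282 * s.1.1
  have h1 : s.1.1 * zE = zE * s.1.1 := congrArg Subtype.val (zG_comm s.1)
  have h2 := comm_of_fix s.1.2 s.2
  have h3 : s.1.1 * fR 282 = fR 282 * s.1.1 := mul_inv_eq_iff_eq_mul.mp h2
  rw [← mul_assoc, h1, mul_assoc, h3, mul_assoc]

theorem center_iff (x : ↥S1) : x ∈ Subgroup.center ↥S1 ↔ x = 1 ∨ x = zetaS := by
  constructor
  · intro hx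
    obtain ⟨i, hi, e⟩ := S1_form x.1.2 x.2
    rcases center_S i hi with h | h | ⟨j, hj, hne⟩
    · left
      apply S1_eq
      rw [e, oE_one hi h]
      rfl
    · right
      apply S1_eq
      rw [e, oE_zeta hi h]
      rfl
    · exfalso
      apply hne
      have h1 := (Subgroup.mem_center_iff.mp hx) (oS j hj)
      have h2 : oE j * oE i = oE i * oE j := by
        have h3 := congrArg (fun s : ↥S1 => s.1.1) h1
        have h4 : (oS j hj).1.1 * x.1.1 = x.1.1 * (oS j hj).1.1 := h3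
        rw [e] at h4
        exact h4
      apply Ph_inj
      rw [← oE_mul_W1 hi hj, ← oE_mul_W1 hj hi, h2]
  · rintro (rfl | rfl)
    · exact Subgroup.one_mem _
    · exact Subgroup.mem_center_iff.mpr zeta_comm

theorem comm_aux {a b : Equiv.Perm L} (h : a * b = zeta * (b * a)) : a * b * a⁻¹ * b⁻¹ = zeta := by
  rw [h]
  group

theorem comm_val (a b : ↥S1) : (⁅a, b⁆).1.1 = a.1.1 * b.1.1 * a.1.1⁻¹ * b.1.1⁻¹ := rfl

theorem oE_rel : oE 0 * oE 1 = zeta * (oE 1 * oE 0) := by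
  refine eq_of_two (Subgroup.mul_mem _ (oE_mem 0) (oE_mem 1))
    (Subgroup.mul_mem _ zeta_mem (Subgroup.mul_mem _ (oE_mem 1) (oE_mem 0))) ?_ ?_
  · rw [Equiv.Perm.mul_apply, Equiv.Perm.mul_apply, Equiv.Perm.mul_apply, oE_E1 (i := 0) (by norm_num), oE_E1 (i := 1) (by norm_num),
      oE_E1 (i := 0) (by norm_num), zeta_E1]
  · apply Subtype.ext
    have hY := (elW_apply (okW_O (i := 1) (j := 0) (by norm_num) (by norm_num)) W0_ok.1).1
    have hb : (oE 1 * oE 0) W1 = mk (evW (Owl.getD 1 [] ++ Owl.getD 0 []) W0) hY :=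
      Subtype.ext (oE_mul_W1 (i := 1) (j := 0) (by norm_num) (by norm_num))
    rw [oE_mul_W1 (i := 0) (j := 1) (by norm_num) (by norm_num), comm_S, Equiv.Perm.mul_apply, hb, zeta_W]

theorem comm_zeta : ⁅oS 0 (by norm_num), oS 1 (by norm_num)⁆ = zetaS := by
  apply S1_eq
  rw [comm_val]
  exact comm_aux oE_rel

/-- The members of the stabiliser commuting with the reflection in a line. -/
noncomputable def Mj (p : ℕ) : Subgroup ↥S1 := (Subgroup.centralizer ({fG p} : Set G)).subgroupOf S1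

theorem Mj_iff (s : ↥S1) (p : ℕ) : s ∈ Mj p ↔ s.1.1 * fR p * s.1.1⁻¹ = fR p := by
  unfold Mj
  rw [Subgroup.mem_subgroupOf, Subgroup.mem_centralizer_iff]
  constructor
  · intro h
    have h1 : fG p * s.1 = s.1 * fG p := h _ rfl
    have h2 : fR p * s.1.1 = s.1.1 * fR p := congrArg Subtype.val h1
    rw [← h2]
    group
  · intro h w hw
    have hw' : w = fG p := hw
    rw [hw']
    apply Subtype.ext
    show fR p * s.1.1 = s.1.1 * fR p
    exact (mul_inv_eq_iff_eq_mul.mp h).symm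

theorem conj_oE {i p k : ℕ} (hi : i < 32) (hp : p < 315) (hk : k < 315) (h : lineEq (Oy i p) k = true) :
    oE i * fR p * (oE i)⁻¹ = fR k := conj_of_lineEq (Ow_ok i hi).1 hp hk h

theorem Mj_index {j : ℕ} (hj : j < 5) : (Mj (aL.getD j 0)).index = 2 := by
  obtain ⟨ha, hb, hne, -⟩ := pair_ok j hj
  have hfne : fR (aL.getD j 0) ≠ fR (bL.getD j 0) := fun e => hne (fR_inj ha hb e)
  obtain ⟨i0, hi0, hs⟩ := swap_S j hj
  have c0 := conj_oE hi0 ha hb hs
  rw [Subgroup.index_eq_two_iff]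
  refine ⟨oS i0 hi0, ?_⟩
  intro b
  obtain ⟨i, hi, e⟩ := S1_form b.1.2 b.2
  have hmul : ((b * oS i0 hi0).1.1) * fR (aL.getD j 0) * ((b * oS i0 hi0).1.1)⁻¹ = b.1.1 * fR (bL.getD j 0) * b.1.1⁻¹ := by
    show (b.1.1 * oE i0) * fR (aL.getD j 0) * (b.1.1 * oE i0)⁻¹ = _
    rw [← c0]
    group
  rw [Mj_iff, Mj_iff, hmul, e]
  rcases block_S i hi j hj with ⟨h1, h2⟩ | ⟨h1, h2⟩
  · have c1 := conj_oE hi ha ha h1
    have c2 := conj_oE hi hb hb h2
    right
    rw [c1, c2]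
    exact ⟨rfl, fun h => hfne h.symm⟩
  · have c1 := conj_oE hi ha hb h1
    have c2 := conj_oE hi hb ha h2
    left
    rw [c1, c2]
    exact ⟨rfl, fun h => hfne h.symm⟩

theorem extra_S1 : Cfsg.IsExtraspecial 2 ↥S1 := by
  refine extraspecial_of card_S1 zetaS zetaS_ne center_iff _ _ comm_zeta (ι := Fin 5)
    (fun j => Mj (aL.getD j.1 0)) (fun j => Mj_index j.2) ?_
  intro x hx
  obtain ⟨i, hi, e⟩ := S1_form x.1.2 x.2
  have h1 : ∀ j < 5, lineEq (Oy i (aL.getD j 0)) (aL.getD j 0) = true := by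
    intro j hj
    have h2 := (Mj_iff x _).mp (hx ⟨j, hj⟩)
    rw [e] at h2
    exact lineEq_of_conj (Ow_ok i hi).1 (pair_ok j hj).1 (pair_ok j hj).1 h2
  rcases cap_S i hi h1 with h | h
  · left
    apply S1_eq
    rw [e, oE_one hi h]
    rfl
  · right
    apply S1_eq
    rw [e, oE_zeta hi h]
    rfl

end stabiliser

/-- The stabiliser inside the centraliser. -/
noncomputable def iS : ↥S1 →* ↥Cb :=
  MonoidHom.codRestrict (pq.comp S1.subtype) Cb (fun s => mem_of_comm (comm_of_fix s.1.2 s.2))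

theorem iS_val (s : ↥S1) : (iS s).1 = pq s.1 := rfl

theorem zE_E1_ne : zE E1 ≠ E1 := by
  intro e
  have e2 : (zE E1).1 = - E1.1 := zE_apply E1
  rw [e] at e2
  have h3 : Ph e1V = Ph (negV e1V) := by
    rw [Ph_negV]
    exact e2
  exact absurd (Ph_inj h3) (by decide +kernel)

theorem iS_inj : Function.Injective iS := by
  rw [injective_iff_map_eq_one]
  intro s hs
  have h1 : pq s.1 = 1 := congrArg Subtype.val hs
  have h2 : s.1 ∈ Subgroup.center G := (QuotientGroup.eq_one_iff _).mp h1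
  rcases center_cases h2 with h3 | h3
  · exact Subtype.ext h3
  · exfalso
    have e : s.1.1 E1 = E1 := s.2
    rw [h3] at e
    exact zE_E1_ne e

theorem Th_eq_one_iff (c : ↥Cb) : Th c = 1 ↔ ∀ j < 5, cact c.1 (pB j) = pB j := by
  constructor
  · intro h j hj
    exact congrArg (fun f : Equiv.Perm ↥Fb => (f ⟨pB j, Fb_iff.mpr ⟨j, hj, rfl⟩⟩).1) h
  · intro h
    ext1 S
    apply Subtype.ext
    obtain ⟨S, hS⟩ := S
    obtain ⟨j, hj, rfl⟩ := Fb_iff.mp hS
    exact h j hj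

theorem cact_of_S (s : ↥S1) {j : ℕ} (hj : j < 5) : cact (pq s.1) (pB j) = pB j := by
  obtain ⟨i, hi, e⟩ := S1_form s.1.2 s.2
  obtain ⟨ha, hb, -⟩ := pair_ok j hj
  have key : ∀ p k, p < 315 → k < 315 → lineEq (Oy i p) k = true → pq s.1 * pq (fG p) * (pq s.1)⁻¹ = pq (fG k) := by
    intro p k hp hk h
    have h1 := conj_oE hi hp hk h
    have e2 : s.1 * fG p * s.1⁻¹ = fG k := by
      apply Subtype.ext
      show s.1.1 * fR p * s.1.1⁻¹ = fR k
      rw [e]
      exact h1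
    rw [← e2, map_mul, map_mul, map_inv]
  unfold cact pB
  rw [Set.image_pair]
  rcases block_S i hi j hj with ⟨h1, h2⟩ | ⟨h1, h2⟩
  · rw [key _ _ ha ha h1, key _ _ hb hb h2]
  · rw [key _ _ ha hb h1, key _ _ hb ha h2, Set.pair_comm]

theorem cact_mul (a b : J2) (S : Set J2) : cact (a * b) S = cact a (cact b S) := by
  unfold cact
  rw [Set.image_image]
  apply Set.image_congr
  intro y _
  group

theorem lmul_pm_E1 : (lm (ph (Un 60)) (unit_mem (by norm_num)) E1).1 = E1.1 := by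
  show (fun t => ph (Un 60) * Ph e1V t) = Ph e1V
  rw [← Ph_lmulV (Un_ok 60 (by norm_num)).1 inL_e1, unit_pm.1]

theorem lmul_nm_E1 : (lm (ph (Un 59)) (unit_mem (by norm_num)) E1).1 = - E1.1 := by
  show (fun t => ph (Un 59) * Ph e1V t) = - Ph e1V
  rw [← Ph_lmulV (Un_ok 59 (by norm_num)).1 inL_e1, unit_pm.2, Ph_negV]

theorem ker_eq : Th.ker = iS.range := by
  ext c
  rw [MonoidHom.mem_ker, MonoidHom.mem_range, Th_eq_one_iff]
  constructor
  · intro h
    obtain ⟨c, hc⟩ := c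
    obtain ⟨g, rfl⟩ := QuotientGroup.mk_surjective c
    have hc' : pq g ∈ Cb := hc
    have hcomm := comm_of_mem hc'
    obtain ⟨v, hv, ev⟩ := line_stab g.2 hcomm
    have hokv := (wU_ok v hv).1
    have hw : elW (wUl.getD v []) E1 = lm (ph (Un v)) (unit_mem hv) E1 := by
      have h3 := elW_eq hokv inL_e1 (inL_lmul hv inL_e1) (wU_ok v hv).2
      rw [lm_mk hv inL_e1] at h3
      exact h3
    have hs : ((elW (wUl.getD v []))⁻¹ * g.1) E1 = E1 := inv_mul_fix (ev.trans hw.symm)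
    let wG : G := ⟨elW (wUl.getD v []), elW_mem _⟩
    let s : ↥S1 := ⟨wG⁻¹ * g, hs⟩
    have hgs : g = wG * s.1 := by
      show g = wG * (wG⁻¹ * g)
      group
    have hblock : ∀ j < 5, cact (pq wG) (pB j) = pB j := by
      intro j hj
      have h1 := h j hj
      have h2 : (↑g : J2) = pq wG * pq s.1 := by
        show pq g = _
        rw [← map_mul, ← hgs]
      simp only at h1
      rw [h2, cact_mul, cact_of_S s hj] at h1
      exact h1
    have hcases : v = 60 ∨ v = 59 := by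
      rcases unit_scan v hv with h1 | h1 | ⟨j, hj, h2, h3⟩
      · exact Or.inl h1
      · exact Or.inr h1
      · exfalso
        obtain ⟨ha, hb, -⟩ := pair_ok j hj
        obtain ⟨k, hk, ek⟩ := conj_any wG.2 ha
        have h4 : pq (fG k) ∈ pB j := by
          rw [← hblock j hj]
          refine ⟨pq (fG (aL.getD j 0)), Or.inl rfl, ?_⟩
          have e2 : wG * fG (aL.getD j 0) * wG⁻¹ = fG k := Subtype.ext ek
          rw [← e2, map_mul, map_mul, map_inv]
        simp only [pB, Set.mem_insert_iff, Set.mem_singleton_iff] at h4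
        rcases h4 with e4 | e4
        · have e5 := pq_fG_inj hk ha e4
          rw [e5] at ek
          have := lineEq_of_conj hokv ha ha ek
          rw [h2] at this
          exact absurd this (by simp)
        · have e5 := pq_fG_inj hk hb e4
          rw [e5] at ek
          have := lineEq_of_conj hokv ha hb ek
          rw [h3] at this
          exact absurd this (by simp)
    rcases hcases with rfl | rfl
    · have hf : g.1 E1 = E1 := by
        rw [ev]
        exact Subtype.ext lmul_pm_E1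
      exact ⟨⟨g, hf⟩, Subtype.ext rfl⟩
    · have hf : (zG * g).1 E1 = E1 := by
        show zE (g.1 E1) = E1
        rw [ev]
        apply Subtype.ext
        rw [zE_apply, lmul_nm_E1, neg_neg]
      refine ⟨⟨zG * g, hf⟩, Subtype.ext ?_⟩
      show pq (zG * g) = pq g
      rw [map_mul, pz, one_mul]
  · rintro ⟨s, rfl⟩ j hj
    exact cact_of_S s hj

theorem orbit_xb : orbit (ConjAct J2) xb = Tb := by
  ext a
  constructor
  · rintro ⟨c, rfl⟩
    show c • xb ∈ Tb
    rw [ConjAct.smul_def]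
    exact Tb_conj _ ⟨282, by norm_num, rfl⟩
  · rintro ⟨j, hj, rfl⟩
    obtain ⟨g, hg, e⟩ := refl_trans (fR 282) (fR j) (refl_iff.mpr ⟨282, by norm_num, rfl⟩) (refl_iff.mpr ⟨j, hj, rfl⟩)
    refine ⟨ConjAct.toConjAct (pq ⟨g, hg⟩), ?_⟩
    show ConjAct.toConjAct (pq ⟨g, hg⟩) • xb = pq (fG j)
    rw [ConjAct.smul_def]
    simp only [ConjAct.ofConjAct_toConjAct]
    have e2 : (⟨g, hg⟩ : G) * fG 282 * (⟨g, hg⟩ : G)⁻¹ = fG j := Subtype.ext e
    rw [← e2, map_mul, map_mul, map_inv]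
    rfl

theorem ncard_Tb : Tb.ncard = 315 := by
  have e : Tb = (fun j => pq (fG j)) '' (↑(Finset.range 315) : Set ℕ) := by
    ext a
    constructor
    · rintro ⟨j, hj, rfl⟩
      exact ⟨j, by simpa using hj, rfl⟩
    · rintro ⟨j, hj, rfl⟩
      exact ⟨j, by simpa using hj, rfl⟩
  rw [e, Set.InjOn.ncard_image, Set.ncard_coe_finset, Finset.card_range]
  intro a ha b hb h
  exact pq_fG_inj (by simpa using ha) (by simpa using hb) h

theorem card_Cb : Nat.card Cb = 1920 := by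
  have h1 : (stabilizer (ConjAct J2) xb).index = 315 := by
    rw [index_stabilizer, orbit_xb, ncard_Tb]
  have h2 := Subgroup.card_mul_index (stabilizer (ConjAct J2) xb)
  have h3 : Nat.card (ConjAct J2) = 604800 := card_J2
  rw [h1, h3] at h2
  have h4 : Nat.card Cb = Nat.card (stabilizer (ConjAct J2) xb) := by
    apply Nat.card_congr
    refine Equiv.subtypeEquiv ConjAct.toConjAct.toEquiv (fun a => ?_)
    show a ∈ Subgroup.centralizer ({xb} : Set J2) ↔ _
    rw [Subgroup.centralizer_eq_comap_stabilizer]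
    rfl
  rw [h4]
  omega

theorem CProp_xb : CProp xb := by
  let e5 : ↥Fb ≃ Fin 5 := five.symm
  let Θ : ↥Cb →* Equiv.Perm (Fin 5) := (e5.permCongrHom.toMonoidHom).comp Th
  have hker : Θ.ker = Th.ker := by
    ext c
    simp only [MonoidHom.mem_ker, Θ, MonoidHom.comp_apply]
    exact map_eq_one_iff _ e5.permCongrHom.injective
  let eS : ↥S1 ≃* ↥Θ.ker := (MonoidHom.ofInjective iS_inj).trans (MulEquiv.subgroupCongr (ker_eq.symm.trans hker.symm))
  have hcQ : Nat.card ↥Θ.ker = 32 := by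
    rw [← Nat.card_congr eS.toEquiv]
    exact card_S1
  refine ⟨Θ.ker, inferInstance, hcQ, extraspecial_congr eS extra_S1, ?_⟩
  let e6 : (↥Cb ⧸ Θ.ker) ≃* Θ.range := QuotientGroup.quotientKerEquivRange Θ
  have h1 := Subgroup.card_eq_card_quotient_mul_card_subgroup Θ.ker
  rw [card_Cb, hcQ] at h1
  have h2 : Nat.card Θ.range = 60 := by
    rw [← Nat.card_congr e6.toEquiv]
    omega
  have h3 := Subgroup.card_mul_index Θ.range
  have h4 : Nat.card (Equiv.Perm (Fin 5)) = 120 := by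
    rw [Nat.card_eq_fintype_card, Fintype.card_perm, Fintype.card_fin]
    rfl
  rw [h2, h4] at h3
  have h5 : Θ.range.index = 2 := by omega
  have h6 := Equiv.Perm.eq_alternatingGroup_of_index_eq_two h5
  exact ⟨e6.trans (MulEquiv.subgroupCongr h6)⟩

/-- The statement on the centraliser. -/
theorem centralizer_main (f : Equiv.Perm L) (hf : IsIcoReflection f) (hfm : f ∈ twoJ2) :
    CProp (QuotientGroup.mk ⟨f, hfm⟩ : J2) := by
  obtain ⟨g, hg, e⟩ := refl_trans (fR 282) f (refl_iff.mpr ⟨282, by norm_num, rfl⟩) hf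
  refine CProp_conj (pq ⟨g, hg⟩) ?_ CProp_xb
  have e2 : (⟨g, hg⟩ : G) * fG 282 * (⟨g, hg⟩ : G)⁻¹ = ⟨f, hfm⟩ := Subtype.ext e
  show pq ⟨g, hg⟩ * pq (fG 282) * (pq ⟨g, hg⟩)⁻¹ = pq ⟨f, hfm⟩
  rw [← e2, map_mul, map_mul, map_inv]

end Cfsg.Agent.H02.JN
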