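import Mathlib

/-!
Sharply transitive groups: counting involutions, the degrees in the sharply 4-transitive case.
-/

set_option autoImplicit false

namespace Cfsg.Agent.H02.Jor

open Classical

variable {α : Type*} [Fintype α] [DecidableEq α]

/-- Sharply `k`-transitive subgroup of the symmetric group. -/
structure ST (G : Subgroup (Equiv.Perm α)) (k : ℕ) : Prop where
  ex : ∀ x y : Fin k ↪ α, ∃ g ∈ G, ∀ i, g (x i) = y i
  rig : ∀ x : Fin k ↪ α, ∀ g ∈ G, (∀ i, g (x i) = x i) → g = 1

theorem ST.of_hyp (G : Subgroup (Equiv.Perm α)) (k : ℕ) [MulAction.IsMultiplyPretransitive G α k]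
    (h : ∀ x : Fin k ↪ α, MulAction.stabilizer G x = ⊥) : ST G k := by
  refine ⟨?_, ?_⟩
  · intro x y
    obtain ⟨g, hg⟩ := MulAction.exists_smul_eq G x y
    refine ⟨g.1, g.2, ?_⟩
    intro i
    exact congrArg (fun f : Fin k ↪ α => f i) hg
  · intro x g hg hfix
    have h1 : (⟨g, hg⟩ : G) ∈ MulAction.stabilizer G x := by
      rw [MulAction.mem_stabilizer_iff]
      apply Function.Embedding.ext
      intro i
      exact hfix i
    rw [h x, Subgroup.mem_bot] at h1
    exact congrArg Subtype.val h1

/-- The involutions of a subgroup. -/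
noncomputable def Inv (G : Subgroup (Equiv.Perm α)) : Finset (Equiv.Perm α) :=
  Finset.univ.filter (fun g => g ∈ G ∧ g ≠ 1 ∧ g * g = 1)

theorem mem_Inv {G : Subgroup (Equiv.Perm α)} {g : Equiv.Perm α} : g ∈ Inv G ↔ g ∈ G ∧ g ≠ 1 ∧ g * g = 1 := by
  simp [Inv]

/-- Fixed points. -/
noncomputable def Fx (g : Equiv.Perm α) : Finset α := Finset.univ.filter (fun x => g x = x)

/-- Moved points. -/
noncomputable def Mv (g : Equiv.Perm α) : Finset α := Finset.univ.filter (fun x => g x ≠ x)

theorem mem_Fx {g : Equiv.Perm α} {x : α} : x ∈ Fx g ↔ g x = x := by simp [Fx]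
theorem mem_Mv {g : Equiv.Perm α} {x : α} : x ∈ Mv g ↔ g x ≠ x := by simp [Mv]

theorem card_Fx_add (g : Equiv.Perm α) : (Fx g).card + (Mv g).card = Fintype.card α := by
  have := Finset.card_filter_add_card_filter_not (s := (Finset.univ : Finset α)) (fun x => g x = x)
  rw [Finset.card_univ] at this
  exact this

theorem even_Mv {g : Equiv.Perm α} (h : g * g = 1) : 2 ∣ (Mv g).card := by
  have h1 : g ^ 2 = 1 := by rw [pow_two, h]
  have h2 := Equiv.Perm.two_dvd_card_support h1
  have h3 : g.support = Mv g := by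
    ext x
    simp [mem_Mv]
  rwa [h3] at h2

/-- Double counting of the configurations. -/
theorem sum_fiber {G : Subgroup (Equiv.Perm α)} {k : ℕ} (h : ST G k) (σ : Fin k → Fin k) (hσi : Function.Injective σ)
    (hσ2 : ∀ i, σ (σ i) = i) (hne : ∃ i, σ i ≠ i) :
    ∑ g ∈ Inv G, (Finset.univ.filter (fun z : Fin k ↪ α => ∀ i, g (z i) = z (σ i))).card
      = Fintype.card (Fin k ↪ α) := by
  have hex : ∀ z : Fin k ↪ α, ∃ g, g ∈ G ∧ ∀ i, g (z i) = z (σ i) := by
    intro z
    exact h.ex z ⟨fun i => z (σ i), fun i j hij => hσi (z.injective hij)⟩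
  choose φ hφG hφ using hex
  have hinv : ∀ z, φ z ∈ Inv G := by
    intro z
    rw [mem_Inv]
    refine ⟨hφG z, ?_, ?_⟩
    · intro h1
      obtain ⟨i, hi⟩ := hne
      have := hφ z i
      rw [h1, Equiv.Perm.one_apply] at this
      exact hi (z.injective this).symm
    · apply h.rig z _ (G.mul_mem (hφG z) (hφG z))
      intro i
      rw [Equiv.Perm.mul_apply, hφ, hφ, hσ2]
  have huniq : ∀ z g, g ∈ G → (∀ i, g (z i) = z (σ i)) → g = φ z := by
    intro z g hg hgi
    have h1 : (φ z)⁻¹ * g = 1 := by
      apply h.rig z _ (G.mul_mem (G.inv_mem (hφG z)) hg)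
      intro i
      rw [Equiv.Perm.mul_apply, hgi, Equiv.Perm.inv_eq_iff_eq, hφ]
    rw [inv_mul_eq_one] at h1
    exact h1.symm
  have h1 := Finset.card_eq_sum_card_fiberwise (s := (Finset.univ : Finset (Fin k ↪ α))) (t := Inv G) (f := φ)
    (fun z _ => hinv z)
  rw [Finset.card_univ] at h1
  rw [h1]
  apply Finset.sum_congr rfl
  intro g hg
  congr 1
  ext z
  simp only [Finset.mem_filter, Finset.mem_univ, true_and]
  constructor
  · intro hz
    exact (huniq z g (mem_Inv.mp hg).1 hz).symm
  · rintro rfl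
    exact hφ z

/-- The vector of four points. -/
theorem inj4 {a b c d : α} (h1 : a ≠ b) (h2 : a ≠ c) (h3 : a ≠ d) (h4 : b ≠ c) (h5 : b ≠ d) (h6 : c ≠ d) :
    Function.Injective (![a, b, c, d] : Fin 4 → α) := by
  intro i j hij
  fin_cases i <;> fin_cases j <;> first
    | rfl
    | (simp at hij; first
        | exact absurd hij h1
        | exact absurd hij h2
        | exact absurd hij h3
        | exact absurd hij h4
        | exact absurd hij h5
        | exact absurd hij h6
        | exact absurd hij.symm h1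
        | exact absurd hij.symm h2
        | exact absurd hij.symm h3
        | exact absurd hij.symm h4
        | exact absurd hij.symm h5
        | exact absurd hij.symm h6)

/-- Configurations with two fixed points and a swapped pair. -/
theorem fiber_fix2 {g : Equiv.Perm α} (hg : g * g = 1) :
    (Finset.univ.filter (fun z : Fin 4 ↪ α => ∀ i, g (z i) = z ((![0, 1, 3, 2] : Fin 4 → Fin 4) i))).card
      = ((Fx g).card * (Fx g).card - (Fx g).card) * (Mv g).card := by
  have hgg : ∀ x, g (g x) = x := fun x => by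
    have := congrArg (fun f : Equiv.Perm α => f x) hg
    exact this
  rw [← Finset.offDiag_card, ← Finset.card_product]
  refine Finset.card_bij (fun z _ => ((z 0, z 1), z 2)) ?_ ?_ ?_
  · intro z hz
    simp only [Finset.mem_filter, Finset.mem_univ, true_and] at hz
    have h0 := hz 0
    have h1 := hz 1
    have h2 := hz 2
    simp only [Matrix.cons_val_zero, Matrix.cons_val_one, Matrix.cons_val] at h0 h1 h2
    simp only [Finset.mem_product, Finset.mem_offDiag, mem_Fx, mem_Mv]
    refine ⟨⟨h0, h1, fun e => by simpa using z.injective e⟩, ?_⟩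
    rw [h2]
    intro e
    have := z.injective e
    simp at this
  · intro z hz w hw he
    simp only [Finset.mem_filter, Finset.mem_univ, true_and] at hz hw
    simp only [Prod.mk.injEq] at he
    obtain ⟨⟨e0, e1⟩, e2⟩ := he
    apply Function.Embedding.ext
    intro i
    have h2 := hz 2
    have h2' := hw 2
    simp only [Matrix.cons_val] at h2 h2'
    fin_cases i
    · exact e0
    · exact e1
    · exact e2
    · show z 3 = w 3
      rw [← h2, ← h2', e2]
  · rintro ⟨⟨a, b⟩, x⟩ hx
    simp only [Finset.mem_product, Finset.mem_offDiag, mem_Fx, mem_Mv] at hx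
    obtain ⟨⟨ha, hb, hab⟩, hxm⟩ := hx
    have hax : a ≠ x := fun e => hxm (e ▸ ha)
    have hbx : b ≠ x := fun e => hxm (e ▸ hb)
    have hagx : a ≠ g x := fun e => hax (by
      have := congrArg g e
      rw [ha, hgg] at this
      exact this)
    have hbgx : b ≠ g x := fun e => hbx (by
      have := congrArg g e
      rw [hb, hgg] at this
      exact this)
    refine ⟨⟨![a, b, x, g x], inj4 hab hax hagx hbx hbgx (Ne.symm hxm)⟩, ?_, rfl⟩
    simp only [Finset.mem_filter, Finset.mem_univ, true_and]
    intro i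
    fin_cases i
    · exact ha
    · exact hb
    · rfl
    · exact hgg x

/-- Configurations with two swapped pairs. -/
theorem fiber_swap2 {g : Equiv.Perm α} (hg : g * g = 1) :
    (Finset.univ.filter (fun z : Fin 4 ↪ α => ∀ i, g (z i) = z ((![1, 0, 3, 2] : Fin 4 → Fin 4) i))).card
      = (Mv g).card * ((Mv g).card - 2) := by
  have hgg : ∀ x, g (g x) = x := fun x => by
    have := congrArg (fun f : Equiv.Perm α => f x) hg
    exact this
  have hgm : ∀ x, x ∈ Mv g → g x ∈ Mv g := by
    intro x hx
    rw [mem_Mv] at hx ⊢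
    rw [hgg]
    exact Ne.symm hx
  have hc : (Mv g).sigma (fun x => ((Mv g).erase x).erase (g x)) =
      (Mv g).sigma (fun x => ((Mv g).erase x).erase (g x)) := rfl
  have hcard : ((Mv g).sigma (fun x => ((Mv g).erase x).erase (g x))).card = (Mv g).card * ((Mv g).card - 2) := by
    rw [Finset.card_sigma]
    rw [Finset.sum_congr rfl (g := fun _ => (Mv g).card - 2)]
    · rw [Finset.sum_const, smul_eq_mul]
    · intro x hx
      have h1 : g x ∈ (Mv g).erase x := by
        rw [Finset.mem_erase]
        exact ⟨mem_Mv.mp hx, hgm x hx⟩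
      rw [Finset.card_erase_of_mem h1, Finset.card_erase_of_mem hx]
      omega
  rw [← hcard]
  refine Finset.card_bij (fun z _ => ⟨z 0, z 2⟩) ?_ ?_ ?_
  · intro z hz
    simp only [Finset.mem_filter, Finset.mem_univ, true_and] at hz
    have h0 := hz 0
    have h2 := hz 2
    simp only [Matrix.cons_val_zero, Matrix.cons_val] at h0 h2
    simp only [Finset.mem_sigma, Finset.mem_erase, mem_Mv]
    refine ⟨?_, ?_, ?_, ?_⟩
    · rw [h0]
      intro e
      have := z.injective e
      simp at this
    · rw [h0]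
      intro e
      have := z.injective e
      simp at this
    · intro e
      have := z.injective e
      simp at this
    · rw [h2]
      intro e
      have := z.injective e
      simp at this
  · intro z hz w hw he
    simp only [Finset.mem_filter, Finset.mem_univ, true_and] at hz hw
    simp only [Sigma.mk.injEq, heq_eq_eq] at he
    obtain ⟨e0, e2⟩ := he
    apply Function.Embedding.ext
    intro i
    have h0 := hz 0
    have h0' := hw 0
    have h2 := hz 2
    have h2' := hw 2
    simp only [Matrix.cons_val_zero, Matrix.cons_val] at h0 h0' h2 h2'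
    fin_cases i
    · exact e0
    · show z 1 = w 1
      rw [← h0, ← h0', e0]
    · exact e2
    · show z 3 = w 3
      rw [← h2, ← h2', e2]
  · rintro ⟨x, u⟩ hx
    simp only [Finset.mem_sigma, Finset.mem_erase, mem_Mv] at hx
    obtain ⟨hxm, hu1, hu2, hum⟩ := hx
    have hgu : g x ≠ g u := fun e => hu2 (g.injective e).symm
    have hxgu : x ≠ g u := fun e => hu1 (by
      have := congrArg g e
      rw [hgg] at this
      exact this.symm)
    refine ⟨⟨![x, g x, u, g u], inj4 (Ne.symm hxm) (Ne.symm hu2) hxgu (Ne.symm hu1) hgu (Ne.symm hum)⟩, ?_, rfl⟩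
    simp only [Finset.mem_filter, Finset.mem_univ, true_and]
    intro i
    fin_cases i
    · rfl
    · exact hgg x
    · rfl
    · exact hgg u

section four

variable {G : Subgroup (Equiv.Perm α)} (h : ST G 4)
include h

theorem Fx_le {g : Equiv.Perm α} (hg : g ∈ G) (hne : g ≠ 1) : (Fx g).card ≤ 3 := by
  by_contra hc
  push Not at hc
  obtain ⟨S, hS, hSc⟩ := Finset.exists_subset_card_eq (show 4 ≤ (Fx g).card by omega)
  let e := S.equivFinOfCardEq hSc
  let x : Fin 4 ↪ α := ⟨fun i => (e.symm i).1, fun i j hij => e.symm.injective (Subtype.ext hij)⟩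
  apply hne
  apply h.rig x g hg
  intro i
  exact mem_Fx.mp (hS (e.symm i).2)

theorem E2 : ∑ g ∈ Inv G, ((Fx g).card * (Fx g).card - (Fx g).card) * (Mv g).card = Fintype.card (Fin 4 ↪ α) := by
  rw [← sum_fiber h ![0, 1, 3, 2] (by decide) (by decide) ⟨2, by decide⟩]
  apply Finset.sum_congr rfl
  intro g hg
  rw [fiber_fix2 (mem_Inv.mp hg).2.2]

theorem E1 : ∑ g ∈ Inv G, (Mv g).card * ((Mv g).card - 2) = Fintype.card (Fin 4 ↪ α) := by
  rw [← sum_fiber h ![1, 0, 3, 2] (by decide) (by decide) ⟨0, by decide⟩]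
  apply Finset.sum_congr rfl
  intro g hg
  rw [fiber_swap2 (mem_Inv.mp hg).2.2]

/-- Number of involutions with `k` fixed points. -/
noncomputable def II (G : Subgroup (Equiv.Perm α)) (k : ℕ) : ℕ := ((Inv G).filter (fun g => (Fx g).card = k)).card

omit h in
theorem sum_split (F : ℕ → ℕ) (hle : ∀ g ∈ Inv G, (Fx g).card ≤ 3) :
    ∑ g ∈ Inv G, F (Fx g).card = F 0 * II G 0 + F 1 * II G 1 + F 2 * II G 2 + F 3 * II G 3 := by
  have h1 := Finset.sum_fiberwise_of_maps_to (s := Inv G) (t := Finset.range 4) (g := fun g => (Fx g).card)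
    (fun g hg => Finset.mem_range.mpr (Nat.lt_succ_of_le (hle g hg))) (fun g => F (Fx g).card)
  rw [← h1]
  have h2 : ∀ k ∈ Finset.range 4, ∑ g ∈ (Inv G).filter (fun g => (Fx g).card = k), F (Fx g).card = F k * II G k := by
    intro k _
    rw [Finset.sum_congr rfl (g := fun _ => F k)]
    · rw [Finset.sum_const, smul_eq_mul, mul_comm]
      rfl
    · intro g hg
      rw [(Finset.mem_filter.mp hg).2]
  rw [Finset.sum_congr rfl h2]
  simp [Finset.sum_range_succ]

theorem transitive1 (h4 : 4 ≤ Fintype.card α) (a b : α) : ∃ g ∈ G, g a = b := by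
  have hcard : Fintype.card (Fin 4) ≤ Fintype.card α := by simpa using h4
  obtain ⟨z⟩ := Function.Embedding.nonempty_of_card_le hcard
  let x : Fin 4 ↪ α := z.trans (Equiv.swap (z 0) a).toEmbedding
  let y : Fin 4 ↪ α := z.trans (Equiv.swap (z 0) b).toEmbedding
  obtain ⟨g, hg, hi⟩ := h.ex x y
  refine ⟨g, hg, ?_⟩
  have := hi 0
  simpa [x, y] using this

/-- The number of involutions with exactly one fixed point is divisible by the degree. -/
theorem dvd_II (h4 : 4 ≤ Fintype.card α) : Fintype.card α ∣ II G 1 := by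
  let S := (Inv G).filter (fun g => (Fx g).card = 1)
  let c : α → ℕ := fun a => (S.filter (fun g => g a = a)).card
  have hle : ∀ a b, c a ≤ c b := by
    intro a b
    obtain ⟨k, hk, hab⟩ := transitive1 h h4 a b
    apply Finset.card_le_card_of_injOn (fun g => k * g * k⁻¹)
    · intro g hg
      have hg' := Finset.mem_coe.mp hg
      rw [Finset.mem_filter, Finset.mem_filter, mem_Inv] at hg'
      obtain ⟨⟨⟨h1, h2, h3⟩, h5⟩, h6⟩ := hg'
      rw [Finset.mem_coe, Finset.mem_filter, Finset.mem_filter, mem_Inv]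
      refine ⟨⟨⟨G.mul_mem (G.mul_mem hk h1) (G.inv_mem hk), ?_, ?_⟩, ?_⟩, ?_⟩
      · intro e
        apply h2
        have e' : k * g * k⁻¹ = 1 := e
        have : g = k⁻¹ * (k * g * k⁻¹) * k := by group
        rw [this, e']
        group
      · calc k * g * k⁻¹ * (k * g * k⁻¹) = k * (g * g) * k⁻¹ := by group
          _ = 1 := by rw [h3]; group
      · rw [← h5]
        apply Finset.card_bij (fun x _ => k⁻¹ x)
        · intro x hx
          rw [mem_Fx] at hx ⊢
          have : (k * g * k⁻¹) x = x := hx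
          rw [Equiv.Perm.mul_apply, Equiv.Perm.mul_apply] at this
          rw [Equiv.Perm.eq_inv_iff_eq]
          exact this
        · intro x _ y _ hxy
          exact k⁻¹.injective hxy
        · intro y hy
          rw [mem_Fx] at hy
          refine ⟨k y, ?_, by simp⟩
          rw [mem_Fx, Equiv.Perm.mul_apply, Equiv.Perm.mul_apply]
          simp [hy]
      · show (k * g * k⁻¹) b = b
        rw [Equiv.Perm.mul_apply, Equiv.Perm.mul_apply, ← hab]
        simp [h6]
    · intro g _ g' _ he
      have : (fun g => k * g * k⁻¹) g = (fun g => k * g * k⁻¹) g' := he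
      simpa using this
  have hdc := Finset.sum_card_bipartiteAbove_eq_sum_card_bipartiteBelow (s := S) (t := (Finset.univ : Finset α))
    (fun g a => g a = a)
  have h1 : ∀ g ∈ S, (Finset.bipartiteAbove (fun (g : Equiv.Perm α) a => g a = a) Finset.univ g).card = 1 := by
    intro g hg
    have := (Finset.mem_filter.mp hg).2
    rw [← this]
    rfl
  have h2 : ∀ a ∈ (Finset.univ : Finset α), (Finset.bipartiteBelow (fun (g : Equiv.Perm α) a => g a = a) S a).card = c a := by
    intro a _
    rfl
  rw [Finset.sum_congr rfl h1, Finset.sum_congr rfl h2] at hdc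
  simp only [Finset.sum_const, smul_eq_mul, mul_one] at hdc
  have hne : 0 < Fintype.card α := by omega
  obtain ⟨a₀⟩ := Fintype.card_pos_iff.mp hne
  have hconst : ∀ a, c a = c a₀ := fun a => le_antisymm (hle _ _) (hle _ _)
  simp only [hconst, Finset.sum_const, smul_eq_mul, Finset.card_univ] at hdc
  exact ⟨c a₀, hdc⟩

omit h in
theorem arith_odd {n I1 I3 : ℕ} (hn5 : 5 ≤ n) (hodd : n % 2 = 1)
    (h2 : 6 * (n - 3) * I3 = n * (n - 1) * (n - 2) * (n - 3))
    (h1 : (n - 1) * (n - 1 - 2) * I1 + (n - 3) * (n - 3 - 2) * I3 = n * (n - 1) * (n - 2) * (n - 3))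
    (hd : n ∣ I1) : n = 5 ∨ n = 11 := by
  have hP0 : 0 < n * (n - 1) * (n - 2) * (n - 3) := by
    apply Nat.mul_pos (Nat.mul_pos (Nat.mul_pos _ _) _) <;> omega
  have hA : 0 < (n - 3) * I3 := by
    rw [← h2] at hP0
    by_contra hc
    have : (n - 3) * I3 = 0 := by omega
    rw [mul_assoc, this] at hP0
    simp at hP0
  have hle : (n - 5) * ((n - 3) * I3) ≤ 6 * ((n - 3) * I3) := by
    have e : n - 3 - 2 = n - 5 := by omega
    rw [e] at h1
    calc (n - 5) * ((n - 3) * I3) = (n - 3) * (n - 5) * I3 := by ring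
      _ ≤ n * (n - 1) * (n - 2) * (n - 3) := by omega
      _ = 6 * ((n - 3) * I3) := by rw [← h2]; ring
  have hn := Nat.le_of_mul_le_mul_right hle hA
  have hcases : n = 5 ∨ n = 7 ∨ n = 9 ∨ n = 11 := by omega
  rcases hcases with rfl | rfl | rfl | rfl
  · left; rfl
  · exfalso
    norm_num at h1 h2
    omega
  · exfalso
    norm_num at h1 h2
    omega
  · right; rfl

omit h in
theorem arith_even {n I0 I2 : ℕ} (hn5 : 5 ≤ n) (hev : n % 2 = 0)
    (h2 : 2 * (n - 2) * I2 = n * (n - 1) * (n - 2) * (n - 3))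
    (h1 : n * (n - 2) * I0 + (n - 2) * (n - 2 - 2) * I2 = n * (n - 1) * (n - 2) * (n - 3)) : n = 6 := by
  have hP0 : 0 < n * (n - 1) * (n - 2) * (n - 3) := by
    apply Nat.mul_pos (Nat.mul_pos (Nat.mul_pos _ _) _) <;> omega
  have hA : 0 < (n - 2) * I2 := by
    rw [← h2] at hP0
    by_contra hc
    have : (n - 2) * I2 = 0 := by omega
    rw [mul_assoc, this] at hP0
    simp at hP0
  have hle : (n - 4) * ((n - 2) * I2) ≤ 2 * ((n - 2) * I2) := by
    have e : n - 2 - 2 = n - 4 := by omega
    rw [e] at h1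
    calc (n - 4) * ((n - 2) * I2) = (n - 2) * (n - 4) * I2 := by ring
      _ ≤ n * (n - 1) * (n - 2) * (n - 3) := by omega
      _ = 2 * ((n - 2) * I2) := by rw [← h2]; ring
  have hn := Nat.le_of_mul_le_mul_right hle hA
  omega

/-- The degrees of sharply 4-transitive groups. -/
theorem degree_four (h4 : 4 ≤ Fintype.card α) :
    Fintype.card α = 4 ∨ Fintype.card α = 5 ∨ Fintype.card α = 6 ∨ Fintype.card α = 11 := by
  by_cases h5 : Fintype.card α = 4
  · exact Or.inl h5
  have hd := dvd_II h h4
  have hle : ∀ g ∈ Inv G, (Fx g).card ≤ 3 := fun g hg => Fx_le h (mem_Inv.mp hg).1 (mem_Inv.mp hg).2.1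
  have hparity : ∀ g ∈ Inv G, ((Fx g).card + Fintype.card α) % 2 = 0 := by
    intro g hg
    have h1 := even_Mv (mem_Inv.mp hg).2.2
    have h2 := card_Fx_add g
    omega
  have hzero : ∀ k, (k + Fintype.card α) % 2 = 1 → II G k = 0 := by
    intro k hk
    rw [II, Finset.card_eq_zero, Finset.filter_eq_empty_iff]
    intro g hg e
    have := hparity g hg
    rw [e] at this
    omega
  have hMv : ∀ g : Equiv.Perm α, (Mv g).card = Fintype.card α - (Fx g).card := by
    intro g
    have := card_Fx_add g
    omega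
  have hE2 := E2 h
  have hE1 := E1 h
  simp only [hMv] at hE2 hE1
  have hcardE : Fintype.card (Fin 4 ↪ α) = (Fintype.card α).descFactorial 4 := by
    rw [Fintype.card_embedding_eq]
    simp
  rw [hcardE] at hE2 hE1
  rw [sum_split (G := G) (fun f => (f * f - f) * (Fintype.card α - f)) hle] at hE2
  rw [sum_split (G := G) (fun f => (Fintype.card α - f) * (Fintype.card α - f - 2)) hle] at hE1
  generalize Fintype.card α = n at *
  have h5' : 5 ≤ n := by omega
  have hP : n.descFactorial 4 = n * (n - 1) * (n - 2) * (n - 3) := by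
    obtain ⟨m, rfl⟩ : ∃ m, n = m + 5 := ⟨n - 5, by omega⟩
    simp only [Nat.descFactorial_succ, Nat.descFactorial_zero]
    simp
    ring
  rw [hP] at hE2 hE1
  have e0 : (0 * 0 - 0) * (n - 0) = 0 := by simp
  have e1 : (1 * 1 - 1) * (n - 1) = 0 := by simp
  have e2 : (2 * 2 - 2) * (n - 2) = 2 * (n - 2) := by norm_num
  have e3 : (3 * 3 - 3) * (n - 3) = 6 * (n - 3) := by norm_num
  have e4 : (n - 0) * (n - 0 - 2) = n * (n - 2) := by simp
  rw [e0, e1, e2, e3] at hE2
  rw [e4] at hE1
  rcases Nat.mod_two_eq_zero_or_one n with hev | hod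
  · have h1 : II G 1 = 0 := hzero 1 (by omega)
    have h3 : II G 3 = 0 := hzero 3 (by omega)
    rw [h1, h3] at hE2 hE1
    have := arith_even (I0 := II G 0) (I2 := II G 2) h5' hev (by omega) (by omega)
    omega
  · have h0 : II G 0 = 0 := hzero 0 (by omega)
    have h2 : II G 2 = 0 := hzero 2 (by omega)
    rw [h0, h2] at hE2 hE1
    have := arith_odd (I1 := II G 1) (I3 := II G 3) h5' hod (by omega) (by omega) hd
    omega

end four

end Cfsg.Agent.H02.Jor
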