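import Cfsg.Agent.Lib.H02.Jor1

/-!
Reduction to a point stabiliser; the degrees of sharply `k`-transitive groups for `k ≥ 5`.
-/

set_option autoImplicit false

namespace Cfsg.Agent.H02.Jor

open Classical

variable {α : Type*} [Fintype α] [DecidableEq α]

/-- The stabiliser of a point, as a permutation group on the other points. -/
noncomputable def stabAt (G : Subgroup (Equiv.Perm α)) (a : α) : Subgroup (Equiv.Perm {x // x ≠ a}) :=
  G.comap (Equiv.Perm.ofSubtype (p := fun x => x ≠ a))

theorem ofSubtype_fix (a : α) (h : Equiv.Perm {x // x ≠ a}) : Equiv.Perm.ofSubtype h a = a :=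
  Equiv.Perm.ofSubtype_apply_of_not_mem h (by simp)

theorem ofSubtype_ne {a : α} (h : Equiv.Perm {x // x ≠ a}) (x : {x // x ≠ a}) :
    Equiv.Perm.ofSubtype h x.1 = (h x).1 :=
  Equiv.Perm.ofSubtype_apply_of_mem h x.2

theorem restr_of_fix {g : Equiv.Perm α} {a : α} (hg : g a = a) :
    ∃ h : Equiv.Perm {x // x ≠ a}, Equiv.Perm.ofSubtype h = g ∧ ∀ x : {x // x ≠ a}, (h x).1 = g x.1 := by
  have hp : ∀ x, g x ≠ a ↔ x ≠ a := by
    intro x
    rw [Ne, Ne, not_iff_not]
    constructor
    · intro h
      apply g.injective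
      rw [h, hg]
    · rintro rfl
      exact hg
  refine ⟨g.subtypePerm hp, ?_, fun x => rfl⟩
  ext x
  by_cases hx : x = a
  · rw [hx, ofSubtype_fix, hg]
  · exact ofSubtype_ne _ ⟨x, hx⟩

theorem ST.point {G : Subgroup (Equiv.Perm α)} {k : ℕ} (h : ST G (k + 1)) (a : α) : ST (stabAt G a) k := by
  have hinj : ∀ z : Fin k ↪ {x // x ≠ a}, Function.Injective (Fin.cons a (fun i => (z i).1) : Fin (k + 1) → α) := by
    intro z
    rw [Fin.cons_injective_iff]
    constructor
    · rintro ⟨i, hi⟩
      exact (z i).2 hi
    · intro i j hij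
      exact z.injective (Subtype.ext hij)
  refine ⟨?_, ?_⟩
  · intro x y
    obtain ⟨g, hg, hgi⟩ := h.ex ⟨_, hinj x⟩ ⟨_, hinj y⟩
    have hga : g a = a := hgi 0
    obtain ⟨r, hr, hr2⟩ := restr_of_fix hga
    refine ⟨r, ?_, ?_⟩
    · show Equiv.Perm.ofSubtype r ∈ G
      rw [hr]
      exact hg
    · intro i
      apply Subtype.ext
      rw [hr2]
      exact hgi i.succ
  · intro x g hg hfix
    have h1 : Equiv.Perm.ofSubtype g = 1 := by
      apply h.rig ⟨_, hinj x⟩ _ hg
      intro i
      refine Fin.cases ?_ ?_ i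
      · exact ofSubtype_fix a g
      · intro j
        show Equiv.Perm.ofSubtype g (x j).1 = (x j).1
        rw [ofSubtype_ne, hfix]
    exact Equiv.Perm.ofSubtype_injective (h1.trans (map_one _).symm)

theorem card_ne_pt (a : α) : Fintype.card {x // x ≠ a} = Fintype.card α - 1 := by
  rw [Fintype.card_subtype_compl, Fintype.card_subtype_eq]

theorem exists_point (h : 1 ≤ Fintype.card α) : Nonempty α := Fintype.card_pos_iff.mp h

theorem degree_five {G : Subgroup (Equiv.Perm α)} (h : ST G 5) (h5 : 5 ≤ Fintype.card α) :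
    Fintype.card α = 5 ∨ Fintype.card α = 6 ∨ Fintype.card α = 7 ∨ Fintype.card α = 12 := by
  obtain ⟨a⟩ := exists_point (α := α) (by omega)
  have h1 := degree_four (h.point a) (by rw [card_ne_pt]; omega)
  rw [card_ne_pt] at h1
  omega

/-- The order of a sharply transitive group. -/
theorem ST.card {G : Subgroup (Equiv.Perm α)} {k : ℕ} (h : ST G k) (hk : k ≤ Fintype.card α) :
    Nat.card G = Fintype.card (Fin k ↪ α) := by
  have hcard : Fintype.card (Fin k) ≤ Fintype.card α := by simpa using hk
  obtain ⟨z⟩ := Function.Embedding.nonempty_of_card_le hcard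
  have hf : Function.Bijective (fun g : G => (⟨fun i => g.1 (z i), fun i j hij => z.injective (g.1.injective hij)⟩ : Fin k ↪ α)) := by
    constructor
    · intro a b hab
      have h1 : b.1⁻¹ * a.1 = 1 := by
        apply h.rig z _ (G.mul_mem (G.inv_mem b.2) a.2)
        intro i
        have := congrArg (fun f : Fin k ↪ α => f i) hab
        have h2 : a.1 (z i) = b.1 (z i) := this
        rw [Equiv.Perm.mul_apply, h2]
        simp
      exact Subtype.ext (inv_mul_eq_one.mp h1).symm
    · intro y
      obtain ⟨g, hg, hgi⟩ := h.ex z y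
      refine ⟨⟨g, hg⟩, ?_⟩
      apply Function.Embedding.ext
      intro i
      exact hgi i
  rw [Nat.card_congr (Equiv.ofBijective _ hf), Nat.card_eq_fintype_card]

/-- No sharply 6-transitive group of degree 13. -/
theorem not_six_thirteen {G : Subgroup (Equiv.Perm α)} (h : ST G 6) (hn : Fintype.card α = 13) : False := by
  have hcardG : Nat.card G = 1235520 := by
    rw [h.card (by omega), Fintype.card_embedding_eq, hn]
    simp [Nat.descFactorial]
  haveI : Fact (Nat.Prime 13) := ⟨by norm_num⟩
  haveI : Finite G := inferInstance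
  let P : Sylow 13 G := default
  have hPcard : Nat.card (P : Subgroup G) = 13 := by
    obtain ⟨m, hm⟩ := IsPGroup.iff_card.mp P.isPGroup'
    have h1 := Subgroup.card_mul_index (P : Subgroup G)
    have h2 := P.not_dvd_index
    rw [hcardG, hm] at h1
    have hm1 : m ≤ 1 := by
      by_contra hc
      push Not at hc
      have : 13 ^ 2 ∣ 1235520 := by
        rw [← h1]
        exact Dvd.dvd.mul_right (pow_dvd_pow 13 hc) _
      norm_num at this
    interval_cases m
    · exfalso
      apply h2
      rw [pow_zero, one_mul] at h1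
      rw [h1]
      norm_num
    · rw [hm]
      norm_num
  haveI : IsCyclic (P : Subgroup G) := isCyclic_of_prime_card hPcard
  -- Transitivity of `P`
  obtain ⟨u, hu⟩ : ∃ u : (P : Subgroup G), u ≠ 1 := by
    haveI : Nontrivial (P : Subgroup G) := Finite.one_lt_card_iff_nontrivial.mp (by rw [hPcard]; norm_num)
    exact exists_ne 1
  have hmoved : ∃ a : α, (u.1.1 : Equiv.Perm α) a ≠ a := by
    by_contra hc
    push Not at hc
    apply hu
    apply Subtype.ext
    apply Subtype.ext
    exact Equiv.ext hc
  obtain ⟨a, ha⟩ := hmoved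
  have htrans : ∀ b : α, ∃ v : (P : Subgroup G), v.1.1 a = b := by
    let ψ : ↥(P : Subgroup G) → α := fun v => v.1.1 a
    have hψ : Function.Injective ψ := by
      intro v w hvw
      have h1 : w⁻¹ * v ∈ MulAction.stabilizer ↥(P : Subgroup G) a := by
        show ((w⁻¹ * v : ↥(P : Subgroup G)).1.1) a = a
        have : (w⁻¹ * v : ↥(P : Subgroup G)).1.1 = w.1.1⁻¹ * v.1.1 := rfl
        rw [this, Equiv.Perm.mul_apply]
        have h2 : v.1.1 a = w.1.1 a := hvw
        rw [h2]
        simp
      have h3 := Subgroup.card_subgroup_dvd_card (MulAction.stabilizer ↥(P : Subgroup G) a)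
      rw [hPcard] at h3
      rcases (Nat.dvd_prime (by norm_num)).mp h3 with h4 | h4
      · have h5 := (Subgroup.eq_bot_of_card_eq _ h4)
        rw [h5, Subgroup.mem_bot] at h1
        exact (inv_mul_eq_one.mp h1).symm
      · exfalso
        have h6 : MulAction.stabilizer ↥(P : Subgroup G) a = ⊤ := by
          apply Subgroup.eq_top_of_card_eq
          rw [h4, hPcard]
        have h7 : u ∈ MulAction.stabilizer ↥(P : Subgroup G) a := by
          rw [h6]
          trivial
        exact ha h7
    have hbij : Function.Bijective ψ := by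
      apply hψ.bijective_of_nat_card_le
      rw [hPcard, Nat.card_eq_fintype_card, hn]
    intro b
    exact hbij.2 b
  -- The group `P` is commutative
  have hcomm : ∀ v w : ↥(P : Subgroup G), v * w = w * v := by
    obtain ⟨ρ, hρ⟩ := IsCyclic.exists_generator (α := ↥(P : Subgroup G))
    intro v w
    obtain ⟨i, rfl⟩ := Subgroup.mem_zpowers_iff.mp (hρ v)
    obtain ⟨j, rfl⟩ := Subgroup.mem_zpowers_iff.mp (hρ w)
    exact ((Commute.refl ρ).zpow_zpow i j).eq
  -- The centraliser is `P`
  have hC : Subgroup.centralizer ((P : Subgroup G) : Set G) ≤ (P : Subgroup G) := by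
    intro c hc
    obtain ⟨v, hv⟩ := htrans (c.1 a)
    have h1 : c = v.1 := by
      apply Subtype.ext
      ext1 x
      obtain ⟨w, hw⟩ := htrans x
      have hcw : c * w.1 = w.1 * c := (Subgroup.mem_centralizer_iff.mp hc w.1 w.2).symm
      have hcw' : c.1 (w.1.1 a) = w.1.1 (c.1 a) := by
        have := congrArg (fun f : G => f.1 a) hcw
        exact this
      have hvw : v * w = w * v := hcomm v w
      have hvw' : v.1.1 (w.1.1 a) = w.1.1 (v.1.1 a) := by
        have := congrArg (fun f : ↥(P : Subgroup G) => f.1.1 a) hvw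
        exact this
      rw [← hw, hcw', ← hv, hvw']
    rw [h1]
    exact v.2
  have hCeq : Subgroup.centralizer ((P : Subgroup G) : Set G) = (P : Subgroup G) := by
    apply le_antisymm hC
    intro v hv
    rw [Subgroup.mem_centralizer_iff]
    intro w hw
    have := hcomm ⟨w, hw⟩ ⟨v, hv⟩
    exact congrArg Subtype.val this
  let f := (P : Subgroup G).normalizerMonoidHom
  have hr1 : Nat.card f.range ∣ 12 := by
    have h1 := Subgroup.card_subgroup_dvd_card f.range
    rw [IsCyclic.card_mulAut, hPcard] at h1
    have h2 : Nat.totient 13 = 12 := by decide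
    rwa [h2] at h1
  have hker : Nat.card f.ker = 13 := by
    have h1 : f.ker = (Subgroup.centralizer ((P : Subgroup G) : Set G)).subgroupOf (Subgroup.normalizer ((P : Subgroup G) : Set G)) :=
      Subgroup.normalizerMonoidHom_ker _
    rw [h1]
    have hle : Subgroup.centralizer ((P : Subgroup G) : Set G) ≤ Subgroup.normalizer ((P : Subgroup G) : Set G) := by
      rw [hCeq]
      exact Subgroup.le_normalizer
    rw [Nat.card_congr (Subgroup.subgroupOfEquivOfLe hle).toEquiv, hCeq, hPcard]
  have hN : Nat.card (Subgroup.normalizer ((P : Subgroup G) : Set G)) = 13 * Nat.card f.range := by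
    have h1 := Subgroup.card_mul_index f.ker
    rw [Subgroup.index_ker, hker] at h1
    exact h1.symm
  have hidx := Subgroup.card_mul_index (Subgroup.normalizer ((P : Subgroup G) : Set G))
  have hsyl : Nat.card (Sylow 13 G) = (Subgroup.normalizer ((P : Subgroup G) : Set G)).index :=
    Sylow.card_eq_index_normalizer P
  rw [hN, hcardG, ← hsyl] at hidx
  have hmod := card_sylow_modEq_one 13 G
  have hr2 : Nat.card f.range ≤ 12 := Nat.le_of_dvd (by norm_num) hr1
  generalize Nat.card f.range = r at *
  generalize Nat.card (Sylow 13 G) = s at *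
  have hmod' : s % 13 = 1 := hmod
  interval_cases r <;> omega

theorem degree_six {G : Subgroup (Equiv.Perm α)} (h : ST G 6) (h6 : 6 ≤ Fintype.card α) :
    Fintype.card α = 6 ∨ Fintype.card α = 7 ∨ Fintype.card α = 8 := by
  obtain ⟨a⟩ := exists_point (α := α) (by omega)
  have h1 := degree_five (h.point a) (by rw [card_ne_pt]; omega)
  rw [card_ne_pt] at h1
  have h13 : Fintype.card α ≠ 13 := fun e => not_six_thirteen h e
  omega

end Cfsg.Agent.H02.Jor

namespace Cfsg.Agent.H02.Jor

/-- The degrees for `k ≥ 6`. -/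
theorem degree_large {k : ℕ} (hk : 6 ≤ k) : ∀ {α : Type _} [Fintype α] [DecidableEq α] {G : Subgroup (Equiv.Perm α)},
    ST G k → k ≤ Fintype.card α →
      Fintype.card α = k ∨ Fintype.card α = k + 1 ∨ Fintype.card α = k + 2 := by
  induction k, hk using Nat.le_induction with
  | base =>
    intro α _ _ G h hn
    exact degree_six h hn
  | succ k hk ih =>
    intro α _ _ G h hn
    obtain ⟨a⟩ := exists_point (α := α) (by omega)
    have h1 := ih (h.point a) (by rw [card_ne_pt]; omega)
    rw [card_ne_pt] at h1
    omega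

end Cfsg.Agent.H02.Jor
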