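import Cfsg.Agent.Lib.H02.Jor2

/-!
Sharply 2-transitive groups of degree nine: the midpoint is symmetric.
-/

set_option autoImplicit false

namespace Cfsg.Agent.H02.Jor

open Classical

variable {β : Type*} [Fintype β] [DecidableEq β] {H : Subgroup (Equiv.Perm β)}

theorem inj2 {x y : β} (hxy : x ≠ y) : Function.Injective (![x, y] : Fin 2 → β) := by
  intro i j hij
  fin_cases i <;> fin_cases j <;> first
    | rfl
    | (simp at hij; first
        | exact absurd hij hxy
        | exact absurd hij.symm hxy)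

theorem ex2 (h : ST H 2) {x y x' y' : β} (hxy : x ≠ y) (hxy' : x' ≠ y') : ∃ g ∈ H, g x = x' ∧ g y = y' := by
  obtain ⟨g, hg, hi⟩ := h.ex ⟨_, inj2 hxy⟩ ⟨_, inj2 hxy'⟩
  exact ⟨g, hg, hi 0, hi 1⟩

theorem uniq2 (h : ST H 2) {x y : β} (hxy : x ≠ y) {g g' : Equiv.Perm β} (hg : g ∈ H) (hg' : g' ∈ H)
    (e1 : g x = g' x) (e2 : g y = g' y) : g = g' := by
  have h1 : g'⁻¹ * g = 1 := by
    apply h.rig ⟨_, inj2 hxy⟩ _ (H.mul_mem (H.inv_mem hg') hg)
    intro i
    fin_cases i
    · show g'⁻¹ (g x) = x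
      rw [e1]
      simp
    · show g'⁻¹ (g y) = y
      rw [e2]
      simp
  exact (inv_mul_eq_one.mp h1).symm

theorem fix_unique (h : ST H 2) {g : Equiv.Perm β} (hg : g ∈ H) (hne : g ≠ 1) {x y : β} (hx : g x = x)
    (hy : g y = y) : x = y := by
  by_contra hxy
  exact hne (uniq2 h hxy hg H.one_mem hx hy)

section nine

variable (h : ST H 2) (hβ : Fintype.card β = 9)
include h hβ

theorem exists_fix_of_inv {g : Equiv.Perm β} (hg : g ∈ Inv H) : ∃ x, g x = x := by
  have h1 := even_Mv (mem_Inv.mp hg).2.2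
  have h2 := card_Fx_add g
  have h3 : 0 < (Fx g).card := by omega
  obtain ⟨x, hx⟩ := Finset.card_pos.mp h3
  exact ⟨x, mem_Fx.mp hx⟩

theorem card_Mv_of_inv {g : Equiv.Perm β} (hg : g ∈ Inv H) : (Mv g).card = 8 := by
  obtain ⟨x, hx⟩ := exists_fix_of_inv h hβ hg
  have h1 : Fx g = {x} := by
    ext y
    rw [mem_Fx, Finset.mem_singleton]
    constructor
    · intro hy
      exact fix_unique h (mem_Inv.mp hg).1 (mem_Inv.mp hg).2.1 hy hx
    · rintro rfl
      exact hx
  have h2 := card_Fx_add g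
  rw [h1, Finset.card_singleton, hβ] at h2
  omega

theorem card_Inv_nine : (Inv H).card = 9 := by
  have h1 := sum_fiber h ![1, 0] (by decide) (by decide) ⟨0, by decide⟩
  rw [Fintype.card_embedding_eq, hβ] at h1
  have h2 : ∀ g ∈ Inv H, (Finset.univ.filter (fun z : Fin 2 ↪ β => ∀ i, g (z i) = z ((![1, 0] : Fin 2 → Fin 2) i))).card = 8 := by
    intro g hg
    rw [← card_Mv_of_inv h hβ hg]
    have hgg : ∀ x, g (g x) = x := fun x => by
      have := congrArg (fun f : Equiv.Perm β => f x) (mem_Inv.mp hg).2.2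
      exact this
    refine Finset.card_bij (fun z _ => z 0) ?_ ?_ ?_
    · intro z hz
      simp only [Finset.mem_filter, Finset.mem_univ, true_and] at hz
      rw [mem_Mv]
      have := hz 0
      simp only [Matrix.cons_val_zero] at this
      rw [this]
      intro e
      have := z.injective e
      simp at this
    · intro z hz w hw he
      simp only [Finset.mem_filter, Finset.mem_univ, true_and] at hz hw
      apply Function.Embedding.ext
      intro i
      have h3 := hz 0
      have h4 := hw 0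
      simp only [Matrix.cons_val_zero] at h3 h4
      fin_cases i
      · exact he
      · show z 1 = w 1
        rw [← h3, ← h4, he]
    · intro x hx
      rw [mem_Mv] at hx
      refine ⟨⟨![x, g x], inj2 (Ne.symm hx)⟩, ?_, rfl⟩
      simp only [Finset.mem_filter, Finset.mem_univ, true_and]
      intro i
      fin_cases i
      · rfl
      · exact hgg x
  rw [Finset.sum_congr rfl h2, Finset.sum_const, smul_eq_mul] at h1
  norm_num [Nat.descFactorial] at h1
  omega

theorem transitive2 (x y : β) : ∃ g ∈ H, g x = y := by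
  have h2 : 1 < Fintype.card β := by omega
  obtain ⟨u, hu⟩ := (Fintype.exists_ne_of_one_lt_card h2 x)
  obtain ⟨v, hv⟩ := (Fintype.exists_ne_of_one_lt_card h2 y)
  obtain ⟨g, hg, h1, -⟩ := ex2 h (Ne.symm hu) (Ne.symm hv)
  exact ⟨g, hg, h1⟩

theorem conj_mem_Inv {g k : Equiv.Perm β} (hg : g ∈ Inv H) (hk : k ∈ H) : k * g * k⁻¹ ∈ Inv H := by
  rw [mem_Inv] at hg ⊢
  obtain ⟨h1, h2, h3⟩ := hg
  refine ⟨H.mul_mem (H.mul_mem hk h1) (H.inv_mem hk), ?_, ?_⟩
  · intro e
    apply h2
    have : g = k⁻¹ * (k * g * k⁻¹) * k := by group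
    rw [this, e]
    group
  · calc k * g * k⁻¹ * (k * g * k⁻¹) = k * (g * g) * k⁻¹ := by group
      _ = 1 := by rw [h3]; group

theorem exists_s (x : β) : ∃! g, g ∈ Inv H ∧ g x = x := by
  have hex : ∀ x : β, ∃ g, g ∈ Inv H ∧ g x = x := by
    intro x
    have h0 : 0 < (Inv H).card := by rw [card_Inv_nine h hβ]; norm_num
    obtain ⟨g₀, hg₀⟩ := Finset.card_pos.mp h0
    obtain ⟨x₀, hx₀⟩ := exists_fix_of_inv h hβ hg₀
    obtain ⟨k, hk, hkx⟩ := transitive2 h hβ x₀ x
    refine ⟨_, conj_mem_Inv h hβ hg₀ hk, ?_⟩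
    rw [← hkx]
    simp [hx₀]
  choose φ hφ1 hφ2 using hex
  have hinjφ : Function.Injective φ := by
    intro a b hab
    have h1 := hφ2 a
    have h2 := hφ2 b
    rw [hab] at h1
    exact fix_unique h (mem_Inv.mp (hφ1 b)).1 (mem_Inv.mp (hφ1 b)).2.1 h1 h2
  have himg : Finset.univ.image φ = Inv H := by
    apply Finset.eq_of_subset_of_card_le
    · intro g hg
      obtain ⟨x, -, rfl⟩ := Finset.mem_image.mp hg
      exact hφ1 x
    · rw [Finset.card_image_of_injective _ hinjφ, card_Inv_nine h hβ, Finset.card_univ, hβ]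
  refine ⟨φ x, ⟨hφ1 x, hφ2 x⟩, ?_⟩
  rintro g ⟨hg, hgx⟩
  have : g ∈ Finset.univ.image φ := by rw [himg]; exact hg
  obtain ⟨y, -, rfl⟩ := Finset.mem_image.mp this
  have := fix_unique h (mem_Inv.mp (hφ1 y)).1 (mem_Inv.mp (hφ1 y)).2.1 hgx (hφ2 y)
  rw [this]

end nine

/-- The permutations without fixed points in `H`. -/
noncomputable def Fpf (H : Subgroup (Equiv.Perm β)) : Finset (Equiv.Perm β) :=
  Finset.univ.filter (fun g => g ∈ H ∧ ∀ x, g x ≠ x)

theorem mem_Fpf {g : Equiv.Perm β} : g ∈ Fpf H ↔ g ∈ H ∧ ∀ x, g x ≠ x := by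
  simp [Fpf]

/-- The elements of `H` as a finset. -/
noncomputable def HF (H : Subgroup (Equiv.Perm β)) : Finset (Equiv.Perm β) :=
  Finset.univ.filter (fun g => g ∈ H)

theorem mem_HF {g : Equiv.Perm β} : g ∈ HF H ↔ g ∈ H := by
  simp [HF]

section count

variable (h : ST H 2) (hβ : Fintype.card β = 9)
include h hβ

theorem card_HF : (HF H).card = 72 := by
  have h1 := h.card (by omega)
  rw [Fintype.card_embedding_eq, hβ] at h1
  have h2 : Nat.card H = (HF H).card := by
    rw [Nat.card_eq_fintype_card, Fintype.card_subtype]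
    rfl
  rw [← h2, h1]
  simp [Nat.descFactorial]

theorem card_stab (x : β) : ((HF H).filter (fun g => g x = x)).card = 8 := by
  have h2 : 1 < Fintype.card β := by omega
  obtain ⟨y, hy⟩ := Fintype.exists_ne_of_one_lt_card h2 x
  have : ((Finset.univ : Finset β).erase x).card = 8 := by
    rw [Finset.card_erase_of_mem (Finset.mem_univ _), Finset.card_univ, hβ]
  rw [← this]
  refine Finset.card_bij (fun g _ => g y) ?_ ?_ ?_
  · intro g hg
    simp only [Finset.mem_filter, mem_HF] at hg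
    simp only [Finset.mem_erase, Finset.mem_univ, and_true]
    intro e
    have := g.injective (e.trans hg.2.symm)
    exact hy this
  · intro g hg g' hg' he
    simp only [Finset.mem_filter, mem_HF] at hg hg'
    exact uniq2 h (Ne.symm hy) hg.1 hg'.1 (hg.2.trans hg'.2.symm) he
  · intro z hz
    simp only [Finset.mem_erase, Finset.mem_univ, and_true] at hz
    obtain ⟨g, hg, h1, h3⟩ := ex2 h (Ne.symm hy) (Ne.symm hz)
    exact ⟨g, by simp [mem_HF, hg, h1], h3⟩

theorem card_Fpf : (Fpf H).card = 8 := by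
  have hdc := Finset.sum_card_bipartiteAbove_eq_sum_card_bipartiteBelow (s := HF H) (t := (Finset.univ : Finset β))
    (fun g x => g x = x)
  have h2 : ∀ x ∈ (Finset.univ : Finset β), (Finset.bipartiteBelow (fun (g : Equiv.Perm β) x => g x = x) (HF H) x).card = 8 := by
    intro x _
    exact card_stab h hβ x
  rw [Finset.sum_congr rfl h2] at hdc
  simp only [Finset.sum_const, smul_eq_mul, Finset.card_univ, hβ] at hdc
  have h1 : ∀ g ∈ HF H, (Finset.bipartiteAbove (fun (g : Equiv.Perm β) x => g x = x) Finset.univ g).card = (Fx g).card := by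
    intro g _
    rfl
  rw [Finset.sum_congr rfl h1] at hdc
  have hle : ∀ g ∈ HF H, g ≠ 1 → (Fx g).card ≤ 1 := by
    intro g hg hne
    rw [Finset.card_le_one]
    intro a ha b hb
    exact fix_unique h (mem_HF.mp hg) hne (mem_Fx.mp ha) (mem_Fx.mp hb)
  have h1mem : (1 : Equiv.Perm β) ∈ HF H := mem_HF.mpr H.one_mem
  rw [← Finset.add_sum_erase _ _ h1mem] at hdc
  have hF1 : (Fx (1 : Equiv.Perm β)).card = 9 := by
    have : Fx (1 : Equiv.Perm β) = Finset.univ := by
      ext x
      simp [mem_Fx]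
    rw [this, Finset.card_univ, hβ]
  rw [hF1] at hdc
  have hcard : ((HF H).erase 1).card = 71 := by
    rw [Finset.card_erase_of_mem h1mem, card_HF h hβ]
  -- split according to the number of fixed points
  have hsub : Fpf H ⊆ (HF H).erase 1 := by
    intro g hg
    rw [mem_Fpf] at hg
    rw [Finset.mem_erase, mem_HF]
    refine ⟨?_, hg.1⟩
    rintro rfl
    have hpos : 0 < Fintype.card β := by omega
    obtain ⟨x⟩ := Fintype.card_pos_iff.mp hpos
    exact hg.2 x rfl
  have hsum : ∑ g ∈ (HF H).erase 1, (Fx g).card + (Fpf H).card = ((HF H).erase 1).card := by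
    have e1 : (Fpf H).card = ∑ g ∈ (HF H).erase 1, (if g ∈ Fpf H then 1 else 0) := by
      rw [Finset.sum_ite_mem, Finset.inter_eq_right.mpr hsub]
      simp
    rw [e1, Finset.card_eq_sum_ones ((HF H).erase 1), ← Finset.sum_add_distrib]
    apply Finset.sum_congr rfl
    intro g hg
    by_cases hF : g ∈ Fpf H
    · rw [if_pos hF]
      rw [mem_Fpf] at hF
      have : Fx g = ∅ := by
        rw [Finset.eq_empty_iff_forall_notMem]
        intro x hx
        exact hF.2 x (mem_Fx.mp hx)
      rw [this]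
      rfl
    · rw [if_neg hF]
      rw [Finset.mem_erase, mem_HF] at hg
      have h3 := hle g (mem_HF.mpr hg.2) hg.1
      have h4 : 0 < (Fx g).card := by
        apply Finset.card_pos.mpr
        by_contra hc
        apply hF
        rw [mem_Fpf]
        exact ⟨hg.2, fun x hx => hc ⟨x, mem_Fx.mpr hx⟩⟩
      omega
  omega

end count

/-- The symmetry of the midpoint. -/
theorem two_trans_nine (h : ST H 2) (hβ : Fintype.card β = 9) {s : Equiv.Perm β} (hs : s ∈ H) (hs2 : s * s = 1)
    {c d e : β} (hse : s e = e) (hsc : s c = d) (hcd : c ≠ d) :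
    ∃ s' ∈ H, s' * s' = 1 ∧ s' c = e ∧ s' e = c ∧ s' d = d := by
  have hex : ∀ x, ∃ g, (g ∈ Inv H ∧ g x = x) ∧ ∀ y, (y ∈ Inv H ∧ y x = x) → y = g := fun x =>
    exists_s h hβ x
  choose σ hσ12 hσ3 using hex
  have hσ1 : ∀ x, σ x ∈ Inv H := fun x => (hσ12 x).1
  have hσ2 : ∀ x, σ x x = x := fun x => (hσ12 x).2
  have hHσ : ∀ x, σ x ∈ H := fun x => (mem_Inv.mp (hσ1 x)).1
  have hσne : ∀ x, σ x ≠ 1 := fun x => (mem_Inv.mp (hσ1 x)).2.1
  have hσσ : ∀ x y, σ x (σ x y) = y := fun x y => by
    have := congrArg (fun f : Equiv.Perm β => f y) (mem_Inv.mp (hσ1 x)).2.2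
    exact this
  have hσinj : Function.Injective σ := by
    intro a b hab
    have h1 := hσ2 a
    rw [hab] at h1
    exact fix_unique h (hHσ b) (hσne b) h1 (hσ2 b)
  have hconj : ∀ k ∈ H, ∀ x, k * σ x * k⁻¹ = σ (k x) := by
    intro k hk x
    apply hσ3 _ _ ⟨conj_mem_Inv h hβ (hσ1 x) hk, ?_⟩
    simp [hσ2]
  -- products have no fixed points
  have hprod : ∀ x y, x ≠ y → σ x * σ y ∈ Fpf H := by
    intro x y hxy
    rw [mem_Fpf]
    refine ⟨H.mul_mem (hHσ x) (hHσ y), ?_⟩
    intro z hz
    have hz' : σ x (σ y z) = z := hz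
    have h1 : σ x z = σ y z := by
      have := congrArg (σ x) hz'
      rw [hσσ] at this
      exact this.symm
    by_cases huz : σ y z = z
    · have h2 : σ x z = z := h1.trans huz
      exact hxy (fix_unique h (hHσ x) (hσne x) (hσ2 x) h2 |>.trans (fix_unique h (hHσ y) (hσne y) huz (hσ2 y)))
    · apply hxy
      apply hσinj
      apply uniq2 h (Ne.symm huz) (hHσ x) (hHσ y) h1
      rw [hσσ]
      exact hz'
  -- surjectivity
  have hsurj : ∀ x, ∀ w ∈ Fpf H, ∃ y, y ≠ x ∧ w = σ x * σ y := by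
    intro x w hw
    have h1 : ((Finset.univ.erase x).image (fun y => σ x * σ y)) = Fpf H := by
      apply Finset.eq_of_subset_of_card_le
      · intro v hv
        obtain ⟨y, hy, rfl⟩ := Finset.mem_image.mp hv
        exact hprod x y (Ne.symm (Finset.ne_of_mem_erase hy))
      · rw [Finset.card_image_of_injective, Finset.card_erase_of_mem (Finset.mem_univ _), Finset.card_univ, hβ, card_Fpf h hβ]
        intro a b hab
        exact hσinj (mul_left_cancel hab)
    rw [← h1] at hw
    obtain ⟨y, hy, rfl⟩ := Finset.mem_image.mp hw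
    exact ⟨y, Finset.ne_of_mem_erase hy, rfl⟩
  -- all conjugate
  have hord : ∀ w ∈ Fpf H, ∀ v ∈ Fpf H, orderOf w = orderOf v := by
    intro w hw v hv
    have hpos : 0 < Fintype.card β := by omega
    obtain ⟨x⟩ := Fintype.card_pos_iff.mp hpos
    obtain ⟨y, hy, rfl⟩ := hsurj x w hw
    obtain ⟨y', hy', rfl⟩ := hsurj x v hv
    obtain ⟨k, hk, hk1, hk2⟩ := ex2 h (Ne.symm hy) (Ne.symm hy')
    have : k * (σ x * σ y) * k⁻¹ = σ x * σ y' := by
      have e1 := hconj k hk x
      have e2 := hconj k hk y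
      rw [hk1] at e1
      rw [hk2] at e2
      calc k * (σ x * σ y) * k⁻¹ = (k * σ x * k⁻¹) * (k * σ y * k⁻¹) := by group
        _ = _ := by rw [e1, e2]
    rw [← this]
    apply SemiconjBy.orderOf_eq k
    show k * (σ x * σ y) = k * (σ x * σ y) * k⁻¹ * k
    group
  have hH72 : Nat.card H = 72 := by
    have h2 : Nat.card H = (HF H).card := by
      rw [Nat.card_eq_fintype_card, Fintype.card_subtype]
      rfl
    rw [h2, card_HF h hβ]
  -- the order of a fixed-point-free element
  have hsemi : ∀ w ∈ Fpf H, ∀ m : ℕ, w ^ m ≠ 1 → w ^ m ∈ Fpf H := by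
    intro w hw m hm
    rw [mem_Fpf] at hw ⊢
    refine ⟨H.pow_mem hw.1 m, ?_⟩
    intro z hz
    have h1 : (w ^ m) (w z) = w z := by
      have : w ^ m * w = w * w ^ m := by
        rw [← pow_succ, pow_succ']
      have h2 := congrArg (fun f : Equiv.Perm β => f z) this
      simp only [Equiv.Perm.mul_apply] at h2
      rw [h2, hz]
    exact hw.2 z (fix_unique h (H.pow_mem hw.1 m) hm h1 hz)
  have hdvd : ∀ w ∈ Fpf H, orderOf w ∣ 72 := by
    intro w hw
    have h1 : orderOf (⟨w, (mem_Fpf.mp hw).1⟩ : H) ∣ Nat.card H := orderOf_dvd_natCard _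
    rw [Subgroup.orderOf_mk, hH72] at h1
    exact h1
  have hne1 : ∀ w ∈ Fpf H, w ≠ 1 := by
    rintro w hw rfl
    have hpos : 0 < Fintype.card β := by omega
    obtain ⟨x⟩ := Fintype.card_pos_iff.mp hpos
    exact (mem_Fpf.mp hw).2 x rfl
  have hodd : ∀ w ∈ Fpf H, Odd (orderOf w) := by
    intro w hw
    rw [← Nat.not_even_iff_odd]
    rintro ⟨m, hm⟩
    have hpos : 0 < orderOf w := by
      apply Nat.pos_of_ne_zero
      intro h0
      have := hdvd w hw
      rw [h0] at this
      norm_num at this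
    have hlt : m < orderOf w := by omega
    have hmpos : 0 < m := by omega
    have hz : w ^ m ≠ 1 := pow_ne_one_of_lt_orderOf (by omega) hlt
    have hF := hsemi w hw m hz
    have hinv : w ^ m ∈ Inv H := by
      rw [mem_Inv]
      refine ⟨(mem_Fpf.mp hF).1, hz, ?_⟩
      rw [← pow_add, ← hm]
      exact pow_orderOf_eq_one w
    obtain ⟨x, hx⟩ := exists_fix_of_inv h hβ hinv
    exact (mem_Fpf.mp hF).2 x hx
  have hthree : ∀ w ∈ Fpf H, w ^ 3 = 1 := by
    intro w hw
    have h1 := hdvd w hw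
    have h2 : orderOf w ∣ 9 := by
      have hc : Nat.Coprime (orderOf w) 8 := by
        have : (8 : ℕ) = 2 ^ 3 := by norm_num
        rw [this]
        apply Nat.Coprime.pow_right
        exact Nat.coprime_two_right.mpr (hodd w hw)
      exact hc.dvd_of_dvd_mul_left (by simpa using h1)
    have h3 : orderOf w ≠ 1 := fun e => hne1 w hw (orderOf_eq_one_iff.mp e)
    have h4 : orderOf w = 3 ∨ orderOf w = 9 := by
      have h5 := Nat.le_of_dvd (by norm_num) h2
      interval_cases hv : orderOf w <;> first | omega | (revert h2; decide)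
    rcases h4 with h4 | h4
    · rw [← h4]
      exact pow_orderOf_eq_one w
    · exfalso
      have hne : w ^ 3 ≠ 1 := pow_ne_one_of_lt_orderOf (by norm_num) (by omega)
      have hF := hsemi w hw 3 hne
      have h5 := hord _ hF _ hw
      have h6 : orderOf (w ^ 3) = 3 := by
        rw [orderOf_pow' w (by norm_num), h4]
        norm_num
      omega
  have hsym : ∀ x y, x ≠ y → σ x y = σ y x := by
    intro x y hxy
    apply hσinj
    have hinv : ∀ x, (σ x)⁻¹ = σ x := fun x => by
      rw [inv_eq_iff_mul_eq_one]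
      exact (mem_Inv.mp (hσ1 x)).2.2
    have e1 := hconj (σ x) (hHσ x) y
    have e2 := hconj (σ y) (hHσ y) x
    rw [hinv] at e1 e2
    rw [← e1, ← e2]
    have e3 := hthree _ (hprod x y hxy)
    have sx : σ x * σ x = 1 := (mem_Inv.mp (hσ1 x)).2.2
    have sy : σ y * σ y = 1 := (mem_Inv.mp (hσ1 y)).2.2
    have e4 : σ x * σ y * σ x * (σ y * σ x * σ y) = 1 := by
      rw [← e3]
      simp only [pow_succ, pow_zero, one_mul, mul_assoc]
    have e5 : (σ y * σ x * σ y) * (σ y * σ x * σ y) = 1 := by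
      calc (σ y * σ x * σ y) * (σ y * σ x * σ y) = σ y * σ x * (σ y * σ y) * σ x * σ y := by group
        _ = σ y * (σ x * σ x) * σ y := by rw [sy]; group
        _ = σ y * σ y := by rw [sx]; group
        _ = 1 := sy
    exact mul_right_cancel (e4.trans e5.symm)
  have hsne : s ≠ 1 := by
    rintro rfl
    exact hcd hsc
  have hsσ : s = σ e := hσ3 e s ⟨mem_Inv.mpr ⟨hs, hsne, hs2⟩, hse⟩
  have hde : d ≠ e := by
    rintro rfl
    have : c = d := s.injective (hsc.trans hse.symm)
    exact hcd this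
  have h1 : σ d e = c := by
    rw [hsym d e hde, ← hsc, hsσ, hσσ]
  have h2 : σ d c = e := by
    rw [← h1, hσσ]
  exact ⟨σ d, hHσ d, (mem_Inv.mp (hσ1 d)).2.2, h2, h1, hσ2 d⟩

end Cfsg.Agent.H02.Jor
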