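import Cfsg.Agent.Lib.H02.Stn13
import Cfsg.Agent.Lib.H02.Gol4

/-!
Automorphism groups of S(5,6,12) and S(4,5,11).
-/

set_option autoImplicit false

namespace Cfsg.Agent.H02.Stn

open Cfsg Cfsg.Agent.H27.Golay Cfsg.Agent.H02.Gol Cfsg.Agent.H07.Orb
open scoped Pointwise

variable {d : Finset GolayPt} {p : GolayPt}

/-- The hexads on a dodecad. -/
abbrev Hex (d : Finset GolayPt) : Set (Finset {p : GolayPt // p ∈ d}) :=
  {h | ∃ o ∈ octads, (o ∩ d).card = 6 ∧ h = Finset.subtype (fun p => p ∈ d) o}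

theorem restrD_iff {g : Equiv.Perm GolayPt} (hg : g • d = d) (x : GolayPt) : g x ∈ d ↔ x ∈ d :=
  stab_iff.mp hg x

/-- Restriction to a dodecad. -/
def restrD (g : Equiv.Perm GolayPt) (hg : g • d = d) : Equiv.Perm {p : GolayPt // p ∈ d} :=
  g.subtypePerm (restrD_iff hg)

theorem restrD_mem {g : Equiv.Perm GolayPt} (hm : g ∈ M24) (hg : g • d = d) :
    restrD g hg ∈ setSystemAut (Hex d) := by
  apply mem_aut_of_forward
  rintro b ⟨o, ho, h6, rfl⟩
  refine ⟨g • o, smul_mem_octads hm ho, ?_, ?_⟩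
  · have h1 : g • o ∩ d = g • (o ∩ d) := by
      rw [Finset.smul_finset_inter, hg]
    rw [h1, Finset.card_smul_finset, h6]
  · ext x
    simp only [Finset.mem_image, Finset.mem_subtype, Finset.mem_smul_finset, Equiv.Perm.smul_def]
    constructor
    · rintro ⟨y, hy, rfl⟩
      exact ⟨y.1, hy, rfl⟩
    · rintro ⟨y, hy, hyx⟩
      have hyd : y ∈ d := (restrD_iff hg y).mp (hyx ▸ x.2)
      exact ⟨⟨y, hyd⟩, hy, Subtype.ext hyx⟩

theorem card_Pd (hd : d ∈ dodecads) : Fintype.card {p : GolayPt // p ∈ d} = 12 := by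
  rw [Fintype.card_coe, card_dod hd]

/-- The automorphism group of the hexads. -/
theorem Hex_equiv (hd : d ∈ dodecads) : ∃ φ : (MulAction.stabilizer M24 d) ≃* setSystemAut (Hex d), ∀ g x,
      ((φ g : Equiv.Perm {p : GolayPt // p ∈ d}) x).1 = ((g : ↥M24) : Equiv.Perm GolayPt) x.1 := by
  let ρ : (MulAction.stabilizer M24 d) →* setSystemAut (Hex d) :=
    { toFun := fun g => ⟨restrD g.1.1 g.2, restrD_mem g.1.2 g.2⟩
      map_one' := by
        apply Subtype.ext
        apply Equiv.ext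
        intro x
        rfl
      map_mul' := by
        intro a b
        apply Subtype.ext
        apply Equiv.ext
        intro x
        rfl }
  have hρ : ∀ g x, ((ρ g : Equiv.Perm {p : GolayPt // p ∈ d}) x).1 = ((g : ↥M24) : Equiv.Perm GolayPt) x.1 := fun _ _ => rfl
  have hinj : Function.Injective ρ := by
    rw [injective_iff_map_eq_one]
    intro g hg
    have h1 : ((g : ↥M24) : Equiv.Perm GolayPt) = 1 := by
      apply eq_one_of_fix_dodecad hd g.1.2
      intro x hx
      have h2 := hρ g ⟨x, hx⟩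
      rw [hg] at h2
      exact h2.symm
    exact Subtype.ext (Subtype.ext h1)
  have hS := steiner_hexads hd
  obtain ⟨x₀, hx₀⟩ := exists_rigid612 (card_Pd hd) hS
  have hle : Nat.card (setSystemAut (Hex d)) ≤ 95040 := by
    have := card_le_of_free (G := setSystemAut (Hex d)) (x₀ := x₀) (by
      intro g hg
      have := hx₀ g.1 g.2 (fun i => congrArg (fun f : Fin 5 ↪ _ => f i) hg)
      exact Subtype.ext this)
    rw [Nat.card_eq_fintype_card (α := Fin 5 ↪ _), Fintype.card_embedding_eq, card_Pd hd] at this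
    simpa [Nat.descFactorial] using this
  have hbij : Function.Bijective ρ := hinj.bijective_of_nat_card_le (by rw [card_S0 hd]; exact hle)
  exact ⟨MulEquiv.ofBijective ρ hbij, hρ⟩

theorem Hex_pretrans (hd : d ∈ dodecads) : MulAction.IsMultiplyPretransitive (setSystemAut (Hex d)) {p : GolayPt // p ∈ d} 5 := by
  constructor
  intro x y
  obtain ⟨g, hg, -⟩ := sharp_five hd (x.trans (Function.Embedding.subtype _)) (y.trans (Function.Embedding.subtype _))
    (fun i => (x i).2) (fun i => (y i).2)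
  refine ⟨⟨restrD g.1.1 g.2, restrD_mem g.1.2 g.2⟩, ?_⟩
  apply Function.Embedding.ext
  intro i
  apply Subtype.ext
  exact hg i

theorem D0_dod : fs 8531954 ∈ dodecads := fs_mem_dodecads (by decide +kernel)

theorem aut612 {α : Type*} [Fintype α] [DecidableEq α] (hα : Fintype.card α = 12) {B : Set (Finset α)}
    (hB : IsSteinerSystem 5 6 B) :
    IsM12 (setSystemAut B) ∧ MulAction.IsMultiplyPretransitive (setSystemAut B) α 5 ∧
      ∀ x : Fin 5 ↪ α, MulAction.stabilizer (setSystemAut B) x = ⊥ := by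
  have hd := D0_dod
  obtain ⟨e, he⟩ := iso612 hα (card_Pd hd) hB (steiner_hexads hd)
  obtain ⟨φ, hφ⟩ := exists_aut_equiv he
  obtain ⟨χ, -⟩ := Hex_equiv hd
  have hp : MulAction.IsMultiplyPretransitive (setSystemAut B) α 5 := by
    refine pretrans_of_equiv φ e ?_ (Hex_pretrans hd)
    intro g x
    exact hφ g x
  refine ⟨⟨?_, ?_⟩, hp, ?_⟩
  · haveI := m12_simple hd
    exact (φ.trans χ.symm).isSimpleGroup
  · rw [Nat.card_congr (φ.trans χ.symm).toEquiv, card_S0 hd]
  · obtain ⟨x₀, hx₀⟩ := exists_rigid612 hα hB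
    intro x
    refine stab_bot_of_pretrans (G := setSystemAut B) hp.exists_smul_eq (x₀ := x₀) ?_ x
    intro g hg
    have := hx₀ g.1 g.2 (fun i => congrArg (fun f : Fin 5 ↪ _ => f i) hg)
    exact Subtype.ext this

/-- The derived system of the hexads at a point. -/
abbrev Hex1 (d : Finset GolayPt) (hp : p ∈ d) : Set (Finset {x : {p : GolayPt // p ∈ d} // x ≠ ⟨p, hp⟩}) :=
  derived (Hex d) ⟨p, hp⟩

theorem card_Q (hd : d ∈ dodecads) (hp : p ∈ d) : Fintype.card {x : {p : GolayPt // p ∈ d} // x ≠ ⟨p, hp⟩} = 11 := by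
  rw [card_ne, card_Pd hd]

theorem Hex1_equiv (hd : d ∈ dodecads) (hp : p ∈ d) :
    ∃ φ : ↥(MulAction.stabilizer M24 d ⊓ MulAction.stabilizer M24 p) ≃* setSystemAut (Hex1 d hp), ∀ g x,
      (((φ g : Equiv.Perm {x : {p : GolayPt // p ∈ d} // x ≠ ⟨p, hp⟩}) x).1).1 = ((g : ↥M24) : Equiv.Perm GolayPt) x.1.1 := by
  have hfix : ∀ g : ↥(MulAction.stabilizer M24 d ⊓ MulAction.stabilizer M24 p),
      restrD g.1.1 g.2.1 ⟨p, hp⟩ = ⟨p, hp⟩ := fun g => Subtype.ext g.2.2
  let ρ : ↥(MulAction.stabilizer M24 d ⊓ MulAction.stabilizer M24 p) →* setSystemAut (Hex1 d hp) :=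
    { toFun := fun g => ⟨_, derived_aut (restrD_mem g.1.2 g.2.1) (hfix g)⟩
      map_one' := by
        apply Subtype.ext
        apply Equiv.ext
        intro x
        rfl
      map_mul' := by
        intro a b
        apply Subtype.ext
        apply Equiv.ext
        intro x
        rfl }
  have hρ : ∀ g x, (((ρ g : Equiv.Perm {x : {p : GolayPt // p ∈ d} // x ≠ ⟨p, hp⟩}) x).1).1 = ((g : ↥M24) : Equiv.Perm GolayPt) x.1.1 := fun _ _ => rfl
  have hinj : Function.Injective ρ := by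
    rw [injective_iff_map_eq_one]
    intro g hg
    have h1 : ((g : ↥M24) : Equiv.Perm GolayPt) = 1 := by
      apply eq_one_of_fix_dodecad hd g.1.2
      intro x hx
      by_cases hxp : x = p
      · rw [hxp]
        exact g.2.2
      · have h2 := hρ g ⟨⟨x, hx⟩, fun e => hxp (congrArg Subtype.val e)⟩
        rw [hg] at h2
        exact h2.symm
    exact Subtype.ext (Subtype.ext h1)
  have hS : IsSteinerSystem 4 5 (Hex1 d hp) := derived_steiner (steiner_hexads hd) _
  obtain ⟨x₀, hx₀⟩ := exists_rigid45 (card_Q hd hp) hS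
  have hle : Nat.card (setSystemAut (Hex1 d hp)) ≤ 7920 := by
    have := card_le_of_free (G := setSystemAut (Hex1 d hp)) (x₀ := x₀) (by
      intro g hg
      have := hx₀ g.1 g.2 (fun i => congrArg (fun f : Fin 4 ↪ _ => f i) hg)
      exact Subtype.ext this)
    rw [Nat.card_eq_fintype_card (α := Fin 4 ↪ _), Fintype.card_embedding_eq, card_Q hd hp] at this
    simpa [Nat.descFactorial] using this
  have hbij : Function.Bijective ρ := hinj.bijective_of_nat_card_le (by rw [card_S1 hd hp]; exact hle)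
  exact ⟨MulEquiv.ofBijective ρ hbij, hρ⟩

theorem Hex1_pretrans (hd : d ∈ dodecads) (hp : p ∈ d) :
    MulAction.IsMultiplyPretransitive (setSystemAut (Hex1 d hp)) {x : {p : GolayPt // p ∈ d} // x ≠ ⟨p, hp⟩} 4 := by
  constructor
  intro x y
  have ne : ∀ (z : Fin 4 ↪ {x : {p : GolayPt // p ∈ d} // x ≠ ⟨p, hp⟩}),
      Function.Injective (Fin.cons p (fun i => (z i).1.1) : Fin 5 → GolayPt) := by
    intro z
    rw [Fin.cons_injective_iff]
    constructor
    · rintro ⟨i, hi⟩
      exact (z i).2 (Subtype.ext hi)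
    · intro i j hij
      exact z.injective (Subtype.ext (Subtype.ext hij))
  have hmem : ∀ (z : Fin 4 ↪ {x : {p : GolayPt // p ∈ d} // x ≠ ⟨p, hp⟩}) (i : Fin 5),
      (⟨_, ne z⟩ : Fin 5 ↪ GolayPt) i ∈ d := by
    intro z i
    refine Fin.cases ?_ ?_ i
    · exact hp
    · intro j
      exact (z j).1.2
  obtain ⟨g, hg, -⟩ := sharp_five hd ⟨_, ne x⟩ ⟨_, ne y⟩ (hmem x) (hmem y)
  have hg0 : ((g : ↥M24) : Equiv.Perm GolayPt) p = p := hg 0
  have hfix : restrD g.1.1 g.2 ⟨p, hp⟩ = ⟨p, hp⟩ := Subtype.ext hg0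
  refine ⟨⟨_, derived_aut (restrD_mem g.1.2 g.2) hfix⟩, ?_⟩
  apply Function.Embedding.ext
  intro i
  apply Subtype.ext
  apply Subtype.ext
  exact hg i.succ

theorem aut45 {α : Type*} [Fintype α] [DecidableEq α] (hα : Fintype.card α = 11) {B : Set (Finset α)}
    (hB : IsSteinerSystem 4 5 B) :
    IsM11 (setSystemAut B) ∧ MulAction.IsMultiplyPretransitive (setSystemAut B) α 4 ∧
      ∀ x : Fin 4 ↪ α, MulAction.stabilizer (setSystemAut B) x = ⊥ := by
  have hd := D0_dod
  have hpos : 0 < (fs 8531954).card := by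
    rw [card_dod hd]
    norm_num
  obtain ⟨p, hp⟩ := Finset.card_pos.mp hpos
  have hS : IsSteinerSystem 4 5 (Hex1 (fs 8531954) hp) := derived_steiner (steiner_hexads hd) _
  obtain ⟨e, he⟩ := iso45 hα (card_Q hd hp) hB hS
  obtain ⟨φ, hφ⟩ := exists_aut_equiv he
  obtain ⟨χ, -⟩ := Hex1_equiv hd hp
  have hpt : MulAction.IsMultiplyPretransitive (setSystemAut B) α 4 := by
    refine pretrans_of_equiv φ e ?_ (Hex1_pretrans hd hp)
    intro g x
    exact hφ g x
  refine ⟨⟨?_, ?_⟩, hpt, ?_⟩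
  · haveI := m11_simple hd hp
    exact (φ.trans χ.symm).isSimpleGroup
  · rw [Nat.card_congr (φ.trans χ.symm).toEquiv, card_S1 hd hp]
  · obtain ⟨x₀, hx₀⟩ := exists_rigid45 hα hB
    intro x
    refine stab_bot_of_pretrans (G := setSystemAut B) hpt.exists_smul_eq (x₀ := x₀) ?_ x
    intro g hg
    have := hx₀ g.1 g.2 (fun i => congrArg (fun f : Fin 4 ↪ _ => f i) hg)
    exact Subtype.ext this

end Cfsg.Agent.H02.Stn
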