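import Cfsg.Agent.Lib.H02.Jor3
import Cfsg.Agent.Lib.H02.Stn14

/-!
Sharply 4-transitive groups of degree eleven: the relation defining the Steiner system.
-/

set_option autoImplicit false

namespace Cfsg.Agent.H02.Jor

open Classical
open Cfsg

variable {α : Type*} [Fintype α] [DecidableEq α]

/-- The block relation: `a, b, c, d, e` are distinct and a group element swaps `a, b` and fixes the others. -/
structure R (G : Subgroup (Equiv.Perm α)) (a b c d e : α) : Prop where
  ab : a ≠ b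
  ac : a ≠ c
  ad : a ≠ d
  ae : a ≠ e
  bc : b ≠ c
  bd : b ≠ d
  be : b ≠ e
  cd : c ≠ d
  ce : c ≠ e
  de : d ≠ e
  wit : ∃ g ∈ G, g a = b ∧ g b = a ∧ g c = c ∧ g d = d ∧ g e = e

section

variable {G : Subgroup (Equiv.Perm α)}

theorem R.swap12 {a b c d e : α} (h : R G a b c d e) : R G b a c d e := by
  obtain ⟨g, hg, h1, h2, h3, h4, h5⟩ := h.wit
  exact ⟨h.ab.symm, h.bc, h.bd, h.be, h.ac, h.ad, h.ae, h.cd, h.ce, h.de, g, hg, h2, h1, h3, h4, h5⟩

theorem R.swap34 {a b c d e : α} (h : R G a b c d e) : R G a b d c e := by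
  obtain ⟨g, hg, h1, h2, h3, h4, h5⟩ := h.wit
  exact ⟨h.ab, h.ad, h.ac, h.ae, h.bd, h.bc, h.be, h.cd.symm, h.de, h.ce, g, hg, h1, h2, h4, h3, h5⟩

theorem R.map {a b c d e : α} (h : R G a b c d e) {k : Equiv.Perm α} (hk : k ∈ G) :
    R G (k a) (k b) (k c) (k d) (k e) := by
  obtain ⟨g, hg, h1, h2, h3, h4, h5⟩ := h.wit
  have hne : ∀ {x y : α}, x ≠ y → k x ≠ k y := fun hxy e => hxy (k.injective e)
  refine ⟨hne h.ab, hne h.ac, hne h.ad, hne h.ae, hne h.bc, hne h.bd, hne h.be, hne h.cd, hne h.ce, hne h.de,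
    k * g * k⁻¹, G.mul_mem (G.mul_mem hk hg) (G.inv_mem hk), ?_, ?_, ?_, ?_, ?_⟩ <;>
    simp [h1, h2, h3, h4, h5]

variable (h : ST G 4)
include h

theorem one_of_fix4 {w x y z : α} (h1 : w ≠ x) (h2 : w ≠ y) (h3 : w ≠ z) (h4 : x ≠ y) (h5 : x ≠ z) (h6 : y ≠ z)
    {g : Equiv.Perm α} (hg : g ∈ G) (e1 : g w = w) (e2 : g x = x) (e3 : g y = y) (e4 : g z = z) : g = 1 := by
  apply h.rig ⟨_, inj4 h1 h2 h3 h4 h5 h6⟩ g hg
  intro i
  fin_cases i
  · exact e1
  · exact e2
  · exact e3
  · exact e4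

theorem uniq4 {w x y z : α} (h1 : w ≠ x) (h2 : w ≠ y) (h3 : w ≠ z) (h4 : x ≠ y) (h5 : x ≠ z) (h6 : y ≠ z)
    {g g' : Equiv.Perm α} (hg : g ∈ G) (hg' : g' ∈ G) (e1 : g w = g' w) (e2 : g x = g' x) (e3 : g y = g' y)
    (e4 : g z = g' z) : g = g' := by
  have : g'⁻¹ * g = 1 := by
    apply one_of_fix4 h h1 h2 h3 h4 h5 h6 (G.mul_mem (G.inv_mem hg') hg)
    · simp [e1]
    · simp [e2]
    · simp [e3]
    · simp [e4]
  exact (inv_mul_eq_one.mp this).symm

theorem ex4 {a b c d a' b' c' d' : α} (h1 : a ≠ b) (h2 : a ≠ c) (h3 : a ≠ d) (h4 : b ≠ c) (h5 : b ≠ d) (h6 : c ≠ d)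
    (h1' : a' ≠ b') (h2' : a' ≠ c') (h3' : a' ≠ d') (h4' : b' ≠ c') (h5' : b' ≠ d') (h6' : c' ≠ d') :
    ∃ g ∈ G, g a = a' ∧ g b = b' ∧ g c = c' ∧ g d = d' := by
  obtain ⟨g, hg, hi⟩ := h.ex ⟨_, inj4 h1 h2 h3 h4 h5 h6⟩ ⟨_, inj4 h1' h2' h3' h4' h5' h6'⟩
  exact ⟨g, hg, hi 0, hi 1, hi 2, hi 3⟩

theorem tau_sq {a b c d : α} (h1 : a ≠ b) (h2 : a ≠ c) (h3 : a ≠ d) (h4 : b ≠ c) (h5 : b ≠ d) (h6 : c ≠ d)
    {g : Equiv.Perm α} (hg : g ∈ G) (e1 : g a = b) (e2 : g b = a) (e3 : g c = c) (e4 : g d = d) : g * g = 1 := by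
  apply one_of_fix4 h h1 h2 h3 h4 h5 h6 (G.mul_mem hg hg)
  · simp [e1, e2]
  · simp [e1, e2]
  · simp [e3]
  · simp [e4]

theorem R.unique {a b c d e e' : α} (h1 : R G a b c d e) (h2 : R G a b c d e') : e = e' := by
  obtain ⟨g, hg, e1, e2, e3, e4, e5⟩ := h1.wit
  obtain ⟨g', hg', e1', e2', e3', e4', e5'⟩ := h2.wit
  have hgg : g = g' := uniq4 h h1.ab h1.ac h1.ad h1.bc h1.bd h1.cd hg hg' (e1.trans e1'.symm) (e2.trans e2'.symm)
    (e3.trans e3'.symm) (e4.trans e4'.symm)
  subst hgg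
  by_contra hne
  have : g = 1 := one_of_fix4 h h1.cd h1.ce h2.ce h1.de h2.de hne hg e3 e4 e5 e5'
  rw [this] at e1
  exact h1.ab e1

theorem R.exists_third (hα : Fintype.card α = 11) {a b c d : α} (h1 : a ≠ b) (h2 : a ≠ c) (h3 : a ≠ d) (h4 : b ≠ c)
    (h5 : b ≠ d) (h6 : c ≠ d) : ∃ e, R G a b c d e := by
  obtain ⟨g, hg, e1, e2, e3, e4⟩ := ex4 h h1 h2 h3 h4 h5 h6 h1.symm h4 h5 h2 h3 h6
  have hsq := tau_sq h h1 h2 h3 h4 h5 h6 hg e1 e2 e3 e4
  have hne : g ≠ 1 := by
    rintro rfl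
    exact h1 e1
  have hF := Fx_le h hg hne
  have hM := even_Mv hsq
  have hsum := card_Fx_add g
  rw [hα] at hsum
  have hc : c ∈ Fx g := mem_Fx.mpr e3
  have hd : d ∈ Fx g := mem_Fx.mpr e4
  have hcard : 1 < (Fx g).card := Finset.one_lt_card.mpr ⟨c, hc, d, hd, h6⟩
  have h3' : (Fx g).card = 3 := by omega
  have h4' : 0 < (((Fx g).erase c).erase d).card := by
    rw [Finset.card_erase_of_mem (Finset.mem_erase.mpr ⟨h6.symm, hd⟩), Finset.card_erase_of_mem hc]
    omega
  obtain ⟨e, he⟩ := Finset.card_pos.mp h4'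
  rw [Finset.mem_erase, Finset.mem_erase, mem_Fx] at he
  obtain ⟨hed, hec, hge⟩ := he
  have hae : a ≠ e := by
    rintro rfl
    exact h1 (hge.symm.trans e1)
  have hbe : b ≠ e := by
    rintro rfl
    exact h1 (e2.symm.trans hge)
  exact ⟨e, h1, h2, h3, hae, h4, h5, hbe, h6, hec.symm, hed.symm, g, hg, e1, e2, e3, e4, hge⟩

/-- The symmetry between the swapped pair and two of the fixed points. -/
theorem R.swap_pairs {a b c d e : α} (hR : R G a b c d e) : R G c d a b e := by
  obtain ⟨g, hg, e1, e2, e3, e4, e5⟩ := hR.wit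
  obtain ⟨g', hg', f1, f2, f3, f4⟩ := ex4 h hR.cd hR.ac.symm hR.bc.symm hR.ad.symm hR.bd.symm hR.ab
    hR.cd.symm hR.ad.symm hR.bd.symm hR.ac.symm hR.bc.symm hR.ab
  have hcomm : g' * g = g * g' := by
    apply uniq4 h hR.ab hR.ac hR.ad hR.bc hR.bd hR.cd (G.mul_mem hg' hg) (G.mul_mem hg hg')
    · simp [e1, f3, f4]
    · simp [e2, f3, f4]
    · simp [e3, f1, e4]
    · simp [e4, f2, e3]
  have hfix : g (g' e) = g' e := by
    have := congrArg (fun f : Equiv.Perm α => f e) hcomm
    simp only [Equiv.Perm.mul_apply] at this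
    rw [← this, e5]
  have hgne : g ≠ 1 := by
    rintro rfl
    exact hR.ab e1
  have hg'e : g' e = e := by
    by_contra hne
    have h1 : g' e ≠ c := by
      intro hc
      have : g' d = g' e := f2.trans hc.symm
      exact hR.de (g'.injective this)
    have h2 : g' e ≠ d := by
      intro hc
      have : g' c = g' e := f1.trans hc.symm
      exact hR.ce (g'.injective this)
    exact hgne (one_of_fix4 h hR.cd hR.ce h1.symm hR.de h2.symm (Ne.symm hne) hg e3 e4 e5 hfix)
  exact ⟨hR.cd, hR.ac.symm, hR.bc.symm, hR.ce, hR.ad.symm, hR.bd.symm, hR.de, hR.ab, hR.ae, hR.be, g', hg', f1, f2, f3, f4, hg'e⟩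

/-- A pigeonhole on a four-point set. -/
theorem no_four_fpf {Q : Finset α} (hQ : Q.card = 4) (g : Fin 4 → Equiv.Perm α) (hG : ∀ i, g i ∈ G)
    (hsq : ∀ i, g i * g i = 1) (hmaps : ∀ i, ∀ x ∈ Q, g i x ∈ Q) (hfpf : ∀ i, ∀ x ∈ Q, g i x ≠ x)
    (hinj : Function.Injective g) : False := by
  have hne : Q.Nonempty := by
    rw [← Finset.card_pos]
    omega
  obtain ⟨r, hr⟩ := hne
  have hc : (Q.erase r).card < (Finset.univ : Finset (Fin 4)).card := by
    rw [Finset.card_erase_of_mem hr, hQ]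
    simp
  obtain ⟨i, -, j, -, hij, hgij⟩ := Finset.exists_ne_map_eq_of_card_lt_of_maps_to hc
    (f := fun i => g i r) (fun i _ => Finset.mem_erase.mpr ⟨hfpf i r hr, hmaps i r hr⟩)
  apply hij
  apply hinj
  have hgg : ∀ i x, g i (g i x) = x := fun i x => by
    have := congrArg (fun f : Equiv.Perm α => f x) (hsq i)
    exact this
  -- the two involutions agree on `Q`
  have hagree : ∀ x ∈ Q, g i x = g j x := by
    intro x hx
    by_cases hxr : x = r
    · rw [hxr, hgij]
    by_cases hxs : x = g i r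
    · have e1 : g i x = r := by rw [hxs, hgg]
      have e2 : g j x = r := by rw [hxs, hgij, hgg]
      rw [e1, e2]
    · have hk : ∀ k, g k r = g i r → g k x ∈ ((Q.erase r).erase (g i r)).erase x := by
        intro k hk
        rw [Finset.mem_erase, Finset.mem_erase, Finset.mem_erase]
        refine ⟨hfpf k x hx, ?_, ?_, hmaps k x hx⟩
        · intro e
          apply hxr
          exact (g k).injective (e.trans hk.symm)
        · intro e
          apply hxs
          have := congrArg (g k) e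
          rw [hgg] at this
          rw [this, hk]
      have hcard : (((Q.erase r).erase (g i r)).erase x).card ≤ 1 := by
        rw [Finset.card_erase_of_mem, Finset.card_erase_of_mem, Finset.card_erase_of_mem hr, hQ]
        · exact Finset.mem_erase.mpr ⟨hfpf i r hr, hmaps i r hr⟩
        · exact Finset.mem_erase.mpr ⟨hxs, Finset.mem_erase.mpr ⟨hxr, hx⟩⟩
      exact Finset.card_le_one.mp hcard _ (hk i rfl) _ (hk j hgij.symm)
  have hone : (g j)⁻¹ * g i = 1 := by
    by_contra hne1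
    have hle := Fx_le h (G.mul_mem (G.inv_mem (hG j)) (hG i)) hne1
    have hsub : Q ⊆ Fx ((g j)⁻¹ * g i) := by
      intro x hx
      rw [mem_Fx]
      simp [hagree x hx]
    have := Finset.card_le_card hsub
    omega
  exact (inv_mul_eq_one.mp hone).symm

/-- The symmetry of the first three places. -/
theorem R.swap23 (hα : Fintype.card α = 11) {a b c d e₁ : α} (hR : R G a b c d e₁) : R G a c b d e₁ := by
  obtain ⟨e₂, h2⟩ := R.exists_third h hα hR.ac hR.ab hR.ad hR.bc.symm hR.cd hR.bd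
  obtain ⟨e₃, h3⟩ := R.exists_third h hα hR.ad hR.ab hR.ac hR.bd.symm hR.cd.symm hR.bc
  by_cases he : e₁ = e₂
  · rw [he]
    exact h2
  exfalso
  obtain ⟨ρ, hρ, r1, r2, r3, r4⟩ := ex4 h hR.ab hR.ac hR.ad hR.bc hR.bd hR.cd hR.ac hR.ad hR.ab hR.cd hR.bc.symm
    hR.bd.symm
  have h12 : ρ e₁ = e₂ := by
    have := hR.map hρ
    rw [r1, r2, r3, r4] at this
    exact R.unique h this.swap34 h2
  have h23 : ρ e₂ = e₃ := by
    have := h2.map hρ
    rw [r1, r3, r2, r4] at this
    exact R.unique h this.swap34 h3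
  have h31 : ρ e₃ = e₁ := by
    have := h3.map hρ
    rw [r1, r4, r2, r3] at this
    exact R.unique h this hR
  have he23 : e₂ ≠ e₃ := by
    intro e
    exact he (ρ.injective (h12.trans (e.trans h23.symm)))
  have he31 : e₃ ≠ e₁ := by
    intro e
    exact he23 (ρ.injective (h23.trans (e.trans h31.symm)))
  -- the seven points
  let T : Finset α := {a, b, c, d, e₁, e₂, e₃}
  have ha : a ∈ T := by simp [T]
  have hb : b ∈ T := by simp [T]
  have hc : c ∈ T := by simp [T]
  have hd : d ∈ T := by simp [T]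
  have he1 : e₁ ∈ T := by simp [T]
  have he2 : e₂ ∈ T := by simp [T]
  have he3 : e₃ ∈ T := by simp [T]
  have hT : T.card = 7 := by
    have hne : ∀ {x y : α}, x ≠ y → ¬ (x = y) := fun h => h
    simp only [T]
    rw [Finset.card_insert_of_notMem, Finset.card_insert_of_notMem, Finset.card_insert_of_notMem,
      Finset.card_insert_of_notMem, Finset.card_insert_of_notMem, Finset.card_insert_of_notMem,
      Finset.card_singleton]
    · simpa using he23
    · simp [he, he31.symm]
    · simp [hR.de, h2.de, h3.be]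
    · simp [hR.cd, hR.ce, h2.be, h3.de]
    · simp [hR.bc, hR.bd, hR.be, h2.ce, h3.ce]
    · simp [hR.ab, hR.ac, hR.ad, hR.ae, h2.ae, h3.ae]
  let Q : Finset α := Finset.univ \ T
  have hQ : Q.card = 4 := by
    simp only [Q]
    rw [Finset.card_univ_diff, hT, hα]
  have hmemQ : ∀ x, x ∈ Q ↔ x ∉ T := by
    intro x
    simp [Q]
  have key : ∀ g : Equiv.Perm α, g a ∈ T → g b ∈ T → g c ∈ T → g d ∈ T → g e₁ ∈ T → g e₂ ∈ T → g e₃ ∈ T →
      g * g = 1 → ∀ x ∈ Q, g x ∈ Q := by
    intro g i1 i2 i3 i4 i5 i6 i7 hsq x hx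
    rw [hmemQ] at hx ⊢
    intro hgx
    apply hx
    have e : x = g (g x) := by
      have := congrArg (fun f : Equiv.Perm α => f x) hsq
      exact this.symm
    have hT' : ∀ y ∈ T, g y ∈ T := by
      intro y hy
      simp only [T, Finset.mem_insert, Finset.mem_singleton] at hy
      rcases hy with hy | hy | hy | hy | hy | hy | hy <;> rw [hy] <;> assumption
    rw [e]
    exact hT' _ hgx
  have fpf : ∀ {g : Equiv.Perm α} {p q r : α}, g ∈ G → g ≠ 1 → p ≠ q → p ≠ r → q ≠ r → g p = p → g q = q → g r = r →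
      p ∈ T → q ∈ T → r ∈ T → ∀ x ∈ Q, g x ≠ x := by
    intro g p q r hg hne hpq hpr hqr e1 e2 e3 mp mq mr x hx hgx
    rw [hmemQ] at hx
    apply hne
    apply one_of_fix4 h hpq hpr _ hqr _ _ hg e1 e2 e3 hgx
    · rintro rfl
      exact hx mp
    · rintro rfl
      exact hx mq
    · rintro rfl
      exact hx mr
  -- the four involutions
  obtain ⟨g₁, hg₁, a1, a2, a3, a4, a5⟩ := hR.wit
  obtain ⟨g₁', hg₁', b1, b2, b3, b4, b5⟩ := (R.swap_pairs h hR).wit
  obtain ⟨g₂, hg₂, c1, c2, c3, c4, c5⟩ := h2.wit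
  obtain ⟨g₂', hg₂', d1, d2, d3, d4, d5⟩ := (R.swap_pairs h h2).wit
  have s1 : g₁ * g₁ = 1 := tau_sq h hR.ab hR.ac hR.ad hR.bc hR.bd hR.cd hg₁ a1 a2 a3 a4
  have s1' : g₁' * g₁' = 1 := by
    have := R.swap_pairs h hR
    exact tau_sq h this.ab this.ac this.ad this.bc this.bd this.cd hg₁' b1 b2 b3 b4
  have s2 : g₂ * g₂ = 1 := tau_sq h h2.ab h2.ac h2.ad h2.bc h2.bd h2.cd hg₂ c1 c2 c3 c4
  have s2' : g₂' * g₂' = 1 := by
    have := R.swap_pairs h h2
    exact tau_sq h this.ab this.ac this.ad this.bc this.bd this.cd hg₂' d1 d2 d3 d4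
  have app : ∀ {g : Equiv.Perm α} {x y : α}, g * g = 1 → g x = y → g y = x := by
    intro g x y hsq hxy
    rw [← hxy]
    have := congrArg (fun f : Equiv.Perm α => f x) hsq
    exact this
  -- action on the extra points
  have k1 : g₁ e₂ = e₃ := by
    have := h2.map hg₁
    rw [a1, a2, a3, a4] at this
    exact R.unique h this (R.swap_pairs h h3)
  have k1' : g₁' e₂ = e₃ := by
    have := h2.map hg₁'
    rw [b1, b2, b3, b4] at this
    exact R.unique h this h3
  have k2 : g₂ e₁ = e₃ := by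
    have := hR.map hg₂
    rw [c1, c2, c3, c4] at this
    exact R.unique h this (R.swap_pairs h h3).swap12
  have k2' : g₂' e₁ = e₃ := by
    have := hR.map hg₂'
    rw [d1, d2, d3, d4] at this
    exact R.unique h this.swap34 h3
  have n1 : g₁ ≠ 1 := by
    rintro rfl
    exact hR.ab a1
  have n1' : g₁' ≠ 1 := by
    rintro rfl
    exact hR.cd b1
  have n2 : g₂ ≠ 1 := by
    rintro rfl
    exact hR.ac c1
  have n2' : g₂' ≠ 1 := by
    rintro rfl
    exact hR.bd d1
  have inj : Function.Injective ![g₁, g₁', g₂, g₂'] := by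
    have aux : ∀ {g g' : Equiv.Perm α} {x y y' : α}, g x = y → g' x = y' → y ≠ y' → g ≠ g' := by
      rintro g g' x y y' e1 e2 hne rfl
      exact hne (e1.symm.trans e2)
    exact inj4 (aux a1 b3 hR.ab.symm) (aux a1 c1 hR.bc) (aux a1 d3 hR.ab.symm) (aux b3 c1 hR.ac)
      (aux b1 d4 hR.cd.symm) (aux c1 d3 hR.ac.symm)
  refine no_four_fpf h hQ ![g₁, g₁', g₂, g₂'] ?_ ?_ ?_ ?_ inj
  · intro i
    fin_cases i
    · exact hg₁
    · exact hg₁'
    · exact hg₂
    · exact hg₂'
  · intro i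
    fin_cases i
    · exact s1
    · exact s1'
    · exact s2
    · exact s2'
  · intro i
    fin_cases i
    · refine key _ ?_ ?_ ?_ ?_ ?_ ?_ ?_ s1
      · simpa [a1] using hb
      · simpa [a2] using ha
      · simpa [a3] using hc
      · simpa [a4] using hd
      · simpa [a5] using he1
      · simpa [k1] using he3
      · simpa [app s1 k1] using he2
    · refine key _ ?_ ?_ ?_ ?_ ?_ ?_ ?_ s1'
      · simpa [b3] using ha
      · simpa [b4] using hb
      · simpa [b1] using hd
      · simpa [b2] using hc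
      · simpa [b5] using he1
      · simpa [k1'] using he3
      · simpa [app s1' k1'] using he2
    · refine key _ ?_ ?_ ?_ ?_ ?_ ?_ ?_ s2
      · simpa [c1] using hc
      · simpa [c3] using hb
      · simpa [c2] using ha
      · simpa [c4] using hd
      · simpa [k2] using he3
      · simpa [c5] using he2
      · simpa [app s2 k2] using he1
    · refine key _ ?_ ?_ ?_ ?_ ?_ ?_ ?_ s2'
      · simpa [d3] using ha
      · simpa [d1] using hd
      · simpa [d4] using hc
      · simpa [d2] using hb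
      · simpa [k2'] using he3
      · simpa [d5] using he2
      · simpa [app s2' k2'] using he1
  · intro i
    fin_cases i
    · exact fpf hg₁ n1 hR.cd hR.ce hR.de a3 a4 a5 hc hd he1
    · exact fpf hg₁' n1' hR.ab hR.ae hR.be b3 b4 b5 ha hb he1
    · exact fpf hg₂ n2 hR.bd h2.ce h2.de c3 c4 c5 hb hd he2
    · exact fpf hg₂' n2' hR.ac h2.ae h2.be d3 d4 d5 ha hc he2

/-- The last symmetry: uses the structure of sharply 2-transitive groups of degree nine. -/
theorem R.rot (hα : Fintype.card α = 11) {a b c d e : α} (hR : R G a b c d e) : R G c e a b d := by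
  have hR' := R.swap_pairs h hR
  obtain ⟨g, hg, e1, e2, e3, e4, e5⟩ := hR'.wit
  have hsq : g * g = 1 := tau_sq h hR'.ab hR'.ac hR'.ad hR'.bc hR'.bd hR'.cd hg e1 e2 e3 e4
  let b' : {x // x ≠ a} := ⟨b, hR.ab.symm⟩
  have hst : ST (stabAt (stabAt G a) b') 2 := ST.point (ST.point h a) b'
  have hcard : Fintype.card {x : {x // x ≠ a} // x ≠ b'} = 9 := by
    rw [card_ne_pt, card_ne_pt, hα]
  obtain ⟨r₁, hr₁, hr₁'⟩ := restr_of_fix e3
  have hr₁b : r₁ b' = b' := Subtype.ext ((hr₁' b').trans e4)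
  obtain ⟨r₂, hr₂, hr₂'⟩ := restr_of_fix hr₁b
  have hr₂H : r₂ ∈ stabAt (stabAt G a) b' := by
    show Equiv.Perm.ofSubtype r₂ ∈ stabAt G a
    rw [hr₂]
    show Equiv.Perm.ofSubtype r₁ ∈ G
    rw [hr₁]
    exact hg
  have hr₂sq : r₂ * r₂ = 1 := by
    apply Equiv.Perm.ofSubtype_injective
    apply Equiv.Perm.ofSubtype_injective
    rw [map_mul, map_mul, hr₂, hr₁, hsq, map_one, map_one]
  let c' : {x : {x // x ≠ a} // x ≠ b'} := ⟨⟨c, hR.ac.symm⟩, fun e => hR.bc.symm (congrArg Subtype.val e)⟩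
  let d' : {x : {x // x ≠ a} // x ≠ b'} := ⟨⟨d, hR.ad.symm⟩, fun e => hR.bd.symm (congrArg Subtype.val e)⟩
  let e' : {x : {x // x ≠ a} // x ≠ b'} := ⟨⟨e, hR.ae.symm⟩, fun e => hR.be.symm (congrArg Subtype.val e)⟩
  have hval : ∀ x : {x : {x // x ≠ a} // x ≠ b'}, (r₂ x).1.1 = g x.1.1 := by
    intro x
    rw [hr₂', hr₁']
  have hse : r₂ e' = e' := Subtype.ext (Subtype.ext ((hval e').trans e5))
  have hsc : r₂ c' = d' := Subtype.ext (Subtype.ext ((hval c').trans e1))
  have hcd : c' ≠ d' := fun e => hR.cd (congrArg (fun z : {x : {x // x ≠ a} // x ≠ b'} => z.1.1) e)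
  obtain ⟨s', hs', -, s1, s2, s3⟩ := two_trans_nine hst hcard hr₂H hr₂sq hse hsc hcd
  have hg'' : Equiv.Perm.ofSubtype (Equiv.Perm.ofSubtype s') ∈ G := hs'
  have hval' : ∀ x : {x : {x // x ≠ a} // x ≠ b'}, Equiv.Perm.ofSubtype (Equiv.Perm.ofSubtype s') x.1.1 = (s' x).1.1 := by
    intro x
    rw [ofSubtype_ne, ofSubtype_ne]
  have f1 : Equiv.Perm.ofSubtype (Equiv.Perm.ofSubtype s') c = e := by
    have := hval' c'
    rw [s1] at this
    exact this
  have f2 : Equiv.Perm.ofSubtype (Equiv.Perm.ofSubtype s') e = c := by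
    have := hval' e'
    rw [s2] at this
    exact this
  have f3 : Equiv.Perm.ofSubtype (Equiv.Perm.ofSubtype s') a = a := ofSubtype_fix a _
  have f4 : Equiv.Perm.ofSubtype (Equiv.Perm.ofSubtype s') b = b := by
    have := ofSubtype_ne (Equiv.Perm.ofSubtype s') b'
    rw [ofSubtype_fix b' s'] at this
    exact this
  have f5 : Equiv.Perm.ofSubtype (Equiv.Perm.ofSubtype s') d = d := by
    have := hval' d'
    rw [s3] at this
    exact this
  exact ⟨hR.ce, hR.ac.symm, hR.bc.symm, hR.cd, hR.ae.symm, hR.be.symm, hR.de.symm, hR.ab, hR.ad, hR.bd, _, hg'', f1, f2, f3, f4, f5⟩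

theorem R.swap45 (hα : Fintype.card α = 11) {a b c d e : α} (hR : R G a b c d e) : R G a b c e d :=
  R.swap_pairs h (R.rot h hα hR)

/-- Full symmetry of the block relation. -/
theorem R.perm (hα : Fintype.card α = 11) (σ : Equiv.Perm (Fin 5)) :
    ∀ f : Fin 5 → α, R G (f 0) (f 1) (f 2) (f 3) (f 4) →
      R G (f (σ 0)) (f (σ 1)) (f (σ 2)) (f (σ 3)) (f (σ 4)) := by
  have hσ : σ ∈ Submonoid.closure (Set.range fun i : Fin 4 ↦ Equiv.swap i.castSucc i.succ) := by
    rw [Equiv.Perm.mclosure_swap_castSucc_succ]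
    trivial
  induction hσ using Submonoid.closure_induction with
  | mem x hx =>
    obtain ⟨i, rfl⟩ := hx
    intro f hf
    fin_cases i
    · have := hf.swap12
      exact this
    · have := R.swap23 h hα hf
      exact this
    · have := hf.swap34
      exact this
    · have := R.swap45 h hα hf
      exact this
  | one =>
    intro f hf
    exact hf
  | mul x y _ _ hx hy =>
    intro f hf
    exact hy (f ∘ x) (hx f hf)

theorem R.of_image (hα : Fintype.card α = 11) {a b c d e a' b' c' d' e' : α} (hR : R G a' b' c' d' e')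
    (h1 : a ≠ b) (h2 : a ≠ c) (h3 : a ≠ d) (h4 : a ≠ e) (h5 : b ≠ c) (h6 : b ≠ d) (h7 : b ≠ e) (h8 : c ≠ d)
    (h9 : c ≠ e) (h10 : d ≠ e)
    (hsub : ({a, b, c, d, e} : Finset α) ⊆ {a', b', c', d', e'}) : R G a b c d e := by
  have hj : ∀ y ∈ ({a', b', c', d', e'} : Finset α), ∃ j, y = (![a', b', c', d', e'] : Fin 5 → α) j := by
    intro y hy
    simp only [Finset.mem_insert, Finset.mem_singleton] at hy
    rcases hy with hy | hy | hy | hy | hy
    · exact ⟨0, hy⟩
    · exact ⟨1, hy⟩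
    · exact ⟨2, hy⟩
    · exact ⟨3, hy⟩
    · exact ⟨4, hy⟩
  have hg : ∀ i, ∃ j, (![a, b, c, d, e] : Fin 5 → α) i = (![a', b', c', d', e'] : Fin 5 → α) j := by
    intro i
    apply hj
    apply hsub
    fin_cases i <;> simp
  choose τ hτ using hg
  have hginj : Function.Injective (![a, b, c, d, e] : Fin 5 → α) := by
    intro i j hij
    fin_cases i <;> fin_cases j <;> first
      | rfl
      | (simp at hij; first
          | exact absurd hij h1
          | exact absurd hij h2
          | exact absurd hij h3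
          | exact absurd hij h4
          | exact absurd hij h5
          | exact absurd hij h6
          | exact absurd hij h7
          | exact absurd hij h8
          | exact absurd hij h9
          | exact absurd hij h10
          | exact absurd hij.symm h1
          | exact absurd hij.symm h2
          | exact absurd hij.symm h3
          | exact absurd hij.symm h4
          | exact absurd hij.symm h5
          | exact absurd hij.symm h6
          | exact absurd hij.symm h7
          | exact absurd hij.symm h8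
          | exact absurd hij.symm h9
          | exact absurd hij.symm h10)
  have hτinj : Function.Injective τ := by
    intro i j hij
    apply hginj
    rw [hτ, hτ, hij]
  let σ : Equiv.Perm (Fin 5) := Equiv.ofBijective τ (Finite.injective_iff_bijective.mp hτinj)
  have := R.perm h hα σ ![a', b', c', d', e'] hR
  have e0 : (![a', b', c', d', e'] : Fin 5 → α) (σ 0) = a := (hτ 0).symm
  have e1 : (![a', b', c', d', e'] : Fin 5 → α) (σ 1) = b := (hτ 1).symm
  have e2 : (![a', b', c', d', e'] : Fin 5 → α) (σ 2) = c := (hτ 2).symm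
  have e3 : (![a', b', c', d', e'] : Fin 5 → α) (σ 3) = d := (hτ 3).symm
  have e4 : (![a', b', c', d', e'] : Fin 5 → α) (σ 4) = e := (hτ 4).symm
  rw [e0, e1, e2, e3, e4] at this
  exact this

end

/-- The blocks. -/
def Blocks (G : Subgroup (Equiv.Perm α)) : Set (Finset α) :=
  {B | ∃ a b c d e, R G a b c d e ∧ B = {a, b, c, d, e}}

theorem R.card_block {G : Subgroup (Equiv.Perm α)} {a b c d e : α} (hR : R G a b c d e) :
    ({a, b, c, d, e} : Finset α).card = 5 := by
  rw [Finset.card_insert_of_notMem, Finset.card_insert_of_notMem, Finset.card_insert_of_notMem,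
    Finset.card_insert_of_notMem, Finset.card_singleton]
  · simp [hR.de]
  · simp [hR.cd, hR.ce]
  · simp [hR.bc, hR.bd, hR.be]
  · simp [hR.ab, hR.ac, hR.ad, hR.ae]

theorem blocks_steiner {G : Subgroup (Equiv.Perm α)} (h : ST G 4) (hα : Fintype.card α = 11) :
    IsSteinerSystem 4 5 (Blocks G) := by
  refine ⟨?_, ?_⟩
  · rintro B ⟨a, b, c, d, e, hR, rfl⟩
    exact hR.card_block
  · intro s hs
    obtain ⟨a, t, hat, rfl, ht⟩ := Finset.card_eq_succ.mp hs
    obtain ⟨b, c, d, hbc, hbd, hcd, rfl⟩ := Finset.card_eq_three.mp ht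
    simp only [Finset.mem_insert, Finset.mem_singleton, not_or] at hat
    obtain ⟨hab, hac, had⟩ := hat
    obtain ⟨e, hR⟩ := R.exists_third h hα hab hac had hbc hbd hcd
    refine ⟨{a, b, c, d, e}, ⟨⟨a, b, c, d, e, hR, rfl⟩, ?_⟩, ?_⟩
    · intro x hx
      simp only [Finset.mem_insert, Finset.mem_singleton] at hx ⊢
      tauto
    · rintro B ⟨⟨a', b', c', d', e', hR', rfl⟩, hsub⟩
      have hcard : (({a', b', c', d', e'} : Finset α) \ {a, b, c, d}).card = 1 := by
        rw [Finset.card_sdiff_of_subset hsub, hR'.card_block, hs]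
      obtain ⟨x, hx⟩ := Finset.card_eq_one.mp hcard
      have hxmem : x ∈ (({a', b', c', d', e'} : Finset α) \ {a, b, c, d}) := by
        rw [hx]
        simp
      rw [Finset.mem_sdiff] at hxmem
      obtain ⟨hxB, hxn⟩ := hxmem
      simp only [Finset.mem_insert, Finset.mem_singleton, not_or] at hxn
      obtain ⟨n1, n2, n3, n4⟩ := hxn
      have hsub2 : ({a, b, c, d, x} : Finset α) ⊆ {a', b', c', d', e'} := by
        intro y hy
        have hy' : y = a ∨ y = b ∨ y = c ∨ y = d ∨ y = x := by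
          simpa only [Finset.mem_insert, Finset.mem_singleton] using hy
        rcases hy' with rfl | rfl | rfl | rfl | rfl
        · exact hsub (by simp)
        · exact hsub (by simp)
        · exact hsub (by simp)
        · exact hsub (by simp)
        · exact hxB
      have hR2 : R G a b c d x :=
        R.of_image h hα hR' hab hac had (Ne.symm n1) hbc hbd (Ne.symm n2) hcd (Ne.symm n3) (Ne.symm n4) hsub2
      have hxe : x = e := R.unique h hR2 hR
      subst hxe
      exact (Finset.eq_of_subset_of_card_le hsub2 (by rw [hR'.card_block, hR.card_block])).symm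

theorem main_eleven {G : Subgroup (Equiv.Perm α)} (h : ST G 4) (hα : Fintype.card α = 11) : IsM11 G := by
  have hS := blocks_steiner h hα
  have hle : G ≤ setSystemAut (Blocks G) := by
    intro g hg
    apply Stn.mem_aut_of_forward
    rintro B ⟨a, b, c, d, e, hR, rfl⟩
    exact ⟨g a, g b, g c, g d, g e, hR.map hg, by simp [Finset.image_insert]⟩
  obtain ⟨h1, -, -⟩ := Stn.aut45 hα hS
  have hc : Nat.card G = 7920 := by
    rw [h.card (by omega), Fintype.card_embedding_eq, hα]
    simp [Nat.descFactorial]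
  have hEq : G = setSystemAut (Blocks G) := Subgroup.eq_of_le_of_card_ge hle (by rw [h1.2, hc])
  rw [← hEq] at h1
  exact h1

theorem exists_emb5 (h5 : 5 ≤ Fintype.card α) {u v : α} (huv : u ≠ v) : ∃ x : Fin 5 ↪ α, x 0 = u ∧ x 1 = v := by
  have hcard : Fintype.card (Fin 5) ≤ Fintype.card α := by simpa using h5
  obtain ⟨z⟩ := Function.Embedding.nonempty_of_card_le hcard
  have hz : z 0 ≠ z 1 := fun e => absurd (z.injective e) (by decide)
  haveI := Equiv.Perm.isMultiplyPretransitive α 2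
  obtain ⟨π, hπ⟩ := MulAction.exists_smul_eq (Equiv.Perm α) (⟨_, inj2 hz⟩ : Fin 2 ↪ α) (⟨_, inj2 huv⟩ : Fin 2 ↪ α)
  have e0 := congrArg (fun f : Fin 2 ↪ α => f 0) hπ
  have e1 := congrArg (fun f : Fin 2 ↪ α => f 1) hπ
  exact ⟨z.trans π.toEmbedding, e0, e1⟩

/-- The point stabiliser as a subgroup of the permutation group. -/
noncomputable def stabHom (G : Subgroup (Equiv.Perm α)) (a : α) :
    stabAt G a →* ↥(G ⊓ MulAction.stabilizer (Equiv.Perm α) a) where
  toFun := fun r => ⟨Equiv.Perm.ofSubtype r.1, r.2, ofSubtype_fix a r.1⟩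
  map_one' := by
    apply Subtype.ext
    show Equiv.Perm.ofSubtype (1 : Equiv.Perm {x // x ≠ a}) = 1
    exact map_one _
  map_mul' := fun r s => by
    apply Subtype.ext
    show Equiv.Perm.ofSubtype (r.1 * s.1) = Equiv.Perm.ofSubtype r.1 * Equiv.Perm.ofSubtype s.1
    exact map_mul _ _ _

theorem stabHom_bij (G : Subgroup (Equiv.Perm α)) (a : α) : Function.Bijective (stabHom G a) := by
  constructor
  · intro r s hrs
    apply Subtype.ext
    apply Equiv.Perm.ofSubtype_injective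
    exact congrArg Subtype.val hrs
  · rintro ⟨g, hg, hga⟩
    have hga' : g a = a := hga
    obtain ⟨r, hr, -⟩ := restr_of_fix (g := g) (a := a) hga'
    refine ⟨⟨r, ?_⟩, ?_⟩
    · show Equiv.Perm.ofSubtype r ∈ G
      rw [hr]
      exact hg
    · apply Subtype.ext
      exact hr

theorem main_twelve {G : Subgroup (Equiv.Perm α)} (h : ST G 5) (hα : Fintype.card α = 12) : IsM12 G := by
  have hc : Nat.card G = 95040 := by
    rw [h.card (by omega), Fintype.card_embedding_eq, hα]
    simp [Nat.descFactorial]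
  refine ⟨?_, hc⟩
  have hpos : 0 < Fintype.card α := by omega
  obtain ⟨a⟩ := Fintype.card_pos_iff.mp hpos
  have h2tr : ∀ u ∈ (Set.univ : Set α), ∀ v ∈ (Set.univ : Set α), u ≠ v →
      ∀ u' ∈ (Set.univ : Set α), ∀ v' ∈ (Set.univ : Set α), u' ≠ v' →
      ∃ g ∈ G, g • u = u' ∧ g • v = v' := by
    intro u _ v _ huv u' _ v' _ huv'
    obtain ⟨x, hx0, hx1⟩ := exists_emb5 (by omega) huv
    obtain ⟨x', hx0', hx1'⟩ := exists_emb5 (by omega) huv'
    obtain ⟨g, hg, hi⟩ := h.ex x x'
    refine ⟨g, hg, ?_, ?_⟩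
    · show g u = u'
      rw [← hx0, hi, hx0']
    · show g v = v'
      rw [← hx1, hi, hx1']
  have hM11 : IsM11 (stabAt G a) := by
    apply main_eleven (ST.point h a)
    rw [card_ne_pt, hα]
  have hS : IsSimpleGroup ↥(G ⊓ MulAction.stabilizer (Equiv.Perm α) a) := by
    haveI := hM11.1
    exact (MulEquiv.ofBijective _ (stabHom_bij G a)).symm.isSimpleGroup
  have hncard : (Set.univ : Set α).ncard = 12 := by
    rw [Set.ncard_univ, Nat.card_eq_fintype_card, hα]
  refine Gol.jordan_step G (Set.univ : Set α) a (Set.mem_univ _) (fun _ _ _ _ => Set.mem_univ _) ?_ h2tr hS ?_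
  · intro g _ hy
    ext x
    simpa using hy x (Set.mem_univ _)
  · intro N h1 h2 h3 h4
    exact Gol.noreg_of_primes (r := 2) (s := 3) (Set.mem_univ a) h2tr (by norm_num) (by norm_num) (by norm_num)
      (by rw [hncard]; norm_num) (by rw [hncard]; norm_num) N h1 h2 h3 h4 (fun _ _ _ _ => Set.mem_univ _)

end Cfsg.Agent.H02.Jor
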