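import Cfsg.Agent.Lib.H06.Nilp
import Cfsg.Prelude.Def_CaseTheorems

/-!
Klein four subgroups: explicit construction and commuting graph lemmas.
-/

set_option autoImplicit false

namespace Cfsg.Agent.H02

open Cfsg

variable {G : Type*} [Group G]

theorem isKleinFour_of {X : Type*} [Group X] (h4 : Nat.card X = 4) (h2 : ∀ x : X, x ^ 2 = 1) :
    IsKleinFour X := by
  haveI : Finite X := Nat.finite_of_card_ne_zero (by omega)
  haveI : Nontrivial X := by
    rw [← Finite.one_lt_card_iff_nontrivial]; omega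
  refine ⟨h4, ?_⟩
  rw [Monoid.exponent_eq_prime_iff Nat.prime_two]
  intro g hg
  exact orderOf_eq_prime (h2 g) hg

/-- The Klein four group determined by two commuting involutions. -/
def kleinOf (a b : G) (ha : a ^ 2 = 1) (hb : b ^ 2 = 1) (hab : a * b = b * a) : Subgroup G where
  carrier := {1, a, b, a * b}
  one_mem' := by simp
  inv_mem' := by
    have hai : a⁻¹ = a := by rw [inv_eq_iff_mul_eq_one, ← pow_two, ha]
    have hbi : b⁻¹ = b := by rw [inv_eq_iff_mul_eq_one, ← pow_two, hb]
    intro x hx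
    simp only [Set.mem_insert_iff, Set.mem_singleton_iff] at hx ⊢
    rcases hx with rfl | rfl | rfl | rfl
    · simp
    · right; left; exact hai
    · right; right; left; exact hbi
    · right; right; right
      rw [mul_inv_rev, hai, hbi, hab]
  mul_mem' := by
    have ha2 : a * a = 1 := by rw [← pow_two, ha]
    have hb2 : b * b = 1 := by rw [← pow_two, hb]
    intro x y hx hy
    simp only [Set.mem_insert_iff, Set.mem_singleton_iff] at hx hy ⊢
    rcases hx with hx | hx | hx | hx <;> rcases hy with hy | hy | hy | hy <;> rw [hx, hy]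
    · left; simp
    · right; left; simp
    · right; right; left; simp
    · right; right; right; simp
    · right; left; simp
    · left; exact ha2
    · right; right; right; rfl
    · right; right; left; rw [← mul_assoc, ha2, one_mul]
    · right; right; left; simp
    · right; right; right; exact hab.symm
    · left; exact hb2
    · right; left; rw [← mul_assoc, ← hab, mul_assoc, hb2, mul_one]
    · right; right; right; simp
    · right; right; left; rw [hab, mul_assoc, ha2, mul_one]
    · right; left; rw [mul_assoc, hb2, mul_one]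
    · left; rw [mul_assoc, ← mul_assoc b, ← hab, mul_assoc a b b, hb2, mul_one, ha2]

theorem mem_kleinOf {a b : G} {ha : a ^ 2 = 1} {hb : b ^ 2 = 1} {hab : a * b = b * a} {x : G} :
    x ∈ kleinOf a b ha hb hab ↔ x = 1 ∨ x = a ∨ x = b ∨ x = a * b := Iff.rfl

theorem left_mem_kleinOf {a b : G} {ha : a ^ 2 = 1} {hb : b ^ 2 = 1} {hab : a * b = b * a} :
    a ∈ kleinOf a b ha hb hab := mem_kleinOf.mpr (Or.inr (Or.inl rfl))

theorem right_mem_kleinOf {a b : G} {ha : a ^ 2 = 1} {hb : b ^ 2 = 1} {hab : a * b = b * a} :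
    b ∈ kleinOf a b ha hb hab := mem_kleinOf.mpr (Or.inr (Or.inr (Or.inl rfl)))

theorem kleinOf_sq {a b : G} {ha : a ^ 2 = 1} {hb : b ^ 2 = 1} {hab : a * b = b * a} {x : G}
    (hx : x ∈ kleinOf a b ha hb hab) : x ^ 2 = 1 := by
  have ha2 : a * a = 1 := by rw [← pow_two, ha]
  have hb2 : b * b = 1 := by rw [← pow_two, hb]
  rcases mem_kleinOf.mp hx with rfl | rfl | rfl | rfl
  · simp
  · exact ha
  · exact hb
  · rw [pow_two, mul_assoc, ← mul_assoc b, ← hab, mul_assoc a b b, hb2, mul_one, ha2]

theorem isKleinFour_kleinOf (a b : G) (ha : a ^ 2 = 1) (hb : b ^ 2 = 1) (hab : a * b = b * a)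
    (ha1 : a ≠ 1) (hb1 : b ≠ 1) (hne : a ≠ b) : IsKleinFour (kleinOf a b ha hb hab) := by
  classical
  apply isKleinFour_of
  · have h1 : ((kleinOf a b ha hb hab : Subgroup G) : Set G) =
        (({1, a, b, a * b} : Finset G) : Set G) := by
      ext x
      simp [mem_kleinOf]
    have h2 : Nat.card (kleinOf a b ha hb hab) = ({1, a, b, a * b} : Finset G).card := by
      show Nat.card (((kleinOf a b ha hb hab : Subgroup G) : Set G)) = _
      rw [h1, Nat.card_coe_set_eq, Set.ncard_coe_finset]
    rw [h2]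
    have hab1 : a * b ≠ 1 := by
      intro h
      apply hne
      have : a = b⁻¹ := eq_inv_of_mul_eq_one_left h
      rw [this, inv_eq_iff_mul_eq_one, ← pow_two, hb]
    have haba : a * b ≠ a := by simpa using hb1
    have habb : a * b ≠ b := by simpa using ha1
    rw [Finset.card_insert_of_notMem, Finset.card_insert_of_notMem, Finset.card_insert_of_notMem,
      Finset.card_singleton]
    · simp [habb.symm]
    · simp [hne, haba.symm]
    · simp [ha1.symm, hb1.symm, hab1.symm]
  · rintro ⟨x, hx⟩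
    apply Subtype.ext
    exact kleinOf_sq hx

/-- A central-by-commuting commutation criterion for the Klein group. -/
theorem kleinOf_le_centralizer {a b : G} {ha : a ^ 2 = 1} {hb : b ^ 2 = 1} {hab : a * b = b * a}
    (S : Set G) (h1 : ∀ s ∈ S, s * a = a * s) (h2 : ∀ s ∈ S, s * b = b * s) {x s : G}
    (hx : x ∈ kleinOf a b ha hb hab) (hs : s ∈ S) : x * s = s * x := by
  rcases mem_kleinOf.mp hx with rfl | rfl | rfl | rfl
  · simp
  · exact (h1 s hs).symm
  · exact (h2 s hs).symm
  · rw [mul_assoc, ← h2 s hs, ← mul_assoc, ← h1 s hs, mul_assoc]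

/-- The centralizer of an involution in a normal elementary abelian subgroup is large. -/
theorem card_le_card_sq_fix [Finite G] (E : Subgroup G) [hEn : E.Normal] (hE : IsMulCommutative E)
    (hE2 : ∀ e ∈ E, e ^ 2 = 1) (a : G) (ha : a ^ 2 = 1) :
    Nat.card E ≤ Nat.card (E ⊓ Subgroup.centralizer ({a} : Set G) : Subgroup G) ^ 2 := by
  have hcomm : ∀ x ∈ E, ∀ y ∈ E, x * y = y * x := by
    intro x hx y hy
    have := hE.is_comm.comm ⟨x, hx⟩ ⟨y, hy⟩
    exact congrArg Subtype.val this
  have haa : a⁻¹ = a := by rw [inv_eq_iff_mul_eq_one, ← pow_two, ha]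
  have hconj : ∀ e ∈ E, a * e * a⁻¹ ∈ E := fun e he => hEn.conj_mem e he a
  let φ : E →* E :=
    { toFun := fun e => ⟨e * (a * e * a⁻¹), E.mul_mem e.2 (hconj e e.2)⟩
      map_one' := by
        apply Subtype.ext
        simp
      map_mul' := by
        intro x y
        apply Subtype.ext
        show (x * y : G) * (a * (x * y) * a⁻¹) = (x * (a * x * a⁻¹)) * (y * (a * y * a⁻¹))
        have h1 := hcomm _ (hconj x x.2) _ y.2
        calc (x * y : G) * (a * (x * y) * a⁻¹)
            = x * y * ((a * x * a⁻¹) * (a * y * a⁻¹)) := by group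
          _ = x * (y * (a * x * a⁻¹)) * (a * y * a⁻¹) := by group
          _ = x * ((a * x * a⁻¹) * y) * (a * y * a⁻¹) := by rw [h1]
          _ = _ := by group }
  let C : Subgroup G := E ⊓ Subgroup.centralizer ({a} : Set G)
  have hfix : ∀ e : E, (φ e : G) ∈ C := by
    intro e
    refine Subgroup.mem_inf.mpr ⟨(φ e).2, Subgroup.mem_centralizer_singleton_iff.mpr ?_⟩
    show (e * (a * e * a⁻¹) : G) * a = a * (e * (a * e * a⁻¹))
    have h1 := hcomm _ e.2 _ (hconj e e.2)
    have h2 : a * (a * (e : G) * a⁻¹) = e * a := by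
      rw [← mul_assoc, ← mul_assoc, ← pow_two, ha, haa, one_mul]
    calc (e * (a * e * a⁻¹) : G) * a = (a * e * a⁻¹) * e * a := by rw [h1]
      _ = a * e * a * e * a := by rw [haa]
      _ = a * (e * (a * e * a⁻¹)) := by rw [haa]; group
  have hker : ∀ e : E, e ∈ φ.ker → (e : G) ∈ C := by
    intro e he
    have h1 : (e * (a * e * a⁻¹) : G) = 1 := congrArg Subtype.val he
    refine Subgroup.mem_inf.mpr ⟨e.2, Subgroup.mem_centralizer_singleton_iff.mpr ?_⟩
    have h2 : (e : G)⁻¹ = e := by rw [inv_eq_iff_mul_eq_one, ← pow_two]; exact hE2 e e.2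
    have h3 : a * e * a⁻¹ = (e : G) := (eq_inv_of_mul_eq_one_right h1).trans h2
    calc (e : G) * a = (a * e * a⁻¹) * a := by rw [h3]
      _ = a * e := by group
  have h1 := φ.ker.card_mul_index
  rw [Subgroup.index_ker] at h1
  have hk : Nat.card φ.ker ≤ Nat.card C := by
    let f : φ.ker → C := fun x => ⟨x.1.1, hker x.1 x.2⟩
    apply Nat.card_le_card_of_injective f
    intro x y hxy
    apply Subtype.ext
    apply Subtype.ext
    exact congrArg (Subtype.val : C → G) hxy
  have hr : Nat.card φ.range ≤ Nat.card C := by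
    let f : φ.range → C := fun x => ⟨x.1.1, by
      obtain ⟨e, he⟩ := x.2
      rw [← he]
      exact hfix e⟩
    apply Nat.card_le_card_of_injective f
    intro x y hxy
    apply Subtype.ext
    apply Subtype.ext
    exact congrArg (Subtype.val : C → G) hxy
  rw [← h1, pow_two]
  exact Nat.mul_le_mul hk hr

/-- The chain relation of the commuting graph is symmetric. -/
theorem fourRel_symm {S : Type*} [Group S] {U V : Subgroup S}
    (h : Relation.ReflTransGen
      (fun A B : Subgroup S => IsKleinFour A ∧ IsKleinFour B ∧ ∀ a ∈ A, ∀ b ∈ B, a * b = b * a) U V) :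
    Relation.ReflTransGen
      (fun A B : Subgroup S => IsKleinFour A ∧ IsKleinFour B ∧ ∀ a ∈ A, ∀ b ∈ B, a * b = b * a) V U := by
  induction h with
  | refl => exact Relation.ReflTransGen.refl
  | tail _ hbc ih =>
    obtain ⟨h1, h2, h3⟩ := hbc
    exact Relation.ReflTransGen.head ⟨h2, h1, fun b hb a ha => (h3 a ha b hb).symm⟩ ih

/-- Every Klein four subgroup is connected to a Klein four subgroup of `E`. -/
theorem exists_chain_to_E [Finite G] (hP : IsPGroup 2 G) (E : Subgroup G) [hEn : E.Normal]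
    (hE : IsMulCommutative E) (hE2 : ∀ e ∈ E, e ^ 2 = 1) (hE8 : 8 ≤ Nat.card E) (z : G) (hzE : z ∈ E)
    (hz1 : z ≠ 1) (hzc : ∀ x : G, x * z = z * x) (V : Subgroup G) (hV : IsKleinFour V) :
    ∃ F : Subgroup G, F ≤ E ∧ IsKleinFour F ∧
      Relation.ReflTransGen
        (fun A B : Subgroup G => IsKleinFour A ∧ IsKleinFour B ∧ ∀ a ∈ A, ∀ b ∈ B, a * b = b * a) V F := by
  classical
  have hVc : ∀ x ∈ V, ∀ y ∈ V, x * y = y * x := by
    intro x hx y hy
    haveI : IsMulCommutative V := IsKleinFour.isMulCommutative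
    have := (inferInstance : IsMulCommutative V).is_comm.comm ⟨x, hx⟩ ⟨y, hy⟩
    exact congrArg Subtype.val this
  have hV2 : ∀ x ∈ V, x ^ 2 = 1 := by
    intro x hx
    have h1 := Monoid.pow_exponent_eq_one (⟨x, hx⟩ : V)
    rw [IsKleinFour.exponent_two] at h1
    exact congrArg Subtype.val h1
  have hz2 : z ^ 2 = 1 := hE2 z hzE
  -- choose a ∈ V, a ≠ 1, a ≠ z
  obtain ⟨a, haV, ha1, haz⟩ : ∃ a ∈ V, a ≠ 1 ∧ a ≠ z := by
    by_contra hcon
    push Not at hcon
    have h3 : Nat.card V ≤ 2 := by
      have h4 : (V : Set G) ⊆ (({1, z} : Finset G) : Set G) := by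
        intro x hx
        by_cases hx1 : x = 1
        · simp [hx1]
        · simp [hcon x hx hx1]
      have h5 : Nat.card V = ((V : Set G)).ncard := by
        rw [← Nat.card_coe_set_eq]; rfl
      rw [h5]
      have h6 := Set.ncard_le_ncard h4 (Finset.finite_toSet _)
      rw [Set.ncard_coe_finset] at h6
      exact h6.trans (Finset.card_le_two)
    have := IsKleinFour.card_four (G := V)
    omega
  have ha2 : a ^ 2 = 1 := hV2 a haV
  -- the centralizer of a in E
  have hbig := card_le_card_sq_fix E hE hE2 a ha2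
  set C : Subgroup G := E ⊓ Subgroup.centralizer ({a} : Set G) with hC
  have hzC : z ∈ C := Subgroup.mem_inf.mpr ⟨hzE, Subgroup.mem_centralizer_singleton_iff.mpr (hzc a).symm⟩
  have hC3 : 3 ≤ Nat.card C := by
    by_contra hlt
    push Not at hlt
    have : Nat.card C ^ 2 ≤ 4 := by
      have h1 : Nat.card C ≤ 2 := by omega
      nlinarith
    omega
  obtain ⟨x, hxC, hx1, hxz⟩ : ∃ x ∈ C, x ≠ 1 ∧ x ≠ z := by
    by_contra hcon
    push Not at hcon
    have h3 : Nat.card C ≤ 2 := by
      have h4 : (C : Set G) ⊆ (({1, z} : Finset G) : Set G) := by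
        intro x hx
        by_cases hx1 : x = 1
        · simp [hx1]
        · simp [hcon x hx hx1]
      have h5 : Nat.card C = ((C : Set G)).ncard := by
        rw [← Nat.card_coe_set_eq]; rfl
      rw [h5]
      have h6 := Set.ncard_le_ncard h4 (Finset.finite_toSet _)
      rw [Set.ncard_coe_finset] at h6
      exact h6.trans (Finset.card_le_two)
    omega
  have hxE : x ∈ E := (Subgroup.mem_inf.mp hxC).1
  have hxa : x * a = a * x := Subgroup.mem_centralizer_singleton_iff.mp (Subgroup.mem_inf.mp hxC).2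
  have hx2 : x ^ 2 = 1 := hE2 x hxE
  let W := kleinOf z a hz2 ha2 (hzc a).symm
  let F := kleinOf z x hz2 hx2 (hzc x).symm
  have hW : IsKleinFour W := isKleinFour_kleinOf _ _ _ _ _ hz1 ha1 haz.symm
  have hF : IsKleinFour F := isKleinFour_kleinOf _ _ _ _ _ hz1 hx1 hxz.symm
  refine ⟨F, ?_, hF, ?_⟩
  · intro y hy
    rcases mem_kleinOf.mp hy with rfl | rfl | rfl | rfl
    · exact E.one_mem
    · exact hzE
    · exact hxE
    · exact E.mul_mem hzE hxE
  · refine Relation.ReflTransGen.trans
      (Relation.ReflTransGen.single (⟨hV, hW, ?_⟩ :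
        (fun A B : Subgroup G => IsKleinFour A ∧ IsKleinFour B ∧ ∀ a ∈ A, ∀ b ∈ B, a * b = b * a) V W))
      (Relation.ReflTransGen.single (⟨hW, hF, ?_⟩ :
        (fun A B : Subgroup G => IsKleinFour A ∧ IsKleinFour B ∧ ∀ a ∈ A, ∀ b ∈ B, a * b = b * a) W F))
    · intro v hv w hw
      exact (kleinOf_le_centralizer (V : Set G) (fun s _ => hzc s) (fun s hs => hVc s hs a haV) hw hv).symm
    · intro w hw f hf
      apply kleinOf_le_centralizer (F : Set G) (fun s _ => hzc s) _ hw hf
      intro s hs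
      rcases mem_kleinOf.mp hs with rfl | rfl | rfl | rfl
      · simp
      · exact (hzc a).symm
      · exact hxa
      · rw [mul_assoc, hxa, ← mul_assoc, ← hzc a, mul_assoc]

/-- A finite `2`-group with a normal elementary abelian subgroup of order at least `8`
has connected commuting graph of Klein four subgroups. -/
theorem fourConnected_of_normal_E8 [Finite G] (hP : IsPGroup 2 G) (E : Subgroup G) [hEn : E.Normal]
    (hE : IsMulCommutative E) (hE2 : ∀ e ∈ E, e ^ 2 = 1) (hE8 : 8 ≤ Nat.card E) :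
    IsFourConnected G := by
  have hEb : E ≠ ⊥ := by
    rintro rfl
    simp at hE8
  haveI : Fact (Nat.Prime 2) := ⟨Nat.prime_two⟩
  haveI hnil : Group.IsNilpotent G := hP.isNilpotent
  obtain ⟨z, hzE, hz1, hzc⟩ := H06.exists_central_of_normal hEn hEb
  have hzc' : ∀ x : G, x * z = z * x := fun x => (Subgroup.mem_center_iff.mp hzc x)
  intro U V hU hV
  obtain ⟨F₁, hF₁, hK₁, h₁⟩ := exists_chain_to_E hP E hE hE2 hE8 z hzE hz1 hzc' U hU
  obtain ⟨F₂, hF₂, hK₂, h₂⟩ := exists_chain_to_E hP E hE hE2 hE8 z hzE hz1 hzc' V hV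
  refine h₁.trans (Relation.ReflTransGen.trans (Relation.ReflTransGen.single ⟨hK₁, hK₂, ?_⟩) (fourRel_symm h₂))
  intro a ha b hb
  have := hE.is_comm.comm ⟨a, hF₁ ha⟩ ⟨b, hF₂ hb⟩
  exact congrArg Subtype.val this

end Cfsg.Agent.H02
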