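import Cfsg.Agent.Lib.H27.SteinerCount

/-!
Generic facts on Steiner systems: derived systems, the moments of the intersection numbers,
the parity of block intersections for S(3,6,22), S(4,7,23), S(5,8,24).
-/

set_option autoImplicit false

namespace Cfsg.Agent.H02.Stn

open Cfsg Cfsg.Agent.H27.Steiner

variable {α : Type*} [Fintype α] [DecidableEq α]

/-- Two blocks with at least `t` common points coincide. -/
theorem eq_of_le_inter {t k : ℕ} {B : Set (Finset α)} (hB : IsSteinerSystem t k B) {x y : Finset α}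
    (hx : x ∈ B) (hy : y ∈ B) (h : t ≤ (x ∩ y).card) : x = y := by
  obtain ⟨s, hsub, hs⟩ := Finset.exists_subset_card_eq h
  obtain ⟨b, -, huniq⟩ := hB.2 s hs
  rw [huniq x ⟨hx, hsub.trans Finset.inter_subset_left⟩,
    huniq y ⟨hy, hsub.trans Finset.inter_subset_right⟩]

/-- A Steiner system contained in another one with `t ≤ k` is equal to it. -/
theorem eq_of_subset {t k : ℕ} {B B' : Set (Finset α)} (hB : IsSteinerSystem t k B)
    (hB' : IsSteinerSystem t k B') (hk : t ≤ k) (h : B ⊆ B') : B = B' := by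
  apply Set.Subset.antisymm h
  intro b hb
  have hc := hB'.1 b hb
  obtain ⟨s, hsub, hs⟩ := Finset.exists_subset_card_eq (show t ≤ b.card by omega)
  obtain ⟨x, ⟨hx, hsx⟩, -⟩ := hB.2 s hs
  have hxb : x = b := by
    apply eq_of_le_inter hB' (h hx) hb
    rw [← hs]
    exact Finset.card_le_card (Finset.subset_inter hsx hsub)
  exact hxb ▸ hx

/-- Derived system at a point. -/
def derived (D : Set (Finset α)) (a : α) : Set (Finset {x // x ≠ a}) :=
  {l | ∃ z ∈ D, a ∈ z ∧ l = z.subtype (fun x => x ≠ a)}

theorem card_subtype_ne {z : Finset α} {a : α} (h : a ∈ z) :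
    (z.subtype (fun x => x ≠ a)).card = z.card - 1 := by
  rw [Finset.card_subtype]
  have : z.filter (fun x => x ≠ a) = z.erase a := by
    ext x
    simp [and_comm]
  rw [this, Finset.card_erase_of_mem h]

theorem derived_steiner {t k : ℕ} {D : Set (Finset α)} (hD : IsSteinerSystem (t + 1) (k + 1) D)
    (a : α) : IsSteinerSystem t k (derived D a) := by
  refine ⟨?_, ?_⟩
  · rintro b ⟨z, hz, haz, rfl⟩
    rw [card_subtype_ne haz, hD.1 z hz]
    rfl
  · intro s hs
    have hna : a ∉ s.map (Function.Embedding.subtype _) := by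
      intro h
      obtain ⟨y, _, hy⟩ := Finset.mem_map.mp h
      exact y.2 hy
    have hcard : (insert a (s.map (Function.Embedding.subtype _))).card = t + 1 := by
      rw [Finset.card_insert_of_notMem hna, Finset.card_map, hs]
    obtain ⟨z, ⟨hz, hsz⟩, huniq⟩ := hD.2 _ hcard
    have haz : a ∈ z := hsz (Finset.mem_insert_self _ _)
    refine ⟨z.subtype _, ⟨⟨z, hz, haz, rfl⟩, ?_⟩, ?_⟩
    · intro y hy
      rw [Finset.mem_subtype]
      exact hsz (Finset.mem_insert_of_mem (Finset.mem_map.mpr ⟨y, hy, rfl⟩))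
    · rintro b ⟨⟨z', hz', haz', rfl⟩, hsb⟩
      have : z' = z := huniq z' ⟨hz', by
        intro x hx
        rcases Finset.mem_insert.mp hx with rfl | hx
        · exact haz'
        · obtain ⟨y, hy, rfl⟩ := Finset.mem_map.mp hx
          exact Finset.mem_subtype.mp (hsb hy)⟩
      rw [this]

theorem card_ne (a : α) : Fintype.card {x // x ≠ a} = Fintype.card α - 1 := by
  rw [Fintype.card_subtype_compl, Fintype.card_subtype_eq]

/-- The moment identity. -/
theorem moment {B : Set (Finset α)} {s L : ℕ} (hL : ∀ S : Finset α, S.card = s → lam B S = L)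
    (x : Finset α) :
    ∑ y ∈ blocks B, ((y ∩ x).card.choose s) = (x.card.choose s) * L := by
  have h1 := Finset.sum_card_bipartiteAbove_eq_sum_card_bipartiteBelow
    (s := blocks B) (t := x.powersetCard s) (fun y S => S ⊆ y)
  have h2 : ∀ y ∈ blocks B, (Finset.bipartiteAbove (fun (y : Finset α) (S : Finset α) => S ⊆ y)
      (x.powersetCard s) y).card = (y ∩ x).card.choose s := by
    intro y _
    rw [← Finset.card_powersetCard]
    congr 1
    ext S
    simp only [Finset.bipartiteAbove, Finset.mem_filter, Finset.mem_powersetCard,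
      Finset.subset_inter_iff]
    tauto
  have h3 : ∀ S ∈ x.powersetCard s, (Finset.bipartiteBelow (fun (y : Finset α) (S : Finset α) => S ⊆ y)
      (blocks B) S).card = L := by
    intro S hS
    rw [Finset.mem_powersetCard] at hS
    rw [← hL S hS.2, lam]
    rfl
  rw [Finset.sum_congr rfl h2, Finset.sum_congr rfl h3] at h1
  simp only [Finset.sum_const, smul_eq_mul, Finset.card_powersetCard] at h1
  exact h1

/-- Comparison principle for the intersection numbers. -/
theorem sum_compare {B : Set (Finset α)} {x : Finset α} (hx : x ∈ B) (f g : ℕ → ℕ)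
    (hsum : f x.card + ∑ y ∈ blocks B, g (y ∩ x).card = g x.card + ∑ y ∈ blocks B, f (y ∩ x).card)
    (hle : ∀ y ∈ B, y ≠ x → g (y ∩ x).card ≤ f (y ∩ x).card)
    {y : Finset α} (hy : y ∈ B) (hne : y ≠ x) : g (y ∩ x).card = f (y ∩ x).card := by
  have hxb : x ∈ blocks B := mem_blocks.mpr hx
  rw [← Finset.add_sum_erase _ _ hxb, ← Finset.add_sum_erase _ (fun y => f (y ∩ x).card) hxb,
    Finset.inter_self] at hsum
  have hs : ∑ y ∈ (blocks B).erase x, g (y ∩ x).card = ∑ y ∈ (blocks B).erase x, f (y ∩ x).card := by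
    omega
  have hle' : ∀ y ∈ (blocks B).erase x, g (y ∩ x).card ≤ f (y ∩ x).card := by
    intro y hy
    rw [Finset.mem_erase, mem_blocks] at hy
    exact hle y hy.2 hy.1
  exact (Finset.sum_eq_sum_iff_of_le hle').mp hs y (Finset.mem_erase.mpr ⟨hne, mem_blocks.mpr hy⟩)

section S322

variable {D : Set (Finset α)} (hα : Fintype.card α = 22) (hD : IsSteinerSystem 3 6 D)
include hα hD

theorem inter_even_322 {x y : Finset α} (hx : x ∈ D) (hy : y ∈ D) : Even (y ∩ x).card := by
  by_cases hne : y = x
  · rw [hne, Finset.inter_self, hD.1 x hx]; decide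
  have l3 : ∀ s : Finset α, s.card = 3 → lam D s = 1 := fun _ hs => lam_of_top hD hs
  have l2 : ∀ s : Finset α, s.card = 2 → lam D s = 5 :=
    lam_down hD.1 (by norm_num) (by rw [hα]) l3
  have l1 : ∀ s : Finset α, s.card = 1 → lam D s = 21 :=
    lam_down hD.1 (by norm_num) (by rw [hα]) l2
  have cx := hD.1 x hx
  have m1 := moment l1 x
  have m2 := moment l2 x
  have hle : ∀ y ∈ D, y ≠ x → (y ∩ x).card ≤ 2 := by
    intro y hy hne
    by_contra hc
    exact hne (eq_of_le_inter hD hy hx (by omega))
  have := sum_compare hx (fun i => i.choose 1) (fun i => 2 * i.choose 2) (by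
    simp only [← Finset.mul_sum, m1, m2, cx]
    norm_num [Nat.choose]) (by
    intro y hy hne
    have h2 := hle y hy hne
    show 2 * (y ∩ x).card.choose 2 ≤ (y ∩ x).card.choose 1
    interval_cases (y ∩ x).card <;> norm_num [Nat.choose]) hy hne
  have h2 := hle y hy hne
  revert this
  interval_cases (y ∩ x).card <;> norm_num [Nat.choose]

end S322

section S423

variable {D : Set (Finset α)} (hα : Fintype.card α = 23) (hD : IsSteinerSystem 4 7 D)
include hα hD

theorem inter_odd_423 {x y : Finset α} (hx : x ∈ D) (hy : y ∈ D) : Odd (y ∩ x).card := by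
  by_cases hne : y = x
  · rw [hne, Finset.inter_self, hD.1 x hx]; decide
  have l4 : ∀ s : Finset α, s.card = 4 → lam D s = 1 := fun _ hs => lam_of_top hD hs
  have l3 : ∀ s : Finset α, s.card = 3 → lam D s = 5 :=
    lam_down hD.1 (by norm_num) (by rw [hα]) l4
  have l2 : ∀ s : Finset α, s.card = 2 → lam D s = 21 :=
    lam_down hD.1 (by norm_num) (by rw [hα]) l3
  have l1 : ∀ s : Finset α, s.card = 1 → lam D s = 77 :=
    lam_down hD.1 (by norm_num) (by rw [hα]) l2
  have l0 : ∀ s : Finset α, s.card = 0 → lam D s = 253 :=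
    lam_down hD.1 (by norm_num) (by rw [hα]) l1
  have cx := hD.1 x hx
  have m0 := moment l0 x
  have m1 := moment l1 x
  have m2 := moment l2 x
  have m3 := moment l3 x
  have hle : ∀ y ∈ D, y ≠ x → (y ∩ x).card ≤ 3 := by
    intro y hy hne
    by_contra hc
    exact hne (eq_of_le_inter hD hy hx (by omega))
  have := sum_compare hx (fun i => 4 * i.choose 2 + 3 * i.choose 0)
    (fun i => 6 * i.choose 3 + 3 * i.choose 1) (by
    simp only [Finset.sum_add_distrib, ← Finset.mul_sum, m0, m1, m2, m3, cx]
    norm_num [Nat.choose]) (by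
    intro y hy hne
    have h2 := hle y hy hne
    show 6 * (y ∩ x).card.choose 3 + 3 * (y ∩ x).card.choose 1 ≤ 4 * (y ∩ x).card.choose 2 + 3 * (y ∩ x).card.choose 0
    interval_cases (y ∩ x).card <;> norm_num [Nat.choose]) hy hne
  have h2 := hle y hy hne
  revert this
  interval_cases (y ∩ x).card <;> norm_num [Nat.choose]

end S423

section S524

variable {D : Set (Finset α)} (hα : Fintype.card α = 24) (hD : IsSteinerSystem 5 8 D)
include hα hD

theorem inter_even_524 {x y : Finset α} (hx : x ∈ D) (hy : y ∈ D) : Even (y ∩ x).card := by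
  by_cases hne : y = x
  · rw [hne, Finset.inter_self, hD.1 x hx]; decide
  have l4 := lam4 hα hD
  have l3 := lam3 hα hD
  have l2 := lam2 hα hD
  have l1 := lam1 hα hD
  have cx := hD.1 x hx
  have m1 := moment l1 x
  have m2 := moment l2 x
  have m3 := moment l3 x
  have m4 := moment l4 x
  have hle : ∀ y ∈ D, y ≠ x → (y ∩ x).card ≤ 4 := by
    intro y hy hne
    by_contra hc
    exact hne (eq_of_le_inter hD hy hx (by omega))
  have := sum_compare hx (fun i => 12 * i.choose 3 + 3 * i.choose 1)
    (fun i => 24 * i.choose 4 + 6 * i.choose 2) (by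
    simp only [Finset.sum_add_distrib, ← Finset.mul_sum, m1, m2, m3, m4, cx]
    norm_num [Nat.choose]) (by
    intro y hy hne
    have h2 := hle y hy hne
    show 24 * (y ∩ x).card.choose 4 + 6 * (y ∩ x).card.choose 2 ≤ 12 * (y ∩ x).card.choose 3 + 3 * (y ∩ x).card.choose 1
    interval_cases (y ∩ x).card <;> norm_num [Nat.choose]) hy hne
  have h2 := hle y hy hne
  revert this
  interval_cases (y ∩ x).card <;> norm_num [Nat.choose]

end S524

end Cfsg.Agent.H02.Stn
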