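import Cfsg.Agent.Lib.H02.Gol3
import Cfsg.Agent.Lib.H02.Stn1

/-!
The code is self dual; octads through one or two points span enough.
-/

set_option autoImplicit false

namespace Cfsg.Agent.H02.Stn

open Cfsg Cfsg.Agent.H27.Golay Cfsg.Agent.H02.Gol

/-- Indicator word. -/
def chi (w : Finset GolayPt) : GolayPt → ZMod 2 := fun p => if p ∈ w then 1 else 0

theorem dot_chi (v w : Finset GolayPt) : ∑ i, chi v i * chi w i = ((v ∩ w).card : ZMod 2) := by
  have h : ∀ i, chi v i * chi w i = if i ∈ v ∩ w then 1 else 0 := by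
    intro i
    simp only [chi, Finset.mem_inter]
    by_cases h1 : i ∈ v <;> by_cases h2 : i ∈ w <;> simp [h1, h2]
  simp only [h]
  rw [Finset.sum_ite_mem]
  simp

theorem support_chi (w : Finset GolayPt) : support₂ (chi w) = w := by
  ext p
  simp only [support₂, chi, Finset.mem_filter, Finset.mem_univ, true_and]
  by_cases h : p ∈ w <;> simp [h]

theorem chi_support (c : GolayPt → ZMod 2) : chi (support₂ c) = c := by
  funext p
  simp only [support₂, chi, Finset.mem_filter, Finset.mem_univ, true_and]
  by_cases h : c p ≠ 0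
  · rw [if_pos h, zmod2_eq _ h]
  · rw [if_neg h]
    push Not at h
    exact h.symm

theorem chi_fs (m : ℕ) : chi (fs m) = wd m := by
  rw [← support_wd, chi_support]

theorem chi_mem {o : Finset GolayPt} (ho : o ∈ octads) : chi o ∈ golayCode := by
  obtain ⟨⟨c, hc, rfl⟩, -⟩ := ho
  rw [chi_support]
  exact hc

theorem mem_octads_of_chi {w : Finset GolayPt} (h : chi w ∈ golayCode) (h8 : w.card = 8) : w ∈ octads :=
  ⟨⟨chi w, h, support_chi w⟩, h8⟩

theorem octad_inter_even {o o' : Finset GolayPt} (ho : o ∈ octads) (ho' : o' ∈ octads) :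
    Even (o ∩ o').card := by
  have h := golay_self_orth _ _ (chi_mem ho) (chi_mem ho')
  rw [dot_chi] at h
  exact (ZMod.natCast_eq_zero_iff_even).mp h

theorem golay_selfDual {x : GolayPt → ZMod 2} (hx : ∀ c ∈ golayCode, ∑ i, c i * x i = 0) :
    x ∈ golayCode := by
  let B : LinearMap.BilinForm (ZMod 2) (GolayPt → ZMod 2) := Matrix.toBilin' 1
  have hB : ∀ a b, B a b = ∑ i, a i * b i := by
    intro a b
    simp [B, Matrix.toBilin'_apply', dotProduct]
  have hnd : B.Nondegenerate := by
    apply Matrix.Nondegenerate.toBilin'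
    apply Matrix.nondegenerate_of_det_ne_zero
    simp
  have hfin := LinearMap.BilinForm.finrank_orthogonal hnd golayCode
  have hV : Module.finrank (ZMod 2) (GolayPt → ZMod 2) = 24 := by
    rw [Module.finrank_fintype_fun_eq_card]
    rfl
  rw [hV, golay_finrank] at hfin
  have hle : golayCode ≤ B.orthogonal golayCode := by
    intro c hc
    rw [LinearMap.BilinForm.mem_orthogonal_iff]
    intro d hd
    change B d c = 0
    rw [hB]
    exact golay_self_orth d c hd hc
  have heq : golayCode = B.orthogonal golayCode := by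
    apply Submodule.eq_of_le_of_finrank_eq hle
    rw [golay_finrank, hfin]
  rw [heq, LinearMap.BilinForm.mem_orthogonal_iff]
  intro d hd
  change B d x = 0
  rw [hB]
  exact hx d hd

/-- Orthogonal to a generating list means being in the code. -/
theorem mem_of_list (L E : List ℕ) (hL : basisL = E.map (cwAux L)) (w : Finset GolayPt)
    (h : ∀ m ∈ L, Even (fs m ∩ w).card) : chi w ∈ golayCode := by
  apply golay_selfDual
  have h1 : ∀ m ∈ L, wd m ∈ dotKer (chi w) := by
    intro m hm
    show ∑ i, wd m i * chi w i = 0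
    rw [← chi_fs, dot_chi]
    exact (ZMod.natCast_eq_zero_iff_even).mpr (h m hm)
  have h2 : ∀ b ∈ basisL, wd b ∈ dotKer (chi w) := by
    intro b hb
    rw [hL, List.mem_map] at hb
    obtain ⟨c, -, rfl⟩ := hb
    exact wd_cwAux_mem _ L h1 c
  intro c hc
  obtain ⟨d, -, rfl⟩ := exists_cwF_of_mem hc
  exact wd_cwAux_mem _ basisL h2 d

/-- The distinguished point. -/
def q0 : GolayPt := pt 23
/-- The second distinguished point. -/
def p0 : GolayPt := pt 0

theorem p0_ne_q0 : p0 ≠ q0 := by decide

def qL : List ℕ := [12594948, 8490656, 9178690, 11669008, 8412681, 8654232, 8592704, 9456930, 10513600, 9968772, 9440193, 10491778]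
def qE : List ℕ := [3909, 643, 3323, 553, 3444, 3512, 4091, 198, 390, 833, 2178, 1727]
def pqL : List ℕ := [69395, 8412681, 11046145, 12717187, 8391797, 9776129, 9440193, 10496547, 12880401, 12650793, 8546577, 8783649]
def pqE : List ℕ := [2562, 646, 1883, 1286, 1959, 1185, 1133, 686, 36, 1316, 931, 2433]
/-- The octad with `p` and without `q`. -/
def m00 : ℕ := 69395
def pqL' : List ℕ := [8412681, 11046145, 12717187, 8391797, 9776129, 9440193, 10496547, 12880401, 12650793, 8546577, 8783649]

theorem qL_spec : basisL = qE.map (cwAux qL) := by decide +kernel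
theorem pqL_spec : basisL = pqE.map (cwAux pqL) := by decide +kernel
theorem pqL_cons : pqL = m00 :: pqL' := rfl
theorem qL_oct : ∀ m ∈ qL, m ∈ octadL ∧ m.testBit 23 = true := by decide +kernel
theorem pqL'_oct : ∀ m ∈ pqL', m ∈ octadL ∧ m.testBit 23 = true ∧ m.testBit 0 = true := by decide +kernel
theorem m00_oct : m00 ∈ octadL ∧ m00.testBit 23 = false ∧ m00.testBit 0 = true := by decide +kernel

/-- Orthogonal to the octads through `q0` means being in the code. -/
theorem mem_of_orth_q (w : Finset GolayPt) (h : ∀ o ∈ octads, q0 ∈ o → Even (o ∩ w).card) :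
    chi w ∈ golayCode := by
  apply mem_of_list qL qE qL_spec
  intro m hm
  obtain ⟨h1, h2⟩ := qL_oct m hm
  apply h _ (fs_mem_octads h1)
  rw [mem_fs]
  exact h2

theorem card_inter_insert_mem {Y o : Finset GolayPt} {a : GolayPt} (ha : a ∉ Y) (hao : a ∈ o) :
    (o ∩ insert a Y).card = (o ∩ Y).card + 1 := by
  rw [Finset.inter_insert_of_mem hao, Finset.card_insert_of_notMem]
  intro h
  exact ha (Finset.mem_inter.mp h).2

theorem card_inter_insert_not_mem {Y o : Finset GolayPt} {a : GolayPt} (hao : a ∉ o) :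
    (o ∩ insert a Y).card = (o ∩ Y).card := by
  rw [Finset.inter_insert_of_notMem hao]

/-- Orthogonal to the octads through `p0,q0`: dichotomy. -/
theorem mem_of_orth_pq (Y : Finset GolayPt) (hp : p0 ∉ Y) (hq : q0 ∉ Y)
    (h : ∀ o ∈ octads, p0 ∈ o → q0 ∈ o → Even (o ∩ insert q0 Y).card) :
    chi (insert q0 Y) ∈ golayCode ∨ chi (insert p0 Y) ∈ golayCode := by
  have hm1 : ∀ m ∈ pqL', Even (fs m ∩ insert q0 Y).card := by
    intro m hm
    obtain ⟨h1, h2, h3⟩ := pqL'_oct m hm
    exact h _ (fs_mem_octads h1) (mem_fs.mpr h3) (mem_fs.mpr h2)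
  have hm2 : ∀ m ∈ pqL', Even (fs m ∩ insert p0 Y).card := by
    intro m hm
    have h1 := hm1 m hm
    obtain ⟨-, h2, h3⟩ := pqL'_oct m hm
    rw [card_inter_insert_mem hq (mem_fs.mpr h2)] at h1
    rw [card_inter_insert_mem hp (mem_fs.mpr h3)]
    exact h1
  have hp0 : p0 ∈ fs m00 := mem_fs.mpr m00_oct.2.2
  have hq0 : q0 ∉ fs m00 := by
    rw [mem_fs]
    intro h'
    have := m00_oct.2.1
    have h'' : m00.testBit 23 = true := h'
    rw [this] at h''
    cases h''
  by_cases hpar : Even (fs m00 ∩ Y).card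
  · left
    apply mem_of_list pqL pqE pqL_spec
    intro m hm
    rw [pqL_cons, List.mem_cons] at hm
    rcases hm with rfl | hm
    · rw [card_inter_insert_not_mem hq0]
      exact hpar
    · exact hm1 m hm
  · right
    apply mem_of_list pqL pqE pqL_spec
    intro m hm
    rw [pqL_cons, List.mem_cons] at hm
    rcases hm with rfl | hm
    · rw [card_inter_insert_mem hp hp0]
      rw [Nat.not_even_iff_odd] at hpar
      exact hpar.add_one
    · exact hm2 m hm

end Cfsg.Agent.H02.Stn
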