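import Cfsg.Agent.Lib.H26.Leech
import Cfsg.Agent.Lib.H02.Stn2

/-!
Invariance of the lattice under coordinate permutations and sign changes.
-/

set_option autoImplicit false

namespace Cfsg.Agent.H02.LeechA

open Cfsg Cfsg.Agent.H27.Golay Cfsg.Agent.H26.GolayMod Cfsg.Agent.H26.Leech

theorem perm_mem (σ : Equiv.Perm GolayPt) (hσ : σ ∈ M24) (x : GolayPt → ℤ) (hx : x ∈ leechLattice) :
    (fun i => x (σ i)) ∈ leechLattice := by
  rw [mem_leechLattice_iff, mem_leechSet_iff] at hx ⊢
  obtain ⟨m, h1, h2, h3⟩ := hx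
  refine ⟨m, fun i => h1 _, ?_, ?_⟩
  · rw [Equiv.sum_comp σ x]
    exact h2
  · have : hi (fun i => x (σ i)) = pw σ⁻¹ (hi x) := by
      funext p
      simp [pw, hi]
    rw [this]
    exact pw_mem_code (M24.inv_mem hσ) h3

/-- The integer lift of the high bit. -/
def hiN (a : ℤ) : ℤ := if a % 4 = 2 ∨ a % 4 = 3 then 1 else 0

theorem residue (a m : ℤ) (h : a ≡ m [ZMOD 2]) : a ≡ m % 2 + 2 * hiN a [ZMOD 4] := by
  have h' : a % 2 = m % 2 := h
  unfold Int.ModEq hiN
  have h1 : a % 4 = 0 ∨ a % 4 = 1 ∨ a % 4 = 2 ∨ a % 4 = 3 := by omega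
  rcases h1 with h1 | h1 | h1 | h1
  · rw [if_neg (by omega)]
    omega
  · rw [if_neg (by omega)]
    omega
  · rw [if_pos (by omega)]
    omega
  · rw [if_pos (by omega)]
    omega

theorem sum_hiN (c : Finset GolayPt) (x : GolayPt → ℤ) :
    ∑ i ∈ c, hiN (x i) = ((c ∩ support₂ (hi x)).card : ℤ) := by
  have h1 : c ∩ support₂ (hi x) = c.filter (fun i => x i % 4 = 2 ∨ x i % 4 = 3) := by
    ext i
    rw [Finset.mem_inter, mem_support_hi, Finset.mem_filter]
  rw [h1, Finset.card_filter]
  push_cast
  rfl

theorem sum_on_code {c : Finset GolayPt} (hc : c ∈ supports (golayCode : Set (GolayPt → ZMod 2)))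
    {x : GolayPt → ℤ} {m : ℤ} (h1 : ∀ i, x i ≡ m [ZMOD 2]) (h3 : hi x ∈ golayCode) :
    ∑ i ∈ c, x i ≡ 0 [ZMOD 4] := by
  obtain ⟨w, hw, rfl⟩ := hc
  have hw4 : (4 : ℤ) ∣ ((support₂ w).card : ℤ) := by
    have hc : hammingNorm w = (support₂ w).card := rfl
    rcases Gol.golay_weights w hw with h | h | h | h | h <;> rw [← hc, h] <;> norm_num
  have hev : Even (support₂ w ∩ support₂ (hi x)).card := by
    have h := Gol.golay_self_orth _ _ (show Stn.chi (support₂ w) ∈ golayCode by rw [Stn.chi_support]; exact hw)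
      (show Stn.chi (support₂ (hi x)) ∈ golayCode by rw [Stn.chi_support]; exact h3)
    rw [Stn.dot_chi] at h
    exact (ZMod.natCast_eq_zero_iff_even).mp h
  have hstep : ∑ i ∈ support₂ w, x i ≡ ∑ i ∈ support₂ w, (m % 2 + 2 * hiN (x i)) [ZMOD 4] := by
    unfold Int.ModEq
    rw [Finset.sum_int_mod (support₂ w) 4 x]
    conv_rhs => rw [Finset.sum_int_mod]
    congr 1
    apply Finset.sum_congr rfl
    intro i _
    exact residue (x i) m (h1 i)
  refine hstep.trans ?_
  rw [Finset.sum_add_distrib, ← Finset.mul_sum, sum_hiN, Finset.sum_const, nsmul_eq_mul]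
  obtain ⟨k, hk⟩ := hw4
  obtain ⟨l, hl⟩ := hev
  rw [hk, hl]
  unfold Int.ModEq
  push_cast
  have : k * 4 = 4 * k := by ring
  ring_nf
  omega

theorem sign_mem (c : Finset GolayPt) (hc : c ∈ supports (golayCode : Set (GolayPt → ZMod 2)))
    (x : GolayPt → ℤ) (hx : x ∈ leechLattice) :
    (fun i => if i ∈ c then -x i else x i) ∈ leechLattice := by
  rw [mem_leechLattice_iff, mem_leechSet_iff] at hx ⊢
  obtain ⟨m, h1, h2, h3⟩ := hx
  refine ⟨m, ?_, ?_, ?_⟩
  · intro i
    by_cases hi' : i ∈ c
    · simp only [hi', if_true]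
      have := h1 i
      unfold Int.ModEq at this ⊢
      omega
    · simp only [hi', if_false]
      exact h1 i
  · have hs : ∑ i, (if i ∈ c then -x i else x i) = ∑ i, x i - 2 * ∑ i ∈ c, x i := by
      have e : ∀ i, (if i ∈ c then -x i else x i) = x i - 2 * (if i ∈ c then x i else 0) := by
        intro i
        by_cases hi' : i ∈ c <;> simp [hi'] <;> ring
      simp only [e]
      rw [Finset.sum_sub_distrib, ← Finset.mul_sum, Finset.sum_ite_mem]
      simp
    rw [hs]
    have h4 := sum_on_code hc h1 h3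
    unfold Int.ModEq at h2 h4 ⊢
    omega
  · -- the high word changes by a multiple of the word `c`
    obtain ⟨w, hw, rfl⟩ := id hc
    by_cases hm : m % 2 = 1
    · have : hi (fun i => if i ∈ support₂ w then -x i else x i) = hi x + w := by
        funext i
        have hodd : x i % 2 = 1 := by
          have := h1 i
          unfold Int.ModEq at this
          omega
        by_cases hi' : i ∈ support₂ w
        · have hw1 : w i = 1 := by
            have : w i ≠ 0 := by simpa [support₂] using hi'
            have h2 : ∀ a : ZMod 2, a ≠ 0 → a = 1 := by decide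
            exact h2 _ this
          simp only [hi, hi', if_true, Pi.add_apply, hiZ_neg, hodd, hw1]
        · have hw0 : w i = 0 := by
            by_contra hne
            exact hi' (by simpa [support₂] using hne)
          simp [hi, hi', hw0]
      rw [this]
      exact golayCode.add_mem h3 hw
    · have : hi (fun i => if i ∈ support₂ w then -x i else x i) = hi x := by
        funext i
        have hev : ¬ x i % 2 = 1 := by
          have := h1 i
          unfold Int.ModEq at this
          omega
        by_cases hi' : i ∈ support₂ w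
        · simp only [hi, hi', if_true, hiZ_neg, hev, if_false, add_zero]
        · simp [hi, hi']
      rw [this]
      exact h3

end Cfsg.Agent.H02.LeechA
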