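import Cfsg.Agent.Lib.H26.Leech
import Cfsg.Agent.Lib.H02.Gol1
import Cfsg.Prelude.Def_Spor_Conway

/-!
The index of the Leech lattice in the integer lattice.
-/

set_option autoImplicit false

namespace Cfsg.Agent.H02.LeechB

open Cfsg Cfsg.Agent.H27.Golay Cfsg.Agent.H26.Leech

/-- Reduction modulo two. -/
def red : (GolayPt → ℤ) →+ (GolayPt → ZMod 2) where
  toFun := fun y i => (y i : ZMod 2)
  map_zero' := by
    funext i
    simp
  map_add' := by
    intro a b
    funext i
    simp

theorem red_apply (y : GolayPt → ℤ) (i : GolayPt) : red y i = (y i : ZMod 2) := rfl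

theorem red_surj : Function.Surjective red := by
  intro w
  refine ⟨fun i => ((w i).val : ℤ), ?_⟩
  funext i
  rw [red_apply]
  simp

theorem card_words : Nat.card (GolayPt → ZMod 2) = 2 ^ 24 := by
  rw [Nat.card_eq_fintype_card]
  simp [ZMod.card]

theorem card_code : Nat.card golayCode = 2 ^ 12 := by
  have h3 : Nat.card golayCode = Nat.card (ZMod 2) ^ Module.finrank (ZMod 2) golayCode :=
    Module.natCard_eq_pow_finrank
  rw [h3, Gol.golay_finrank, Nat.card_eq_fintype_card, ZMod.card]

/-- The words in the code, pulled back. -/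
def M1 : AddSubgroup (GolayPt → ℤ) := golayCode.toAddSubgroup.comap red

theorem mem_M1 {y : GolayPt → ℤ} : y ∈ M1 ↔ red y ∈ golayCode := Iff.rfl

theorem index_M1 : M1.index = 2 ^ 12 := by
  unfold M1
  rw [AddSubgroup.index_comap_of_surjective _ red_surj]
  have h := AddSubgroup.card_mul_index golayCode.toAddSubgroup
  have h2 : Nat.card golayCode.toAddSubgroup = 2 ^ 12 := card_code
  rw [h2, card_words] at h
  omega

/-- The coordinate sum modulo four. -/
def sum4 : (GolayPt → ℤ) →+ ZMod 4 where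
  toFun := fun y => ((∑ i, y i : ℤ) : ZMod 4)
  map_zero' := by simp
  map_add' := by
    intro a b
    simp [Finset.sum_add_distrib]

theorem sum4_apply (y : GolayPt → ℤ) : sum4 y = ((∑ i, y i : ℤ) : ZMod 4) := rfl

def M : AddSubgroup (GolayPt → ℤ) := M1 ⊓ sum4.ker

theorem mem_M {y : GolayPt → ℤ} : y ∈ M ↔ red y ∈ golayCode ∧ (∑ i, y i) % 4 = 0 := by
  unfold M
  rw [AddSubgroup.mem_inf, AddMonoidHom.mem_ker, sum4_apply, mem_M1]
  have : ((∑ i, y i : ℤ) : ZMod 4) = 0 ↔ (∑ i, y i) % 4 = 0 := by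
    rw [ZMod.intCast_zmod_eq_zero_iff_dvd]
    omega
  rw [this]

/-- The coordinate sum of a vector whose reduction is in the code is even. -/
theorem sum_even_of_code {y : GolayPt → ℤ} (h : red y ∈ golayCode) : (∑ i, y i) % 2 = 0 := by
  have h1 : ((∑ i, y i : ℤ) : ZMod 2) = (Finset.univ.filter (fun i => red y i ≠ 0)).card := by
    rw [Int.cast_sum, ← Finset.sum_boole]
    apply Finset.sum_congr rfl
    intro i _
    rw [← red_apply]
    have : ∀ a : ZMod 2, a = if a ≠ 0 then 1 else 0 := by decide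
    exact this _
  have h2 := Gol.golay_weights _ h
  have h3 : hammingNorm (red y) = (Finset.univ.filter (fun i => red y i ≠ 0)).card := rfl
  rw [← h3] at h1
  have h4 : ((hammingNorm (red y) : ℕ) : ZMod 2) = 0 := by
    rcases h2 with h2 | h2 | h2 | h2 | h2 <;> rw [h2] <;> decide
  rw [h4, ZMod.intCast_zmod_eq_zero_iff_dvd] at h1
  omega

/-- A vector with a single nonzero entry. -/
def e2 : GolayPt → ℤ := fun i => if i = none then 2 else 0

theorem red_e2 : red e2 = 0 := by
  funext i
  rw [red_apply]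
  unfold e2
  rw [Pi.zero_apply]
  split_ifs <;> decide

theorem sum_e2 : ∑ i, e2 i = 2 := by decide

theorem relIndex_M : M.relIndex M1 = 2 := by
  unfold AddSubgroup.relIndex
  rw [AddSubgroup.index_eq_two_iff]
  have he : e2 ∈ M1 := by
    rw [mem_M1, red_e2]
    exact golayCode.zero_mem
  refine ⟨⟨e2, he⟩, fun b => ?_⟩
  rw [AddSubgroup.mem_addSubgroupOf, AddSubgroup.mem_addSubgroupOf]
  have hb : red b.1 ∈ golayCode := b.2
  have h2 := sum_even_of_code hb
  have h3 : ((b + ⟨e2, he⟩ : M1) : GolayPt → ℤ) = b.1 + e2 := rfl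
  rw [h3, mem_M, mem_M, map_add, red_e2, add_zero]
  have h4 : ∑ i, (b.1 + e2) i = ∑ i, b.1 i + 2 := by
    rw [← sum_e2, ← Finset.sum_add_distrib]
    rfl
  rw [h4]
  have : (∑ i, b.1 i) % 4 = 0 ∨ (∑ i, b.1 i) % 4 = 2 := by omega
  rcases this with h | h
  · right
    refine ⟨⟨hb, h⟩, fun h5 => ?_⟩
    omega
  · left
    refine ⟨⟨hb, by omega⟩, fun h5 => ?_⟩
    omega

theorem index_M : M.index = 2 ^ 13 := by
  have hle : M ≤ M1 := inf_le_left
  rw [← AddSubgroup.relIndex_mul_index hle, relIndex_M, index_M1]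
  norm_num

/-- Doubling. -/
def dbl : (GolayPt → ℤ) →+ (GolayPt → ℤ) where
  toFun := fun y i => 2 * y i
  map_zero' := by
    funext i
    simp
  map_add' := by
    intro a b
    funext i
    simp [mul_add]

theorem dbl_apply (y : GolayPt → ℤ) (i : GolayPt) : dbl y i = 2 * y i := rfl

theorem ker_dbl : dbl.ker = ⊥ := by
  rw [eq_bot_iff]
  intro y hy
  rw [AddMonoidHom.mem_ker] at hy
  rw [AddSubgroup.mem_bot]
  funext i
  have := congrFun hy i
  rw [dbl_apply] at this
  simpa using this

theorem range_dbl : dbl.range = red.ker := by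
  ext x
  rw [AddMonoidHom.mem_range, AddMonoidHom.mem_ker]
  constructor
  · rintro ⟨y, rfl⟩
    funext i
    rw [red_apply, dbl_apply]
    simp only [Int.cast_mul, Int.cast_ofNat, Pi.zero_apply]
    have : ((2 : ℤ) : ZMod 2) = 0 := by decide
    rw [show ((2 : ZMod 2)) = 0 from by decide, zero_mul]
  · intro h
    refine ⟨fun i => x i / 2, ?_⟩
    funext i
    rw [dbl_apply]
    have h1 := congrFun h i
    rw [red_apply] at h1
    have h2 := (ZMod.intCast_zmod_eq_zero_iff_dvd _ 2).mp h1
    simp only [Nat.cast_ofNat] at h2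
    omega

theorem index_range_dbl : dbl.range.index = 2 ^ 24 := by
  rw [range_dbl, AddSubgroup.index_ker, AddMonoidHom.range_eq_top.mpr red_surj]
  rw [Nat.card_congr AddSubgroup.topEquiv.toEquiv, card_words]

/-- The even vectors of the lattice. -/
def L0 : AddSubgroup (GolayPt → ℤ) := M.map dbl

theorem index_L0 : L0.index = 2 ^ 37 := by
  unfold L0
  rw [AddSubgroup.index_map, ker_dbl, sup_bot_eq, index_M, index_range_dbl]
  norm_num

theorem hi_dbl (y : GolayPt → ℤ) : hi (dbl y) = red y := by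
  funext i
  show hiZ (2 * y i) = (y i : ZMod 2)
  unfold hiZ
  rcases Int.emod_two_eq_zero_or_one (y i) with h | h
  · have h1 : (y i : ZMod 2) = 0 := by
      rw [ZMod.intCast_zmod_eq_zero_iff_dvd]
      push_cast
      omega
    rw [h1, if_neg]
    omega
  · have h1 : (y i : ZMod 2) = 1 := by
      have h2 : ((y i - 1 : ℤ) : ZMod 2) = 0 := by
        rw [ZMod.intCast_zmod_eq_zero_iff_dvd]
        push_cast
        omega
      push_cast at h2
      exact sub_eq_zero.mp h2
    rw [h1, if_pos]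
    omega

theorem sum_dbl (y : GolayPt → ℤ) : ∑ i, dbl y i = 2 * ∑ i, y i := by
  rw [Finset.mul_sum]
  rfl

theorem mem_L0 {x : GolayPt → ℤ} : x ∈ L0 ↔ x ∈ leechLattice ∧ ∀ i, x i % 2 = 0 := by
  rw [mem_leechLattice_iff]
  constructor
  · rintro ⟨y, hy, rfl⟩
    rw [SetLike.mem_coe, mem_M] at hy
    obtain ⟨h1, h2⟩ := hy
    refine ⟨?_, fun i => ?_⟩
    · rw [mem_leechSet_iff]
      refine ⟨0, fun i => ?_, ?_, ?_⟩
      · show (dbl y i) % 2 = 0 % 2
        rw [dbl_apply]
        omega
      · show (∑ i, dbl y i) % 8 = (4 * 0) % 8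
        rw [sum_dbl]
        omega
      · rw [hi_dbl]
        exact h1
    · rw [dbl_apply]
      omega
  · rintro ⟨h1, h2⟩
    have hx : x = dbl (fun i => x i / 2) := by
      funext i
      rw [dbl_apply]
      have := h2 i
      omega
    refine ⟨fun i => x i / 2, ?_, hx.symm⟩
    rw [SetLike.mem_coe, mem_M]
    rw [hx] at h1
    rcases even_or_odd h1 with ⟨-, h3, h4⟩ | ⟨h3, -, -⟩
    · rw [hi_dbl] at h4
      rw [sum_dbl] at h3
      exact ⟨h4, by omega⟩
    · exfalso
      have := h3 none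
      rw [dbl_apply] at this
      omega

theorem L0_le : L0 ≤ leechLattice := fun _ h => (mem_L0.mp h).1

theorem relIndex_L0 : L0.relIndex leechLattice = 2 := by
  unfold AddSubgroup.relIndex
  rw [AddSubgroup.index_eq_two_iff]
  have hU : Spor.vecV ∈ leechLattice := mem_leechLattice_iff.mpr Spor.vecV_mem_leechSet
  have hUo : ∀ i, Spor.vecV i % 2 = 1 := by decide
  refine ⟨⟨Spor.vecV, hU⟩, fun b => ?_⟩
  rw [AddSubgroup.mem_addSubgroupOf, AddSubgroup.mem_addSubgroupOf]
  have h3 : ((b + ⟨Spor.vecV, hU⟩ : leechLattice) : GolayPt → ℤ) = b.1 + Spor.vecV := rfl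
  rw [h3, mem_L0, mem_L0]
  have hb := mem_leechLattice_iff.mp b.2
  have hadd : b.1 + Spor.vecV ∈ leechLattice := leechLattice.add_mem b.2 hU
  rcases even_or_odd hb with ⟨h, -, -⟩ | ⟨h, -, -⟩
  · right
    refine ⟨⟨b.2, h⟩, fun h5 => ?_⟩
    have h6 := h5.2 none
    have h7 := h none
    have h8 := hUo none
    rw [Pi.add_apply] at h6
    omega
  · left
    refine ⟨⟨hadd, fun i => ?_⟩, fun h5 => ?_⟩
    · have h7 := h i
      have h8 := hUo i
      rw [Pi.add_apply]
      omega
    · have h6 := h5.2 none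
      have h7 := h none
      omega

theorem index_leech : leechLattice.index = 2 ^ 36 := by
  have h := AddSubgroup.relIndex_mul_index L0_le
  rw [relIndex_L0, index_L0] at h
  omega

end Cfsg.Agent.H02.LeechB
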