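import Mathlib
import Cfsg.Agent.Lib.H02.MinAb
import Cfsg.Agent.Lib.H19.Basic
import Cfsg.Agent.Lib.H01.Coprime4
import Cfsg.Agent.Lib.H02.SolvI

set_option autoImplicit false

namespace Cfsg.Agent.H02

universe u

open Cfsg
open scoped Pointwise

theorem mem_normal_sylow_of_pow {G : Type u} [Group G] [Finite G] {q : ℕ} [Fact q.Prime] (Q : Sylow q G)
    (hQ : (Q : Subgroup G).Normal) {x : G} {j : ℕ} (hx : orderOf x = q ^ j) : x ∈ (Q : Subgroup G) := by
  have h1 : IsPGroup q (Subgroup.zpowers x) := by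
    rw [IsPGroup.iff_card, Nat.card_zpowers, hx]
    exact ⟨j, rfl⟩
  obtain ⟨T, hT⟩ := h1.exists_le_sylow
  haveI := Sylow.unique_of_normal Q hQ |>.instSubsingleton
  rw [Subsingleton.elim T Q] at hT
  exact hT (Subgroup.mem_zpowers x)

theorem min_nonnil_quot {G : Type u} [Group G] [Finite G] (hG : IsMinimalNonNilpotent G) (q : ℕ) [hqf : Fact q.Prime]
    (hq : q ∣ Nat.card G) (Q : Sylow q G) (hQ : (Q : Subgroup G).Normal) (D : Subgroup G) [hDn : D.Normal]
    (hD : D = (commutator ↥(Q : Subgroup G)).map (Q : Subgroup G).subtype) :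
    ¬ IsMulCommutative (G ⧸ D) ∧ ∀ K : Subgroup (G ⧸ D), K ≠ ⊤ → IsMulCommutative K := by
  classical
  obtain ⟨p, q', hp, hq', hne, P, Q', hc, hn, ht, hnc⟩ := schmidt hG
  have hd2 : Disjoint (P : Subgroup G) (Q' : Subgroup G) :=
    IsPGroup.disjoint_of_ne p q' hne _ _ P.isPGroup' Q'.isPGroup'
  have hcard := Cfsg.Agent.H01.card_sup_mul_card_inf (P : Subgroup G) (Q' : Subgroup G)
  rw [ht, hd2.eq_bot, Subgroup.card_bot, mul_one, Subgroup.card_top, Sylow.card_eq_multiplicity P,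
    Sylow.card_eq_multiplicity Q'] at hcard
  have hqq : q = q' := by
    by_contra hqq
    have h1 : q ∣ p ^ (Nat.card G).factorization p * q' ^ (Nat.card G).factorization q' := hcard ▸ hq
    rcases (Nat.Prime.dvd_mul hqf.out).mp h1 with h2 | h2
    · have h3 : q = p := (Nat.prime_dvd_prime_iff_eq hqf.out hp.out).mp (hqf.out.dvd_of_dvd_pow h2)
      subst h3
      haveI := Sylow.unique_of_normal Q hQ |>.instSubsingleton
      have hPQ : P = Q := Subsingleton.elim _ _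
      subst hPQ
      apply hnc
      intro x hx y hy
      exact (Subgroup.commute_of_normal_of_disjoint _ _ hQ hn hd2 x y hx hy)
    · exact hqq ((Nat.prime_dvd_prime_iff_eq hqf.out hq'.out).mp (hqf.out.dvd_of_dvd_pow h2))
  subst hqq
  have hQQ' : Q' = Q := by
    haveI := Sylow.unique_of_normal Q hQ |>.instSubsingleton
    exact Subsingleton.elim _ _
  subst hQQ'
  have hcopPQ : (Nat.card P).Coprime (Nat.card Q') := by
    rw [Sylow.card_eq_multiplicity P, Sylow.card_eq_multiplicity Q']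
    exact Nat.coprime_pow_primes _ _ hp.out hq'.out hne
  constructor
  · -- non-commutative
    intro hcomm
    apply hnc
    have hQnil : Group.IsNilpotent (Q' : Subgroup G) := Q'.isPGroup'.isNilpotent
    have hle : D ≤ (frattini ↥(Q' : Subgroup G)).map (Q' : Subgroup G).subtype := by
      rw [hD]
      exact Subgroup.map_mono commutator_le_frattini_of_nilpotent
    have hcent : (P : Subgroup G) ≤ Subgroup.centralizer (Q' : Set G) := by
      apply Cfsg.Agent.H01.centralizes_of_trivial_on_frattini_quotient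
      · rw [Subgroup.normalizer_eq_top_iff.mpr hn]
        exact le_top
      · exact Nat.Coprime.coprime_dvd_right (Subgroup.card_subgroup_dvd_card _) hcopPQ
      · intro a _ k _
        apply hle
        have h1 : ((a * k * a⁻¹ : G) : G ⧸ D) = (k : G ⧸ D) := by
          have : (a : G ⧸ D) * k * (a : G ⧸ D)⁻¹ = k := by
            rw [hcomm.is_comm.comm (a : G ⧸ D) k]
            group
          simpa using this
        have h2 : (a * k * a⁻¹ : G)⁻¹ * k ∈ D := QuotientGroup.eq.mp h1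
        have h3 := D.inv_mem h2
        rw [mul_inv_rev, inv_inv] at h3
        have h4 : a * k * a⁻¹ * k⁻¹ = k * (k⁻¹ * (a * k * a⁻¹)) * k⁻¹ := by group
        rw [h4]
        exact hDn.conj_mem _ h3 k
    intro x hx y hy
    exact ((Subgroup.mem_centralizer_iff.mp (hcent hx) y hy)).symm
  · intro K hK
    set L := K.comap (QuotientGroup.mk' D) with hL
    have hLne : L ≠ ⊤ := by
      intro h
      apply hK
      rw [eq_top_iff]
      intro y _
      obtain ⟨x, rfl⟩ := QuotientGroup.mk'_surjective D y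
      have : x ∈ L := by rw [h]; trivial
      exact this
    have hLnil := hG.2 L hLne
    -- key: all `p`-elements of `L` commute
    have hpcomm : ∀ a ∈ L, ∀ b ∈ L, ∀ i j : ℕ, orderOf a = p ^ i → orderOf b = p ^ j → a * b = b * a := by
      intro a ha b hb i j hi hj
      obtain ⟨R⟩ : Nonempty (Sylow p L) := inferInstance
      have hRn : (R : Subgroup L).Normal := by
        have hT := (Group.isNilpotent_of_finite_tfae (G := L)).out 0 3
        exact hT.mp hLnil p inferInstance R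
      have ha' : (⟨a, ha⟩ : L) ∈ (R : Subgroup L) :=
        mem_normal_sylow_of_pow R hRn (j := i) (by rw [Subgroup.orderOf_mk, hi])
      have hb' : (⟨b, hb⟩ : L) ∈ (R : Subgroup L) :=
        mem_normal_sylow_of_pow R hRn (j := j) (by rw [Subgroup.orderOf_mk, hj])
      obtain ⟨T, hT⟩ := (R.isPGroup'.map L.subtype).exists_le_sylow
      obtain ⟨g, rfl⟩ := MulAction.exists_smul_eq G P T
      have hmem : ∀ (c : G) (hcL : c ∈ L), (⟨c, hcL⟩ : L) ∈ (R : Subgroup L) → g⁻¹ * c * g ∈ (P : Subgroup G) := by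
        intro c hcL hcR
        have h1 : c ∈ ((g • P : Sylow p G) : Subgroup G) := hT ⟨_, hcR, rfl⟩
        rw [Sylow.coe_subgroup_smul, Subgroup.mem_pointwise_smul_iff_inv_smul_mem, MulAut.smul_def,
          MulAut.conj_inv_apply] at h1
        exact h1
      have h1 := hmem a ha ha'
      have h2 := hmem b hb hb'
      haveI : IsMulCommutative ↥(P : Subgroup G) := hc.commutative
      have h3 := mul_comm' (⟨_, h1⟩ : ↥(P : Subgroup G)) ⟨_, h2⟩
      have h4 : (g⁻¹ * a * g) * (g⁻¹ * b * g) = (g⁻¹ * b * g) * (g⁻¹ * a * g) := congrArg Subtype.val h3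
      have h5 : g⁻¹ * (a * b) * g = g⁻¹ * (b * a) * g := by
        calc g⁻¹ * (a * b) * g = (g⁻¹ * a * g) * (g⁻¹ * b * g) := by group
          _ = (g⁻¹ * b * g) * (g⁻¹ * a * g) := h4
          _ = g⁻¹ * (b * a) * g := by group
      exact mul_left_cancel (mul_right_cancel h5)
    -- decomposition
    have hdec : ∀ a ∈ L, ∃ a₁ a₂ : G, a = a₁ * a₂ ∧ a₁ ∈ L ∧ a₂ ∈ L ∧ Commute a₁ a₂ ∧ (∃ i, orderOf a₁ = p ^ i) ∧
        a₂ ∈ (Q' : Subgroup G) ∧ (orderOf a₁).Coprime (orderOf a₂) := by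
      intro a ha
      obtain ⟨a₁, a₂, hab, hcm, ⟨i, hi⟩, hcop, h1, h2⟩ := Cfsg.Agent.H19.exists_primary_decomp p a
      have hzp : Subgroup.zpowers a ≤ L := by
        rw [Subgroup.zpowers_le]
        exact ha
      have h3 : orderOf a₂ ∣ q ^ (Nat.card G).factorization q := by
        have h4 : orderOf a₂ ∣ p ^ (Nat.card G).factorization p * q ^ (Nat.card G).factorization q :=
          hcard ▸ orderOf_dvd_natCard a₂
        exact Nat.Coprime.dvd_of_dvd_mul_left (Nat.Coprime.pow_right _ hcop) h4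
      obtain ⟨j, -, hj⟩ := (Nat.dvd_prime_pow hqf.out).mp h3
      refine ⟨a₁, a₂, hab, hzp h1, hzp h2, hcm, ⟨i, hi⟩, mem_normal_sylow_of_pow Q' hQ hj, ?_⟩
      rw [hi, hj]
      exact Nat.coprime_pow_primes _ _ hp.out hq'.out hne
    refine ⟨⟨fun a b => ?_⟩⟩
    obtain ⟨a, ha⟩ := a
    obtain ⟨b, hb⟩ := b
    apply Subtype.ext
    change a * b = b * a
    obtain ⟨a, rfl⟩ := QuotientGroup.mk'_surjective D a
    obtain ⟨b, rfl⟩ := QuotientGroup.mk'_surjective D b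
    have haL : a ∈ L := ha
    have hbL : b ∈ L := hb
    obtain ⟨a₁, a₂, rfl, ha₁, ha₂, hca, ⟨i, hi⟩, ha₂Q, hcopa⟩ := hdec a haL
    obtain ⟨b₁, b₂, rfl, hb₁, hb₂, hcb, ⟨j, hj⟩, hb₂Q, hcopb⟩ := hdec b hbL
    have hordQ : ∀ c ∈ (Q' : Subgroup G), ∃ l, orderOf c = q ^ l := by
      intro c hc
      obtain ⟨l, hl⟩ := (IsPGroup.iff_orderOf.mp Q'.isPGroup') ⟨c, hc⟩
      exact ⟨l, by rwa [Subgroup.orderOf_mk] at hl⟩
    obtain ⟨l₂, hl₂⟩ := hordQ a₂ ha₂Q
    obtain ⟨m₂, hm₂⟩ := hordQ b₂ hb₂Q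
    have hpq : ∀ s t : ℕ, (p ^ s).Coprime (q ^ t) := fun s t => Nat.coprime_pow_primes _ _ hp.out hq'.out hne
    have h_a₁b₂ : a₁ * b₂ = b₂ * a₁ := comm_of_mem_nilpotent hLnil ha₁ hb₂ (by rw [hi, hm₂]; exact hpq _ _)
    have h_b₁a₂ : b₁ * a₂ = a₂ * b₁ := comm_of_mem_nilpotent hLnil hb₁ ha₂ (by rw [hj, hl₂]; exact hpq _ _)
    have h_a₁b₁ : a₁ * b₁ = b₁ * a₁ := hpcomm a₁ ha₁ b₁ hb₁ i j hi hj
    have hcm2 : (a₁ * a₂ * (b₁ * b₂))⁻¹ * (b₁ * b₂ * (a₁ * a₂)) = b₂⁻¹ * a₂⁻¹ * b₂ * a₂ := by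
      have e1 : a₁ * a₂ * (b₁ * b₂) = a₁ * b₁ * (a₂ * b₂) := by
        calc a₁ * a₂ * (b₁ * b₂) = a₁ * (a₂ * b₁) * b₂ := by group
          _ = a₁ * (b₁ * a₂) * b₂ := by rw [h_b₁a₂]
          _ = a₁ * b₁ * (a₂ * b₂) := by group
      have e2 : b₁ * b₂ * (a₁ * a₂) = a₁ * b₁ * (b₂ * a₂) := by
        calc b₁ * b₂ * (a₁ * a₂) = b₁ * (b₂ * a₁) * a₂ := by group
          _ = b₁ * (a₁ * b₂) * a₂ := by rw [h_a₁b₂]
          _ = (b₁ * a₁) * (b₂ * a₂) := by group
          _ = a₁ * b₁ * (b₂ * a₂) := by rw [h_a₁b₁]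
      rw [e1, e2]
      group
    have hmemD : b₂⁻¹ * a₂⁻¹ * b₂ * a₂ ∈ D := by
      rw [hD]
      have hx : ((⟨b₂⁻¹, Subgroup.inv_mem _ hb₂Q⟩ : (Q' : Subgroup G)) * ⟨a₂⁻¹, Subgroup.inv_mem _ ha₂Q⟩ *
          (⟨b₂⁻¹, Subgroup.inv_mem _ hb₂Q⟩ : (Q' : Subgroup G))⁻¹ * (⟨a₂⁻¹, Subgroup.inv_mem _ ha₂Q⟩ : (Q' : Subgroup G))⁻¹) ∈
          commutator ↥(Q' : Subgroup G) :=
        Subgroup.commutator_mem_commutator (Subgroup.mem_top _) (Subgroup.mem_top _)
      refine ⟨_, hx, ?_⟩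
      simp
    have : QuotientGroup.mk' D (a₁ * a₂) * QuotientGroup.mk' D (b₁ * b₂) =
        QuotientGroup.mk' D (b₁ * b₂) * QuotientGroup.mk' D (a₁ * a₂) := by
      rw [← map_mul, ← map_mul]
      apply QuotientGroup.eq.mpr
      rw [hcm2]
      exact hmemD
    exact this

end Cfsg.Agent.H02
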