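import Cfsg.Prelude.Def_Classical

/-!
In characteristic two the odd orthogonal group is the symplectic group.
-/

set_option autoImplicit false

namespace Cfsg.Agent.H02.OSp

open Matrix MatrixGroups Cfsg

variable {F : Type*} [Field F] [CharP F 2] {m : ℕ}


/-- The form on the complement of the radical. -/
def P (w : Fin m ⊕ Fin m → F) : F := ∑ i : Fin m, w (.inl i) * w (.inr i)

/-- The polar form. -/
def om (u v : Fin m ⊕ Fin m → F) : F := ∑ i : Fin m, (u (.inl i) * v (.inr i) + u (.inr i) * v (.inl i))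

theorem P_add (u v : (Fin m ⊕ Fin m) → F) : P (u + v) = P u + P v + om u v := by
  simp only [P, om, Pi.add_apply, ← Finset.sum_add_distrib]
  apply Finset.sum_congr rfl
  intro i _
  ring

theorem P_smul (c : F) (u : (Fin m ⊕ Fin m) → F) : P (c • u) = c ^ 2 * P u := by
  simp only [P, Pi.smul_apply, smul_eq_mul, Finset.mul_sum]
  apply Finset.sum_congr rfl
  intro i _
  ring

theorem Q_apply (v : (Unit ⊕ (Fin m ⊕ Fin m)) → F) : quadFormOdd m F v = v (.inl ()) ^ 2 + P (fun k => v (.inr k)) := rfl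

theorem add_self' (x : F) : x + x = 0 := CharTwo.add_self_eq_zero x

theorem om_eq (u v : (Fin m ⊕ Fin m) → F) : om u v = u ⬝ᵥ (J (Fin m) F *ᵥ v) := by
  simp only [om, dotProduct, Fintype.sum_sum_type, J, Matrix.fromBlocks_mulVec, Sum.elim_inl, Sum.elim_inr]
  simp only [Matrix.zero_mulVec, zero_add, add_zero, Matrix.neg_mulVec, Matrix.one_mulVec, Pi.neg_apply, Function.comp]
  rw [← Finset.sum_add_distrib]
  apply Finset.sum_congr rfl
  intro i _
  rw [CharTwo.neg_eq]

theorem ext_dot {M N : Matrix (Fin m ⊕ Fin m) (Fin m ⊕ Fin m) F} (h : ∀ x y : (Fin m ⊕ Fin m) → F, x ⬝ᵥ (M *ᵥ y) = x ⬝ᵥ (N *ᵥ y)) : M = N := by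
  ext i j
  have := h (Pi.single i 1) (Pi.single j 1)
  simpa using this

/-- Preservation of the polar form, in matrix terms. -/
theorem sp_of_om {A : Matrix (Fin m ⊕ Fin m) (Fin m ⊕ Fin m) F} (h : ∀ x y : (Fin m ⊕ Fin m) → F, om (A *ᵥ x) (A *ᵥ y) = om x y) :
    A ∈ symplecticGroup (Fin m) F := by
  have h1 : Aᵀ * J (Fin m) F * A = J (Fin m) F := by
    apply ext_dot
    intro x y
    have := h x y
    rw [om_eq, om_eq] at this
    rw [← this, ← Matrix.mulVec_mulVec, ← Matrix.mulVec_mulVec, Matrix.dotProduct_mulVec, Matrix.vecMul_transpose]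
  have h2 : Aᵀ ∈ symplecticGroup (Fin m) F := by
    rw [SymplecticGroup.mem_iff, Matrix.transpose_transpose]
    exact h1
  have h3 := SymplecticGroup.transpose_mem h2
  rwa [Matrix.transpose_transpose] at h3

theorem om_of_sp {A : Matrix (Fin m ⊕ Fin m) (Fin m ⊕ Fin m) F} (hA : A ∈ symplecticGroup (Fin m) F) (x y : (Fin m ⊕ Fin m) → F) :
    om (A *ᵥ x) (A *ᵥ y) = om x y := by
  have h2 := SymplecticGroup.transpose_mem hA
  rw [SymplecticGroup.mem_iff, Matrix.transpose_transpose] at h2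
  have key : x ⬝ᵥ ((Aᵀ * J (Fin m) F * A) *ᵥ y) = (A *ᵥ x) ⬝ᵥ (J (Fin m) F *ᵥ (A *ᵥ y)) := by
    rw [← Matrix.mulVec_mulVec, ← Matrix.mulVec_mulVec, Matrix.dotProduct_mulVec, Matrix.vecMul_transpose]
  rw [om_eq, om_eq, ← key, h2]

/-- Vectors with a given head and tail. -/
def vec (a : F) (w : (Fin m ⊕ Fin m) → F) : (Unit ⊕ (Fin m ⊕ Fin m)) → F := Sum.elim (fun _ => a) w

/-- The column shape of the isometries. -/
structure Shape (g : Matrix (Unit ⊕ (Fin m ⊕ Fin m)) (Unit ⊕ (Fin m ⊕ Fin m)) F) : Prop where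
  one : g (.inl ()) (.inl ()) = 1
  zero : ∀ k : (Fin m ⊕ Fin m), g (.inr k) (.inl ()) = 0

/-- The head of an image. -/
theorem mulVec_inl (g : Matrix (Unit ⊕ (Fin m ⊕ Fin m)) (Unit ⊕ (Fin m ⊕ Fin m)) F) (a : F) (w : (Fin m ⊕ Fin m) → F) :
    (g *ᵥ vec a w) (.inl ()) = g (.inl ()) (.inl ()) * a + ∑ k, g (.inl ()) (.inr k) * w k := by
  simp [Matrix.mulVec, dotProduct, Fintype.sum_sum_type, vec]

/-- The tail of an image. -/
theorem mulVec_inr (g : Matrix (Unit ⊕ (Fin m ⊕ Fin m)) (Unit ⊕ (Fin m ⊕ Fin m)) F) (a : F) (w : (Fin m ⊕ Fin m) → F) (k : (Fin m ⊕ Fin m)) :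
    (g *ᵥ vec a w) (.inr k) = g (.inr k) (.inl ()) * a + ∑ l, g (.inr k) (.inr l) * w l := by
  simp [Matrix.mulVec, dotProduct, Fintype.sum_sum_type, vec]

/-- The lower right block. -/
def D (g : Matrix (Unit ⊕ (Fin m ⊕ Fin m)) (Unit ⊕ (Fin m ⊕ Fin m)) F) : Matrix (Fin m ⊕ Fin m) (Fin m ⊕ Fin m) F := Matrix.of fun k l => g (.inr k) (.inr l)

theorem tail_eq {g : Matrix (Unit ⊕ (Fin m ⊕ Fin m)) (Unit ⊕ (Fin m ⊕ Fin m)) F} (hg : Shape g) (a : F) (w : (Fin m ⊕ Fin m) → F) :
    (fun k => (g *ᵥ vec a w) (.inr k)) = D g *ᵥ w := by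
  funext k
  rw [mulVec_inr, hg.zero, zero_mul, zero_add]
  rfl

theorem Q_vec (a : F) (w : (Fin m ⊕ Fin m) → F) : quadFormOdd m F (vec a w) = a ^ 2 + P w := rfl

theorem vec_eta (v : (Unit ⊕ (Fin m ⊕ Fin m)) → F) : v = vec (v (.inl ())) (fun k => v (.inr k)) := by
  funext x
  rcases x with x | x
  · rfl
  · rfl

theorem vec_add (a b : F) (u v : (Fin m ⊕ Fin m) → F) : vec a u + vec b v = vec (a + b) (u + v) := by
  funext x
  rcases x with x | x <;> rfl

/-- The polar identity on the whole space. -/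
theorem Q_add (u v : (Unit ⊕ (Fin m ⊕ Fin m)) → F) : quadFormOdd m F (u + v) = quadFormOdd m F u + quadFormOdd m F v +
    om (fun k => u (.inr k)) (fun k => v (.inr k)) := by
  rw [Q_apply, Q_apply, Q_apply]
  have h1 : (fun k => (u + v) (.inr k)) = (fun k => u (.inr k)) + (fun k => v (.inr k)) := rfl
  rw [h1, P_add, Pi.add_apply, CharTwo.add_sq]
  ring

section iso

variable {g : GL (Unit ⊕ (Fin m ⊕ Fin m)) F} (hg : g ∈ isometryGroup F (quadFormOdd m F))
include hg

theorem Q_of_mem (v : (Unit ⊕ (Fin m ⊕ Fin m)) → F) : quadFormOdd m F (g.val *ᵥ v) = quadFormOdd m F v := hg v v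

theorem om_of_mem (u v : (Unit ⊕ (Fin m ⊕ Fin m)) → F) : om (fun k => (g.val *ᵥ u) (.inr k)) (fun k => (g.val *ᵥ v) (.inr k)) =
    om (fun k => u (.inr k)) (fun k => v (.inr k)) := by
  have h1 := Q_of_mem hg (u + v)
  rw [Matrix.mulVec_add, Q_add, Q_add, Q_of_mem hg, Q_of_mem hg] at h1
  exact add_left_cancel h1

theorem shape_of_mem : Shape g.val := by
  let e : (Unit ⊕ (Fin m ⊕ Fin m)) → F := vec 1 0
  -- the image of the first basis vector
  have hz : ∀ k, (g.val *ᵥ e) (.inr k) = 0 := by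
    have h0 : ∀ y : (Unit ⊕ (Fin m ⊕ Fin m)) → F, om (fun k => (g.val *ᵥ e) (.inr k)) (fun k => y (.inr k)) = 0 := by
      intro y
      have hy : y = g.val *ᵥ (g⁻¹.val *ᵥ y) := by
        rw [Matrix.mulVec_mulVec]
        simp
      rw [hy, om_of_mem hg]
      simp [om, e, vec]
    intro k
    rcases k with i | i
    · have := h0 (vec 0 (Pi.single (.inr i) 1))
      simp only [om, vec, Sum.elim_inr] at this
      rw [Finset.sum_eq_single i] at this
      · simpa using this
      · intro b _ hb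
        simp [hb]
      · simp
    · have := h0 (vec 0 (Pi.single (.inl i) 1))
      simp only [om, vec, Sum.elim_inr] at this
      rw [Finset.sum_eq_single i] at this
      · simpa using this
      · intro b _ hb
        simp [hb]
      · simp
  have hcol : ∀ x, (g.val *ᵥ e) x = g.val x (.inl ()) := by
    intro x
    simp [Matrix.mulVec, dotProduct, Fintype.sum_sum_type, e, vec]
  have h1 := Q_of_mem hg e
  have hP0 : P (fun k => (g.val *ᵥ e) (.inr k)) = 0 := by
    simp [P, hz]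
  rw [Q_apply, hP0, add_zero] at h1
  have h2 : quadFormOdd m F e = 1 := by
    simp [e, Q_vec, P]
  rw [h2] at h1
  refine ⟨?_, fun k => ?_⟩
  · rw [← hcol]
    have h3 : ((g.val *ᵥ e) (.inl ()) + 1) ^ 2 = 0 := by
      rw [CharTwo.add_sq, h1, one_pow, add_self']
    have h4 := pow_eq_zero_iff (two_ne_zero) |>.mp h3
    have h5 := add_self' (1 : F)
    have h6 : (g.val *ᵥ e) (.inl ()) + 1 = 1 + 1 := by rw [h4, h5]
    exact add_right_cancel h6
  · rw [← hcol]
    exact hz k

theorem D_mem : D g.val ∈ symplecticGroup (Fin m) F := by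
  apply sp_of_om
  intro x y
  have h := om_of_mem hg (vec 0 x) (vec 0 y)
  rw [tail_eq (shape_of_mem hg), tail_eq (shape_of_mem hg)] at h
  exact h

end iso

theorem D_mul {g h : Matrix (Unit ⊕ (Fin m ⊕ Fin m)) (Unit ⊕ (Fin m ⊕ Fin m)) F} (hg : Shape g) : D (g * h) = D g * D h := by
  ext k l
  simp [D, Matrix.mul_apply, Fintype.sum_sum_type, hg.zero]

theorem D_one : D (1 : Matrix (Unit ⊕ (Fin m ⊕ Fin m)) (Unit ⊕ (Fin m ⊕ Fin m)) F) = 1 := by
  ext k l
  by_cases h : k = l
  · subst h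
    simp [D]
  · simp [D, h]

/-- The isomorphism as a homomorphism. -/
noncomputable def phi (m : ℕ) (F : Type*) [Field F] [CharP F 2] :
    isometryGroup F (quadFormOdd m F) →* symplecticGroup (Fin m) F where
  toFun g := ⟨D g.1.val, D_mem g.2⟩
  map_one' := by
    apply Subtype.ext
    exact D_one
  map_mul' g h := by
    apply Subtype.ext
    exact D_mul (shape_of_mem g.2)

theorem phi_inj : Function.Injective (phi m F) := by
  rw [injective_iff_map_eq_one]
  rintro ⟨g, hg⟩ h1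
  have hD : D g.val = 1 := congrArg Subtype.val h1
  have hS := shape_of_mem hg
  apply Subtype.ext
  apply Units.ext
  -- the first row vanishes
  have hrow : ∀ l : (Fin m ⊕ Fin m), g.val (.inl ()) (.inr l) = 0 := by
    intro l
    have h2 := Q_of_mem hg (vec 0 (Pi.single l 1))
    rw [vec_eta (g.val *ᵥ vec 0 (Pi.single l 1)), Q_vec, Q_vec, tail_eq hS, hD, Matrix.one_mulVec, mulVec_inl] at h2
    have h3 := add_right_cancel (b := P (Pi.single l 1 : (Fin m ⊕ Fin m) → F)) (a := _) (c := (0 : F) ^ 2) h2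
    simp only [Pi.single_apply, mul_ite, mul_one, mul_zero, Finset.sum_ite_eq', Finset.mem_univ, if_true, add_zero, zero_add] at h3
    simpa using h3
  ext x y
  rcases x with x | x <;> rcases y with y | y
  · simpa using hS.one
  · simpa using hrow y
  · simpa using hS.zero x
  · have := congrFun (congrFun hD x) y
    have h4 : g.val (.inr x) (.inr y) = (1 : Matrix (Fin m ⊕ Fin m) (Fin m ⊕ Fin m) F) x y := this
    rw [h4]
    show _ = (1 : Matrix (Unit ⊕ (Fin m ⊕ Fin m)) (Unit ⊕ (Fin m ⊕ Fin m)) F) (.inr x) (.inr y)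
    simp only [Matrix.one_apply, Sum.inr.injEq]

section surj

variable [Fintype F]

theorem sq_exists (x : F) : ∃ y : F, y ^ 2 = x := by
  have h2 : ringChar F = 2 := ringChar.eq F 2
  obtain ⟨y, hy⟩ := FiniteField.isSquare_of_char_two h2 x
  exact ⟨y, by rw [hy, sq]⟩

/-- The defect function of a symplectic matrix. -/
def Rf (A : Matrix (Fin m ⊕ Fin m) (Fin m ⊕ Fin m) F) (w : (Fin m ⊕ Fin m) → F) : F := P w + P (A *ᵥ w)

theorem Rf_add {A : Matrix (Fin m ⊕ Fin m) (Fin m ⊕ Fin m) F} (hA : A ∈ symplecticGroup (Fin m) F) (x y : (Fin m ⊕ Fin m) → F) :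
    Rf A (x + y) = Rf A x + Rf A y := by
  simp only [Rf, Matrix.mulVec_add, P_add, om_of_sp hA]
  have := add_self' (om x y)
  linear_combination this

theorem Rf_smul (A : Matrix (Fin m ⊕ Fin m) (Fin m ⊕ Fin m) F) (c : F) (x : (Fin m ⊕ Fin m) → F) : Rf A (c • x) = c ^ 2 * Rf A x := by
  simp only [Rf, Matrix.mulVec_smul, P_smul]
  ring

theorem Rf_sum {A : Matrix (Fin m ⊕ Fin m) (Fin m ⊕ Fin m) F} (hA : A ∈ symplecticGroup (Fin m) F) (w : (Fin m ⊕ Fin m) → F) :
    Rf A w = ∑ k, w k ^ 2 * Rf A (Pi.single k 1) := by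
  have h0 : Rf A 0 = 0 := by
    have := Rf_smul A 0 0
    simpa using this
  have hs : ∀ s : Finset (Fin m ⊕ Fin m), Rf A (∑ k ∈ s, w k • (Pi.single k 1 : (Fin m ⊕ Fin m) → F)) =
      ∑ k ∈ s, w k ^ 2 * Rf A (Pi.single k 1) := by
    intro s
    induction s using Finset.induction_on with
    | empty => simpa using h0
    | insert a s ha ih =>
      rw [Finset.sum_insert ha, Finset.sum_insert ha, Rf_add hA, Rf_smul, ih]
  have hw : w = ∑ k, w k • (Pi.single k 1 : (Fin m ⊕ Fin m) → F) := by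
    funext x
    simp [Finset.sum_apply, Pi.single_apply]
  conv_lhs => rw [hw]
  exact hs _

theorem phi_surj : Function.Surjective (phi m F) := by
  rintro ⟨A, hA⟩
  -- the first row
  have hsq : ∀ k : (Fin m ⊕ Fin m), ∃ y : F, y ^ 2 = Rf A (Pi.single k 1) := fun k => sq_exists _
  choose L hL using hsq
  -- the inverse of `A`
  let A' : Matrix (Fin m ⊕ Fin m) (Fin m ⊕ Fin m) F := ((⟨A, hA⟩ : symplecticGroup (Fin m) F)⁻¹).1
  have hAA' : A * A' = 1 := congrArg Subtype.val (mul_inv_cancel (⟨A, hA⟩ : symplecticGroup (Fin m) F))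
  have hA'A : A' * A = 1 := congrArg Subtype.val (inv_mul_cancel (⟨A, hA⟩ : symplecticGroup (Fin m) F))
  let Lm : Matrix Unit (Fin m ⊕ Fin m) F := Matrix.of fun _ k => L k
  let g : GL (Unit ⊕ (Fin m ⊕ Fin m)) F :=
    { val := Matrix.fromBlocks 1 Lm 0 A
      inv := Matrix.fromBlocks 1 (-(Lm * A')) 0 A'
      val_inv := by
        rw [Matrix.fromBlocks_multiply]
        simp [Matrix.mul_neg, hAA', Matrix.fromBlocks_one]
      inv_val := by
        rw [Matrix.fromBlocks_multiply]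
        simp [Matrix.neg_mul, Matrix.mul_assoc, hA'A, Matrix.fromBlocks_one] }
  have hg : g ∈ isometryGroup F (quadFormOdd m F) := by
    intro v _
    show quadFormOdd m F (g.val *ᵥ v) = quadFormOdd m F v
    rw [vec_eta v]
    set a := v (.inl ())
    set w : (Fin m ⊕ Fin m) → F := fun k => v (.inr k)
    rw [vec_eta (g.val *ᵥ vec a w), Q_vec, Q_vec, mulVec_inl]
    have h1 : (fun k => (g.val *ᵥ vec a w) (.inr k)) = A *ᵥ w := by
      funext k
      rw [mulVec_inr]
      show 0 * a + _ = _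
      rw [zero_mul, zero_add]
      rfl
    rw [h1]
    have h2 : g.val (.inl ()) (.inl ()) = 1 := by
      show (1 : Matrix Unit Unit F) () () = 1
      simp
    have h3 : ∀ k, g.val (.inl ()) (.inr k) = L k := fun k => rfl
    simp only [h2, h3, one_mul]
    rw [CharTwo.add_sq, sum_pow_char 2]
    have h4 : ∑ k, (L k * w k) ^ 2 = P w + P (A *ᵥ w) := by
      have := Rf_sum hA w
      rw [Rf] at this
      rw [this]
      apply Finset.sum_congr rfl
      intro k _
      rw [← hL, mul_pow, mul_comm]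
    rw [h4]
    have := add_self' (P (A *ᵥ w))
    linear_combination this
  refine ⟨⟨g, hg⟩, ?_⟩
  apply Subtype.ext
  show D g.val = A
  ext k l
  rfl

end surj

theorem main [Fintype F] (m : ℕ) : Nonempty (isometryGroup F (quadFormOdd m F) ≃* symplecticGroup (Fin m) F) :=
  ⟨MulEquiv.ofBijective (phi m F) ⟨phi_inj, phi_surj⟩⟩

end Cfsg.Agent.H02.OSp
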