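import Mathlib
import Cfsg.Prelude.Def_Transfer
import Cfsg.Prelude.Def_PLocal
import Cfsg.Agent.Lib.H02.PLoc2
import Cfsg.Agent.Lib.H02.SolvA
import Cfsg.Agent.Lib.H01.Fitting

set_option autoImplicit false

namespace Cfsg.Agent.H02

universe u

open Cfsg
open scoped Pointwise commutatorElement

variable {G : Type u} [Group G] [Finite G]

theorem le_centralizer_of_gen {p : ℕ} [hpf : Fact p.Prime] (V D : Subgroup G) [hD : D.Normal]
    (hVgen : V ≤ ⨆ S : Sylow p G, V ⊓ Subgroup.centralizer ((S : Subgroup G) : Set G))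
    (hC : Subgroup.centralizer (V : Set G) ≤ D) (k : ℕ)
    (hk : (Subgroup.centralizer (V : Set G)).relIndex D = p ^ k) : D ≤ Subgroup.centralizer (V : Set G) := by
  have hVD : V ≤ Subgroup.centralizer (D : Set G) := by
    refine hVgen.trans (iSup_le ?_)
    intro S v hv
    obtain ⟨hvV, hvS⟩ := Subgroup.mem_inf.mp hv
    set L := Subgroup.centralizer ({v} : Set G) ⊓ D with hL
    have h1 : Subgroup.centralizer (V : Set G) ≤ L := by
      refine le_inf ?_ hC
      intro y hy
      rw [Subgroup.mem_centralizer_singleton_iff]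
      exact (Subgroup.mem_centralizer_iff.mp hy v hvV).symm
    have h2 : (S : Subgroup G) ⊓ D ≤ L := by
      intro y hy
      obtain ⟨hyS, hyD⟩ := Subgroup.mem_inf.mp hy
      refine Subgroup.mem_inf.mpr ⟨?_, hyD⟩
      rw [Subgroup.mem_centralizer_singleton_iff]
      exact Subgroup.mem_centralizer_iff.mp hvS y hyS
    have h3 : L.relIndex D ∣ p ^ k := hk ▸ Subgroup.relIndex_dvd_of_le_left D h1
    have h4 : L.relIndex D ∣ (S : Subgroup G).relIndex D := by
      have e := Subgroup.inf_relIndex_right (S : Subgroup G) D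
      rw [← e]
      exact Subgroup.relIndex_dvd_of_le_left D h2
    have h5 : ¬ p ∣ (S : Subgroup G).relIndex D := fun h =>
      S.not_dvd_index (h.trans (relIndex_normal_dvd_index _ D))
    obtain ⟨j, -, hj⟩ := (Nat.dvd_prime_pow hpf.out).mp h3
    have h6 : L.relIndex D = 1 := by
      rcases j with _ | j
      · simpa using hj
      · exfalso
        apply h5
        have : p ∣ L.relIndex D := by
          rw [hj]
          exact dvd_pow_self p (Nat.succ_ne_zero j)
        exact this.trans h4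
    rw [Subgroup.relIndex_eq_one] at h6
    rw [Subgroup.mem_centralizer_iff]
    intro x hx
    have h7 := (Subgroup.mem_inf.mp (h6 hx)).1
    rw [Subgroup.mem_centralizer_singleton_iff] at h7
    exact h7
  intro x hx
  rw [Subgroup.mem_centralizer_iff]
  intro v hv
  exact (Subgroup.mem_centralizer_iff.mp (hVD hv) x hx).symm

/-- S0600. -/
theorem pCore_quot_eq_bot {p : ℕ} [hpf : Fact p.Prime] (V : Subgroup G) [V.Normal]
    (hgen : V = ⨆ S : Sylow p G, V ⊓ Subgroup.centralizer ((S : Subgroup G) : Set G)) :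
    pCore p (G ⧸ Subgroup.centralizer (V : Set G)) = ⊥ := by
  set C := Subgroup.centralizer (V : Set G) with hC
  set O := pCore p (G ⧸ C) with hO
  haveI hOn : O.Normal := Cfsg.Agent.H01.pCore_normal p
  have hOp : IsPGroup p O := Cfsg.Agent.H01.pCore_isPGroup p
  let f := QuotientGroup.mk' C
  have hf : Function.Surjective f := QuotientGroup.mk'_surjective C
  let D := O.comap f
  haveI hDn : D.Normal := Subgroup.Normal.comap hOn f
  have hkerC : C = (⊥ : Subgroup (G ⧸ C)).comap f := by
    rw [MonoidHom.comap_bot, QuotientGroup.ker_mk']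
  have hCD : C ≤ D := by
    rw [hkerC]
    exact Subgroup.comap_mono bot_le
  obtain ⟨k, hk⟩ := IsPGroup.iff_card.mp hOp
  have hidx : C.relIndex D = p ^ k := by
    conv_lhs => rw [hkerC]
    rw [Subgroup.relIndex_comap, Subgroup.relIndex_bot_left, Subgroup.map_comap_eq_self_of_surjective hf, hk]
  have hle := le_centralizer_of_gen V D (hgen.le) hCD k hidx
  rw [eq_bot_iff]
  intro y hy
  obtain ⟨x, rfl⟩ := hf y
  have hx : x ∈ D := hy
  exact Subgroup.mem_bot.mpr ((QuotientGroup.eq_one_iff x).mpr (hle hx))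

/-- S0601 -/
theorem omega_center_package {p : ℕ} [hpf : Fact p.Prime]
    (hc : Subgroup.centralizer (pCore p G : Set G) ≤ pCore p G) :
    (⨆ S : Sylow p G, omegaOne p (((S : Subgroup G)) ⊓ Subgroup.centralizer ((S : Subgroup G) : Set G))).Normal ∧
    IsElementaryAbelian p (⨆ S : Sylow p G, omegaOne p (((S : Subgroup G)) ⊓ Subgroup.centralizer ((S : Subgroup G) : Set G))) ∧
    ∀ D : Subgroup G, D.Normal →
      Subgroup.centralizer ((⨆ S : Sylow p G, omegaOne p (((S : Subgroup G)) ⊓ Subgroup.centralizer ((S : Subgroup G) : Set G)) : Subgroup G) : Set G) ≤ D →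
      (∃ k : ℕ, (Subgroup.centralizer ((⨆ S : Sylow p G, omegaOne p (((S : Subgroup G)) ⊓ Subgroup.centralizer ((S : Subgroup G) : Set G)) : Subgroup G) : Set G)).relIndex D = p ^ k) →
      D = Subgroup.centralizer ((⨆ S : Sylow p G, omegaOne p (((S : Subgroup G)) ⊓ Subgroup.centralizer ((S : Subgroup G) : Set G)) : Subgroup G) : Set G) := by
  set W := fun S : Sylow p G => omegaOne p (((S : Subgroup G)) ⊓ Subgroup.centralizer ((S : Subgroup G) : Set G)) with hW
  set V := ⨆ S : Sylow p G, W S with hV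
  have hgenW : ∀ S : Sylow p G, W S = Subgroup.closure {x : G | x ∈ ((S : Subgroup G)) ⊓ Subgroup.centralizer ((S : Subgroup G) : Set G) ∧ x ^ p = 1} := fun S => rfl
  have hVn : V.Normal := by
    constructor
    intro x hx g
    have hle : V ≤ V.comap (MulAut.conj g).toMonoidHom := by
      apply iSup_le
      intro S
      rw [hgenW, Subgroup.closure_le]
      rintro y ⟨hy, hy'⟩
      obtain ⟨hyS, hyC⟩ := Subgroup.mem_inf.mp hy
      change g * y * g⁻¹ ∈ V
      refine Subgroup.mem_iSup_of_mem (g • S) ?_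
      rw [hgenW]
      apply Subgroup.subset_closure
      refine ⟨Subgroup.mem_inf.mpr ⟨?_, ?_⟩, ?_⟩
      · rw [Sylow.coe_subgroup_smul, Subgroup.mem_pointwise_smul_iff_inv_smul_mem, MulAut.smul_def,
          MulAut.conj_inv_apply]
        simpa [mul_assoc] using hyS
      · rw [Subgroup.mem_centralizer_iff]
        intro h hh
        have hh' : h ∈ ((g • S : Sylow p G) : Subgroup G) := hh
        rw [Sylow.coe_subgroup_smul, Subgroup.mem_pointwise_smul_iff_inv_smul_mem, MulAut.smul_def,
          MulAut.conj_inv_apply] at hh'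
        have h1 := Subgroup.mem_centralizer_iff.mp hyC _ hh'
        have h2 : g * (g⁻¹ * h * g * y) * g⁻¹ = h * (g * y * g⁻¹) := by group
        have h3 : g * (y * (g⁻¹ * h * g)) * g⁻¹ = g * y * g⁻¹ * h := by group
        rw [← h2, h1, h3]
      · rw [conj_pow, hy']
        simp
    exact hle hx
  -- the elementary abelian overgroup
  set Q := pCore p G with hQ
  have hmemX : ∀ S : Sylow p G, ∀ x, x ∈ ((S : Subgroup G)) ⊓ Subgroup.centralizer ((S : Subgroup G) : Set G) →
      x ∈ Q ∧ x ∈ Subgroup.centralizer (Q : Set G) := by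
    intro S x hx
    have hQS : Q ≤ S := Cfsg.Agent.H01.pCore_le_sylow p S
    have h1 : x ∈ Subgroup.centralizer (Q : Set G) :=
      Subgroup.centralizer_le hQS (Subgroup.mem_inf.mp hx).2
    exact ⟨hc h1, h1⟩
  have hVle : ∀ x ∈ V, x ∈ Q ∧ x ∈ Subgroup.centralizer (Q : Set G) ∧ x ^ p = 1 := by
    have hcommQ : ∀ a ∈ Q ⊓ Subgroup.centralizer (Q : Set G), ∀ b ∈ Q ⊓ Subgroup.centralizer (Q : Set G), a * b = b * a := by
      intro a ha b hb
      exact (Subgroup.mem_centralizer_iff.mp (Subgroup.mem_inf.mp hb).2 a (Subgroup.mem_inf.mp ha).1)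
    let X : Subgroup G :=
      { carrier := {x | x ∈ Q ⊓ Subgroup.centralizer (Q : Set G) ∧ x ^ p = 1}
        one_mem' := ⟨Subgroup.one_mem _, one_pow _⟩
        mul_mem' := by
          rintro a b ⟨ha, ha'⟩ ⟨hb, hb'⟩
          refine ⟨Subgroup.mul_mem _ ha hb, ?_⟩
          have : Commute a b := hcommQ a ha b hb
          rw [this.mul_pow, ha', hb', one_mul]
        inv_mem' := by
          rintro a ⟨ha, ha'⟩
          exact ⟨Subgroup.inv_mem _ ha, by rw [inv_pow, ha', inv_one]⟩ }
    have hle : V ≤ X := by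
      apply iSup_le
      intro S
      rw [hgenW, Subgroup.closure_le]
      rintro y ⟨hy, hy'⟩
      obtain ⟨h1, h2⟩ := hmemX S y hy
      exact ⟨Subgroup.mem_inf.mpr ⟨h1, h2⟩, hy'⟩
    intro x hx
    obtain ⟨h1, h2⟩ := hle hx
    exact ⟨(Subgroup.mem_inf.mp h1).1, (Subgroup.mem_inf.mp h1).2, h2⟩
  have hVea : IsElementaryAbelian p V := by
    refine ⟨⟨⟨fun a b => Subtype.ext ?_⟩⟩, fun a ha => (hVle a ha).2.2⟩
    exact (Subgroup.mem_centralizer_iff.mp (hVle b b.2).2.1 a (hVle a a.2).1)
  refine ⟨hVn, hVea, ?_⟩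
  intro D hDn hCD ⟨k, hk⟩
  apply le_antisymm _ hCD
  apply le_centralizer_of_gen V D _ hCD k hk
  apply iSup_mono
  intro S
  refine le_inf (le_iSup W S) ?_
  rw [hgenW, Subgroup.closure_le]
  rintro y ⟨hy, -⟩
  exact (Subgroup.mem_inf.mp hy).2

end Cfsg.Agent.H02
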