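import Mathlib

/-!
The quotient of `PGL_n(q)` by the image of `PSL_n(q)`.
-/

set_option autoImplicit false

namespace Cfsg.Agent.H02.PglQ

open Matrix MatrixGroups

variable {F : Type*} [Field F] [Fintype F]

/-- The quotient map of a cyclic group of order `N` onto `ZMod (gcd n N)` has the `n`-th powers as kernel. -/
theorem exists_theta (N n d : ℕ) (G : Type*) [CommGroup G] [Finite G] [IsCyclic G] (hN : Nat.card G = N) (hd : d = Nat.gcd n N) (hNpos : 0 < N) :
    ∃ θ : G →* Multiplicative (ZMod d), Function.Surjective θ ∧ (∀ u : G, θ (u ^ n) = 1) ∧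
      ∀ x : G, θ x = 1 → ∃ u : G, u ^ n = x := by
  subst hN
  have hcyc : IsCyclic G := inferInstance
  let e := zmodCyclicMulEquiv hcyc
  set N := Nat.card G with hNdef
  have hdN : d ∣ N := hd ▸ Nat.gcd_dvd_right _ _
  have hdn : d ∣ n := hd ▸ Nat.gcd_dvd_left _ _
  let κ : Multiplicative (ZMod N) →* Multiplicative (ZMod d) :=
    AddMonoidHom.toMultiplicative (ZMod.castHom hdN (ZMod d)).toAddMonoidHom
  refine ⟨κ.comp e.symm.toMonoidHom, ?_, ?_, ?_⟩
  · intro z
    have hsurj : Function.Surjective (ZMod.castHom hdN (ZMod d)) := ZMod.castHom_surjective hdN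
    obtain ⟨y, hy⟩ := hsurj (Multiplicative.toAdd z)
    refine ⟨e (Multiplicative.ofAdd y), ?_⟩
    show κ (e.symm (e (Multiplicative.ofAdd y))) = z
    rw [e.symm_apply_apply]
    exact congrArg Multiplicative.ofAdd hy
  · intro u
    rw [map_pow]
    obtain ⟨t, rfl⟩ := hdn
    rw [pow_mul]
    have : ∀ z : Multiplicative (ZMod d), z ^ d = 1 := by
      intro z
      show Multiplicative.ofAdd (d • Multiplicative.toAdd z) = 1
      rw [nsmul_eq_mul, ZMod.natCast_self, zero_mul]
      rfl
    rw [this, one_pow]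
  · intro x hx
    have hx0 : ZMod.castHom hdN (ZMod d) (Multiplicative.toAdd (e.symm x)) = 0 :=
      congrArg Multiplicative.toAdd hx
    -- write the element as a multiple of `d`
    haveI : NeZero N := ⟨hNpos.ne'⟩
    obtain ⟨k, hk⟩ : ∃ k : ℕ, (k : ZMod N) = Multiplicative.toAdd (e.symm x) :=
      ⟨_, ZMod.natCast_zmod_val _⟩
    rw [← hk, map_natCast, ZMod.natCast_eq_zero_iff] at hx0
    obtain ⟨t, rfl⟩ := hx0
    have hbez : ((d : ℕ) : ZMod N) = n * ((Nat.gcdA n N : ℤ) : ZMod N) := by
      have h1 := Nat.gcd_eq_gcd_ab n N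
      rw [← hd] at h1
      have h2 := congrArg (fun z : ℤ => (z : ZMod N)) h1
      simp only [Int.cast_add, Int.cast_mul, Int.cast_natCast, ZMod.natCast_self, zero_mul, add_zero] at h2
      exact h2
    refine ⟨e (Multiplicative.ofAdd (((Nat.gcdA n N : ℤ) : ZMod N) * t)), ?_⟩
    rw [← map_pow]
    apply e.symm.injective
    rw [e.symm_apply_apply]
    apply Multiplicative.toAdd.injective
    rw [← hk]
    show n • (((Nat.gcdA n N : ℤ) : ZMod N) * t) = _
    push_cast
    rw [hbez, nsmul_eq_mul]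
    ring

theorem pgl_quotient {q : ℕ} (hF : Fintype.card F = q) (n : ℕ) (hn : 1 ≤ n) :
    ∃ g : Matrix.ProjGenLinGroup (Fin n) F →* Multiplicative (ZMod (Nat.gcd n (q - 1))),
      Function.Surjective g ∧
      g.ker = (Matrix.ProjectiveSpecialLinearGroup.toPGL :
        Matrix.ProjectiveSpecialLinearGroup (Fin n) F →* Matrix.ProjGenLinGroup (Fin n) F).range := by
  classical
  have hcard : Nat.card Fˣ = q - 1 := by
    rw [Nat.card_eq_fintype_card, Fintype.card_units, hF]
  have hq : 0 < q - 1 := by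
    have h2 : 2 ≤ Fintype.card F := Fintype.one_lt_card
    omega
  obtain ⟨θ, hθs, hθp, hθk⟩ := exists_theta (q - 1) n (Nat.gcd n (q - 1)) Fˣ hcard rfl hq
  haveI : Nonempty (Fin n) := ⟨⟨0, hn⟩⟩
  let φ : GL (Fin n) F →* Multiplicative (ZMod (Nat.gcd n (q - 1))) := θ.comp Matrix.GeneralLinearGroup.det
  have hφ : Subgroup.center (GL (Fin n) F) ≤ φ.ker := by
    rw [Matrix.GeneralLinearGroup.center_eq_range_scalar]
    rintro _ ⟨u, rfl⟩
    rw [MonoidHom.mem_ker]
    show θ (Matrix.GeneralLinearGroup.det (Matrix.GeneralLinearGroup.scalar (Fin n) u)) = 1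
    rw [Matrix.GeneralLinearGroup.det_scalar, Fintype.card_fin, hθp]
  let g : Matrix.ProjGenLinGroup (Fin n) F →* Multiplicative (ZMod (Nat.gcd n (q - 1))) :=
    QuotientGroup.lift (Subgroup.center (GL (Fin n) F)) φ hφ
  have hg : ∀ A : GL (Fin n) F, g (Matrix.ProjGenLinGroup.mk A) = θ (Matrix.GeneralLinearGroup.det A) := fun A => rfl
  refine ⟨g, ?_, ?_⟩
  · intro z
    obtain ⟨x, rfl⟩ := hθs z
    obtain ⟨A, rfl⟩ := Matrix.GeneralLinearGroup.det_surjective (n := Fin n) x
    exact ⟨_, hg A⟩
  · ext p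
    induction p using Matrix.ProjGenLinGroup.induction_on with
    | mk A =>
      rw [MonoidHom.mem_ker, hg, MonoidHom.mem_range]
      constructor
      · intro h
        obtain ⟨u, hu⟩ := hθk _ h
        have hdet : Matrix.GeneralLinearGroup.det (A * Matrix.GeneralLinearGroup.scalar (Fin n) u⁻¹) = 1 := by
          rw [map_mul, Matrix.GeneralLinearGroup.det_scalar, Fintype.card_fin, ← hu, inv_pow]
          exact mul_inv_cancel _
        have hdet' : (A * Matrix.GeneralLinearGroup.scalar (Fin n) u⁻¹).val.det = 1 := by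
          have := congrArg Units.val hdet
          simpa using this
        let s : SpecialLinearGroup (Fin n) F := ⟨_, hdet'⟩
        have hs : SpecialLinearGroup.toGL s = A * Matrix.GeneralLinearGroup.scalar (Fin n) u⁻¹ := by
          apply Units.ext
          rfl
        refine ⟨QuotientGroup.mk s, ?_⟩
        rw [Matrix.ProjectiveSpecialLinearGroup.toPGL_mk, hs, Matrix.ProjGenLinGroup.mk_eq_mk_iff]
        refine ⟨u, ?_⟩
        rw [mul_assoc, ← map_mul, inv_mul_cancel, map_one, mul_one]
      · rintro ⟨x, hx⟩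
        induction x using QuotientGroup.induction_on with
        | H s =>
          rw [Matrix.ProjectiveSpecialLinearGroup.toPGL_mk, Matrix.ProjGenLinGroup.mk_eq_mk_iff] at hx
          obtain ⟨u, hu⟩ := hx
          have h1 : Matrix.GeneralLinearGroup.det (SpecialLinearGroup.toGL s) = 1 := by
            apply Units.ext
            exact s.2
          rw [← hu, map_mul, h1, one_mul, Matrix.GeneralLinearGroup.det_scalar, Fintype.card_fin, hθp]

end Cfsg.Agent.H02.PglQ
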