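import Mathlib
import Cfsg.Agent.Lib.H02.SolvC
import Cfsg.Agent.Lib.H09.Chain
import Cfsg.Agent.Lib.H06.Nilp
import Cfsg.Agent.Lib.H01.Basic

set_option autoImplicit false

namespace Cfsg.Agent.H02

universe u

theorem normalizer_inf_eq {G : Type*} [Group G] {U F : Subgroup G} (hU : IsCoatom U)
    (hcore : U.normalCore = ⊥) [hF : F.Normal] (hQ : U ⊓ F ≠ ⊥) :
    Subgroup.normalizer ((U ⊓ F : Subgroup G) : Set G) = U := by
  have hle : U ≤ Subgroup.normalizer ((U ⊓ F : Subgroup G) : Set G) := by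
    intro u hu
    rw [Subgroup.mem_normalizer_iff]
    intro x
    constructor
    · rintro ⟨hxU, hxF⟩
      exact ⟨U.mul_mem (U.mul_mem hu hxU) (U.inv_mem hu), hF.conj_mem x hxF u⟩
    · rintro ⟨hxU, hxF⟩
      refine ⟨?_, ?_⟩
      · have := U.mul_mem (U.mul_mem (U.inv_mem hu) hxU) hu
        simpa [mul_assoc] using this
      · have := hF.conj_mem _ hxF u⁻¹
        simpa [mul_assoc] using this
  rcases hU.le_iff.mp hle with h | h
  · exfalso
    apply hQ
    have hn : (U ⊓ F).Normal := Subgroup.normalizer_eq_top_iff.mp h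
    have h2 := Subgroup.normal_le_normalCore.mpr (inf_le_left : U ⊓ F ≤ U)
    rw [hcore] at h2
    exact le_bot_iff.mp h2
  · exact h

section

variable {G : Type u} [Group G] [Finite G]

theorem card_inf_of_complement {A F W : Subgroup G} [hA : A.Normal] (hAF : A ≤ F) (hAW : A ⊓ W = ⊥)
    (hsup : W ⊔ A = ⊤) : Nat.card (W ⊓ F : Subgroup G) * Nat.card A = Nat.card F := by
  have h1 : (W ⊓ F) ⊔ A = F := by
    apply le_antisymm (sup_le inf_le_right hAF)
    intro x hx
    obtain ⟨w, hw, a, ha, rfl⟩ := exists_mul_of_sup hsup x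
    apply Subgroup.mul_mem_sup _ ha
    refine ⟨hw, ?_⟩
    have := F.mul_mem hx (F.inv_mem (hAF ha))
    simpa using this
  have h2 : (W ⊓ F) ⊓ A = ⊥ := by
    rw [eq_bot_iff]
    rintro x ⟨⟨hxW, -⟩, hxA⟩
    have : x ∈ A ⊓ W := ⟨hxA, hxW⟩
    rwa [hAW] at this
  have h3 := Cfsg.Agent.H01.card_sup_mul_card_inf (W ⊓ F) A
  rw [h1, h2, Subgroup.card_bot, mul_one] at h3
  exact h3.symm

theorem coreFree_conj [Group.IsSolvable G] {U V : Subgroup G} (hU : IsCoatom U) (hV : IsCoatom V)
    (hUc : U.normalCore = ⊥) (hVc : V.normalCore = ⊥) :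
    ∃ g : G, U.map (MulAut.conj g).toMonoidHom = V := by
  have hnt : Nontrivial G := by
    by_contra h
    rw [not_nontrivial_iff_subsingleton] at h
    exact hU.1 (Subsingleton.elim _ _)
  obtain ⟨A, hAn, hA, hAmin⟩ := Cfsg.Agent.H01.exists_minimal_normal (G := G)
  haveI := hAn
  obtain ⟨hab, p, hp, hpow⟩ := Cfsg.Agent.H01.minimal_normal_elementary_abelian A hA hAmin
  have hAC : A ≤ Subgroup.centralizer (A : Set G) := by
    intro a ha
    rw [Subgroup.mem_centralizer_iff]
    intro b hb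
    exact congrArg Subtype.val (hab.is_comm.comm ⟨b, hb⟩ ⟨a, ha⟩)
  have hCA := coreFree_eq_centralizer hU hUc hA hA hAC
  have hAU : A ⊓ U = ⊥ := by
    have := coreFree_inf hU hUc hA
    rwa [← hCA] at this
  have hAV : A ⊓ V = ⊥ := by
    have := coreFree_inf hV hVc hA
    rwa [← coreFree_eq_centralizer hV hVc hA hA hAC] at this
  have hsupU := coreFree_sup hU hUc hA
  have hsupV := coreFree_sup hV hVc hA
  by_cases hAtop : A = ⊤
  · have hU0 : U = ⊥ := by rw [hAtop, top_inf_eq] at hAU; exact hAU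
    have hV0 : V = ⊥ := by rw [hAtop, top_inf_eq] at hAV; exact hAV
    refine ⟨1, ?_⟩
    rw [hU0, hV0]
    simp
  haveI hntq : Nontrivial (G ⧸ A) := by
    by_contra h
    rw [not_nontrivial_iff_subsingleton] at h
    exact hAtop (QuotientGroup.subgroup_eq_top_of_subsingleton A h)
  obtain ⟨Fb, hFbn, hFb, hFbmin⟩ := Cfsg.Agent.H01.exists_minimal_normal (G := G ⧸ A)
  haveI := hFbn
  obtain ⟨-, q, hq, hpowq⟩ := Cfsg.Agent.H01.minimal_normal_elementary_abelian Fb hFb hFbmin
  haveI : Fact q.Prime := ⟨hq⟩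
  haveI : Fact p.Prime := ⟨hp⟩
  set F := Fb.comap (QuotientGroup.mk' A) with hF
  haveI hFn : F.Normal := Subgroup.Normal.comap hFbn _
  have hAF : A ≤ F := by
    intro a ha
    change ((a : G ⧸ A)) ∈ Fb
    rw [(QuotientGroup.eq_one_iff a).mpr ha]
    exact Fb.one_mem
  have hFne : ¬ F ≤ A := by
    intro hle
    apply hFb
    rw [eq_bot_iff]
    intro x hx
    obtain ⟨g, rfl⟩ := QuotientGroup.mk'_surjective A x
    have : g ∈ F := hx
    rw [Subgroup.mem_bot]
    exact (QuotientGroup.eq_one_iff g).mpr (hle this)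
  have hcardF : Nat.card F = Nat.card Fb * Nat.card A := Cfsg.Agent.H01.card_comap_mk A Fb
  have hFbq : IsPGroup q Fb := by
    intro x
    refine ⟨1, ?_⟩
    apply Subtype.ext
    simpa using hpowq x.1 x.2
  have hApg : IsPGroup p A := by
    intro x
    refine ⟨1, ?_⟩
    apply Subtype.ext
    simpa using hpow x.1 x.2
  have hpq : p ≠ q := by
    rintro rfl
    have hFp : IsPGroup p F := by
      intro x
      refine ⟨2, ?_⟩
      apply Subtype.ext
      have h1 : (QuotientGroup.mk' A (x : G)) ∈ Fb := x.2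
      have h2 := hpowq _ h1
      rw [← map_pow] at h2
      have h3 : (x : G) ^ p ∈ A := (QuotientGroup.eq_one_iff _).mp h2
      have h4 := hpow _ h3
      rw [← pow_mul, ← pow_two] at h4
      simpa using h4
    haveI := hFp.isNilpotent
    have hne : A.subgroupOf F ≠ ⊥ := by
      intro h
      apply hA
      rw [eq_bot_iff]
      intro a ha
      have h1 : (⟨a, hAF ha⟩ : F) ∈ A.subgroupOf F := ha
      rw [h, Subgroup.mem_bot] at h1
      rw [Subgroup.mem_bot]
      exact congrArg Subtype.val h1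
    obtain ⟨y, hyA, hy1, hyZ⟩ := Cfsg.Agent.H06.exists_central_of_normal
      (N := A.subgroupOf F) inferInstance hne
    have hZn : (A ⊓ Subgroup.centralizer (F : Set G)).Normal := by
      haveI : (Subgroup.centralizer (F : Set G)).Normal := Subgroup.normal_centralizer
      infer_instance
    have hle : A ≤ Subgroup.centralizer (F : Set G) := by
      rcases hAmin _ hZn inf_le_left with h | h
      · exfalso
        have h1 : (y : G) ∈ A ⊓ Subgroup.centralizer (F : Set G) := by
          refine ⟨hyA, Subgroup.mem_centralizer_iff.mpr ?_⟩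
          intro z hz
          have := Subgroup.mem_center_iff.mp hyZ ⟨z, hz⟩
          exact congrArg Subtype.val this
        rw [h, Subgroup.mem_bot] at h1
        exact hy1 (Subtype.ext h1)
      · rw [← h]
        exact inf_le_right
    apply hFne
    have h2 : F ≤ Subgroup.centralizer (A : Set G) := Subgroup.le_centralizer_iff.mp hle
    rwa [← hCA] at h2
  obtain ⟨n, hn⟩ := IsPGroup.iff_card.mp hApg
  have hq_not : ¬ q ∣ Nat.card A := by
    rw [hn]
    intro h
    have := hq.dvd_of_dvd_pow h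
    exact hpq ((Nat.prime_dvd_prime_iff_eq hq hp).mp this).symm
  have hApos : 0 < Nat.card A := Nat.card_pos
  have hW : ∀ W : Subgroup G, A ⊓ W = ⊥ → W ⊔ A = ⊤ → IsPGroup q (W ⊓ F : Subgroup G) ∧
      ¬ q ∣ (W ⊓ F).relIndex F ∧ W ⊓ F ≠ ⊥ := by
    intro W hAW hsup
    have h1 := card_inf_of_complement hAF hAW hsup
    have h2 : Nat.card (W ⊓ F : Subgroup G) = Nat.card Fb := by
      apply Nat.eq_of_mul_eq_mul_right hApos
      rw [h1, hcardF]
    have h3 : (W ⊓ F).relIndex F = Nat.card A := by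
      have h4 := ((W ⊓ F).subgroupOf F).card_mul_index
      have h5 : Nat.card ((W ⊓ F).subgroupOf F) = Nat.card (W ⊓ F : Subgroup G) :=
        Nat.card_congr (Subgroup.subgroupOfEquivOfLe inf_le_right).toEquiv
      rw [h5, h2, hcardF] at h4
      have hFbpos : 0 < Nat.card Fb := Nat.card_pos
      exact Nat.eq_of_mul_eq_mul_left hFbpos h4
    obtain ⟨k, hk⟩ := IsPGroup.iff_card.mp hFbq
    refine ⟨IsPGroup.of_card (by rw [h2, hk]), by rw [h3]; exact hq_not, ?_⟩
    intro h
    apply hFb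
    have h6 : Nat.card Fb = 1 := by
      rw [← h2, h, Subgroup.card_bot]
    exact (Subgroup.eq_bot_of_card_eq Fb h6)
  obtain ⟨hU1, hU2, hU3⟩ := hW U hAU hsupU
  obtain ⟨hV1, hV2, hV3⟩ := hW V hAV hsupV
  obtain ⟨v, -, hv⟩ := Cfsg.Agent.H09.exists_conj_eq_of_sylows (p := q) inf_le_right hU1 hU2
    inf_le_right hV1 hV2
  refine ⟨v, ?_⟩
  have h1 := normalizer_inf_eq hU hUc hU3
  have h2 := normalizer_inf_eq hV hVc hV3
  have h3 := Cfsg.Agent.H09.normalizer_map_conj (U ⊓ F) v
  rw [hv, h1, h2] at h3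
  exact h3.symm

end

end Cfsg.Agent.H02
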