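import Mathlib
import Cfsg.Agent.Lib.H01.Solv2
import Cfsg.Agent.Lib.H01.Basic
import Cfsg.Agent.Lib.H02.SuperSolv3

set_option autoImplicit false

namespace Cfsg.Agent.H02

universe u

open scoped commutatorElement

section Fit

variable {G : Type*} [Group G] [Finite G] [Group.IsSolvable G]

theorem eq_refl_of_fix_fitting (σ : G ≃* G) (hσ : ∀ x ∈ Cfsg.fittingSubgroup G, σ x = x)
    (hcop : (orderOf σ).Coprime (Nat.card G)) : σ = MulEquiv.refl G := by
  have hFn : (Cfsg.fittingSubgroup G).Normal := Cfsg.Agent.H01.fitting_normal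
  ext g
  change σ g = g
  set y := g⁻¹ * σ g with hy
  have hyC : y ∈ Subgroup.centralizer (Cfsg.fittingSubgroup G : Set G) := by
    rw [Subgroup.mem_centralizer_iff]
    intro x hx
    have h1 : g * x * g⁻¹ ∈ Cfsg.fittingSubgroup G := hFn.conj_mem x hx g
    have h2 := hσ _ h1
    rw [map_mul, map_mul, map_inv, hσ x hx] at h2
    have h3 : σ g * x = g * x * g⁻¹ * σ g := by
      rw [← h2]; group
    rw [hy]
    calc x * (g⁻¹ * σ g) = g⁻¹ * (g * x * g⁻¹ * σ g) := by group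
      _ = g⁻¹ * σ g * x := by rw [← h3]; group
  have hyF : y ∈ Cfsg.fittingSubgroup G := Cfsg.Agent.H01.centralizer_fitting_le hyC
  have hyfix : σ y = y := hσ y hyF
  have hpow : ∀ n : ℕ, (σ ^ n) g = g * y ^ n := by
    intro n
    induction n with
    | zero => simp
    | succ n ih =>
      rw [pow_succ', MulAut.mul_apply, ih, map_mul, map_pow, hyfix, pow_succ', ← mul_assoc]
      congr 1
      rw [hy]; group
  have h1 : y ^ orderOf σ = 1 := by
    have := hpow (orderOf σ)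
    rw [pow_orderOf_eq_one] at this
    simpa using this.symm
  have h2 : y ^ Nat.card G = 1 := pow_card_eq_one'
  have h3 : orderOf y ∣ orderOf σ := orderOf_dvd_of_pow_eq_one h1
  have h4 : orderOf y ∣ Nat.card G := orderOf_dvd_of_pow_eq_one h2
  have h5 : orderOf y = 1 := Nat.eq_one_of_dvd_coprimes hcop h3 h4
  rw [orderOf_eq_one_iff] at h5
  rw [hy] at h5
  exact (inv_mul_eq_one.mp h5).symm

end Fit

section Derived

variable {G : Type*} [Group G]

theorem exists_generator_of_quotient {K L : Subgroup G} [hLn : L.Normal]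
    (h : IsCyclic (↥K ⧸ L.subgroupOf K)) :
    ∃ k₀ ∈ K, ∀ k ∈ K, ∃ n : ℤ, (k₀ ^ n)⁻¹ * k ∈ L := by
  obtain ⟨g, hg⟩ := h.exists_generator
  obtain ⟨k₀, rfl⟩ := QuotientGroup.mk_surjective g
  refine ⟨k₀, k₀.2, fun k hk => ?_⟩
  obtain ⟨n, hn⟩ := Subgroup.mem_zpowers_iff.mp (hg ((⟨k, hk⟩ : K) : ↥K ⧸ L.subgroupOf K))
  refine ⟨n, ?_⟩
  rw [← QuotientGroup.mk_zpow, QuotientGroup.eq] at hn
  exact hn

theorem derived_cyclic_step (K L M : Subgroup G) [hLn : L.Normal] [hMn : M.Normal]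
    (hKL : ⁅K, K⁆ = L) (hLK : L ≤ K) (hKD : K ≤ commutator G) (hML : M ≤ L)
    (h₁ : IsCyclic (↥K ⧸ L.subgroupOf K)) (h₂ : IsCyclic (↥L ⧸ M.subgroupOf L))
    (hLM : ⁅L, L⁆ = M) : L ≤ M := by
  obtain ⟨k₀, hk₀, hk⟩ := exists_generator_of_quotient h₁
  obtain ⟨c, hc, hl⟩ := exists_generator_of_quotient h₂
  let φ := QuotientGroup.mk' M
  have hφker : ∀ x, φ x = 1 ↔ x ∈ M := fun x => QuotientGroup.eq_one_iff x
  -- the image of L is the cyclic group generated by φ c, normal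
  have hmapL : ∀ l ∈ L, φ l ∈ Subgroup.zpowers (φ c) := by
    intro l hl'
    obtain ⟨n, hn⟩ := hl l hl'
    refine Subgroup.mem_zpowers_iff.mpr ⟨n, ?_⟩
    have := (hφker _).mpr hn
    rw [map_mul, map_inv, map_zpow, inv_mul_eq_one] at this
    exact this
  have hznormal : (Subgroup.zpowers (φ c)).Normal := by
    refine ⟨fun x hx q => ?_⟩
    obtain ⟨n, rfl⟩ := Subgroup.mem_zpowers_iff.mp hx
    obtain ⟨g, rfl⟩ := QuotientGroup.mk'_surjective M q
    have h1 : g * c ^ n * g⁻¹ ∈ L := hLn.conj_mem _ (L.zpow_mem hc n) g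
    have h2 := hmapL _ h1
    rw [map_mul, map_mul, map_inv, map_zpow] at h2
    exact h2
  -- commutators centralize
  have hDc : ∀ d ∈ commutator G, φ d * φ c = φ c * φ d := by
    intro d hd
    have hd' : d ∈ (⁅(⊤ : Subgroup G), (⊤ : Subgroup G)⁆ : Subgroup G) := hd
    rw [Subgroup.commutator_def] at hd'
    refine Subgroup.closure_induction (p := fun d _ => φ d * φ c = φ c * φ d) ?_ ?_ ?_ ?_ hd'
    · rintro _ ⟨u, -, v, -, rfl⟩
      have := comm_centralizes_cyclic (φ c) hznormal (φ u) (φ v)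
      rwa [← map_commutatorElement] at this
    · simp
    · intro x y _ _ hx hy
      rw [map_mul, mul_assoc, hy, ← mul_assoc, hx, mul_assoc]
    · intro x _ hx
      rw [map_inv, inv_mul_eq_iff_eq_mul, ← mul_assoc, hx, mul_assoc, mul_inv_cancel, mul_one]
  -- `K` centralizes `L` modulo `M`
  have hKLc : ∀ k ∈ K, ∀ l ∈ L, φ k * φ l = φ l * φ k := by
    intro k hk' l hl'
    obtain ⟨n, hn⟩ := Subgroup.mem_zpowers_iff.mp (hmapL l hl')
    rw [← hn]
    have h1 := hDc k (hKD hk')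
    exact (Commute.zpow_right h1 n)
  -- `K` is abelian modulo `M`
  have hKab : ∀ a ∈ K, ∀ b ∈ K, φ a * φ b = φ b * φ a := by
    intro a ha b hb
    obtain ⟨n, hn⟩ := hk a ha
    obtain ⟨m, hm⟩ := hk b hb
    have ha' : a = k₀ ^ n * ((k₀ ^ n)⁻¹ * a) := by group
    have hb' : b = k₀ ^ m * ((k₀ ^ m)⁻¹ * b) := by group
    set u := (k₀ ^ n)⁻¹ * a with hu
    set v := (k₀ ^ m)⁻¹ * b with hv
    have huK : u ∈ K := hLK hn
    have hvK : v ∈ K := hLK hm
    have hcuv : φ u * φ v = φ v * φ u := hKLc u huK v hm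
    have hk0 : k₀ ^ n ∈ K := K.zpow_mem hk₀ n
    have hk1 : k₀ ^ m ∈ K := K.zpow_mem hk₀ m
    have h1 : φ (k₀ ^ n) * φ v = φ v * φ (k₀ ^ n) := hKLc _ hk0 v hm
    have h2 : φ (k₀ ^ m) * φ u = φ u * φ (k₀ ^ m) := hKLc _ hk1 u hn
    have h3 : φ (k₀ ^ n) * φ (k₀ ^ m) = φ (k₀ ^ m) * φ (k₀ ^ n) := by
      rw [← map_mul, ← map_mul, ← zpow_add, ← zpow_add, add_comm]
    rw [ha', hb', map_mul, map_mul]
    calc φ (k₀ ^ n) * φ u * (φ (k₀ ^ m) * φ v)
        = φ (k₀ ^ n) * (φ u * φ (k₀ ^ m)) * φ v := by group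
      _ = φ (k₀ ^ n) * (φ (k₀ ^ m) * φ u) * φ v := by rw [h2]
      _ = (φ (k₀ ^ n) * φ (k₀ ^ m)) * (φ u * φ v) := by group
      _ = (φ (k₀ ^ m) * φ (k₀ ^ n)) * (φ v * φ u) := by rw [h3, hcuv]
      _ = φ (k₀ ^ m) * (φ (k₀ ^ n) * φ v) * φ u := by group
      _ = φ (k₀ ^ m) * (φ v * φ (k₀ ^ n)) * φ u := by rw [h1]
      _ = φ (k₀ ^ m) * φ v * (φ (k₀ ^ n) * φ u) := by group
  rw [← hKL, Subgroup.commutator_le]
  intro a ha b hb
  have := hKab a ha b hb
  rw [← hφker, map_commutatorElement, commutatorElement_eq_one_iff_mul_comm]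
  exact this

end Derived

end Cfsg.Agent.H02
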