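import Mathlib
import Cfsg.Agent.Lib.H01.Basic
import Cfsg.Agent.Lib.H01.Fitting
import Cfsg.Agent.Lib.H02.SolvC
import Cfsg.Agent.Lib.H06.Nilp

set_option autoImplicit false

namespace Cfsg.Agent.H02

universe u

open scoped commutatorElement Pointwise

section Subnormal

variable {G : Type*} [Group G]

theorem iter_comm_mono {H K : Subgroup G} (h : H ≤ K) (j : ℕ) :
    (fun L : Subgroup G => ⁅L, H⁆)^[j] ⊤ ≤ (fun L : Subgroup G => ⁅L, K⁆)^[j] ⊤ := by
  induction j with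
  | zero => exact le_rfl
  | succ j ih =>
    rw [Function.iterate_succ_apply', Function.iterate_succ_apply']
    exact Subgroup.commutator_mono ih h

theorem subnormal_iff_iter (H : Subgroup G) :
    H.IsSubnormal ↔ ∃ m : ℕ, (fun K : Subgroup G => ⁅K, H⁆)^[m] ⊤ ≤ H := by
  constructor
  · intro hH
    induction hH with
    | top => exact ⟨0, le_rfl⟩
    | step H K hle hK hN ih =>
      obtain ⟨m, hm⟩ := ih
      refine ⟨m + 1, ?_⟩
      rw [Function.iterate_succ_apply']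
      have h1 : (fun L : Subgroup G => ⁅L, H⁆)^[m] ⊤ ≤ K := (iter_comm_mono hle m).trans hm
      have h2 : K ≤ Subgroup.normalizer (H : Set G) :=
        (Subgroup.normal_subgroupOf_iff_le_normalizer hle).mp hN
      have h3 : ⁅K, H⁆ ≤ H := Subgroup.le_normalizer_iff_commutator_le_right.mp h2
      exact (Subgroup.commutator_mono h1 le_rfl).trans h3
  · rintro ⟨m, hm⟩
    set T : ℕ → Subgroup G := fun i => (fun K : Subgroup G => ⁅K, H⁆)^[i] ⊤ with hT
    have hTs : ∀ i, T (i + 1) = ⁅T i, H⁆ := fun i => by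
      simp only [hT]
      rw [Function.iterate_succ_apply']
    have hclaim : ∀ i, (H ⊔ T i).IsSubnormal := by
      intro i
      induction i with
      | zero =>
        have : H ⊔ T 0 = ⊤ := by
          simp [hT]
        rw [this]
        exact Subgroup.IsSubnormal.top
      | succ i ih =>
        have hle : H ⊔ T (i + 1) ≤ H ⊔ T i := by
          apply sup_le le_sup_left
          rw [hTs, Subgroup.commutator_le]
          intro x hx h hh
          rw [commutatorElement_def]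
          have hx' : x ∈ H ⊔ T i := (le_sup_right : T i ≤ H ⊔ T i) hx
          have hh' : h ∈ H ⊔ T i := (le_sup_left : H ≤ H ⊔ T i) hh
          exact (H ⊔ T i).mul_mem ((H ⊔ T i).mul_mem ((H ⊔ T i).mul_mem hx' hh')
            ((H ⊔ T i).inv_mem hx')) ((H ⊔ T i).inv_mem hh')
        refine Subgroup.IsSubnormal.step _ _ hle ih ?_
        rw [Subgroup.normal_subgroupOf_iff_le_normalizer hle]
        have hH : H ≤ Subgroup.normalizer ((H ⊔ T (i + 1) : Subgroup G) : Set G) := by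
          rw [Subgroup.le_normalizer_iff]
          intro h hh k hk
          have h1 : H ⊔ T (i + 1) ≤ (H ⊔ T (i + 1)).comap (MulAut.conj h).toMonoidHom := by
            apply sup_le
            · intro a ha
              exact (le_sup_left : H ≤ H ⊔ T (i + 1)) (H.mul_mem (H.mul_mem hh ha) (H.inv_mem hh))
            · intro a ha
              have h2 : H ≤ Subgroup.normalizer (T (i + 1) : Set G) := by
                rw [hTs]
                exact Subgroup.normalizer_commutator_ge_right _ _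
              exact (le_sup_right : T (i + 1) ≤ H ⊔ T (i + 1))
                ((Subgroup.mem_normalizer_iff.mp (h2 hh) a).mp ha)
          exact h1 hk
        have hTi : T i ≤ Subgroup.normalizer ((H ⊔ T (i + 1) : Subgroup G) : Set G) := by
          rw [Subgroup.le_normalizer_iff]
          intro t ht k hk
          have h1 : H ⊔ T (i + 1) ≤ (H ⊔ T (i + 1)).comap (MulAut.conj t).toMonoidHom := by
            apply sup_le
            · intro a ha
              have h3 : ⁅t, a⁆ ∈ T (i + 1) := by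
                rw [hTs]
                exact Subgroup.commutator_mem_commutator ht ha
              have h4 : t * a * t⁻¹ = ⁅t, a⁆ * a := by
                rw [commutatorElement_def]; group
              change t * a * t⁻¹ ∈ H ⊔ T (i + 1)
              rw [h4]
              exact (H ⊔ T (i + 1)).mul_mem ((le_sup_right : T (i + 1) ≤ H ⊔ T (i + 1)) h3)
                ((le_sup_left : H ≤ H ⊔ T (i + 1)) ha)
            · intro a ha
              have h2 : T i ≤ Subgroup.normalizer (T (i + 1) : Set G) := by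
                rw [hTs]
                exact Subgroup.normalizer_commutator_ge_left _ _
              exact (le_sup_right : T (i + 1) ≤ H ⊔ T (i + 1))
                ((Subgroup.mem_normalizer_iff.mp (h2 ht) a).mp ha)
          exact h1 hk
        exact sup_le hH hTi
    have := hclaim m
    rwa [sup_eq_left.mpr hm] at this

end Subnormal

section Ito

variable {G : Type*} [Group G]

theorem comm_mul_right_of_commute {a b₂ a₂ : G} (h : a * a₂ = a₂ * a) : ⁅a, b₂ * a₂⁆ = ⁅a, b₂⁆ := by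
  have h' : a₂ * a⁻¹ = a⁻¹ * a₂ := by
    rw [eq_inv_mul_iff_mul_eq, ← mul_assoc, h]; group
  simp only [commutatorElement_def]
  calc a * (b₂ * a₂) * a⁻¹ * (b₂ * a₂)⁻¹ = a * b₂ * (a₂ * a⁻¹) * a₂⁻¹ * b₂⁻¹ := by group
    _ = a * b₂ * (a⁻¹ * a₂) * a₂⁻¹ * b₂⁻¹ := by rw [h']
    _ = a * b₂ * a⁻¹ * b₂⁻¹ := by group

theorem comm_mul_left_of_commute {a₃ b₃ b : G} (h : b₃ * b = b * b₃) : ⁅a₃ * b₃, b⁆ = ⁅a₃, b⁆ := by
  simp only [commutatorElement_def]
  calc a₃ * b₃ * b * (a₃ * b₃)⁻¹ * b⁻¹ = a₃ * (b₃ * b) * b₃⁻¹ * a₃⁻¹ * b⁻¹ := by group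
    _ = a₃ * (b * b₃) * b₃⁻¹ * a₃⁻¹ * b⁻¹ := by rw [h]
    _ = a₃ * b * a₃⁻¹ * b⁻¹ := by group

theorem conj_comm (g x y : G) : g * ⁅x, y⁆ * g⁻¹ = ⁅g * x * g⁻¹, g * y * g⁻¹⁆ := by
  simp only [commutatorElement_def]
  group

/-- Itô's theorem. -/
theorem ito (A B : Subgroup G) [hA : IsMulCommutative A] [hB : IsMulCommutative B]
    (hAB : ∀ g : G, ∃ a ∈ A, ∃ b ∈ B, g = a * b) : derivedSeries G 2 = ⊥ := by
  have hAc : ∀ a ∈ A, ∀ a' ∈ A, a * a' = a' * a := fun a ha a' ha' =>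
    congrArg Subtype.val (hA.is_comm.comm ⟨a, ha⟩ ⟨a', ha'⟩)
  have hBc : ∀ b ∈ B, ∀ b' ∈ B, b * b' = b' * b := fun b hb b' hb' =>
    congrArg Subtype.val (hB.is_comm.comm ⟨b, hb⟩ ⟨b', hb'⟩)
  have hBA : ∀ g : G, ∃ b ∈ B, ∃ a ∈ A, g = b * a := by
    intro g
    obtain ⟨a, ha, b, hb, hg⟩ := hAB g⁻¹
    refine ⟨b⁻¹, B.inv_mem hb, a⁻¹, A.inv_mem ha, ?_⟩
    rw [← mul_inv_rev, ← hg, inv_inv]
  -- conjugation by `a₁`
  have hconjA : ∀ b ∈ B, ∀ a₁ ∈ A, ∃ b₂ ∈ B, ∀ a' ∈ A, a₁ * ⁅a', b⁆ * a₁⁻¹ = ⁅a', b₂⁆ := by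
    intro b _ a₁ ha₁
    obtain ⟨b₂, hb₂, a₂, ha₂, he⟩ := hBA (a₁ * b * a₁⁻¹)
    refine ⟨b₂, hb₂, fun a' ha' => ?_⟩
    have h1 : a₁ * a' * a₁⁻¹ = a' := by rw [hAc _ ha₁ _ ha']; group
    rw [conj_comm, h1, he]
    exact comm_mul_right_of_commute (hAc _ ha' _ ha₂)
  have hconjB : ∀ a ∈ A, ∀ b₁ ∈ B, ∃ a₃ ∈ A, ∀ b' ∈ B, b₁ * ⁅a, b'⁆ * b₁⁻¹ = ⁅a₃, b'⁆ := by
    intro a _ b₁ hb₁
    obtain ⟨a₃, ha₃, b₃, hb₃, he⟩ := hAB (b₁ * a * b₁⁻¹)
    refine ⟨a₃, ha₃, fun b' hb' => ?_⟩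
    have h1 : b₁ * b' * b₁⁻¹ = b' := by rw [hBc _ hb₁ _ hb']; group
    rw [conj_comm, h1, he]
    exact comm_mul_left_of_commute (hBc _ hb₃ _ hb')
  -- the two orders of conjugation agree
  have hswap : ∀ a ∈ A, ∀ b ∈ B, ∀ a₁ ∈ A, ∀ b₁ ∈ B,
      (b₁ * a₁) * ⁅a, b⁆ * (b₁ * a₁)⁻¹ = (a₁ * b₁) * ⁅a, b⁆ * (a₁ * b₁)⁻¹ := by
    intro a ha b hb a₁ ha₁ b₁ hb₁
    obtain ⟨b₂, hb₂, hA2⟩ := hconjA b hb a₁ ha₁
    obtain ⟨a₃, ha₃, hB3⟩ := hconjB a ha b₁ hb₁
    calc (b₁ * a₁) * ⁅a, b⁆ * (b₁ * a₁)⁻¹ = b₁ * (a₁ * ⁅a, b⁆ * a₁⁻¹) * b₁⁻¹ := by group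
      _ = b₁ * ⁅a, b₂⁆ * b₁⁻¹ := by rw [hA2 a ha]
      _ = ⁅a₃, b₂⁆ := hB3 b₂ hb₂
      _ = a₁ * ⁅a₃, b⁆ * a₁⁻¹ := (hA2 a₃ ha₃).symm
      _ = a₁ * (b₁ * ⁅a, b⁆ * b₁⁻¹) * a₁⁻¹ := by rw [hB3 b hb]
      _ = (a₁ * b₁) * ⁅a, b⁆ * (a₁ * b₁)⁻¹ := by group
  set S : Set G := {g | ∃ a ∈ A, ∃ b ∈ B, ⁅a, b⁆ = g} with hS
  have hcomm : ∀ x ∈ S, ∀ y ∈ S, x * y = y * x := by
    rintro _ ⟨a, ha, b, hb, rfl⟩ _ ⟨a', ha', b', hb', rfl⟩
    have h1 := hswap a ha b hb a'⁻¹ (A.inv_mem ha') b'⁻¹ (B.inv_mem hb')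
    set x := ⁅a, b⁆
    set u := b'⁻¹ * a'⁻¹ with hu
    set v := a'⁻¹ * b'⁻¹ with hv
    have hw : v⁻¹ * u * x = x * (v⁻¹ * u) := by
      calc v⁻¹ * u * x = v⁻¹ * (u * x * u⁻¹) * u := by group
        _ = v⁻¹ * (v * x * v⁻¹) * u := by rw [h1]
        _ = x * (v⁻¹ * u) := by group
    have h2 : ⁅a', b'⁆ = (v⁻¹ * u)⁻¹ := by
      rw [hu, hv, commutatorElement_def]; group
    rw [h2]
    have hc : Commute x (v⁻¹ * u) := hw.symm
    exact hc.inv_right
  set T : Subgroup G := Subgroup.closure S with hT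
  have hTeq : ⁅A, B⁆ = T := rfl
  have hTS : ∀ t ∈ T, ∀ s ∈ S, t * s = s * t := by
    intro t ht s hs
    have hle : T ≤ Subgroup.centralizer ({s} : Set G) := by
      rw [hT, Subgroup.closure_le]
      intro y hy
      rw [SetLike.mem_coe, Subgroup.mem_centralizer_singleton_iff]
      exact hcomm y hy s hs
    have := hle ht
    rwa [Subgroup.mem_centralizer_singleton_iff] at this
  have hTT : ∀ t ∈ T, ∀ t' ∈ T, t * t' = t' * t := by
    intro t ht t' ht'
    have hle : T ≤ Subgroup.centralizer ({t} : Set G) := by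
      rw [hT, Subgroup.closure_le]
      intro y hy
      rw [SetLike.mem_coe, Subgroup.mem_centralizer_singleton_iff]
      exact (hTS t ht y hy).symm
    have := hle ht'
    rw [Subgroup.mem_centralizer_singleton_iff] at this
    exact this.symm
  haveI hTn : T.Normal := by
    refine ⟨fun t ht g => ?_⟩
    obtain ⟨a₁, ha₁, b₁, hb₁, rfl⟩ := hAB g
    have hle : T ≤ T.comap (MulAut.conj (a₁ * b₁)).toMonoidHom := by
      rw [hT, Subgroup.closure_le]
      rintro _ ⟨a, ha, b, hb, rfl⟩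
      obtain ⟨b₂, hb₂, hA2⟩ := hconjA b hb a₁ ha₁
      obtain ⟨a₃, ha₃, hB3⟩ := hconjB a ha b₁ hb₁
      change (a₁ * b₁) * ⁅a, b⁆ * (a₁ * b₁)⁻¹ ∈ Subgroup.closure S
      have h1 : (a₁ * b₁) * ⁅a, b⁆ * (a₁ * b₁)⁻¹ = ⁅a₃, b₂⁆ := by
        calc (a₁ * b₁) * ⁅a, b⁆ * (a₁ * b₁)⁻¹ = a₁ * (b₁ * ⁅a, b⁆ * b₁⁻¹) * a₁⁻¹ := by group
          _ = a₁ * ⁅a₃, b⁆ * a₁⁻¹ := by rw [hB3 b hb]
          _ = ⁅a₃, b₂⁆ := hA2 a₃ ha₃
      rw [h1]
      exact Subgroup.subset_closure ⟨a₃, ha₃, b₂, hb₂, rfl⟩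
    exact hle ht
  let π := QuotientGroup.mk' T
  have hπ : ∀ a ∈ A, ∀ b ∈ B, π a * π b = π b * π a := by
    intro a ha b hb
    have h1 : ⁅a, b⁆ ∈ T := Subgroup.subset_closure ⟨a, ha, b, hb, rfl⟩
    have h2 : π ⁅a, b⁆ = 1 := (QuotientGroup.eq_one_iff _).mpr h1
    rw [map_commutatorElement, commutatorElement_eq_one_iff_mul_comm] at h2
    exact h2
  have hcommq : ∀ g h : G, π g * π h = π h * π g := by
    intro g h
    obtain ⟨a, ha, b, hb, rfl⟩ := hAB g
    obtain ⟨c, hc, d, hd, rfl⟩ := hAB h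
    simp only [map_mul]
    have h1 := hπ c hc b hb
    have h2 := hπ a ha d hd
    have h3 : π a * π c = π c * π a := by rw [← map_mul, ← map_mul, hAc a ha c hc]
    have h4 : π b * π d = π d * π b := by rw [← map_mul, ← map_mul, hBc b hb d hd]
    calc π a * π b * (π c * π d) = π a * (π b * π c) * π d := by group
      _ = π a * (π c * π b) * π d := by rw [h1]
      _ = (π a * π c) * (π b * π d) := by group
      _ = (π c * π a) * (π d * π b) := by rw [h3, h4]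
      _ = π c * (π a * π d) * π b := by group
      _ = π c * (π d * π a) * π b := by rw [h2]
      _ = π c * π d * (π a * π b) := by group
  have hder : commutator G ≤ T := by
    rw [commutator_def, Subgroup.commutator_le]
    intro g _ h _
    have h1 : π ⁅g, h⁆ = 1 := by
      rw [map_commutatorElement, commutatorElement_eq_one_iff_mul_comm]
      exact hcommq g h
    exact (QuotientGroup.eq_one_iff _).mp h1
  have hder2 : derivedSeries G 2 ≤ ⁅T, T⁆ := by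
    have h1 : derivedSeries G 2 = ⁅commutator G, commutator G⁆ := by
      rw [derivedSeries_succ, derivedSeries_one]
    rw [h1]
    exact Subgroup.commutator_mono hder hder
  rw [eq_bot_iff]
  refine hder2.trans ?_
  rw [Subgroup.commutator_le]
  intro t ht t' ht'
  rw [Subgroup.mem_bot, commutatorElement_eq_one_iff_mul_comm]
  exact hTT t ht t' ht'

end Ito

end Cfsg.Agent.H02
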