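import Mathlib
import Cfsg.Agent.Lib.H01.Basic
import Cfsg.Agent.Lib.H17.Derangement

set_option autoImplicit false

namespace Cfsg.Agent.H02

universe u

open scoped Pointwise

theorem exists_normal_index_prime {G : Type u} [Group G] [Finite G] {p : ℕ} [hp : Fact p.Prime]
    (K : Subgroup G) [hK : K.Normal] {a : ℕ} (ha : a ≠ 0) (hidx : K.index = p ^ a) :
    ∃ A : Subgroup G, A.Normal ∧ A.index = p := by
  have hQ : IsPGroup p (G ⧸ K) := by
    rw [IsPGroup.iff_card]
    exact ⟨a, hidx⟩
  have hnt : Nontrivial (G ⧸ K) := by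
    rw [← Finite.one_lt_card_iff_nontrivial]
    change 1 < K.index
    rw [hidx]
    exact Nat.one_lt_pow ha hp.out.one_lt
  obtain ⟨M, hM⟩ : ∃ M : Subgroup (G ⧸ K), IsCoatom M := by
    rcases eq_top_or_exists_le_coatom (⊥ : Subgroup (G ⧸ K)) with h | ⟨M, hM, -⟩
    · exact absurd h bot_ne_top
    · exact ⟨M, hM⟩
  obtain ⟨hMn, hMi⟩ := Cfsg.Agent.H01.isCoatom_normal_index hQ hM
  refine ⟨M.comap (QuotientGroup.mk' K), Subgroup.Normal.comap hMn _, ?_⟩
  rw [Subgroup.index_comap_of_surjective M (QuotientGroup.mk'_surjective K), hMi]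

theorem abelian_of_normalizer_eq_centralizer : ∀ (n : ℕ) (G : Type u) [Group G] [Finite G],
    Nat.card G = n →
    (∀ A : Subgroup G, IsMulCommutative A →
      Subgroup.normalizer (A : Set G) = Subgroup.centralizer (A : Set G)) →
    IsMulCommutative G := by
  intro n
  induction n using Nat.strong_induction_on with
  | _ n ih =>
    intro G _ _ hn h
    -- proper subgroups are abelian
    have hprop : ∀ K : Subgroup G, K ≠ ⊤ → IsMulCommutative K := by
      intro K hK
      have hlt : Nat.card K < n := by
        rw [← hn]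
        obtain ⟨x, hx⟩ : ∃ x, x ∉ K := by
          by_contra hcon
          push Not at hcon
          exact hK (eq_top_iff.mpr fun z _ => hcon z)
        exact Finite.card_subtype_lt hx
      refine ih _ hlt K rfl ?_
      intro A hA
      apply le_antisymm
      · intro x hx
        have hA₀ : IsMulCommutative (A.map K.subtype) := by
          refine ⟨⟨?_⟩⟩
          rintro ⟨_, a, ha, rfl⟩ ⟨_, b, hb, rfl⟩
          apply Subtype.ext
          exact congrArg (fun z : A => ((z : K) : G)) (hA.is_comm.comm ⟨a, ha⟩ ⟨b, hb⟩)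
        have h1 : (x : G) ∈ Subgroup.normalizer ((A.map K.subtype : Subgroup G) : Set G) := by
          rw [Subgroup.mem_normalizer_iff]
          intro y
          constructor
          · rintro ⟨a, ha, rfl⟩
            exact ⟨x * a * x⁻¹, (Subgroup.mem_normalizer_iff.mp hx a).mp ha, rfl⟩
          · rintro ⟨a, ha, hae⟩
            have hyK : y ∈ K := by
              have h2 : y = (x : G)⁻¹ * (a : G) * x := by
                have h3 : (a : G) = x * y * (x : G)⁻¹ := hae
                rw [h3]; group
              rw [h2]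
              exact K.mul_mem (K.mul_mem (K.inv_mem x.2) a.2) x.2
            refine ⟨⟨y, hyK⟩, ?_, rfl⟩
            apply (Subgroup.mem_normalizer_iff.mp hx _).mpr
            have h4 : x * ⟨y, hyK⟩ * x⁻¹ = a := Subtype.ext hae.symm
            rwa [h4]
        rw [h _ hA₀] at h1
        rw [Subgroup.mem_centralizer_iff]
        intro a ha
        exact Subtype.ext (Subgroup.mem_centralizer_iff.mp h1 a ⟨a, ha, rfl⟩)
      · intro x hx
        have hc : ∀ a ∈ A, x * a * x⁻¹ = a := by
          intro a ha
          have := Subgroup.mem_centralizer_iff.mp hx a ha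
          rw [← this]; group
        rw [Subgroup.mem_normalizer_iff]
        intro y
        constructor
        · intro hy
          rw [hc y hy]
          exact hy
        · intro hz
          have h1 := hc _ hz
          have h2 : x * (x * y * x⁻¹) * x⁻¹ = x * y * x⁻¹ := h1
          have h3 : x * y * x⁻¹ = y := by
            have h4 := mul_left_cancel (a := x) (by
              have h5 := mul_right_cancel (b := x⁻¹) h2
              rw [mul_assoc] at h5 ⊢
              exact h5 : x * (x * y * x⁻¹) = x * y)
            exact h4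
          rwa [h3] at hz
    by_cases hnt : Nontrivial G
    · have hcard : Nat.card G ≠ 1 := Finite.one_lt_card.ne'
      set p := (Nat.card G).minFac with hpdef
      haveI hp : Fact p.Prime := ⟨Nat.minFac_prime hcard⟩
      have hpd : p ∣ Nat.card G := Nat.minFac_dvd _
      obtain ⟨P⟩ : Nonempty (Sylow p G) := inferInstance
      have hPcard : Nat.card P = p ^ (Nat.card G).factorization p := P.card_eq_multiplicity
      have hfac : (Nat.card G).factorization p ≠ 0 :=
        (hp.out.factorization_pos_of_dvd Nat.card_pos.ne' hpd).ne'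
      obtain ⟨A, hAn, hAi⟩ : ∃ A : Subgroup G, A.Normal ∧ A.index = p := by
        by_cases hP : (P : Subgroup G) = ⊤
        · refine exists_normal_index_prime (⊥ : Subgroup G) hfac ?_
          rw [Subgroup.index_bot, ← hPcard, hP, Subgroup.card_top]
        · have hPab := hprop P hP
          have hN : Subgroup.normalizer (P : Set G) ≤ Subgroup.centralizer (P : Set G) :=
            (h P hPab).le
          have hc := MonoidHom.ker_transferSylow_isComplement' P hN
          refine exists_normal_index_prime (MonoidHom.transferSylow P hN).ker hfac ?_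
          rw [hc.symm.index_eq_card, hPcard]
      haveI := hAn
      have hAtop : A ≠ ⊤ := by
        rintro rfl
        rw [Subgroup.index_top] at hAi
        exact hp.out.one_lt.ne hAi
      have hAab := hprop A hAtop
      have h1 := h A hAab
      rw [Subgroup.normalizer_eq_top_iff.mpr hAn] at h1
      have hAcenter : A ≤ Subgroup.center G := by
        intro x hx
        rw [Subgroup.mem_center_iff]
        intro g
        have h2 : g ∈ Subgroup.centralizer (A : Set G) := by rw [← h1]; trivial
        exact (Subgroup.mem_centralizer_iff.mp h2 x hx).symm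
      have hcyc : IsCyclic (G ⧸ A) := by
        have : Nat.card (G ⧸ A) = p := hAi
        exact isCyclic_of_prime_card this
      exact MonoidHom.isMulCommutative_of_isCyclic_of_ker_le_center (QuotientGroup.mk' A)
        (by rw [QuotientGroup.ker_mk']; exact hAcenter)
    · rw [not_nontrivial_iff_subsingleton] at hnt
      exact ⟨⟨fun a b => Subsingleton.elim _ _⟩⟩

section Frob

open MulAction

/-- The counting lemma behind `S0589`. -/
theorem exists_fixed_of_unique_fixed {L X : Type*} [Group L] [Finite L] [MulAction L X] [Finite X]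
    [Nonempty X] (huniq : ∀ g : L, g ≠ 1 → ∀ x y : X, g • x = x → g • y = y → x = y)
    (hcong : Nat.card X % Nat.card L = 1 % Nat.card L) : ∃ x : X, ∀ g : L, g • x = x := by
  classical
  haveI := Fintype.ofFinite L
  haveI := Fintype.ofFinite X
  by_contra hno
  push Not at hno
  set l := Nat.card L with hl
  have hlpos : 0 < l := Nat.card_pos
  let S : X → Finset L := fun x => Finset.univ.filter (fun g : L => g ≠ 1 ∧ g • x = x)
  let O : X → Finset X := fun x => Finset.univ.filter (fun y => y ∈ orbit L x)
  have hOcoe : ∀ x, (↑(O x) : Set X) = orbit L x := by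
    intro x
    ext y
    simp [O]
  have hst : ∀ x, Nat.card (stabilizer L x) * (O x).card = l := by
    intro x
    have h1 := (stabilizer L x).card_mul_index
    rw [index_stabilizer, ← hOcoe x, Set.ncard_coe_finset] at h1
    exact h1
  have hSst : ∀ x, (S x).card + 1 = Nat.card (stabilizer L x) := by
    intro x
    have h1 : Nat.card (stabilizer L x) = (Finset.univ.filter (fun g : L => g • x = x)).card := by
      rw [Nat.card_eq_fintype_card, Fintype.card_subtype]
      rfl
    have h2 : Finset.univ.filter (fun g : L => g • x = x) = insert 1 (S x) := by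
      ext g
      simp only [Finset.mem_filter, Finset.mem_univ, true_and, Finset.mem_insert, S]
      constructor
      · intro h
        by_cases hg : g = 1
        · exact Or.inl hg
        · exact Or.inr ⟨hg, h⟩
      · rintro (rfl | ⟨-, h⟩)
        · simp
        · exact h
    have h3 : (1 : L) ∉ S x := by simp [S]
    rw [h1, h2, Finset.card_insert_of_notMem h3]
  -- disjointness
  have hdisj : ∀ x y : X, x ≠ y → Disjoint (S x) (S y) := by
    intro x y hxy
    rw [Finset.disjoint_left]
    intro g hg hg'
    simp only [S, Finset.mem_filter, Finset.mem_univ, true_and] at hg hg'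
    exact hxy (huniq g hg.1 x y hg.2 hg'.2)
  have hsumsub : ∀ T : Finset X, ∑ x ∈ T, (S x).card ≤ l - 1 := by
    intro T
    rw [← Finset.card_biUnion (fun x _ y _ hxy => hdisj x y hxy)]
    have h1 : T.biUnion S ⊆ Finset.univ.erase 1 := by
      intro g hg
      obtain ⟨x, -, hx⟩ := Finset.mem_biUnion.mp hg
      simp only [S, Finset.mem_filter, Finset.mem_univ, true_and] at hx
      exact Finset.mem_erase.mpr ⟨hx.1, Finset.mem_univ _⟩
    have h2 := Finset.card_le_card h1
    rw [Finset.card_erase_of_mem (Finset.mem_univ _), Finset.card_univ, ← Nat.card_eq_fintype_card]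
      at h2
    exact h2
  -- Burnside
  have hb := Cfsg.Agent.H17.burnside_sum (G := L) (X := X)
  have hfub : ∑ g : L, Nat.card (fixedBy X g) = ∑ x : X, Nat.card (stabilizer L x) := by
    have h1 : ∀ g : L, Nat.card (fixedBy X g) = ∑ x : X, if g • x = x then 1 else 0 := by
      intro g
      rw [Nat.card_eq_fintype_card, Fintype.card_subtype, Finset.card_filter]
      rfl
    have h2 : ∀ x : X, Nat.card (stabilizer L x) = ∑ g : L, if g • x = x then 1 else 0 := by
      intro x
      rw [Nat.card_eq_fintype_card, Fintype.card_subtype, Finset.card_filter]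
      rfl
    simp_rw [h1, h2]
    exact Finset.sum_comm
  have hsplit : ∑ x : X, Nat.card (stabilizer L x) = ∑ x : X, (S x).card + Nat.card X := by
    simp_rw [← hSst]
    rw [Finset.sum_add_distrib, Finset.sum_const, Finset.card_univ, smul_eq_mul, mul_one,
      Nat.card_eq_fintype_card]
  set T := ∑ x : X, (S x).card with hT
  rw [hfub, hsplit] at hb
  have hTle : T ≤ l - 1 := hsumsub Finset.univ
  have hdvd : l ∣ T + 1 := by
    have h1 : (T + Nat.card X) % l = 0 := by
      rw [hb]; exact Nat.mul_mod_left _ _
    have h2 : (T + 1) % l = 0 := by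
      rw [Nat.add_mod, ← hcong, ← Nat.add_mod]
      exact h1
    exact Nat.dvd_of_mod_eq_zero h2
  have hTeq : T + 1 = l := by
    have := Nat.le_of_dvd (Nat.succ_pos _) hdvd
    omega
  obtain ⟨x₀⟩ := ‹Nonempty X›
  have hl2 : 2 ≤ l := by
    obtain ⟨g, hg⟩ := hno x₀
    have hg1 : g ≠ 1 := by
      rintro rfl
      simp at hg
    have : Nontrivial L := ⟨⟨g, 1, hg1⟩⟩
    exact Finite.one_lt_card
  -- orbit sums
  have horbsum : ∀ x, ∑ y ∈ O x, (S y).card + (O x).card = l := by
    intro x
    have hconst : ∀ y ∈ O x, (S y).card = (S x).card := by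
      intro y hy
      have hy' : y ∈ orbit L x := by simpa [O] using hy
      have hOy : O y = O x := by
        apply Finset.coe_injective
        rw [hOcoe, hOcoe]
        exact orbit_eq_iff.mpr hy'
      have h1 := hst y
      have h2 := hst x
      rw [hOy] at h1
      have hpos : 0 < (O x).card := Finset.card_pos.mpr ⟨x, by simp [O, mem_orbit_self]⟩
      have h3 : Nat.card (stabilizer L y) = Nat.card (stabilizer L x) :=
        Nat.eq_of_mul_eq_mul_right hpos (h1.trans h2.symm)
      have h4 := hSst y
      have h5 := hSst x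
      omega
    rw [Finset.sum_congr rfl hconst, Finset.sum_const, smul_eq_mul]
    have h1 := hst x
    have h2 := hSst x
    rw [← h2] at h1
    rw [← h1]
    ring
  -- every orbit has at least two points
  have horb2 : ∀ x, 2 ≤ (O x).card := by
    intro x
    obtain ⟨g, hg⟩ := hno x
    have h1 : x ∈ O x := by simp [O, mem_orbit_self]
    have h2 : g • x ∈ O x := by simp [O, mem_orbit]
    exact Finset.one_lt_card.mpr ⟨x, h1, g • x, h2, hg.symm⟩
  -- small orbits
  have hsmall : ∀ x, (S x).card ≠ 0 → 2 * (O x).card ≤ l := by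
    intro x hx
    have h1 := hst x
    have h2 := hSst x
    have h3 : 2 ≤ Nat.card (stabilizer L x) := by omega
    rw [← h1]
    exact Nat.mul_le_mul_right _ h3
  -- there is a point with nontrivial stabilizer
  obtain ⟨x₁, hx₁⟩ : ∃ x, (S x).card ≠ 0 := by
    by_contra hcon
    push Not at hcon
    have : T = 0 := Finset.sum_eq_zero fun x _ => hcon x
    omega
  have h1 := horbsum x₁
  have h1' := horb2 x₁
  have h1'' := hsmall x₁ hx₁
  -- a second orbit
  obtain ⟨x₂, hx₂, hx₂'⟩ : ∃ x, x ∉ O x₁ ∧ (S x).card ≠ 0 := by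
    by_contra hcon
    push Not at hcon
    have h2 : T = ∑ y ∈ O x₁, (S y).card := by
      rw [hT]
      symm
      apply Finset.sum_subset (Finset.subset_univ _)
      intro y _ hy
      exact hcon y hy
    omega
  have h2 := horbsum x₂
  have h2'' := hsmall x₂ hx₂'
  have hdis : Disjoint (O x₁) (O x₂) := by
    rw [Finset.disjoint_left]
    intro y hy hy'
    apply hx₂
    have hy1 : y ∈ orbit L x₁ := by simpa [O] using hy
    have hy2 : y ∈ orbit L x₂ := by simpa [O] using hy'
    have h3 : orbit L x₂ = orbit L x₁ := by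
      rw [← orbit_eq_iff.mpr hy1, ← orbit_eq_iff.mpr hy2]
    have h4 : x₂ ∈ orbit L x₁ := by
      rw [← h3]; exact mem_orbit_self _
    simpa [O] using h4
  have hunion := hsumsub (O x₁ ∪ O x₂)
  rw [Finset.sum_union hdis] at hunion
  omega

/-- The action on cosets for a Frobenius complement. -/
theorem frobenius_conj {G : Type*} [Group G] [Finite G] (H : Subgroup G)
    (hH : H ≠ ⊥ ∧ H ≠ ⊤ ∧ ∀ g : G, g ∉ H → H ⊓ (MulAut.conj g • H) = ⊥) (L : Subgroup G)
    (hL : Nat.card L ∣ Nat.card H) : ∃ x : G, L ≤ MulAut.conj x • H := by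
  classical
  obtain ⟨-, -, hF⟩ := hH
  have hmem : ∀ {x g : G}, x ∈ MulAut.conj g • H ↔ g⁻¹ * x * g ∈ H := by
    intro x g
    rw [Subgroup.mem_pointwise_smul_iff_inv_smul_mem, MulAut.smul_def, MulAut.conj_inv_apply]
  -- a point-stabilizer computation
  have hfix : ∀ (g : G) (y : G), y • (g : G ⧸ H) = g ↔ g⁻¹ * y * g ∈ H := by
    intro g y
    change ((y * g : G) : G ⧸ H) = g ↔ _
    rw [QuotientGroup.eq]
    constructor
    · intro h
      have := H.inv_mem h
      simpa [mul_assoc] using this
    · intro h
      have := H.inv_mem h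
      simpa [mul_assoc] using this
  have huniq : ∀ y : G, y ≠ 1 → ∀ x x' : G ⧸ H, y • x = x → y • x' = x' → x = x' := by
    intro y hy x x'
    obtain ⟨g, rfl⟩ := QuotientGroup.mk_surjective x
    obtain ⟨g', rfl⟩ := QuotientGroup.mk_surjective x'
    intro h1 h2
    rw [hfix] at h1 h2
    rw [QuotientGroup.eq]
    by_contra ht
    have hbot := hF _ ht
    have hz : g⁻¹ * y * g ∈ H ⊓ (MulAut.conj (g⁻¹ * g') • H) := by
      refine ⟨h1, hmem.mpr ?_⟩
      have : (g⁻¹ * g')⁻¹ * (g⁻¹ * y * g) * (g⁻¹ * g') = g'⁻¹ * y * g' := by group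
      rw [this]
      exact h2
    rw [hbot, Subgroup.mem_bot] at hz
    apply hy
    have : y = g * (g⁻¹ * y * g) * g⁻¹ := by group
    rw [this, hz]
    group
  -- the congruence
  haveI := Fintype.ofFinite H
  haveI := Fintype.ofFinite (G ⧸ H)
  have hcong : Nat.card (G ⧸ H) % Nat.card H = 1 % Nat.card H := by
    have hb := Cfsg.Agent.H17.burnside_sum (G := H) (X := G ⧸ H)
    have hone : ∀ h : H, h ≠ 1 → Nat.card (MulAction.fixedBy (G ⧸ H) h) = 1 := by
      intro h hh
      have hh' : (h : G) ≠ 1 := fun h0 => hh (Subtype.ext h0)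
      rw [Nat.card_eq_one_iff_unique]
      refine ⟨⟨?_⟩, ⟨⟨((1 : G) : G ⧸ H), ?_⟩⟩⟩
      · rintro ⟨x, hx⟩ ⟨y, hy⟩
        exact Subtype.ext (huniq h hh' x y hx hy)
      · change (h : G) • ((1 : G) : G ⧸ H) = _
        rw [hfix]
        simpa using h.2
    have htot : Nat.card (MulAction.fixedBy (G ⧸ H) (1 : H)) = Nat.card (G ⧸ H) := by
      have : MulAction.fixedBy (G ⧸ H) (1 : H) = Set.univ := by
        ext x
        simp
      rw [this]
      exact Nat.card_univ
    have hsum := Finset.add_sum_erase Finset.univ
      (fun h : H => Nat.card (MulAction.fixedBy (G ⧸ H) h)) (Finset.mem_univ (1 : H))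
    have hsum2 : ∑ h ∈ Finset.univ.erase (1 : H), Nat.card (MulAction.fixedBy (G ⧸ H) h)
        = Nat.card H - 1 := by
      rw [Finset.sum_congr rfl (fun h hh => hone h (Finset.ne_of_mem_erase hh)), Finset.sum_const,
        Finset.card_erase_of_mem (Finset.mem_univ _), Finset.card_univ, smul_eq_mul, mul_one,
        Nat.card_eq_fintype_card]
    rw [hsum2, htot, hb] at hsum
    have hpos : 0 < Nat.card H := Nat.card_pos
    have h3 : (Nat.card (G ⧸ H) + (Nat.card H - 1)) % Nat.card H = 0 := by
      rw [hsum]
      exact Nat.mul_mod_left _ _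
    have h4 : Nat.card (G ⧸ H) ≡ 1 [MOD Nat.card H] := by
      have h5 : Nat.card (G ⧸ H) + (Nat.card H - 1) ≡ 1 + (Nat.card H - 1) [MOD Nat.card H] := by
        rw [Nat.add_sub_cancel' hpos]
        change _ % _ = _ % _
        rw [h3, Nat.mod_self]
      exact Nat.ModEq.add_right_cancel' _ h5
    exact h4
  have hcongL : Nat.card (G ⧸ H) % Nat.card L = 1 % Nat.card L :=
    Nat.ModEq.of_dvd hL hcong
  obtain ⟨x, hx⟩ := exists_fixed_of_unique_fixed (L := L) (X := G ⧸ H)
    (fun g hg x y hx hy => huniq g (fun h0 => hg (Subtype.ext h0)) x y hx hy) hcongL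
  obtain ⟨g, rfl⟩ := QuotientGroup.mk_surjective x
  refine ⟨g, fun y hy => ?_⟩
  rw [hmem, ← hfix]
  exact hx ⟨y, hy⟩

end Frob

end Cfsg.Agent.H02
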