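import Cfsg.Agent.Lib.H02.Stable1
import Cfsg.Agent.Lib.H08.PCoreL
import Cfsg.Agent.Lib.H05.Comp6

/-!
Solvable groups of odd order whose Sylow `p`-subgroups have cyclic commutator subgroups.
-/

set_option autoImplicit false

namespace Cfsg.Agent.H02

open Cfsg
open scoped commutatorElement

variable {p : ℕ} [hp : Fact p.Prime]

theorem sylow_le_pCore_of_cyclic_commutator {Y : Type*} [Group Y] [Finite Y] [Group.IsSolvable Y]
    (hodd : Odd (Nat.card Y)) (hp2 : p ≠ 2) (hO : pPrimeCore p Y = ⊥) (S : Sylow p Y)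
    (hS : IsCyclic (commutator (S : Subgroup Y))) :
    (S : Subgroup Y) ≤ pCore p Y := by
  classical
  set D := pCore p Y with hD
  haveI hDn : D.Normal := H01.pCore_normal p
  have hDp : IsPGroup p D := H01.pCore_isPGroup p
  have hCD : Subgroup.centralizer (D : Set Y) ≤ D := by
    have h1 := H01.centralizer_fitting_le (G := Y)
    rw [H05.fitting_eq_pCore_of_pp_bot hO] at h1
    exact h1
  have hDS : D ≤ (S : Subgroup Y) := H01.pCore_le_sylow p S
  let ρ₀ : Y →* MulAut (D ⧸ frattini D) := (fratHom D).comp MulAut.conjNormal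
  have hρ₀ : ∀ (y : Y) (d : D), ρ₀ y (d : D ⧸ frattini D) =
      ((MulAut.conjNormal y d : D) : D ⧸ frattini D) := fun _ _ => rfl
  have hcomm := frat_comm (D := D) hDp
  have hfrat : ∀ a ∈ ρ₀.ker, ∀ k ∈ D, a * k * a⁻¹ * k⁻¹ ∈ (frattini D).map D.subtype := by
    intro a ha k hk
    have h1 : ρ₀ a ((⟨k, hk⟩ : D) : D ⧸ frattini D) = ((⟨k, hk⟩ : D) : D ⧸ frattini D) := by
      rw [MonoidHom.mem_ker.mp ha]; rfl
    rw [hρ₀] at h1
    have h2 : ((MulAut.conjNormal a ⟨k, hk⟩ * (⟨k, hk⟩ : D)⁻¹ : D) : D ⧸ frattini D) = 1 := by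
      rw [QuotientGroup.mk_mul, h1, QuotientGroup.mk_inv, mul_inv_cancel]
    exact ⟨_, (QuotientGroup.eq_one_iff _).mp h2, rfl⟩
  have hker : ρ₀.ker = D := by
    apply le_antisymm
    · apply H01.le_pCore ρ₀.normal_ker
      by_contra hnp
      obtain ⟨g, r, hr, hrp, hgr⟩ := exists_prime_order_of_not_isPGroup hnp
      have hgr' : orderOf (g : Y) = r := by rw [Subgroup.orderOf_coe]; exact hgr
      have hA : Subgroup.zpowers (g : Y) ≤ Subgroup.centralizer (D : Set Y) := by
        apply H01.centralizes_of_trivial_on_frattini_quotient (Subgroup.zpowers (g : Y)) D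
        · rw [Subgroup.normalizer_eq_top_iff.mpr hDn]; exact le_top
        · rw [Nat.card_zpowers, hgr']
          have hfp : IsPGroup p (frattini D) := hDp.to_subgroup _
          obtain ⟨k, hk⟩ := IsPGroup.iff_card.mp hfp
          rw [hk]
          exact Nat.Coprime.pow_right k (coprime_of_prime_ne hr hp.out hrp)
        · intro a ha k hk
          apply hfrat a _ k hk
          have h1 : Subgroup.zpowers (g : Y) ≤ ρ₀.ker := by
            rw [Subgroup.zpowers_le]; exact g.2
          exact h1 ha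
      have hgD : (g : Y) ∈ D := hCD (hA (Subgroup.mem_zpowers _))
      obtain ⟨n, hn⟩ := hDp ⟨g, hgD⟩
      have h1 : (g : Y) ^ p ^ n = 1 := by simpa using congrArg Subtype.val hn
      have h2 : (g : Y) ^ r = 1 := by rw [← hgr', pow_orderOf_eq_one]
      have h3 : (g : Y) ^ (Nat.gcd r (p ^ n)) = 1 := pow_gcd_eq_one.mpr ⟨h2, h1⟩
      have h4 : Nat.Coprime r (p ^ n) := Nat.Coprime.pow_right n (coprime_of_prime_ne hr hp.out hrp)
      rw [h4.gcd_eq_one, pow_one] at h3
      rw [h3, orderOf_one] at hgr'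
      exact hr.one_lt.ne hgr'
    · intro d hd
      rw [MonoidHom.mem_ker]
      ext m
      obtain ⟨e, rfl⟩ := QuotientGroup.mk_surjective m
      rw [hρ₀]
      have h1 : MulAut.conjNormal d e = (⟨d, hd⟩ : D) * e * (⟨d, hd⟩ : D)⁻¹ := by
        apply Subtype.ext
        rw [MulAut.conjNormal_apply]
        rfl
      rw [h1, QuotientGroup.mk_mul, QuotientGroup.mk_mul, QuotientGroup.mk_inv,
        hcomm ((⟨d, hd⟩ : D) : D ⧸ frattini D), mul_assoc, mul_inv_cancel, mul_one]
      rfl
  have hquad : ∀ x ∈ (S : Subgroup Y), ∀ m : D ⧸ frattini D,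
      ρ₀ x (ρ₀ x m * m⁻¹) = ρ₀ x m * m⁻¹ := by
    intro x hx m
    obtain ⟨d, rfl⟩ := QuotientGroup.mk_surjective m
    set C : Subgroup Y := (commutator (S : Subgroup Y)).map (S : Subgroup Y).subtype with hC
    have hCc : IsCyclic C :=
      isCyclic_of_surjective (Subgroup.equivMapOfInjective (commutator (S : Subgroup Y)) _
        (S : Subgroup Y).subtype_injective) (MulEquiv.surjective _)
    set K : Subgroup Y := D ⊓ C with hK
    have hKc : IsCyclic K := by
      have hle : K ≤ C := inf_le_right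
      exact isCyclic_of_injective (Subgroup.inclusion hle) (Subgroup.inclusion_injective hle)
    have hKp : IsPGroup p K := hDp.to_le inf_le_left
    obtain ⟨n, hn⟩ := S.2 ⟨x, hx⟩
    have hxn : x ^ p ^ n = 1 := by simpa using congrArg Subtype.val hn
    have hxC : ∀ c ∈ C, x * c * x⁻¹ ∈ C := by
      rintro _ ⟨c, hc, rfl⟩
      have h1 : (⟨x, hx⟩ : (S : Subgroup Y)) * c * (⟨x, hx⟩ : (S : Subgroup Y))⁻¹ ∈
          commutator (S : Subgroup Y) := (inferInstance : (commutator (S : Subgroup Y)).Normal).conj_mem c hc _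
      exact ⟨_, h1, rfl⟩
    have hxK : ∀ c ∈ K, x * c * x⁻¹ ∈ K := by
      intro c hc
      exact ⟨hDn.conj_mem c hc.1 x, hxC c hc.2⟩
    set c' : D := MulAut.conjNormal x d * d⁻¹ with hc'
    have hc'val : (c' : Y) = x * d * x⁻¹ * (d : Y)⁻¹ := by
      rw [hc']
      show ((MulAut.conjNormal x d : D) : Y) * (d : Y)⁻¹ = _
      rw [MulAut.conjNormal_apply]
    have hc'K : (c' : Y) ∈ K := by
      refine ⟨c'.2, ?_⟩
      have h1 : ⁅(⟨x, hx⟩ : (S : Subgroup Y)), (⟨d, hDS d.2⟩ : (S : Subgroup Y))⁆ ∈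
          commutator (S : Subgroup Y) := by
        rw [commutator_def]
        exact Subgroup.commutator_mem_commutator (Subgroup.mem_top _) (Subgroup.mem_top _)
      refine ⟨_, h1, ?_⟩
      rw [hc'val]
      rfl
    obtain ⟨y, hyK, hy⟩ := conj_cyclic_eq_pow K hKc hKp x n hxn hxK _ hc'K
    have hm : ρ₀ x ((d : D) : D ⧸ frattini D) * ((d : D) : D ⧸ frattini D)⁻¹ = (c' : D ⧸ frattini D) := by
      rw [hρ₀, hc', QuotientGroup.mk_mul, QuotientGroup.mk_inv]
    rw [hm, hρ₀, QuotientGroup.eq]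
    have h1 : (MulAut.conjNormal x c' : D) * c'⁻¹ = (⟨y, hyK.1⟩ : D) ^ p := by
      apply Subtype.ext
      show ((MulAut.conjNormal x c' : D) : Y) * (c' : Y)⁻¹ = y ^ p
      rw [MulAut.conjNormal_apply, hy]
    have h2 : (MulAut.conjNormal x c' : D) * c'⁻¹ ∈ frattini D := by
      rw [h1]
      exact H01.pow_mem_frattini_of_isPGroup hDp _
    have h3 : c'⁻¹ * (MulAut.conjNormal x c' : D) ∈ frattini D :=
      (inferInstance : (frattini D).Normal).mem_comm h2
    have h4 := (frattini D).inv_mem h3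
    rw [mul_inv_rev, inv_inv] at h4
    exact h4
  let ρ := QuotientGroup.kerLift ρ₀
  have hρ : Function.Injective ρ := QuotientGroup.kerLift_injective ρ₀
  have hO2 : pCore p (Y ⧸ ρ₀.ker) = ⊥ := pCore_quotient_of_eq _ hker
  obtain ⟨T⟩ : Nonempty (Sylow 2 (Y ⧸ ρ₀.ker)) := inferInstance
  have hT : IsMulCommutative (T : Subgroup (Y ⧸ ρ₀.ker)) := by
    obtain ⟨k, hk⟩ := IsPGroup.iff_card.mp T.2
    have h1 : Nat.card (T : Subgroup (Y ⧸ ρ₀.ker)) ∣ Nat.card Y :=
      (Subgroup.card_subgroup_dvd_card _).trans (Subgroup.card_quotient_dvd_card _)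
    have h2 : Odd (Nat.card (T : Subgroup (Y ⧸ ρ₀.ker))) := Odd.of_dvd_nat hodd h1
    have h3 : k = 0 := by
      rcases k with _ | k
      · rfl
      · exfalso
        rw [hk, pow_succ] at h2
        exact (Nat.not_even_iff_odd.mpr h2) (by simp)
    rw [h3, pow_zero] at hk
    haveI : Subsingleton (T : Subgroup (Y ⧸ ρ₀.ker)) := (Nat.card_eq_one_iff_unique.mp hk).1
    exact ⟨⟨fun a b => Subsingleton.elim _ _⟩⟩
  intro x hx
  have h := abs_stable (frat_comm hDp) (frat_pow hDp) hp2 ρ hρ (x : Y ⧸ ρ₀.ker) (hquad x hx) T hT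
  rw [hO2, Subgroup.mem_bot, QuotientGroup.eq_one_iff, hker] at h
  exact h

/-- S0521. -/
theorem normal_pPrimeCore_sup_sylow {X : Type*} [Group X] [Finite X] [Group.IsSolvable X]
    (hX : Odd (Nat.card X)) (S : Sylow p X) (hS : IsCyclic (commutator (S : Subgroup X))) :
    (pPrimeCore p X ⊔ (S : Subgroup X)).Normal := by
  classical
  haveI hNn : (pPrimeCore p X).Normal := H05.pp_normal p
  by_cases hp2 : p = 2
  · subst hp2
    have h1 : (S : Subgroup X) = ⊥ := by
      obtain ⟨k, hk⟩ := IsPGroup.iff_card.mp S.2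
      have h2 : Odd (Nat.card (S : Subgroup X)) := Odd.of_dvd_nat hX (Subgroup.card_subgroup_dvd_card _)
      have h3 : k = 0 := by
        rcases k with _ | k
        · rfl
        · exfalso
          rw [hk, pow_succ] at h2
          exact (Nat.not_even_iff_odd.mpr h2) (by simp)
      rw [h3, pow_zero] at hk
      exact Subgroup.card_eq_one.mp hk
    rw [h1, sup_bot_eq]
    exact hNn
  set N := pPrimeCore p X with hN
  have hf : Function.Surjective (QuotientGroup.mk' N) := QuotientGroup.mk'_surjective N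
  let S' : Sylow p (X ⧸ N) := S.mapSurjective hf
  have hS'c : IsCyclic (commutator (S' : Subgroup (X ⧸ N))) := by
    let g : (S : Subgroup X) →* (S' : Subgroup (X ⧸ N)) :=
      (QuotientGroup.mk' N).subgroupMap (S : Subgroup X)
    have hg : Function.Surjective g := (QuotientGroup.mk' N).subgroupMap_surjective _
    have h1 : (commutator (S : Subgroup X)).map g = commutator (S' : Subgroup (X ⧸ N)) := by
      rw [commutator_def, commutator_def, Subgroup.map_commutator,
        Subgroup.map_top_of_surjective g hg]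
    have h2 : Function.Surjective (g.subgroupMap (commutator (S : Subgroup X))) :=
      g.subgroupMap_surjective _
    rw [← h1]
    exact isCyclic_of_surjective _ h2
  have hY : Odd (Nat.card (X ⧸ N)) := Odd.of_dvd_nat hX (Subgroup.card_quotient_dvd_card _)
  haveI : Group.IsSolvable (X ⧸ N) := solvable_of_surjective hf
  have hle := sylow_le_pCore_of_cyclic_commutator hY hp2 (H08.pPrimeCore_quotient_eq_bot p) S' hS'c
  have heq : (S' : Subgroup (X ⧸ N)) = pCore p (X ⧸ N) :=
    le_antisymm hle (H01.pCore_le_sylow p S')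
  have h1 : N ⊔ (S : Subgroup X) = (S' : Subgroup (X ⧸ N)).comap (QuotientGroup.mk' N) := by
    have h2 : (S' : Subgroup (X ⧸ N)) = (S : Subgroup X).map (QuotientGroup.mk' N) := rfl
    rw [h2, Subgroup.comap_map_eq, QuotientGroup.ker_mk', sup_comm]
  rw [h1, heq]
  exact Subgroup.Normal.comap (H01.pCore_normal p) _

end Cfsg.Agent.H02
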