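import Cfsg.Agent.Lib.H02.Stn1
import Cfsg.Agent.Lib.H27.GolayBasic

/-!
Exhaustive search for the systems S(4,5,11) on eleven points, by bit masks.
-/

set_option autoImplicit false
set_option maxRecDepth 100000

namespace Cfsg.Agent.H02.Stn

open Cfsg Cfsg.Agent.H27.Golay

/-- The 4-subsets of eleven points, as masks. -/
def foursL : List ℕ := [15, 23, 39, 71, 135, 263, 519, 1031, 27, 43, 75, 139, 267, 523, 1035, 51, 83, 147, 275, 531, 1043, 99, 163, 291, 547, 1059, 195, 323, 579, 1091, 387, 643, 1155, 771, 1283, 1539, 29, 45, 77, 141, 269, 525, 1037, 53, 85, 149, 277, 533, 1045, 101, 165, 293, 549, 1061, 197, 325, 581, 1093, 389, 645, 1157, 773, 1285, 1541, 57, 89, 153, 281, 537, 1049, 105, 169, 297, 553, 1065, 201, 329, 585, 1097, 393, 649, 1161, 777, 1289, 1545, 113, 177, 305, 561, 1073, 209, 337, 593, 1105, 401, 657, 1169, 785, 1297, 1553, 225, 353, 609, 1121, 417, 673, 1185, 801, 1313, 1569, 449, 705, 1217, 833, 1345, 1601, 897, 1409, 1665, 1793, 30, 46, 78, 142, 270, 526, 1038, 54, 86, 150, 278, 534, 1046, 102, 166, 294, 550,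 1062, 198, 326, 582, 1094, 390, 646, 1158, 774, 1286, 1542, 58, 90, 154, 282, 538, 1050, 106, 170, 298, 554, 1066, 202, 330, 586, 1098, 394, 650, 1162, 778, 1290, 1546, 114, 178, 306, 562, 1074, 210, 338, 594, 1106, 402, 658, 1170, 786, 1298, 1554, 226, 354, 610, 1122, 418, 674, 1186, 802, 1314, 1570, 450, 706, 1218, 834, 1346, 1602, 898, 1410, 1666, 1794, 60, 92, 156, 284, 540, 1052, 108, 172, 300, 556, 1068, 204, 332, 588, 1100, 396, 652, 1164, 780, 1292, 1548, 116, 180, 308, 564, 1076, 212, 340, 596, 1108, 404, 660, 1172, 788, 1300, 1556, 228, 356, 612, 1124, 420, 676, 1188, 804, 1316, 1572, 452, 708, 1220, 836, 1348, 1604, 900, 1412, 1668, 1796, 120, 184, 312, 568, 1080, 216, 344, 600, 1112, 408, 664, 1176, 792, 1304, 1560, 232, 360, 616, 1128, 424, 680, 1192, 808, 1320, 1576, 456, 712, 1224, 840, 1352, 1608, 904, 1416, 1672, 1800, 240, 368, 624, 1136, 432, 688, 1200, 816, 1328, 1584, 464, 720, 1232, 848, 1360, 1616, 912, 1424, 1680, 1808, 480, 736, 1248, 864, 1376, 1632, 928, 1440, 1696, 1824, 960, 1472, 1728, 1856, 1920]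

/-- The canonical system. -/
def canonL : List ℕ := [31, 103, 121, 171, 182, 213, 218, 236, 301, 314, 334, 339, 372, 391, 412, 433, 457, 482, 558, 565, 587, 604, 626, 653, 659, 696, 710, 737, 790, 793, 803, 837, 872, 906, 932, 976, 1075, 1084, 1101, 1110, 1130, 1166, 1177, 1189, 1219, 1264, 1291, 1301, 1318, 1368, 1377, 1426, 1448, 1476, 1543, 1562, 1577, 1617, 1636, 1684, 1698, 1736, 1804, 1840, 1858, 1921]

/-- Relabelings, four bits per entry. -/
def permsL : List ℕ := [11649936536080, 9322585403920, 5942249009680, 6982132314640, 8269600141840, 10610053231120, 8291793252880, 10619144385040, 9300392292880, 11640845382160, 6973041160720, 5951340163600, 6006673519120, 7239830352400, 11585512026640, 9515858932240, 10352355193360, 8076326613520, 9171543274000, 11447571853840, 8420642271760, 10490295366160, 6144613691920, 7101890179600, 10332206805520, 8068257821200, 7259978740240, 6014742311440, 9523927724560, 11577443234320, 7324403249680, 6079166820880, 10267782296080, 8132682330640, 11513018724880, 9459503215120]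

/-- The subset of eleven points with a given mask. -/
def fm (m : ℕ) : Finset (Fin 11) := Finset.univ.filter (fun i => m.testBit i = true)

theorem mem_fm {m : ℕ} {i : Fin 11} : i ∈ fm m ↔ m.testBit i = true := by
  simp [fm]

/-- The mask of a subset. -/
def mkm (s : Finset (Fin 11)) : ℕ := Nat.ofBits (fun i : Fin 11 => decide (i ∈ s))

theorem testBit_mkm (s : Finset (Fin 11)) (i : Fin 11) : (mkm s).testBit i = decide (i ∈ s) := by
  unfold mkm
  rw [Nat.testBit_ofBits_lt _ _ i.2]

theorem mkm_lt (s : Finset (Fin 11)) : mkm s < 2 ^ 11 := Nat.ofBits_lt_two_pow _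

@[simp] theorem fm_mkm (s : Finset (Fin 11)) : fm (mkm s) = s := by
  ext i
  rw [mem_fm, testBit_mkm]
  simp

theorem mkm_fm {m : ℕ} (hm : m < 2 ^ 11) : mkm (fm m) = m := by
  apply Nat.eq_of_testBit_eq
  intro i
  by_cases hi : i < 11
  · have h := testBit_mkm (fm m) ⟨i, hi⟩
    rw [h]
    by_cases h2 : m.testBit i = true
    · have : (⟨i, hi⟩ : Fin 11) ∈ fm m := mem_fm.mpr h2
      simp [this, h2]
    · have : (⟨i, hi⟩ : Fin 11) ∉ fm m := fun h3 => h2 (mem_fm.mp h3)
      simp [this, h2]
  · have h1 : mkm (fm m) < 2 ^ i :=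
      lt_of_lt_of_le (mkm_lt _) (Nat.pow_le_pow_right (by norm_num) (by omega))
    have h2 : m < 2 ^ i :=
      lt_of_lt_of_le hm (Nat.pow_le_pow_right (by norm_num) (by omega))
    rw [Nat.testBit_eq_false_of_lt h1, Nat.testBit_eq_false_of_lt h2]

theorem fm_injOn {m n : ℕ} (hm : m < 2 ^ 11) (hn : n < 2 ^ 11) (h : fm m = fm n) : m = n := by
  rw [← mkm_fm hm, ← mkm_fm hn, h]

theorem fm_and (m n : ℕ) : fm (m &&& n) = fm m ∩ fm n := by
  ext i
  simp [mem_fm, Nat.testBit_and]

theorem fm_or_bit (s x : ℕ) (hx : x < 11) : fm (s ||| (1 <<< x)) = insert ⟨x, hx⟩ (fm s) := by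
  ext i
  rw [mem_fm, Nat.testBit_or, Nat.one_shiftLeft, Nat.testBit_two_pow, Finset.mem_insert, mem_fm]
  simp only [Bool.or_eq_true, decide_eq_true_eq, Fin.ext_iff]
  constructor
  · rintro (h | h)
    · exact Or.inr h
    · exact Or.inl h.symm
  · rintro (h | h)
    · exact Or.inr h.symm
    · exact Or.inl h

theorem and_lt {m n : ℕ} (hm : m < 2 ^ 11) : m &&& n < 2 ^ 11 :=
  lt_of_le_of_lt Nat.and_le_left hm

theorem or_bit_lt {s x : ℕ} (hs : s < 2 ^ 11) (hx : x < 11) : s ||| (1 <<< x) < 2 ^ 11 := by
  apply Nat.or_lt_two_pow hs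
  rw [Nat.one_shiftLeft]
  exact Nat.pow_lt_pow_right (by norm_num) hx

/-- Popcount, by table. -/
def pc11 (m : ℕ) : ℕ := Nat.land (Nat.shiftRight pcTbl (Nat.mul 4 m)) 15

theorem pc11_table : ∀ m : Fin 2048, pc11 m = (fm m).card := by decide +kernel

theorem pc11_spec {m : ℕ} (hm : m < 2 ^ 11) : pc11 m = (fm m).card := pc11_table ⟨m, hm⟩

/-- Is `s` inside a member of the list? -/
def cov (s : ℕ) (L : List ℕ) : Bool :=
  List.rec (motive := fun _ => Bool) false (fun c _ ih => Bool.rec ih true (Nat.beq (Nat.land s c) s)) L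

theorem cov_cons (s c : ℕ) (L : List ℕ) :
    cov s (c :: L) = Bool.rec (cov s L) true (Nat.beq (Nat.land s c) s) := rfl

theorem cov_iff {s : ℕ} {L : List ℕ} : cov s L = true ↔ ∃ c ∈ L, s &&& c = s := by
  induction L with
  | nil => simp [cov]
  | cons c L ih =>
    rw [cov_cons]
    have h1 : Nat.land s c = s &&& c := rfl
    rw [h1]
    cases h : Nat.beq (s &&& c) s with
    | false =>
      have h2 : s &&& c ≠ s := by
        intro e
        rw [e, Nat.beq_refl] at h
        cases h
      show cov s L = true ↔ _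
      rw [ih]
      simp [h2]
    | true =>
      have h2 : s &&& c = s := Nat.eq_of_beq_eq_true h
      simp [h2]

/-- Is `z` compatible with all members of the list? -/
def compat (z : ℕ) (L : List ℕ) : Bool :=
  List.rec (motive := fun _ => Bool) true (fun c _ ih => Bool.rec false ih (Nat.ble (pc11 (Nat.land z c)) 3)) L

theorem compat_cons (z c : ℕ) (L : List ℕ) :
    compat z (c :: L) = Bool.rec false (compat z L) (Nat.ble (pc11 (Nat.land z c)) 3) := rfl

theorem compat_of {z : ℕ} {L : List ℕ} (h : ∀ c ∈ L, pc11 (z &&& c) ≤ 3) : compat z L = true := by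
  induction L with
  | nil => rfl
  | cons c L ih =>
    rw [compat_cons]
    have h1 : Nat.ble (pc11 (Nat.land z c)) 3 = true := Nat.ble_eq.mpr (h c List.mem_cons_self)
    rw [h1]
    exact ih (fun d hd => h d (List.mem_cons_of_mem _ hd))

/-- Drop the leading members of the list that are already covered. -/
def skipCov (chosen : List ℕ) (L : List ℕ) : List ℕ :=
  List.rec (motive := fun _ => List ℕ) [] (fun s rest ih => Bool.rec (s :: rest) ih (cov s chosen)) L

theorem skipCov_cons (chosen : List ℕ) (s : ℕ) (L : List ℕ) :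
    skipCov chosen (s :: L) = Bool.rec (s :: L) (skipCov chosen L) (cov s chosen) := rfl

theorem skipCov_spec (chosen L : List ℕ) :
    (∀ t ∈ L, cov t chosen = true ∨ t ∈ skipCov chosen L) ∧
      ∀ s r, skipCov chosen L = s :: r → s ∈ L ∧ cov s chosen = false := by
  induction L with
  | nil =>
    exact ⟨fun t ht => (by cases ht), fun s r h => (by cases h)⟩
  | cons a L ih =>
    rw [skipCov_cons]
    cases h : cov a chosen with
    | false =>
      refine ⟨fun t ht => Or.inr ht, ?_⟩
      intro s r hs
      have hs' : a :: L = s :: r := hs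
      injection hs' with h1 h2
      subst h1
      exact ⟨List.mem_cons_self, h⟩
    | true =>
      refine ⟨?_, ?_⟩
      · intro t ht
        rcases List.mem_cons.mp ht with rfl | ht
        · exact Or.inl h
        · exact ih.1 t ht
      · intro s r hs
        have := ih.2 s r hs
        exact ⟨List.mem_cons_of_mem _ this.1, this.2⟩

theorem skipCov_sub (chosen L : List ℕ) : ∀ t ∈ skipCov chosen L, t ∈ L := by
  induction L with
  | nil => intro t ht; cases ht
  | cons a L ih =>
    rw [skipCov_cons]
    cases h : cov a chosen with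
    | false => intro t ht; exact ht
    | true =>
      intro t ht
      exact List.mem_cons_of_mem _ (ih t ht)

/-- The search. -/
def searchCov (leaf : List ℕ → Bool) : ℕ → List ℕ → List ℕ → Bool :=
  fun n => Nat.rec (motive := fun _ => List ℕ → List ℕ → Bool) (fun _ _ => false)
    (fun _ ih chosen rest =>
      List.rec (motive := fun _ => Bool) (leaf chosen)
        (fun s r _ => allBelow (fun x =>
          Bool.rec
            (Bool.rec true (ih (Nat.lor s (Nat.shiftLeft 1 x) :: chosen) r)
              (compat (Nat.lor s (Nat.shiftLeft 1 x)) chosen))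
            true (Nat.testBit s x)) 11)
        (skipCov chosen rest)) n

theorem searchCov_succ (leaf : List ℕ → Bool) (n : ℕ) (chosen rest : List ℕ) :
    searchCov leaf (n + 1) chosen rest =
      List.rec (motive := fun _ => Bool) (leaf chosen)
        (fun s r _ => allBelow (fun x =>
          Bool.rec
            (Bool.rec true (searchCov leaf n (Nat.lor s (Nat.shiftLeft 1 x) :: chosen) r)
              (compat (Nat.lor s (Nat.shiftLeft 1 x)) chosen))
            true (Nat.testBit s x)) 11)
        (skipCov chosen rest) := rfl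

section sound

variable {D : Set (Finset (Fin 11))} (hD : IsSteinerSystem 4 5 D) {L : List ℕ}
  (hL : ∀ s : Finset (Fin 11), s.card = 4 → mkm s ∈ L)
  (hL' : ∀ s ∈ L, s < 2 ^ 11 ∧ pc11 s = 4)

include hD hL hL'

theorem searchCov_sound (leaf : List ℕ → Bool) (n : ℕ) (chosen rest : List ℕ)
    (h1 : ∀ c ∈ chosen, c < 2 ^ 11 ∧ fm c ∈ D)
    (h2 : ∀ t ∈ L, t ∈ rest ∨ cov t chosen = true)
    (h3 : ∀ t ∈ rest, t ∈ L)
    (hs : searchCov leaf n chosen rest = true) :
    ∃ ch, leaf ch = true ∧ (∀ c ∈ ch, c < 2 ^ 11 ∧ fm c ∈ D) ∧ ∀ b ∈ D, mkm b ∈ ch := by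
  induction n generalizing chosen rest with
  | zero => cases hs
  | succ n ih =>
    rw [searchCov_succ] at hs
    obtain ⟨hsk1, hsk2⟩ := skipCov_spec chosen rest
    cases hsk : skipCov chosen rest with
    | nil =>
      rw [hsk] at hs hsk1
      refine ⟨chosen, hs, h1, ?_⟩
      intro b hb
      have hcard := hD.1 b hb
      obtain ⟨S, hSb, hSc⟩ := Finset.exists_subset_card_eq (show 4 ≤ b.card by omega)
      have hm := hL S hSc
      have hcov : cov (mkm S) chosen = true := by
        rcases h2 _ hm with h | h
        · rcases hsk1 _ h with h' | h'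
          · exact h'
          · cases h'
        · exact h
      obtain ⟨c, hc, hce⟩ := cov_iff.mp hcov
      have hSc' : S ⊆ fm c := by
        have h4 := fm_and (mkm S) c
        rw [hce, fm_mkm] at h4
        intro y hy
        rw [h4] at hy
        exact (Finset.mem_inter.mp hy).2
      have hbc : b = fm c := by
        apply eq_of_le_inter hD hb (h1 c hc).2
        rw [← hSc]
        exact Finset.card_le_card (Finset.subset_inter hSb hSc')
      rw [hbc, mkm_fm (h1 c hc).1]
      exact hc
    | cons s r =>
      rw [hsk] at hs hsk1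
      obtain ⟨hsr, hsc⟩ := hsk2 s r hsk
      have hsL := h3 s hsr
      obtain ⟨hs1, hs2⟩ := hL' s hsL
      have hcard : (fm s).card = 4 := by
        rw [← pc11_spec hs1, hs2]
      obtain ⟨b, ⟨hb, hsb⟩, -⟩ := hD.2 (fm s) hcard
      have hbc := hD.1 b hb
      obtain ⟨x, hxb, hxs⟩ := Finset.exists_mem_notMem_of_card_lt_card (show (fm s).card < b.card by omega)
      have hz : fm (s ||| (1 <<< x.1)) = b := by
        rw [fm_or_bit s x.1 x.2]
        apply Finset.eq_of_subset_of_card_le
        · intro y hy
          rcases Finset.mem_insert.mp hy with rfl | hy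
          · exact hxb
          · exact hsb hy
        · rw [Finset.card_insert_of_notMem hxs, hcard, hbc]
      have hx := allBelow_spec hs x.1 x.2
      have htb : Nat.testBit s x.1 = false := by
        cases h : Nat.testBit s x.1 with
        | false => rfl
        | true => exact absurd (mem_fm.mpr h) hxs
      have hzlt : s ||| (1 <<< x.1) < 2 ^ 11 := or_bit_lt hs1 x.2
      have hcomp : compat (s ||| (1 <<< x.1)) chosen = true := by
        apply compat_of
        intro c hc
        rw [pc11_spec (and_lt hzlt), fm_and, hz]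
        by_contra hcon
        have heq : b = fm c := eq_of_le_inter hD hb (h1 c hc).2 (by omega)
        have hcov : cov s chosen = true := by
          apply cov_iff.mpr
          refine ⟨c, hc, ?_⟩
          apply fm_injOn (and_lt hs1) hs1
          rw [fm_and, Finset.inter_eq_left, ← heq]
          exact hsb
        rw [hcov] at hsc
        cases hsc
      have hl1 : Nat.lor s (Nat.shiftLeft 1 x.1) = s ||| (1 <<< x.1) := rfl
      simp only [hl1, htb, hcomp] at hx
      apply ih _ r _ _ _ hx
      · intro c hc
        rcases List.mem_cons.mp hc with rfl | hc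
        · rw [hz]
          exact ⟨hzlt, hb⟩
        · exact h1 c hc
      · intro t ht
        rcases h2 t ht with h | h
        · rcases hsk1 t h with h' | h'
          · right
            obtain ⟨c, hc, hce⟩ := cov_iff.mp h'
            exact cov_iff.mpr ⟨c, List.mem_cons_of_mem _ hc, hce⟩
          · rcases List.mem_cons.mp h' with rfl | h'
            · right
              apply cov_iff.mpr
              refine ⟨_, List.mem_cons_self, ?_⟩
              apply fm_injOn (and_lt hs1) hs1
              rw [fm_and, hz, Finset.inter_eq_left]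
              exact hsb
            · exact Or.inl h'
        · right
          obtain ⟨c, hc, hce⟩ := cov_iff.mp h
          exact cov_iff.mpr ⟨c, List.mem_cons_of_mem _ hc, hce⟩
      · intro t ht
        apply h3
        apply skipCov_sub chosen
        rw [hsk]
        exact List.mem_cons_of_mem _ ht

end sound

end Cfsg.Agent.H02.Stn
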