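import Cfsg.Agent.Lib.H02.Stn10

/-!
The canonical S(4,5,11) and the uniqueness theorem.
-/

set_option autoImplicit false
set_option maxRecDepth 100000

namespace Cfsg.Agent.H02.Stn

open Cfsg Cfsg.Agent.H27.Golay

/-- Entry of a relabeling. -/
def pa11 (π i : ℕ) : ℕ := Nat.land (Nat.shiftRight π (Nat.mul 4 i)) 15

/-- Image of the first `n` bits of a mask. -/
def actN (π m : ℕ) (n : ℕ) : ℕ :=
  Nat.rec (motive := fun _ => ℕ) 0
    (fun k ih => Nat.lor ih (Bool.rec 0 (Nat.shiftLeft 1 (pa11 π k)) (Nat.testBit m k))) n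

/-- Image of a mask. -/
def act11 (π m : ℕ) : ℕ := actN π m 11

theorem testBit_actN (π m n j : ℕ) :
    (actN π m n).testBit j = true ↔ ∃ k, k < n ∧ m.testBit k = true ∧ pa11 π k = j := by
  induction n with
  | zero =>
    simp [actN]
  | succ n ih =>
    have h1 : actN π m (n + 1) =
        (actN π m n) ||| (Bool.rec 0 (1 <<< (pa11 π n)) (Nat.testBit m n)) := rfl
    rw [h1, Nat.testBit_or, Bool.or_eq_true, ih]
    constructor
    · rintro (⟨k, hk, h2, h3⟩ | h)
      · exact ⟨k, by omega, h2, h3⟩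
      · cases hb : Nat.testBit m n with
        | false =>
          rw [hb] at h
          simp at h
        | true =>
          rw [hb] at h
          have h' : (1 <<< (pa11 π n)).testBit j = true := h
          rw [Nat.one_shiftLeft, Nat.testBit_two_pow] at h'
          exact ⟨n, by omega, hb, by simpa using h'⟩
    · rintro ⟨k, hk, h2, h3⟩
      rcases Nat.lt_succ_iff_lt_or_eq.mp hk with hk | rfl
      · exact Or.inl ⟨k, hk, h2, h3⟩
      · right
        rw [h2]
        show (1 <<< (pa11 π k)).testBit j = true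
        rw [Nat.one_shiftLeft, Nat.testBit_two_pow, h3]
        simp

/-- Membership in a list, by a fast loop. -/
def inL (m : ℕ) (L : List ℕ) : Bool :=
  List.rec (motive := fun _ => Bool) false (fun x _ ih => Bool.rec ih true (Nat.beq x m)) L

theorem inL_spec {m : ℕ} {L : List ℕ} (h : inL m L = true) : m ∈ L := by
  induction L with
  | nil => cases h
  | cons a L ih =>
    have h1 : (Bool.rec (inL m L) true (Nat.beq a m) : Bool) = true := h
    cases h2 : Nat.beq a m with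
    | false =>
      rw [h2] at h1
      exact List.mem_cons_of_mem _ (ih h1)
    | true =>
      have := Nat.eq_of_beq_eq_true h2
      rw [← this]
      exact List.mem_cons_self

/-- Existence in a list, by a fast loop. -/
def anyL (f : ℕ → Bool) (L : List ℕ) : Bool :=
  List.rec (motive := fun _ => Bool) false (fun x _ ih => Bool.rec ih true (f x)) L

theorem anyL_spec {f : ℕ → Bool} {L : List ℕ} (h : anyL f L = true) : ∃ x ∈ L, f x = true := by
  induction L with
  | nil => cases h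
  | cons a L ih =>
    have h1 : (Bool.rec (anyL f L) true (f a) : Bool) = true := h
    cases h2 : f a with
    | false =>
      rw [h2] at h1
      obtain ⟨x, hx, hf⟩ := ih h1
      exact ⟨x, List.mem_cons_of_mem _ hx, hf⟩
    | true =>
      exact ⟨a, List.mem_cons_self, h2⟩

/-- The test at the leaves. -/
def leafChk (ch : List ℕ) : Bool :=
  anyL (fun π => allL (fun c => inL (act11 π c) canonL) ch) permsL

theorem search_ok : searchCov leafChk 70 [171, 103, 31] foursL = true := by decide +kernel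

theorem leaf_spec {ch : List ℕ} (h : leafChk ch = true) :
    ∃ π ∈ permsL, ∀ c ∈ ch, act11 π c ∈ canonL := by
  obtain ⟨π, hπ, h2⟩ := anyL_spec h
  exact ⟨π, hπ, fun c hc => inL_spec (allL_spec h2 c hc)⟩

/-- A valid relabeling. -/
def permOK11 (π : ℕ) : Bool :=
  allBelow (fun i => Nat.ble (pa11 π i) 10 && allBelow (fun j => Nat.beq i j || !Nat.beq (pa11 π i) (pa11 π j)) 11) 11

theorem perms_ok : allL permOK11 permsL = true := by decide +kernel

theorem perm_lt {π : ℕ} (h : permOK11 π = true) (i : Fin 11) : pa11 π i < 11 := by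
  have h1 := allBelow_spec h i.1 i.2
  rw [Bool.and_eq_true] at h1
  have := Nat.le_of_ble_eq_true h1.1
  omega

theorem perm_inj {π : ℕ} (h : permOK11 π = true) {i j : Fin 11} (he : pa11 π i = pa11 π j) : i = j := by
  have h1 := allBelow_spec h i.1 i.2
  rw [Bool.and_eq_true] at h1
  have h2 := allBelow_spec h1.2 j.1 j.2
  rw [he] at h2
  simp only [Nat.beq_refl, Bool.not_true, Bool.or_false] at h2
  exact Fin.ext (Nat.eq_of_beq_eq_true h2)

theorem fm_act {π : ℕ} (h : permOK11 π = true) (m : ℕ) :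
    fm (act11 π m) = (fm m).image (fun i : Fin 11 => (⟨pa11 π i, perm_lt h i⟩ : Fin 11)) := by
  ext j
  rw [mem_fm, Finset.mem_image]
  show (actN π m 11).testBit j = true ↔ _
  rw [testBit_actN]
  constructor
  · rintro ⟨k, hk, h1, h2⟩
    exact ⟨⟨k, hk⟩, mem_fm.mpr h1, Fin.ext h2⟩
  · rintro ⟨k, hk, rfl⟩
    exact ⟨k.1, k.2, mem_fm.mp hk, rfl⟩

/-- The canonical system. -/
def canonSet : Set (Finset (Fin 11)) := {b | ∃ c ∈ canonL, fm c = b}

theorem fours_spec : ∀ s ∈ foursL, s < 2 ^ 11 ∧ pc11 s = 4 := by decide +kernel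

theorem fours_all_loop : allBelow (fun m => !(Nat.beq (pc11 m) 4) || inL m foursL) 2048 = true := by decide +kernel

theorem fours_all (s : Finset (Fin 11)) (hs : s.card = 4) : mkm s ∈ foursL := by
  have h1 := allBelow_spec fours_all_loop (mkm s) (mkm_lt s)
  have h2 : pc11 (mkm s) = 4 := by
    rw [pc11_spec (mkm_lt s), fm_mkm, hs]
  rw [h2] at h1
  exact inL_spec (by simpa using h1)

theorem canon_spec : ∀ c ∈ canonL, c < 2 ^ 11 ∧ pc11 c = 5 := by decide +kernel

theorem canon_cov : ∀ s ∈ foursL, cov s canonL = true := by decide +kernel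

theorem canon_pair : ∀ c ∈ canonL, ∀ d ∈ canonL, c = d ∨ pc11 (c &&& d) ≤ 3 := by decide +kernel

theorem canon_steiner : IsSteinerSystem 4 5 canonSet := by
  refine ⟨?_, ?_⟩
  · rintro b ⟨c, hc, rfl⟩
    obtain ⟨h1, h2⟩ := canon_spec c hc
    rw [← pc11_spec h1, h2]
  · intro s hs
    obtain ⟨c, hc, hce⟩ := cov_iff.mp (canon_cov _ (fours_all s hs))
    have hsc : s ⊆ fm c := by
      have h4 := fm_and (mkm s) c
      rw [hce, fm_mkm] at h4
      intro y hy
      rw [h4] at hy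
      exact (Finset.mem_inter.mp hy).2
    refine ⟨fm c, ⟨⟨c, hc, rfl⟩, hsc⟩, ?_⟩
    rintro b ⟨⟨d, hd, rfl⟩, hsd⟩
    rcases canon_pair d hd c hc with h | h
    · rw [h]
    · exfalso
      rw [pc11_spec (and_lt (canon_spec d hd).1), fm_and] at h
      have : s ⊆ fm d ∩ fm c := Finset.subset_inter hsd hsc
      have := Finset.card_le_card this
      omega

/-- A system containing the three base blocks maps into the canonical one. -/
theorem canon_of_normal {D : Set (Finset (Fin 11))} (hD : IsSteinerSystem 4 5 D)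
    (h1 : fm 31 ∈ D) (h2 : fm 103 ∈ D) (h3 : fm 171 ∈ D) :
    ∃ f : Fin 11 → Fin 11, Function.Injective f ∧ ∀ b ∈ D, b.image f ∈ canonSet := by
  obtain ⟨ch, hleaf, hch, hall⟩ := searchCov_sound hD fours_all fours_spec leafChk 70 [171, 103, 31] foursL
    (by
      intro c hc
      simp only [List.mem_cons, List.not_mem_nil, or_false] at hc
      rcases hc with rfl | rfl | rfl
      · exact ⟨by norm_num, h3⟩
      · exact ⟨by norm_num, h2⟩
      · exact ⟨by norm_num, h1⟩)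
    (fun t ht => Or.inl ht) (fun t ht => ht) search_ok
  obtain ⟨π, hπ, hact⟩ := leaf_spec hleaf
  have hok := allL_spec perms_ok π hπ
  refine ⟨fun i => ⟨pa11 π i, perm_lt hok i⟩, ?_, ?_⟩
  · intro i j hij
    exact perm_inj hok (congrArg Fin.val hij)
  · intro b hb
    refine ⟨_, hact _ (hall b hb), ?_⟩
    rw [fm_act hok, fm_mkm]

section transport

variable {α β : Type*} [Fintype α] [DecidableEq α] [Fintype β] [DecidableEq β]

theorem steiner_image {t k : ℕ} {D : Set (Finset α)} (hD : IsSteinerSystem t k D) (e : α ≃ β) :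
    IsSteinerSystem t k ((fun b => b.image e) '' D) := by
  refine ⟨?_, ?_⟩
  · rintro _ ⟨b, hb, rfl⟩
    simp only
    rw [Finset.card_image_of_injective _ e.injective, hD.1 b hb]
  · intro s hs
    have hs' : (s.image e.symm).card = t := by
      rw [Finset.card_image_of_injective _ e.symm.injective, hs]
    obtain ⟨b, ⟨hb, hsb⟩, huniq⟩ := hD.2 _ hs'
    have himg : ∀ c : Finset α, s.image e.symm ⊆ c ↔ s ⊆ c.image e := by
      intro c
      constructor
      · intro h y hy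
        exact Finset.mem_image.mpr ⟨e.symm y, h (Finset.mem_image_of_mem _ hy), by simp⟩
      · intro h y hy
        obtain ⟨z, hz, rfl⟩ := Finset.mem_image.mp hy
        obtain ⟨w, hw, rfl⟩ := Finset.mem_image.mp (h hz)
        simpa using hw
    refine ⟨b.image e, ⟨⟨b, hb, rfl⟩, (himg b).mp hsb⟩, ?_⟩
    rintro _ ⟨⟨c, hc, rfl⟩, hsc⟩
    simp only
    rw [huniq c ⟨hc, (himg c).mpr hsc⟩]

theorem share4 {D : Set (Finset α)} (hD : IsSteinerSystem 4 5 D) {P b b' : Finset α} (hP : P.card = 4)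
    (hb : b ∈ D) (hb' : b' ∈ D) (h1 : P ⊆ b) (h2 : P ⊆ b') : b = b' := by
  apply eq_of_le_inter hD hb hb'
  rw [← hP]
  exact Finset.card_le_card (Finset.subset_inter h1 h2)

theorem insert_sub4 {a b c d : α} {s : Finset α} (h1 : a ∈ s) (h2 : b ∈ s) (h3 : c ∈ s) (h4 : d ∈ s) :
    ({a, b, c, d} : Finset α) ⊆ s := by
  intro x hx
  simp only [Finset.mem_insert, Finset.mem_singleton] at hx
  rcases hx with rfl | rfl | rfl | rfl <;> assumption

theorem card4 {a b c d : α} (h1 : a ≠ b) (h2 : a ≠ c) (h3 : a ≠ d) (h4 : b ≠ c) (h5 : b ≠ d) (h6 : c ≠ d) :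
    ({a, b, c, d} : Finset α).card = 4 := by
  rw [Finset.card_insert_of_notMem, Finset.card_insert_of_notMem, Finset.card_pair h6]
  · simp [h4, h5]
  · simp [h1, h2, h3]

theorem exists_fifth {D : Set (Finset α)} (hD : IsSteinerSystem 4 5 D) {P : Finset α} (hP : P.card = 4) :
    ∃ b ∈ D, P ⊆ b ∧ ∃ x ∈ b, x ∉ P := by
  obtain ⟨b, ⟨hb, hPb⟩, -⟩ := hD.2 P hP
  have h1 := hD.1 b hb
  obtain ⟨x, hx, hx'⟩ := Finset.exists_mem_notMem_of_card_lt_card (show P.card < b.card by omega)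
  exact ⟨b, hb, hPb, x, hx, hx'⟩

/-- Normalisation by a bijection with eleven points. -/
theorem exists_normal (hα : Fintype.card α = 11) {D : Set (Finset α)} (hD : IsSteinerSystem 4 5 D) :
    ∃ e : α ≃ Fin 11, fm 31 ∈ (fun b => b.image e) '' D ∧ fm 103 ∈ (fun b => b.image e) '' D ∧
      fm 171 ∈ (fun b => b.image e) '' D := by
  obtain e₀ := Fintype.equivFinOfCardEq hα
  have ne0 : ∀ i j : Fin 11, i ≠ j → e₀.symm i ≠ e₀.symm j := fun i j hij h => hij (e₀.symm.injective h)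
  set a0 := e₀.symm 0 with ha0
  set a1 := e₀.symm 1 with ha1
  set a2 := e₀.symm 2 with ha2
  set a3 := e₀.symm 3 with ha3
  have h01 : a0 ≠ a1 := ne0 _ _ (by decide)
  have h02 : a0 ≠ a2 := ne0 _ _ (by decide)
  have h03 : a0 ≠ a3 := ne0 _ _ (by decide)
  have h12 : a1 ≠ a2 := ne0 _ _ (by decide)
  have h13 : a1 ≠ a3 := ne0 _ _ (by decide)
  have h23 : a2 ≠ a3 := ne0 _ _ (by decide)
  obtain ⟨b1, hb1, hS1, x4, hx4, hx4'⟩ := exists_fifth hD (card4 h01 h02 h03 h12 h13 h23)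
  simp only [Finset.mem_insert, Finset.mem_singleton, not_or] at hx4'
  obtain ⟨h04, h14, h24, h34⟩ := hx4'
  have mem1 : ∀ {x}, x ∈ ({a0, a1, a2, a3} : Finset α) → x ∈ b1 := fun hx => hS1 hx
  have a0b1 : a0 ∈ b1 := mem1 (by simp)
  have a1b1 : a1 ∈ b1 := mem1 (by simp)
  have a2b1 : a2 ∈ b1 := mem1 (by simp)
  have a3b1 : a3 ∈ b1 := mem1 (by simp)
  have hlt : b1.card < (Finset.univ : Finset α).card := by
    rw [hD.1 b1 hb1, Finset.card_univ, hα]
    norm_num
  obtain ⟨x5, -, hx5⟩ := Finset.exists_mem_notMem_of_card_lt_card hlt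
  have h05 : a0 ≠ x5 := fun e => hx5 (e ▸ a0b1)
  have h15 : a1 ≠ x5 := fun e => hx5 (e ▸ a1b1)
  have h25 : a2 ≠ x5 := fun e => hx5 (e ▸ a2b1)
  have h35 : a3 ≠ x5 := fun e => hx5 (e ▸ a3b1)
  have h45 : x4 ≠ x5 := fun e => hx5 (e ▸ hx4)
  obtain ⟨b2, hb2, hS2, x6, hx6, hx6'⟩ := exists_fifth hD (card4 h01 h02 h05 h12 h15 h25)
  simp only [Finset.mem_insert, Finset.mem_singleton, not_or] at hx6'
  obtain ⟨h06, h16, h26, h56⟩ := hx6'
  have a0b2 : a0 ∈ b2 := hS2 (by simp)
  have a1b2 : a1 ∈ b2 := hS2 (by simp)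
  have a2b2 : a2 ∈ b2 := hS2 (by simp)
  have x5b2 : x5 ∈ b2 := hS2 (by simp)
  have hb12 : b1 ≠ b2 := fun e => hx5 (e ▸ x5b2)
  have a3b2 : a3 ∉ b2 := fun h => hb12 (share4 hD (card4 h01 h02 h03 h12 h13 h23) hb1 hb2 hS1 (insert_sub4 a0b2 a1b2 a2b2 h))
  have h36 : a3 ≠ x6 := fun e => a3b2 (e ▸ hx6)
  have h46 : x4 ≠ x6 := fun e => hb12 (share4 hD (card4 h01 h02 (Ne.symm h04) h12 (Ne.symm h14) (Ne.symm h24)) hb1 hb2
    (insert_sub4 a0b1 a1b1 a2b1 hx4) (insert_sub4 a0b2 a1b2 a2b2 (e ▸ hx6)))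
  obtain ⟨b3, hb3, hS3, x7, hx7, hx7'⟩ := exists_fifth hD (card4 h01 h03 h05 h13 h15 h35)
  simp only [Finset.mem_insert, Finset.mem_singleton, not_or] at hx7'
  obtain ⟨h07, h17, h37, h57⟩ := hx7'
  have a0b3 : a0 ∈ b3 := hS3 (by simp)
  have a1b3 : a1 ∈ b3 := hS3 (by simp)
  have a3b3 : a3 ∈ b3 := hS3 (by simp)
  have x5b3 : x5 ∈ b3 := hS3 (by simp)
  have hb13 : b1 ≠ b3 := fun e => hx5 (e ▸ x5b3)
  have hb23 : b2 ≠ b3 := fun e => a3b2 (e ▸ a3b3)
  have h27 : a2 ≠ x7 := fun e => hb13 (share4 hD (card4 h01 h02 h03 h12 h13 h23) hb1 hb3 hS1 (insert_sub4 a0b3 a1b3 (e ▸ hx7) a3b3))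
  have h47 : x4 ≠ x7 := fun e => hb13 (share4 hD (card4 h01 h03 (Ne.symm h04) h13 (Ne.symm h14) (Ne.symm h34)) hb1 hb3
    (insert_sub4 a0b1 a1b1 a3b1 hx4) (insert_sub4 a0b3 a1b3 a3b3 (e ▸ hx7)))
  have h67 : x6 ≠ x7 := fun e => hb23 (share4 hD (card4 h01 h05 (Ne.symm h06) h15 (Ne.symm h16) (Ne.symm h56)) hb2 hb3
    (insert_sub4 a0b2 a1b2 x5b2 hx6) (insert_sub4 a0b3 a1b3 x5b3 (e ▸ hx7)))
  let v : Fin 8 → α := ![a0, a1, a2, a3, x4, x5, x6, x7]
  have hv : Function.Injective v := by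
    intro i j hij
    by_contra hne
    fin_cases i <;> fin_cases j <;> simp [v] at hij hne <;> first
      | exact absurd hij (by assumption)
      | exact absurd hij.symm (by assumption)
      | exact absurd hij (Ne.symm (by assumption))
  let x : Fin 8 ↪ Fin 11 := ⟨fun i => e₀ (v i), e₀.injective.comp hv⟩
  let y : Fin 8 ↪ Fin 11 := Fin.castLEEmb (by norm_num)
  haveI := Equiv.Perm.isMultiplyPretransitive (Fin 11) 8
  obtain ⟨σ, hσ⟩ := MulAction.exists_smul_eq (Equiv.Perm (Fin 11)) x y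
  let e : α ≃ Fin 11 := e₀.trans σ
  have he : ∀ i : Fin 8, e (v i) = (Fin.castLE (by norm_num) i : Fin 11) := by
    intro i
    have := congrArg (fun f : Fin 8 ↪ Fin 11 => f i) hσ
    exact this
  have key : ∀ {b : Finset α} (hb : b ∈ D) (m : ℕ), (fm m).card = 5 → (∀ t ∈ fm m, ∃ i, v i ∈ b ∧ e (v i) = t) →
      fm m ∈ (fun b => b.image e) '' D := by
    intro b hb m hc hm
    refine ⟨b, hb, ?_⟩
    symm
    apply Finset.eq_of_subset_of_card_le
    · intro t ht
      obtain ⟨i, hi, hit⟩ := hm t ht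
      exact Finset.mem_image.mpr ⟨_, hi, hit⟩
    · simp only
      rw [Finset.card_image_of_injective _ e.injective, hD.1 b hb, hc]
  refine ⟨e, key hb1 31 (by decide) ?_, key hb2 103 (by decide) ?_, key hb3 171 (by decide) ?_⟩
  · have hdec : ∀ t ∈ fm 31, t = 0 ∨ t = 1 ∨ t = 2 ∨ t = 3 ∨ t = 4 := by decide
    intro t ht
    rcases hdec t ht with rfl | rfl | rfl | rfl | rfl
    · exact ⟨0, a0b1, he 0⟩
    · exact ⟨1, a1b1, he 1⟩
    · exact ⟨2, a2b1, he 2⟩
    · exact ⟨3, a3b1, he 3⟩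
    · exact ⟨4, hx4, he 4⟩
  · have hdec : ∀ t ∈ fm 103, t = 0 ∨ t = 1 ∨ t = 2 ∨ t = 5 ∨ t = 6 := by decide
    intro t ht
    rcases hdec t ht with rfl | rfl | rfl | rfl | rfl
    · exact ⟨0, a0b2, he 0⟩
    · exact ⟨1, a1b2, he 1⟩
    · exact ⟨2, a2b2, he 2⟩
    · exact ⟨5, x5b2, he 5⟩
    · exact ⟨6, hx6, he 6⟩
  · have hdec : ∀ t ∈ fm 171, t = 0 ∨ t = 1 ∨ t = 3 ∨ t = 5 ∨ t = 7 := by decide
    intro t ht
    rcases hdec t ht with rfl | rfl | rfl | rfl | rfl
    · exact ⟨0, a0b3, he 0⟩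
    · exact ⟨1, a1b3, he 1⟩
    · exact ⟨3, a3b3, he 3⟩
    · exact ⟨5, x5b3, he 5⟩
    · exact ⟨7, hx7, he 7⟩

/-- Every S(4,5,11) is isomorphic to the canonical one. -/
theorem exists_canon (hα : Fintype.card α = 11) {D : Set (Finset α)} (hD : IsSteinerSystem 4 5 D) :
    ∃ e : α ≃ Fin 11, (fun b => b.image e) '' D = canonSet := by
  obtain ⟨e₁, h1, h2, h3⟩ := exists_normal hα hD
  have hD₁ := steiner_image hD e₁
  obtain ⟨f, hf, hfD⟩ := canon_of_normal hD₁ h1 h2 h3
  have hbij : Function.Bijective f := Finite.injective_iff_bijective.mp hf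
  let σ : Fin 11 ≃ Fin 11 := Equiv.ofBijective f hbij
  refine ⟨e₁.trans σ, ?_⟩
  apply eq_of_subset (steiner_image hD _) canon_steiner (by norm_num)
  rintro _ ⟨b, hb, rfl⟩
  have := hfD _ ⟨b, hb, rfl⟩
  simp only [Finset.image_image] at this ⊢
  exact this

/-- Uniqueness of S(4,5,11). -/
theorem iso45 (hα : Fintype.card α = 11) (hβ : Fintype.card β = 11) {D : Set (Finset α)} {D' : Set (Finset β)}
    (hD : IsSteinerSystem 4 5 D) (hD' : IsSteinerSystem 4 5 D') : SetSystemIso D D' := by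
  obtain ⟨e, he⟩ := exists_canon hα hD
  obtain ⟨e', he'⟩ := exists_canon hβ hD'
  refine ⟨e.trans e'.symm, ?_⟩
  have h1 : ∀ b : Finset α, b.image (e.trans e'.symm) = (b.image e).image e'.symm := by
    intro b
    rw [Finset.image_image]
    rfl
  have h2 : (fun b : Finset (Fin 11) => b.image e'.symm) '' canonSet = D' := by
    rw [← he', Set.image_image]
    have : ∀ b : Finset β, (b.image e').image e'.symm = b := by
      intro b
      rw [Finset.image_image]
      simp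
    simp [this]
  rw [← h2, ← he, Set.image_image]
  simp only [h1]

end transport

end Cfsg.Agent.H02.Stn
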