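import Cfsg.Agent.Lib.H02.Stn11

/-!
Uniqueness of S(5,6,12).
-/

set_option autoImplicit false

namespace Cfsg.Agent.H02.Stn

open Cfsg Cfsg.Agent.H27.Steiner

variable {α β : Type*} [Fintype α] [DecidableEq α] [Fintype β] [DecidableEq β]

/-- The complement of a block of S(5,6,12) is a block. -/
theorem compl_mem_612 (hα : Fintype.card α = 12) {D : Set (Finset α)} (hD : IsSteinerSystem 5 6 D)
    {x : Finset α} (hx : x ∈ D) : xᶜ ∈ D := by
  have l5 : ∀ s : Finset α, s.card = 5 → lam D s = 1 := fun _ hs => lam_of_top hD hs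
  have l4 : ∀ s : Finset α, s.card = 4 → lam D s = 4 :=
    lam_down hD.1 (by norm_num) (by rw [hα]) l5
  have l3 : ∀ s : Finset α, s.card = 3 → lam D s = 12 :=
    lam_down hD.1 (by norm_num) (by rw [hα]) l4
  have l2 : ∀ s : Finset α, s.card = 2 → lam D s = 30 :=
    lam_down hD.1 (by norm_num) (by rw [hα]) l3
  have l1 : ∀ s : Finset α, s.card = 1 → lam D s = 66 :=
    lam_down hD.1 (by norm_num) (by rw [hα]) l2
  have l0 : ∀ s : Finset α, s.card = 0 → lam D s = 132 :=
    lam_down hD.1 (by norm_num) (by rw [hα]) l1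
  have cx := hD.1 x hx
  have m0 := moment l0 x
  have m1 := moment l1 x
  have m2 := moment l2 x
  have m3 := moment l3 x
  have m4 := moment l4 x
  rw [cx] at m0 m1 m2 m3 m4
  have hle : ∀ y ∈ D, y ≠ x → (y ∩ x).card ≤ 4 := by
    intro y hy hne
    by_contra hc
    exact hne (eq_of_le_inter hD hy hx (by omega))
  have hxb : x ∈ blocks D := mem_blocks.mpr hx
  by_contra hnot
  have hno : ∀ y ∈ D, y ≠ x → (y ∩ x).card ≠ 0 := by
    intro y hy hne h0
    apply hnot
    have hd : Disjoint y x := by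
      rw [Finset.disjoint_iff_inter_eq_empty]
      exact Finset.card_eq_zero.mp h0
    have hsub : y ⊆ xᶜ := by
      intro t ht
      rw [Finset.mem_compl]
      exact Finset.disjoint_left.mp hd ht
    have hc : xᶜ.card = 6 := by
      rw [Finset.card_compl, hα, cx]
    have : y = xᶜ := Finset.eq_of_subset_of_card_le hsub (by rw [hc, hD.1 y hy])
    rw [← this]
    exact hy
  have hpt : ∀ y ∈ (blocks D).erase x, (y ∩ x).card.choose 0 + (y ∩ x).card.choose 2 + (y ∩ x).card.choose 4
      = (y ∩ x).card.choose 1 + (y ∩ x).card.choose 3 := by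
    intro y hy
    rw [Finset.mem_erase, mem_blocks] at hy
    have h1 := hle y hy.2 hy.1
    have h2 := hno y hy.2 hy.1
    generalize (y ∩ x).card = i at h1 h2
    interval_cases i <;> first | exact absurd rfl h2 | norm_num [Nat.choose]
  have hs := Finset.sum_congr rfl hpt
  simp only [Finset.sum_add_distrib] at hs
  rw [← Finset.add_sum_erase _ _ hxb] at m0
  rw [← Finset.add_sum_erase _ _ hxb] at m1
  rw [← Finset.add_sum_erase _ _ hxb] at m2
  rw [← Finset.add_sum_erase _ _ hxb] at m3
  rw [← Finset.add_sum_erase _ _ hxb] at m4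
  simp only [Finset.inter_self, cx] at m0 m1 m2 m3 m4
  have e0 : Nat.choose 6 0 = 1 := rfl
  have e1 : Nat.choose 6 1 = 6 := rfl
  have e2 : Nat.choose 6 2 = 15 := rfl
  have e3 : Nat.choose 6 3 = 20 := rfl
  have e4 : Nat.choose 6 4 = 15 := rfl
  rw [e0] at m0
  rw [e1] at m1
  rw [e2] at m2
  rw [e3] at m3
  rw [e4] at m4
  omega

/-- Extension of a bijection of the complements of two points. -/
def extEquiv (a : α) (b : β) (e₀ : {x // x ≠ a} ≃ {y // y ≠ b}) : α ≃ β where
  toFun x := if h : x = a then b else (e₀ ⟨x, h⟩).1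
  invFun y := if h : y = b then a else (e₀.symm ⟨y, h⟩).1
  left_inv := by
    intro x
    by_cases h : x = a
    · simp [h]
    · have h2 : (e₀ ⟨x, h⟩).1 ≠ b := (e₀ ⟨x, h⟩).2
      simp [h, h2]
  right_inv := by
    intro y
    by_cases h : y = b
    · simp [h]
    · have h2 : (e₀.symm ⟨y, h⟩).1 ≠ a := (e₀.symm ⟨y, h⟩).2
      simp [h, h2]

theorem extEquiv_self (a : α) (b : β) (e₀ : {x // x ≠ a} ≃ {y // y ≠ b}) : extEquiv a b e₀ a = b := by
  simp [extEquiv]

theorem extEquiv_ne {a : α} (b : β) (e₀ : {x // x ≠ a} ≃ {y // y ≠ b}) {x : α} (h : x ≠ a) :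
    extEquiv a b e₀ x = (e₀ ⟨x, h⟩).1 := by
  simp [extEquiv, h]

/-- Extending an isomorphism of the derived systems. -/
theorem ext_iso {a : α} {b : β} {D : Set (Finset α)} {D' : Set (Finset β)}
    (e₀ : {x // x ≠ a} ≃ {y // y ≠ b}) (he : (fun l => l.image e₀) '' derived D a = derived D' b)
    {z : Finset α} (hz : z ∈ D) (ha : a ∈ z) : z.image (extEquiv a b e₀) ∈ D' := by
  have h1 : (z.subtype (fun x => x ≠ a)).image e₀ ∈ derived D' b := by
    rw [← he]
    exact ⟨_, ⟨z, hz, ha, rfl⟩, rfl⟩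
  obtain ⟨z', hz', hb, hzz⟩ := h1
  have : z.image (extEquiv a b e₀) = z' := by
    ext t
    simp only [Finset.mem_image]
    constructor
    · rintro ⟨w, hw, rfl⟩
      by_cases hwa : w = a
      · rw [hwa, extEquiv_self]
        exact hb
      · rw [extEquiv_ne b e₀ hwa]
        have : e₀ ⟨w, hwa⟩ ∈ (z.subtype (fun x => x ≠ a)).image e₀ :=
          Finset.mem_image_of_mem _ (Finset.mem_subtype.mpr hw)
        rw [hzz] at this
        exact Finset.mem_subtype.mp this
    · intro ht
      by_cases htb : t = b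
      · exact ⟨a, ha, by rw [extEquiv_self, htb]⟩
      · have : (⟨t, htb⟩ : {y // y ≠ b}) ∈ z'.subtype (fun y => y ≠ b) := Finset.mem_subtype.mpr ht
        rw [← hzz] at this
        obtain ⟨w, hw, hwe⟩ := Finset.mem_image.mp this
        refine ⟨w.1, Finset.mem_subtype.mp hw, ?_⟩
        rw [extEquiv_ne b e₀ w.2]
        exact congrArg Subtype.val hwe
  rw [this]
  exact hz'

/-- Uniqueness of S(5,6,12). -/
theorem iso612 (hα : Fintype.card α = 12) (hβ : Fintype.card β = 12) {D : Set (Finset α)} {D' : Set (Finset β)}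
    (hD : IsSteinerSystem 5 6 D) (hD' : IsSteinerSystem 5 6 D') : SetSystemIso D D' := by
  have hpos : 0 < Fintype.card α := by omega
  obtain ⟨a⟩ := Fintype.card_pos_iff.mp hpos
  have hpos' : 0 < Fintype.card β := by omega
  obtain ⟨b⟩ := Fintype.card_pos_iff.mp hpos'
  have h1 : IsSteinerSystem 4 5 (derived D a) := derived_steiner hD a
  have h2 : IsSteinerSystem 4 5 (derived D' b) := derived_steiner hD' b
  obtain ⟨e₀, he⟩ := iso45 (by rw [card_ne, hα]) (by rw [card_ne, hβ]) h1 h2
  refine ⟨extEquiv a b e₀, ?_⟩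
  apply eq_of_subset (steiner_image hD _) hD' (by norm_num)
  rintro _ ⟨z, hz, rfl⟩
  by_cases ha : a ∈ z
  · exact ext_iso e₀ he hz ha
  · have h3 : zᶜ ∈ D := compl_mem_612 hα hD hz
    have h4 := ext_iso e₀ he h3 (Finset.mem_compl.mpr ha)
    have h5 := compl_mem_612 hβ hD' h4
    have h6 : (zᶜ.image (extEquiv a b e₀))ᶜ = z.image (extEquiv a b e₀) := by
      ext t
      simp only [Finset.mem_compl, Finset.mem_image]
      constructor
      · intro h
        refine ⟨(extEquiv a b e₀).symm t, ?_, by simp⟩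
        by_contra hc
        exact h ⟨(extEquiv a b e₀).symm t, hc, by simp⟩
      · rintro ⟨w, hw, rfl⟩ ⟨w', hw', he⟩
        have := (extEquiv a b e₀).injective he
        subst this
        exact hw' hw
    simp only
    rw [← h6]
    exact h5

end Cfsg.Agent.H02.Stn
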