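import Cfsg.Agent.Lib.H02.Stn7
import Cfsg.Prelude.Def_Sporadic

/-!
Automorphism groups of S(5,8,24) and S(4,7,23).
-/

set_option autoImplicit false

namespace Cfsg.Agent.H02.Stn

open Cfsg Cfsg.Agent.H27.Golay Cfsg.Agent.H02.Gol
open scoped Pointwise

theorem aut524 {α : Type*} [Fintype α] [DecidableEq α] (hα : Fintype.card α = 24) {B : Set (Finset α)}
    (hB : IsSteinerSystem 5 8 B) :
    IsM24 (setSystemAut B) ∧ MulAction.IsMultiplyPretransitive (setSystemAut B) α 5 := by
  obtain ⟨e, he⟩ := iso524 hα (β := GolayPt) rfl hB steiner_octads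
  obtain ⟨φ, hφ⟩ := exists_aut_equiv he
  have heq : setSystemAut octads = M24 := M24_eq_aut.symm
  let ψ : setSystemAut B ≃* M24 := φ.trans (MulEquiv.subgroupCongr heq)
  refine ⟨⟨?_, ?_⟩, ?_⟩
  · haveI := m24_simple
    exact ψ.isSimpleGroup
  · rw [Nat.card_congr ψ.toEquiv, card_M24]
  · refine pretrans_of_equiv ψ e ?_ five_pretrans
    intro g x
    exact hφ g x

/-- A permutation fixing `q0` and preserving the octads through it is in `M24`. -/
theorem ext_aut_q {g : Equiv.Perm GolayPt} (hq : g q0 = q0) (h : ∀ o ∈ octads, q0 ∈ o → o.image g ∈ octads) :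
    g ∈ M24 := by
  rw [M24_eq_aut]
  apply mem_aut_of_forward
  intro b hb
  let P : Set (Finset GolayPt) := {o | o ∈ octads ∧ q0 ∈ o}
  have hm : Set.MapsTo (fun b : Finset GolayPt => b.image g) P P := by
    rintro o ⟨ho, hqo⟩
    refine ⟨h o ho hqo, ?_⟩
    rw [← hq]
    exact Finset.mem_image_of_mem _ hqo
  have hinj : Set.InjOn (fun b : Finset GolayPt => b.image g) P :=
    fun a _ b _ hab => Finset.image_injective g.injective hab
  have hbij := ((Set.toFinite P).injOn_iff_bijOn_of_mapsTo hm).mp hinj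
  by_cases hqb : q0 ∈ b
  · exact h b hb hqb
  apply mem_octads_of_chi
  · apply mem_of_orth_q
    intro o ho hqo
    obtain ⟨o₀, ⟨ho₀, -⟩, rfl⟩ := hbij.surjOn ⟨ho, hqo⟩
    simp only
    rw [image_inter_injective g.injective]
    exact octad_inter_even ho₀ hb
  · rw [Finset.card_image_of_injective _ g.injective]
    exact hb.2

section hat

variable {A : Finset GolayPt}

theorem hat_image (h : Equiv.Perm {x // x ∉ A}) {o o' : Finset GolayPt} (hA : A ⊆ o) (hA' : A ⊆ o')
    (e : (o.subtype (fun x => x ∉ A)).image h = o'.subtype (fun x => x ∉ A)) :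
    o.image (Equiv.Perm.ofSubtype h) = o' := by
  ext t
  by_cases ht : t ∈ A
  · constructor
    · intro _
      exact hA' ht
    · intro _
      exact Finset.mem_image.mpr ⟨t, hA ht, Equiv.Perm.ofSubtype_apply_of_not_mem h (not_not.mpr ht)⟩
  · have h1 : t ∈ o' ↔ (⟨t, ht⟩ : {x // x ∉ A}) ∈ o'.subtype (fun x => x ∉ A) := by
      rw [Finset.mem_subtype]
    rw [h1, ← e, Finset.mem_image, Finset.mem_image]
    constructor
    · rintro ⟨y, hy, hyt⟩
      by_cases hyA : y ∈ A
      · rw [Equiv.Perm.ofSubtype_apply_of_not_mem h (not_not.mpr hyA)] at hyt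
        exact absurd (hyt ▸ hyA) ht
      · rw [Equiv.Perm.ofSubtype_apply_of_mem h hyA] at hyt
        exact ⟨⟨y, hyA⟩, Finset.mem_subtype.mpr hy, Subtype.ext hyt⟩
    · rintro ⟨y, hy, hyt⟩
      refine ⟨y.1, Finset.mem_subtype.mp hy, ?_⟩
      rw [Equiv.Perm.ofSubtype_apply_of_mem h y.2]
      exact congrArg Subtype.val hyt

theorem hat_octad {h : Equiv.Perm {x // x ∉ A}} (hh : h ∈ setSystemAut (derivedA octads A))
    {o : Finset GolayPt} (ho : o ∈ octads) (hA : A ⊆ o) :
    o.image (Equiv.Perm.ofSubtype h) ∈ octads ∧ A ⊆ o.image (Equiv.Perm.ofSubtype h) := by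
  have h1 : (o.subtype (fun x => x ∉ A)).image h ∈ derivedA octads A :=
    image_mem_of_mem_aut hh ⟨o, ho, hA, rfl⟩
  obtain ⟨o', ho', hA', he⟩ := h1
  rw [hat_image h hA hA' he]
  exact ⟨ho', hA'⟩

theorem hat_apply (h : Equiv.Perm {x // x ∉ A}) (x : {x // x ∉ A}) :
    Equiv.Perm.ofSubtype h x.1 = (h x).1 := by
  rw [Equiv.Perm.ofSubtype_apply_of_mem h x.2]

theorem hat_fix (h : Equiv.Perm {x // x ∉ A}) {x : GolayPt} (hx : x ∈ A) :
    Equiv.Perm.ofSubtype h x = x :=
  Equiv.Perm.ofSubtype_apply_of_not_mem h (not_not.mpr hx)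

end hat

theorem smul_singleton_q {g : Equiv.Perm GolayPt} (hq : g q0 = q0) : g • ({q0} : Finset GolayPt) = {q0} := by
  rw [Finset.smul_finset_singleton, Equiv.Perm.smul_def, hq]

/-- The derived system at `q0`. -/
abbrev M1 : Set (Finset {x // x ∉ ({q0} : Finset GolayPt)}) := derivedA octads {q0}

theorem M1_equiv : ∃ φ : (MulAction.stabilizer M24 q0) ≃* setSystemAut M1, ∀ g x,
      ((φ g : Equiv.Perm {x // x ∉ ({q0} : Finset GolayPt)}) x).1 = ((g : ↥M24) : Equiv.Perm GolayPt) x.1 := by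
  apply exists_restr_equiv
  · intro g hg
    exact smul_singleton_q hg
  · intro g hg hfix
    apply eq_one_of_apply
    intro x
    by_cases hx : x = q0
    · rw [hx]
      exact hg
    · exact hfix x (by simpa using hx)
  · intro h hh
    have hq : Equiv.Perm.ofSubtype h q0 = q0 := hat_fix h (Finset.mem_singleton_self _)
    have hm : Equiv.Perm.ofSubtype h ∈ M24 := by
      apply ext_aut_q hq
      intro o ho hqo
      exact (hat_octad hh ho (Finset.singleton_subset_iff.mpr hqo)).1
    refine ⟨⟨_, hm⟩, hq, ?_⟩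
    intro x
    exact hat_apply h x

theorem M1_pretrans : MulAction.IsMultiplyPretransitive (setSystemAut M1) {x // x ∉ ({q0} : Finset GolayPt)} 4 := by
  constructor
  intro x y
  have ne : ∀ (z : Fin 4 ↪ {x // x ∉ ({q0} : Finset GolayPt)}), Function.Injective (Fin.cons q0 (fun i => (z i).1) : Fin 5 → GolayPt) := by
    intro z
    rw [Fin.cons_injective_iff]
    constructor
    · rintro ⟨i, hi⟩
      have := (z i).2
      rw [Finset.mem_singleton] at this
      exact this hi
    · intro i j hij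
      exact z.injective (Subtype.ext hij)
  obtain ⟨g, hg, hgi⟩ := five_transitive _ _ (ne x) (ne y)
  have hq : g q0 = q0 := hgi 0
  have hs := smul_singleton_q hq
  refine ⟨⟨restrPerm g (compl_iff_of_smul hs), restr_mem hg hs⟩, ?_⟩
  apply Function.Embedding.ext
  intro i
  apply Subtype.ext
  exact hgi i.succ

theorem aut423 {α : Type*} [Fintype α] [DecidableEq α] (hα : Fintype.card α = 23) {B : Set (Finset α)}
    (hB : IsSteinerSystem 4 7 B) :
    IsM23 (setSystemAut B) ∧ MulAction.IsMultiplyPretransitive (setSystemAut B) α 4 := by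
  have hM1 : IsSteinerSystem 4 7 M1 := derivedA_steiner (a := 1) steiner_octads (Finset.card_singleton _)
  have hc : Fintype.card {x // x ∉ ({q0} : Finset GolayPt)} = 23 := by
    rw [card_compl_A]
    rfl
  obtain ⟨e, he⟩ := iso423 hα hc hB hM1
  obtain ⟨φ, hφ⟩ := exists_aut_equiv he
  obtain ⟨χ, -⟩ := M1_equiv
  refine ⟨⟨?_, ?_⟩, ?_⟩
  · haveI := m23_simple q0
    exact (φ.trans χ.symm).isSimpleGroup
  · rw [Nat.card_congr (φ.trans χ.symm).toEquiv, card_point_stab]
  · refine pretrans_of_equiv φ e ?_ M1_pretrans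
    intro g x
    exact hφ g x

end Cfsg.Agent.H02.Stn
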