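import Cfsg.Agent.Lib.H02.Stn12
import Cfsg.Agent.Lib.H02.Stn8

/-!
Rigidity: an automorphism of S(4,5,11) fixing four points is trivial, of S(5,6,12) fixing five.
-/

set_option autoImplicit false
set_option maxRecDepth 100000

namespace Cfsg.Agent.H02.Stn

open Cfsg Cfsg.Agent.H27.Golay

/-- Image of the first `n` bits of a mask under a function. -/
def actG (f : ℕ → ℕ) (m : ℕ) (n : ℕ) : ℕ :=
  Nat.rec (motive := fun _ => ℕ) 0
    (fun k ih => Nat.lor ih (Bool.rec 0 (Nat.shiftLeft 1 (f k)) (Nat.testBit m k))) n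

theorem testBit_actG (f : ℕ → ℕ) (m n j : ℕ) :
    (actG f m n).testBit j = true ↔ ∃ k, k < n ∧ m.testBit k = true ∧ f k = j := by
  induction n with
  | zero =>
    simp [actG]
  | succ n ih =>
    have h1 : actG f m (n + 1) =
        (actG f m n) ||| (Bool.rec 0 (1 <<< (f n)) (Nat.testBit m n)) := rfl
    rw [h1, Nat.testBit_or, Bool.or_eq_true, ih]
    constructor
    · rintro (⟨k, hk, h2, h3⟩ | h)
      · exact ⟨k, by omega, h2, h3⟩
      · cases hb : Nat.testBit m n with
        | false =>
          rw [hb] at h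
          simp at h
        | true =>
          rw [hb] at h
          have h' : (1 <<< (f n)).testBit j = true := h
          rw [Nat.one_shiftLeft, Nat.testBit_two_pow] at h'
          exact ⟨n, by omega, hb, by simpa using h'⟩
    · rintro ⟨k, hk, h2, h3⟩
      rcases Nat.lt_succ_iff_lt_or_eq.mp hk with hk | rfl
      · exact Or.inl ⟨k, hk, h2, h3⟩
      · right
        rw [h2]
        show (1 <<< (f k)).testBit j = true
        rw [Nat.one_shiftLeft, Nat.testBit_two_pow, h3]
        simp

theorem actG_congr {f g : ℕ → ℕ} (m n : ℕ) (h : ∀ k < n, f k = g k) : actG f m n = actG g m n := by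
  apply Nat.eq_of_testBit_eq
  intro j
  have h1 := testBit_actG f m n j
  have h2 := testBit_actG g m n j
  have h3 : (actG f m n).testBit j = true ↔ (actG g m n).testBit j = true := by
    rw [h1, h2]
    constructor
    · rintro ⟨k, hk, a, b⟩
      exact ⟨k, hk, a, by rw [← h k hk, b]⟩
    · rintro ⟨k, hk, a, b⟩
      exact ⟨k, hk, a, by rw [h k hk, b]⟩
  cases h4 : (actG f m n).testBit j <;> cases h5 : (actG g m n).testBit j <;> simp_all

theorem actG_lt {f : ℕ → ℕ} (m n : ℕ) (h : ∀ k < n, f k < 11) : actG f m n < 2 ^ 11 := by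
  induction n with
  | zero => simp [actG]
  | succ n ih =>
    have h1 : actG f m (n + 1) =
        (actG f m n) ||| (Bool.rec 0 (1 <<< (f n)) (Nat.testBit m n)) := rfl
    rw [h1]
    apply Nat.or_lt_two_pow (ih (fun k hk => h k (by omega)))
    cases Nat.testBit m n with
    | false => show 0 < _; norm_num
    | true =>
      show 1 <<< (f n) < _
      rw [Nat.one_shiftLeft]
      exact Nat.pow_lt_pow_right (by norm_num) (h n (by omega))

theorem inL_of_mem {m : ℕ} {L : List ℕ} (h : m ∈ L) : inL m L = true := by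
  induction L with
  | nil => cases h
  | cons a L ih =>
    have e : inL m (a :: L) = Bool.rec (inL m L) true (Nat.beq a m) := rfl
    rw [e]
    cases h5 : Nat.beq a m with
    | true => rfl
    | false =>
      rcases List.mem_cons.mp h with rfl | h'
      · rw [Nat.beq_refl] at h5
        cases h5
      · exact ih h'

theorem allL_of {f : ℕ → Bool} {L : List ℕ} (h : ∀ c ∈ L, f c = true) : allL f L = true := by
  induction L with
  | nil => rfl
  | cons a L ih =>
    have e : allL f (a :: L) = Bool.rec false (allL f L) (f a) := rfl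
    rw [e, h a List.mem_cons_self]
    exact ih (fun c hc => h c (List.mem_cons_of_mem _ hc))

/-- The enumeration of the possible automorphisms fixing the first four points. -/
def autSearch : ℕ → List ℕ → Bool :=
  fun n => Nat.rec (motive := fun _ => List ℕ → Bool)
    (fun l => !(allL (fun c => inL (actG (fun i => l.getD i 0) c 11) canonL) canonL) ||
      allBelow (fun i => Nat.beq (l.getD i 0) i) 11)
    (fun _ ih l => allBelow (fun v => inL v l || ih (l ++ [v])) 11) n

theorem autSearch_ok : autSearch 7 [0, 1, 2, 3] = true := by decide +kernel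

theorem autSearch_spec (g : ℕ → ℕ) (hg : ∀ i < 11, g i < 11) (hinj : ∀ i < 11, ∀ j < 11, g i = g j → i = j)
    (hact : ∀ c ∈ canonL, actG g c 11 ∈ canonL) (n k : ℕ) (hnk : n + k = 11)
    (h : autSearch n ((List.range k).map g) = true) : ∀ i < 11, g i = i := by
  induction n generalizing k with
  | zero =>
    have hk : k = 11 := by omega
    subst hk
    have hget : ∀ i < 11, ((List.range 11).map g).getD i 0 = g i := by
      intro i hi
      rw [List.getD_eq_getElem _ _ (by simpa using hi)]
      simp
    have h1 : (!(allL (fun c => inL (actG (fun i => ((List.range 11).map g).getD i 0) c 11) canonL) canonL) ||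
      allBelow (fun i => Nat.beq (((List.range 11).map g).getD i 0) i) 11) = true := h
    have h2 : allL (fun c => inL (actG (fun i => ((List.range 11).map g).getD i 0) c 11) canonL) canonL = true := by
      apply allL_of
      intro c hc
      rw [actG_congr c 11 hget]
      exact inL_of_mem (hact c hc)
    rw [h2] at h1
    simp only [Bool.not_true, Bool.false_or] at h1
    intro i hi
    have h3 := allBelow_spec h1 i hi
    rw [hget i hi] at h3
    exact Nat.eq_of_beq_eq_true h3
  | succ n ih =>
    have hk : k < 11 := by omega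
    have h1 : allBelow (fun v => inL v ((List.range k).map g) || autSearch n ((List.range k).map g ++ [v])) 11 = true := h
    have h2 := allBelow_spec h1 (g k) (hg k hk)
    have h3 : inL (g k) ((List.range k).map g) = false := by
      cases h4 : inL (g k) ((List.range k).map g) with
      | false => rfl
      | true =>
        have h5 := inL_spec h4
        obtain ⟨j, hj, hje⟩ := List.mem_map.mp h5
        have hj' := List.mem_range.mp hj
        have := hinj j (by omega) k hk hje
        omega
    rw [h3, Bool.false_or] at h2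
    apply ih (k + 1) (by omega)
    rw [List.range_succ, List.map_append]
    exact h2

/-- An automorphism of the canonical system fixing the first four points is trivial. -/
theorem canon_rigid {g : Equiv.Perm (Fin 11)} (hg : g ∈ setSystemAut canonSet) (h0 : g 0 = 0) (h1 : g 1 = 1)
    (h2 : g 2 = 2) (h3 : g 3 = 3) : g = 1 := by
  let g' : ℕ → ℕ := fun i => if h : i < 11 then (g ⟨i, h⟩).1 else 0
  have hg' : ∀ i (hi : i < 11), g' i = (g ⟨i, hi⟩).1 := by
    intro i hi
    simp [g', hi]
  have hlt : ∀ i < 11, g' i < 11 := by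
    intro i hi
    rw [hg' i hi]
    exact (g ⟨i, hi⟩).2
  have hinj : ∀ i < 11, ∀ j < 11, g' i = g' j → i = j := by
    intro i hi j hj hij
    rw [hg' i hi, hg' j hj] at hij
    have := g.injective (Fin.ext hij)
    exact congrArg Fin.val this
  have hact : ∀ c ∈ canonL, actG g' c 11 ∈ canonL := by
    intro c hc
    have h4 : (fm c).image g ∈ canonSet := image_mem_of_mem_aut hg ⟨c, hc, rfl⟩
    obtain ⟨c', hc', he⟩ := h4
    have h5 : fm (actG g' c 11) = (fm c).image g := by
      ext j
      rw [mem_fm, testBit_actG, Finset.mem_image]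
      constructor
      · rintro ⟨k, hk, h6, h7⟩
        refine ⟨⟨k, hk⟩, mem_fm.mpr h6, ?_⟩
        apply Fin.ext
        rw [← h7, hg' k hk]
      · rintro ⟨k, hk, rfl⟩
        exact ⟨k.1, k.2, mem_fm.mp hk, hg' k.1 k.2⟩
    have h6 : actG g' c 11 = c' := by
      apply fm_injOn (actG_lt c 11 hlt) (canon_spec c' hc').1
      rw [h5, he]
    rw [h6]
    exact hc'
  have hl : (List.range 4).map g' = [0, 1, 2, 3] := by
    have e0 : g' 0 = 0 := by rw [hg' 0 (by norm_num)]; exact congrArg Fin.val h0
    have e1 : g' 1 = 1 := by rw [hg' 1 (by norm_num)]; exact congrArg Fin.val h1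
    have e2 : g' 2 = 2 := by rw [hg' 2 (by norm_num)]; exact congrArg Fin.val h2
    have e3 : g' 3 = 3 := by rw [hg' 3 (by norm_num)]; exact congrArg Fin.val h3
    simp [List.range_succ, e0, e1, e2, e3]
  have hall := autSearch_spec g' hlt hinj hact 7 4 (by norm_num) (by rw [hl]; exact autSearch_ok)
  ext i
  rw [Equiv.Perm.one_apply, ← hg' i.1 i.2]
  exact hall i.1 i.2

section rigid

variable {α : Type*} [Fintype α] [DecidableEq α]

/-- The rigid tuple in an S(4,5,11). -/
theorem exists_rigid45 (hα : Fintype.card α = 11) {D : Set (Finset α)} (hD : IsSteinerSystem 4 5 D) :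
    ∃ x₀ : Fin 4 ↪ α, ∀ g ∈ setSystemAut D, (∀ i, g (x₀ i) = x₀ i) → g = 1 := by
  obtain ⟨e, he⟩ := exists_canon hα hD
  refine ⟨(Fin.castLEEmb (by norm_num : 4 ≤ 11)).trans e.symm.toEmbedding, ?_⟩
  intro g hg hfix
  have hm := permCongr_mem he hg
  have key : ∀ i : Fin 4, e.permCongr g (Fin.castLE (by norm_num) i) = Fin.castLE (by norm_num) i := by
    intro i
    have h1 := hfix i
    simp only [Function.Embedding.trans_apply, Equiv.coe_toEmbedding, Fin.castLEEmb_apply] at h1
    simp [Equiv.permCongr_apply, h1]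
  have h1 := canon_rigid hm (key 0) (key 1) (key 2) (key 3)
  ext x
  have h2 := congrArg (fun f : Equiv.Perm (Fin 11) => f (e x)) h1
  simp [Equiv.permCongr_apply] at h2
  rw [h2]
  rfl

/-- A derived automorphism. -/
theorem derived_aut {D : Set (Finset α)} {a : α} {g : Equiv.Perm α} (hg : g ∈ setSystemAut D) (ha : g a = a) :
    g.subtypePerm (p := fun x => x ≠ a) (by
      intro x
      show g x ≠ a ↔ x ≠ a
      rw [Ne, Ne, not_iff_not]
      constructor
      · intro h
        apply g.injective
        rw [h, ha]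
      · rintro rfl
        exact ha) ∈ setSystemAut (derived D a) := by
  apply mem_aut_of_forward
  rintro b ⟨z, hz, haz, rfl⟩
  refine ⟨z.image g, image_mem_of_mem_aut hg hz, ?_, ?_⟩
  · rw [← ha]
    exact Finset.mem_image_of_mem _ haz
  · ext x
    simp only [Finset.mem_image, Finset.mem_subtype, Equiv.Perm.subtypePerm_apply]
    constructor
    · rintro ⟨y, hy, rfl⟩
      exact ⟨y.1, hy, rfl⟩
    · rintro ⟨y, hy, hyx⟩
      have hya : y ≠ a := by
        rintro rfl
        apply x.2
        rw [← hyx, ha]
      exact ⟨⟨y, hya⟩, hy, Subtype.ext hyx⟩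

/-- The rigid tuple in an S(5,6,12). -/
theorem exists_rigid612 (hα : Fintype.card α = 12) {D : Set (Finset α)} (hD : IsSteinerSystem 5 6 D) :
    ∃ x₀ : Fin 5 ↪ α, ∀ g ∈ setSystemAut D, (∀ i, g (x₀ i) = x₀ i) → g = 1 := by
  have hpos : 0 < Fintype.card α := by omega
  obtain ⟨a⟩ := Fintype.card_pos_iff.mp hpos
  have h1 : IsSteinerSystem 4 5 (derived D a) := derived_steiner hD a
  obtain ⟨x₁, hx₁⟩ := exists_rigid45 (by rw [card_ne, hα]) h1
  have hinj : Function.Injective (Fin.cons a (fun i => (x₁ i).1) : Fin 5 → α) := by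
    rw [Fin.cons_injective_iff]
    constructor
    · rintro ⟨i, hi⟩
      exact (x₁ i).2 hi
    · intro i j hij
      exact x₁.injective (Subtype.ext hij)
  refine ⟨⟨_, hinj⟩, ?_⟩
  intro g hg hfix
  have ha : g a = a := hfix 0
  have h2 := hx₁ _ (derived_aut hg ha) (by
    intro i
    apply Subtype.ext
    exact hfix i.succ)
  ext1 x
  by_cases hx : x = a
  · rw [hx, ha]
    rfl
  · have h3 := congrArg (fun f : Equiv.Perm {x // x ≠ a} => (f ⟨x, hx⟩).1) h2
    exact h3

end rigid

section group

variable {G X : Type*} [Group G] [MulAction G X]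

theorem stab_bot_of_pretrans (htr : ∀ x y : X, ∃ g : G, g • x = y) {x₀ : X} (h₀ : ∀ g : G, g • x₀ = x₀ → g = 1)
    (x : X) : MulAction.stabilizer G x = ⊥ := by
  obtain ⟨h, rfl⟩ := htr x₀ x
  rw [eq_bot_iff]
  intro g hg
  have h1 : g • h • x₀ = h • x₀ := hg
  have h2 : (h⁻¹ * g * h) • x₀ = x₀ := by
    rw [mul_smul, mul_smul, h1, inv_smul_smul]
  have h3 := h₀ _ h2
  rw [Subgroup.mem_bot]
  have h4 : h⁻¹ * g = h⁻¹ := by
    calc h⁻¹ * g = (h⁻¹ * g * h) * h⁻¹ := by group
      _ = h⁻¹ := by rw [h3, one_mul]
  exact mul_left_cancel (h4.trans (mul_one _).symm)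

theorem card_le_of_free [Finite X] {x₀ : X} (h₀ : ∀ g : G, g • x₀ = x₀ → g = 1) : Nat.card G ≤ Nat.card X := by
  apply Nat.card_le_card_of_injective (fun g : G => g • x₀)
  intro a b hab
  simp only at hab
  have h1 : (b⁻¹ * a) • x₀ = x₀ := by
    rw [mul_smul, hab, inv_smul_smul]
  have h2 := h₀ _ h1
  exact (mul_eq_one_iff_eq_inv'.mp h2).trans (inv_inv _) |>.symm ▸ rfl

end group

end Cfsg.Agent.H02.Stn
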