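import Cfsg.Agent.Lib.H02.Gol5
import Cfsg.Agent.Lib.H02.Stn2
import Cfsg.Agent.S5625
import Cfsg.Agent.S5626

/-!
Hyperovals of the plane attached to three points; uniqueness of S(3,6,22).
-/

set_option autoImplicit false

namespace Cfsg.Agent.H02.Stn

open Cfsg Cfsg.Agent.H27.Golay Cfsg.Agent.H02.Gol Cfsg.Agent.H27.Plane4 Cfsg.Agent.H27.Steiner

variable {T : Finset GolayPt}

theorem card_subtype_add (o : Finset GolayPt) (T : Finset GolayPt) :
    (o.subtype (fun x => x ∉ T)).card + (o ∩ T).card = o.card := by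
  rw [Finset.card_subtype, ← Finset.card_filter_add_card_filter_not (s := o) (fun x => x ∈ T),
    add_comm, Finset.filter_mem_eq_inter]

theorem subtype_inter (a b : Finset GolayPt) (T : Finset GolayPt) :
    a.subtype (fun x => x ∉ T) ∩ b.subtype (fun x => x ∉ T) = (a ∩ b).subtype (fun x => x ∉ T) := by
  ext x
  simp

theorem card_inter_decomp (a b : Finset GolayPt) (T : Finset GolayPt) :
    (a.subtype (fun x => x ∉ T) ∩ b.subtype (fun x => x ∉ T)).card + (a ∩ b ∩ T).card = (a ∩ b).card := by
  rw [subtype_inter, card_subtype_add]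

theorem decomp (o T : Finset GolayPt) :
    o = (o ∩ T) ∪ (o.subtype (fun x => x ∉ T)).map (Function.Embedding.subtype _) := by
  ext x
  simp only [Finset.mem_union, Finset.mem_inter, Finset.mem_map, Finset.mem_subtype,
    Function.Embedding.subtype_apply, Subtype.exists, exists_and_right, exists_eq_right]
  constructor
  · intro h
    by_cases hx : x ∈ T
    · exact Or.inl ⟨h, hx⟩
    · exact Or.inr ⟨hx, h⟩
  · rintro (⟨h, -⟩ | ⟨-, h⟩) <;> exact h

theorem hyp_class (hT : T.card = 3) (H : Finset (PtsX T)) (hH : H.card = 6) (hI : Ind (linesX T) H) :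
    ∃ o ∈ octads, (o ∩ T).card = 2 ∧ H = o.subtype (fun x => x ∉ T) := by
  classical
  have hP := plane_X hT
  let Ω : Finset (Finset GolayPt) := (blocks octads).filter (fun b => (b ∩ T).card = 2)
  have hΩ : Ω.card = 168 := by
    have h1 := (Cfsg.Agent.S5625.result GolayPt rfl octads steiner_octads T hT).2.1
    rw [ncard_setOf_eq] at h1
    exact h1
  have hmem : ∀ o, o ∈ Ω ↔ o ∈ octads ∧ (o ∩ T).card = 2 := by
    intro o
    simp [Ω, mem_blocks]
  let φ : Finset GolayPt → Finset (PtsX T) := fun o => o.subtype (fun x => x ∉ T)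
  have hinj : Set.InjOn φ (Ω : Set (Finset GolayPt)) := by
    intro o ho o' ho' heq
    have ho1 := (hmem o).mp ho
    have ho2 := (hmem o').mp ho'
    apply eq_of_le_inter steiner_octads ho1.1 ho2.1
    have h1 := card_inter_decomp o o' T
    have h2 : φ o = o.subtype (fun x => x ∉ T) := rfl
    have h3 : φ o' = o'.subtype (fun x => x ∉ T) := rfl
    rw [← h3, ← heq, h2, Finset.inter_self, ] at h1
    have h4 := card_subtype_add o T
    rw [ho1.2, ho1.1.2] at h4
    omega
  have hsub : Ω.image φ ⊆ Ik (linesX T) 6 := by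
    intro S hS
    obtain ⟨o, ho, rfl⟩ := Finset.mem_image.mp hS
    have ho1 := (hmem o).mp ho
    rw [mem_Ik]
    refine ⟨?_, ?_⟩
    · have h4 := card_subtype_add o T
      rw [ho1.2, ho1.1.2] at h4
      show (o.subtype _).card = 6
      omega
    · rintro l ⟨o', ho', hTo', rfl⟩
      by_contra hc
      have h1 := card_inter_decomp o' o T
      have h2 : o' ∩ o ∩ T = o ∩ T := by
        ext x
        simp only [Finset.mem_inter]
        constructor
        · rintro ⟨⟨-, h⟩, h'⟩
          exact ⟨h, h'⟩
        · rintro ⟨h, h'⟩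
          exact ⟨⟨hTo' h', h⟩, h'⟩
      rw [h2, ho1.2] at h1
      have heq : o' = o := by
        apply eq_of_le_inter steiner_octads ho' ho1.1
        show 5 ≤ _
        have : (o'.subtype (fun x => x ∉ T) ∩ φ o).card ≥ 3 := by omega
        have h3 : φ o = o.subtype (fun x => x ∉ T) := rfl
        rw [h3] at this
        omega
      rw [heq] at hTo'
      have : o ∩ T = T := Finset.inter_eq_right.mpr hTo'
      rw [this, hT] at ho1
      omega
  have heq : Ω.image φ = Ik (linesX T) 6 := by
    apply Finset.eq_of_subset_of_card_le hsub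
    rw [hP.card_Ik6, Finset.card_image_of_injOn hinj, hΩ]
  have hH' : H ∈ Ω.image φ := by
    rw [heq, mem_Ik]
    exact ⟨hH, hI⟩
  obtain ⟨o, ho, rfl⟩ := Finset.mem_image.mp hH'
  have ho1 := (hmem o).mp ho
  exact ⟨o, ho1.1, ho1.2, rfl⟩

section S322

variable {α : Type*} [Fintype α] [DecidableEq α]

theorem card_subtype_ne_of_not_mem {z : Finset α} {a : α} (h : a ∉ z) :
    (z.subtype (fun x => x ≠ a)).card = z.card := by
  rw [Finset.card_subtype, Finset.filter_true_of_mem]
  rintro x hx rfl
  exact h hx

theorem inter_subtype_ne (y z : Finset α) (a : α) :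
    y.subtype (fun x => x ≠ a) ∩ z.subtype (fun x => x ≠ a) = (y ∩ z).subtype (fun x => x ≠ a) := by
  ext x
  simp

/-- The image of a block not through `a` under an isomorphism onto the plane is a hyperoval,
and comes from an octad. -/
theorem exists_octad_of_block {a : α} {D : Set (Finset α)} (hD : IsSteinerSystem 3 6 D)
    (hT : T.card = 3) (e : {x // x ≠ a} ≃ PtsX T)
    (he : (fun b => b.image e) '' derived D a = linesX T) {y : Finset α} (hy : y ∈ D) (ha : a ∉ y) :
    ∃ o ∈ octads, (o ∩ T).card = 2 ∧ (y.subtype (fun x => x ≠ a)).image e = o.subtype (fun x => x ∉ T) := by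
  apply hyp_class hT
  · rw [Finset.card_image_of_injective _ e.injective, card_subtype_ne_of_not_mem ha, hD.1 y hy]
  · intro l hl
    rw [← he] at hl
    obtain ⟨_, ⟨z, hz, haz, rfl⟩, rfl⟩ := hl
    simp only
    rw [← Finset.image_inter _ _ e.injective, Finset.card_image_of_injective _ e.injective,
      inter_subtype_ne]
    have hne : z ≠ y := by
      rintro rfl
      exact ha haz
    by_contra hc
    apply hne
    apply eq_of_le_inter hD hz hy
    have h1 : ((z ∩ y).subtype (fun x => x ≠ a)).card ≤ (z ∩ y).card := by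
      rw [Finset.card_subtype]
      exact Finset.card_filter_le _ _
    omega

end S322

end Cfsg.Agent.H02.Stn
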