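import Cfsg.Agent.Lib.H02.Stn3

/-!
Embedding S(3,6,22) in the octads.
-/

set_option autoImplicit false

namespace Cfsg.Agent.H02.Stn

open Cfsg Cfsg.Agent.H27.Golay Cfsg.Agent.H02.Gol Cfsg.Agent.H27.Plane4 Cfsg.Agent.H27.Steiner
open scoped Pointwise

variable {T : Finset GolayPt}

theorem class_eq (hT : T.card = 3) {o₁ o₂ : Finset GolayPt} (h1 : o₁ ∈ octads) (h2 : o₂ ∈ octads)
    (c1 : (o₁ ∩ T).card = 2) (c2 : (o₂ ∩ T).card = 2)
    (hev : Even (o₁.subtype (fun x => x ∉ T) ∩ o₂.subtype (fun x => x ∉ T)).card) :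
    o₁ ∩ T = o₂ ∩ T := by
  have hd := card_inter_decomp o₁ o₂ T
  have h3 := octad_inter_even h1 h2
  have h4 : Even (o₁ ∩ o₂ ∩ T).card := by
    rw [← hd] at h3
    exact (Nat.even_add.mp h3).mp hev
  have h5 : (o₁ ∩ T) ∩ (o₂ ∩ T) = o₁ ∩ o₂ ∩ T := by
    ext x
    simp only [Finset.mem_inter]
    tauto
  have h6 := Finset.card_union_add_card_inter (o₁ ∩ T) (o₂ ∩ T)
  have h7 : ((o₁ ∩ T) ∪ (o₂ ∩ T)).card ≤ T.card := Finset.card_le_card
    (Finset.union_subset Finset.inter_subset_right Finset.inter_subset_right)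
  rw [h5, c1, c2] at h6
  rw [hT] at h7
  have h8 : (o₁ ∩ o₂ ∩ T).card = 2 := by
    obtain ⟨k, hk⟩ := h4
    have h9 : (o₁ ∩ o₂ ∩ T).card ≤ (o₁ ∩ T).card := by
      rw [← h5]
      exact Finset.card_le_card Finset.inter_subset_left
    omega
  rw [← h5] at h8
  have h9 : (o₁ ∩ T) ∩ (o₂ ∩ T) = o₁ ∩ T :=
    Finset.eq_of_subset_of_card_le Finset.inter_subset_left (by omega)
  have h10 : (o₁ ∩ T) ∩ (o₂ ∩ T) = o₂ ∩ T :=
    Finset.eq_of_subset_of_card_le Finset.inter_subset_right (by omega)
  rw [← h9, h10]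

section S322

variable {α : Type*} [Fintype α] [DecidableEq α]

theorem exists_class {a : α} {D : Set (Finset α)} (hα : Fintype.card α = 22)
    (hD : IsSteinerSystem 3 6 D)
    (hT : T.card = 3) (e : {x // x ≠ a} ≃ PtsX T)
    (he : (fun b => b.image e) '' derived D a = linesX T) :
    ∃ A ⊆ T, A.card = 2 ∧ ∀ y ∈ D, a ∉ y →
      ∃ o ∈ octads, o ∩ T = A ∧ (y.subtype (fun x => x ≠ a)).image e = o.subtype (fun x => x ∉ T) := by
  by_cases hex : ∃ y ∈ D, a ∉ y
  · obtain ⟨y₀, hy₀, ha₀⟩ := hex
    obtain ⟨o₀, ho₀, hc₀, hi₀⟩ := exists_octad_of_block hD hT e he hy₀ ha₀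
    refine ⟨o₀ ∩ T, Finset.inter_subset_right, hc₀, ?_⟩
    intro y hy ha
    obtain ⟨o, ho, hc, hi⟩ := exists_octad_of_block hD hT e he hy ha
    refine ⟨o, ho, ?_, hi⟩
    apply class_eq hT ho ho₀ hc hc₀
    rw [← hi, ← hi₀, ← Finset.image_inter _ _ e.injective,
      Finset.card_image_of_injective _ e.injective, inter_subtype_ne,
      card_subtype_ne_of_not_mem (fun h => ha (Finset.mem_inter.mp h).1)]
    exact Cfsg.Agent.H02.Stn.inter_even_322 hα hD hy₀ hy
  · push Not at hex
    obtain ⟨A, hA, hc⟩ := Finset.exists_subset_card_eq (show 2 ≤ T.card by omega)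
    refine ⟨A, hA, hc, ?_⟩
    intro y hy ha
    exact absurd (hex y hy) ha

theorem exists_embed {a : α} {D : Set (Finset α)} (hα : Fintype.card α = 22)
    (hD : IsSteinerSystem 3 6 D)
    (hT : T.card = 3) (e : {x // x ≠ a} ≃ PtsX T)
    (he : (fun b => b.image e) '' derived D a = linesX T) :
    ∃ r s : GolayPt, r ≠ s ∧ ∃ ε : α → GolayPt, Function.Injective ε ∧ (∀ x, ε x ≠ r ∧ ε x ≠ s) ∧
      ∀ z ∈ D, insert r (insert s (z.image ε)) ∈ octads := by
  obtain ⟨A, hAT, hA2, hA⟩ := exists_class hα hD hT e he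
  obtain ⟨r, s, hrs, rfl⟩ := Finset.card_eq_two.mp hA2
  have hc : (T \ {r, s}).card = 1 := by
    rw [Finset.card_sdiff_of_subset hAT, hT, hA2]
  obtain ⟨c, hc'⟩ := Finset.card_eq_one.mp hc
  have hcT : c ∈ T := by
    have : c ∈ T \ {r, s} := by rw [hc']; simp
    exact (Finset.mem_sdiff.mp this).1
  have hcA : c ∉ ({r, s} : Finset GolayPt) := by
    have : c ∈ T \ {r, s} := by rw [hc']; simp
    exact (Finset.mem_sdiff.mp this).2
  have hTeq : ∀ t, t ∈ T → t = r ∨ t = s ∨ t = c := by
    intro t ht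
    by_cases h1 : t ∈ ({r, s} : Finset GolayPt)
    · simp only [Finset.mem_insert, Finset.mem_singleton] at h1
      tauto
    · have : t ∈ T \ {r, s} := Finset.mem_sdiff.mpr ⟨ht, h1⟩
      rw [hc', Finset.mem_singleton] at this
      exact Or.inr (Or.inr this)
  have hrT : r ∈ T := hAT (by simp)
  have hsT : s ∈ T := hAT (by simp)
  have hcr : c ≠ r := fun h => hcA (by simp [h])
  have hcs : c ≠ s := fun h => hcA (by simp [h])
  let ε : α → GolayPt := fun x => if h : x = a then c else (e ⟨x, h⟩ : GolayPt)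
  have hεa : ε a = c := by simp [ε]
  have hεx : ∀ x (h : x ≠ a), ε x = (e ⟨x, h⟩ : GolayPt) := by
    intro x h
    simp [ε, h]
  have hεT : ∀ x (h : x ≠ a), ε x ∉ T := by
    intro x h
    rw [hεx x h]
    exact (e ⟨x, h⟩).2
  have hinj : Function.Injective ε := by
    intro x y hxy
    by_cases hx : x = a
    · by_cases hy : y = a
      · rw [hx, hy]
      · exfalso
        rw [hx, hεa] at hxy
        apply hεT y hy
        rw [← hxy]
        exact hcT
    · by_cases hy : y = a
      · exfalso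
        rw [hy, hεa] at hxy
        apply hεT x hx
        rw [hxy]
        exact hcT
      · rw [hεx x hx, hεx y hy] at hxy
        have := e.injective (Subtype.ext hxy)
        exact congrArg Subtype.val this
  have hav : ∀ x, ε x ≠ r ∧ ε x ≠ s := by
    intro x
    by_cases hx : x = a
    · rw [hx, hεa]
      exact ⟨hcr, hcs⟩
    · exact ⟨fun h => hεT x hx (h ▸ hrT), fun h => hεT x hx (h ▸ hsT)⟩
  refine ⟨r, s, hrs, ε, hinj, hav, ?_⟩
  intro z hz
  have hcard : (insert r (insert s (z.image ε))).card = 8 := by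
    have hcz := hD.1 z hz
    rw [Finset.card_insert_of_notMem, Finset.card_insert_of_notMem,
      Finset.card_image_of_injective _ hinj, hcz]
    · intro h
      obtain ⟨x, -, hx⟩ := Finset.mem_image.mp h
      exact (hav x).2 hx
    · intro h
      rcases Finset.mem_insert.mp h with h | h
      · exact hrs h
      · obtain ⟨x, -, hx⟩ := Finset.mem_image.mp h
        exact (hav x).1 hx
  by_cases haz : a ∈ z
  · have hl : (z.subtype (fun x => x ≠ a)).image e ∈ linesX T := by
      rw [← he]
      exact ⟨_, ⟨z, hz, haz, rfl⟩, rfl⟩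
    obtain ⟨o, ho, hTo, hlo⟩ := hl
    have hsub : insert r (insert s (z.image ε)) ⊆ o := by
      intro t ht
      simp only [Finset.mem_insert, Finset.mem_image] at ht
      rcases ht with rfl | rfl | ⟨w, hw, rfl⟩
      · exact hTo hrT
      · exact hTo hsT
      · by_cases hwa : w = a
        · rw [hwa, hεa]
          exact hTo hcT
        · rw [hεx w hwa]
          have : e ⟨w, hwa⟩ ∈ (z.subtype (fun x => x ≠ a)).image e :=
            Finset.mem_image_of_mem _ (Finset.mem_subtype.mpr hw)
          rw [hlo] at this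
          exact Finset.mem_subtype.mp this
    have : insert r (insert s (z.image ε)) = o :=
      Finset.eq_of_subset_of_card_le hsub (by rw [hcard, ho.2])
    rw [this]
    exact ho
  · obtain ⟨o, ho, hoT, hlo⟩ := hA z hz haz
    have hsub : insert r (insert s (z.image ε)) ⊆ o := by
      intro t ht
      simp only [Finset.mem_insert, Finset.mem_image] at ht
      rcases ht with rfl | rfl | ⟨w, hw, rfl⟩
      · have : t ∈ o ∩ T := by rw [hoT]; simp
        exact (Finset.mem_inter.mp this).1
      · have : t ∈ o ∩ T := by rw [hoT]; simp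
        exact (Finset.mem_inter.mp this).1
      · have hwa : w ≠ a := fun h => haz (h ▸ hw)
        rw [hεx w hwa]
        have : e ⟨w, hwa⟩ ∈ (z.subtype (fun x => x ≠ a)).image e :=
          Finset.mem_image_of_mem _ (Finset.mem_subtype.mpr hw)
        rw [hlo] at this
        exact Finset.mem_subtype.mp this
    have : insert r (insert s (z.image ε)) = o :=
      Finset.eq_of_subset_of_card_le hsub (by rw [hcard, ho.2])
    rw [this]
    exact ho

/-- Any S(3,6,22) embeds in the octads through `p0,q0`. -/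
theorem embed322 (hα : Fintype.card α = 22) {D : Set (Finset α)} (hD : IsSteinerSystem 3 6 D) :
    ∃ ε : α → GolayPt, Function.Injective ε ∧ (∀ x, ε x ≠ p0 ∧ ε x ≠ q0) ∧
      ∀ z ∈ D, insert p0 (insert q0 (z.image ε)) ∈ octads := by
  have hpos : 0 < Fintype.card α := by omega
  obtain ⟨a⟩ := Fintype.card_pos_iff.mp hpos
  let T : Finset GolayPt := {pt 0, pt 1, pt 2}
  have hT : T.card = 3 := by decide
  have hL : IsSteinerSystem 2 5 (derived D a) := derived_steiner hD a
  have hP : Fintype.card {x // x ≠ a} = 21 := by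
    rw [card_ne, hα]
  obtain ⟨e, he⟩ := Cfsg.Agent.S5626.result hP (card_X hT) hL (plane_X hT).st
  obtain ⟨r, s, hrs, ε, hinj, hav, hoct⟩ := exists_embed hα hD hT e he
  obtain ⟨g, hg, hgr, hgs⟩ := two_trans hrs p0_ne_q0
  refine ⟨fun x => g (ε x), g.injective.comp hinj, ?_, ?_⟩
  · intro x
    constructor
    · intro h
      apply (hav x).1
      apply g.injective
      rw [hgr]
      exact h
    · intro h
      apply (hav x).2
      apply g.injective
      rw [hgs]
      exact h
  · intro z hz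
    have h1 := smul_mem_octads hg (hoct z hz)
    have h2 : g • (insert r (insert s (z.image ε))) = insert p0 (insert q0 (z.image (fun x => g (ε x)))) := by
      rw [Finset.smul_finset_insert, Finset.smul_finset_insert]
      congr 1
      · congr 1
        ext t
        simp only [Finset.mem_smul_finset, Finset.mem_image, Equiv.Perm.smul_def]
        constructor
        · rintro ⟨_, ⟨x, hx, rfl⟩, rfl⟩
          exact ⟨x, hx, rfl⟩
        · rintro ⟨x, hx, rfl⟩
          exact ⟨_, ⟨x, hx, rfl⟩, rfl⟩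
    rw [← h2]
    exact h1

end S322

end Cfsg.Agent.H02.Stn
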