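import Cfsg.Agent.Lib.H02.Stn4

/-!
Embedding S(4,7,23) and S(5,8,24) in the octads.
-/

set_option autoImplicit false

namespace Cfsg.Agent.H02.Stn

open Cfsg Cfsg.Agent.H27.Golay Cfsg.Agent.H02.Gol
open scoped Pointwise

variable {α : Type*} [Fintype α] [DecidableEq α]

/-- Extension of a map from the complement of a point. -/
def extendAt (a : α) (r : GolayPt) (ε₀ : {x // x ≠ a} → GolayPt) : α → GolayPt :=
  fun x => if h : x = a then r else ε₀ ⟨x, h⟩

theorem extendAt_self (a : α) (r : GolayPt) (ε₀ : {x // x ≠ a} → GolayPt) : extendAt a r ε₀ a = r := by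
  simp [extendAt]

theorem extendAt_ne {a : α} (r : GolayPt) (ε₀ : {x // x ≠ a} → GolayPt) {x : α} (h : x ≠ a) :
    extendAt a r ε₀ x = ε₀ ⟨x, h⟩ := by
  simp [extendAt, h]

theorem extendAt_injective {a : α} {r : GolayPt} {ε₀ : {x // x ≠ a} → GolayPt}
    (hinj : Function.Injective ε₀) (hr : ∀ x, ε₀ x ≠ r) : Function.Injective (extendAt a r ε₀) := by
  intro x y hxy
  by_cases hx : x = a
  · by_cases hy : y = a
    · rw [hx, hy]
    · exfalso
      rw [hx, extendAt_self, extendAt_ne r ε₀ hy] at hxy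
      exact hr _ hxy.symm
  · by_cases hy : y = a
    · exfalso
      rw [hy, extendAt_self, extendAt_ne r ε₀ hx] at hxy
      exact hr _ hxy
    · rw [extendAt_ne r ε₀ hx, extendAt_ne r ε₀ hy] at hxy
      have := hinj hxy
      exact congrArg Subtype.val this

theorem image_extendAt_mem {a : α} (r : GolayPt) (ε₀ : {x // x ≠ a} → GolayPt) {z : Finset α}
    (ha : a ∈ z) :
    z.image (extendAt a r ε₀) = insert r ((z.subtype (fun x => x ≠ a)).image ε₀) := by
  ext t
  simp only [Finset.mem_image, Finset.mem_insert, Finset.mem_subtype]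
  constructor
  · rintro ⟨w, hw, rfl⟩
    by_cases hwa : w = a
    · left
      rw [hwa, extendAt_self]
    · right
      exact ⟨⟨w, hwa⟩, hw, (extendAt_ne r ε₀ hwa).symm⟩
  · rintro (rfl | ⟨⟨w, hwa⟩, hw, rfl⟩)
    · exact ⟨a, ha, extendAt_self _ _ _⟩
    · exact ⟨w, hw, extendAt_ne r ε₀ hwa⟩

theorem image_extendAt_not_mem {a : α} (r : GolayPt) (ε₀ : {x // x ≠ a} → GolayPt) {z : Finset α}
    (ha : a ∉ z) :
    z.image (extendAt a r ε₀) = (z.subtype (fun x => x ≠ a)).image ε₀ := by
  ext t
  simp only [Finset.mem_image, Finset.mem_subtype]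
  constructor
  · rintro ⟨w, hw, rfl⟩
    have hwa : w ≠ a := fun h => ha (h ▸ hw)
    exact ⟨⟨w, hwa⟩, hw, (extendAt_ne r ε₀ hwa).symm⟩
  · rintro ⟨⟨w, hwa⟩, hw, rfl⟩
    exact ⟨w, hw, extendAt_ne r ε₀ hwa⟩

/-- A Steiner system mapped into the octads covers all octads containing the extra set `A`. -/
theorem surj_octads {β : Type*} [Fintype β] [DecidableEq β] {t k : ℕ} {D : Set (Finset β)}
    (hD : IsSteinerSystem t k D) {A : Finset GolayPt} (hA : A.card + t = 5) {ε : β → GolayPt}
    (hinj : Function.Injective ε) (hrange : ∀ y, y ∉ A → ∃ x, ε x = y) (hεA : ∀ x, ε x ∉ A)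
    (hoct : ∀ z ∈ D, A ∪ z.image ε ∈ octads) {o : Finset GolayPt} (ho : o ∈ octads) (hAo : A ⊆ o) :
    ∃ z ∈ D, o = A ∪ z.image ε := by
  have h1 : t ≤ (o \ A).card := by
    rw [Finset.card_sdiff_of_subset hAo, ho.2]
    omega
  obtain ⟨S, hS, hSc⟩ := Finset.exists_subset_card_eq h1
  let S' : Finset β := Finset.univ.filter (fun x => ε x ∈ S)
  have hS' : S'.image ε = S := by
    ext y
    simp only [Finset.mem_image, S', Finset.mem_filter, Finset.mem_univ, true_and]
    constructor
    · rintro ⟨x, hx, rfl⟩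
      exact hx
    · intro hy
      have hyA : y ∉ A := (Finset.mem_sdiff.mp (hS hy)).2
      obtain ⟨x, rfl⟩ := hrange y hyA
      exact ⟨x, hy, rfl⟩
  have hc : S'.card = t := by
    rw [← hSc, ← hS', Finset.card_image_of_injective _ hinj]
  obtain ⟨z, ⟨hz, hsz⟩, -⟩ := hD.2 S' hc
  refine ⟨z, hz, ?_⟩
  apply eq_of_le_inter steiner_octads ho (hoct z hz)
  have hsub : A ∪ S ⊆ o ∩ (A ∪ z.image ε) := by
    intro y hy
    rw [Finset.mem_inter]
    rcases Finset.mem_union.mp hy with hy | hy
    · exact ⟨hAo hy, Finset.mem_union_left _ hy⟩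
    · refine ⟨(Finset.mem_sdiff.mp (hS hy)).1, Finset.mem_union_right _ ?_⟩
      rw [← hS'] at hy
      obtain ⟨x, hx, rfl⟩ := Finset.mem_image.mp hy
      exact Finset.mem_image_of_mem _ (hsz hx)
  have hdis : Disjoint A S := by
    rw [Finset.disjoint_right]
    intro y hy
    exact (Finset.mem_sdiff.mp (hS hy)).2
  have := Finset.card_le_card hsub
  rw [Finset.card_union_of_disjoint hdis, hSc, hA] at this
  exact this

theorem range_of_card {β : Type*} [Fintype β] [DecidableEq β] {A : Finset GolayPt} {ε : β → GolayPt}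
    (hinj : Function.Injective ε) (hεA : ∀ x, ε x ∉ A) (hc : Fintype.card β + A.card = 24)
    (y : GolayPt) (hy : y ∉ A) : ∃ x, ε x = y := by
  have h1 : Finset.univ.image ε = Aᶜ := by
    apply Finset.eq_of_subset_of_card_le
    · intro t ht
      obtain ⟨x, -, rfl⟩ := Finset.mem_image.mp ht
      exact Finset.mem_compl.mpr (hεA x)
    · rw [Finset.card_image_of_injective _ hinj, Finset.card_compl, Finset.card_univ]
      have : Fintype.card GolayPt = 24 := rfl
      omega
  have h2 : y ∈ Finset.univ.image ε := by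
    rw [h1]
    exact Finset.mem_compl.mpr hy
  obtain ⟨x, -, hx⟩ := Finset.mem_image.mp h2
  exact ⟨x, hx⟩

theorem image_inter_injective {β : Type*} [DecidableEq β] {f : β → GolayPt} (hf : Function.Injective f)
    (x y : Finset β) : (x.image f ∩ y.image f).card = (x ∩ y).card := by
  rw [← Finset.image_inter _ _ hf, Finset.card_image_of_injective _ hf]

/-- Any S(4,7,23) embeds in the octads through `q0`. -/
theorem embed423 (hα : Fintype.card α = 23) {D : Set (Finset α)} (hD : IsSteinerSystem 4 7 D) :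
    ∃ ε : α → GolayPt, Function.Injective ε ∧ (∀ x, ε x ≠ q0) ∧
      ∀ z ∈ D, insert q0 (z.image ε) ∈ octads := by
  have hpos : 0 < Fintype.card α := by omega
  obtain ⟨a⟩ := Fintype.card_pos_iff.mp hpos
  have hD' : IsSteinerSystem 3 6 (derived D a) := derived_steiner hD a
  have hP : Fintype.card {x // x ≠ a} = 22 := by
    rw [card_ne, hα]
  obtain ⟨ε₀, hinj₀, hav₀, hoct₀⟩ := embed322 hP hD'
  let ε := extendAt a p0 ε₀
  have hinj : Function.Injective ε := extendAt_injective hinj₀ (fun x => (hav₀ x).1)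
  have hq : ∀ x, ε x ≠ q0 := by
    intro x
    by_cases hx : x = a
    · show extendAt a p0 ε₀ x ≠ q0
      rw [hx, extendAt_self]
      exact p0_ne_q0
    · show extendAt a p0 ε₀ x ≠ q0
      rw [extendAt_ne _ _ hx]
      exact (hav₀ _).2
  have hA : ∀ x ∈ D, a ∈ x → insert q0 (x.image ε) ∈ octads := by
    intro x hx hax
    have h1 := hoct₀ _ ⟨x, hx, hax, rfl⟩
    show insert q0 (x.image (extendAt a p0 ε₀)) ∈ octads
    rw [image_extendAt_mem _ _ hax, Finset.insert_comm]
    exact h1
  have hεA : ∀ x, ε₀ x ∉ ({p0, q0} : Finset GolayPt) := by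
    intro x hx
    simp only [Finset.mem_insert, Finset.mem_singleton] at hx
    rcases hx with hx | hx
    · exact (hav₀ x).1 hx
    · exact (hav₀ x).2 hx
  have hcard2 : ({p0, q0} : Finset GolayPt).card = 2 := Finset.card_pair p0_ne_q0
  have hrange := range_of_card hinj₀ hεA (by rw [hP, hcard2])
  have hoct₁ : ∀ z ∈ derived D a, ({p0, q0} : Finset GolayPt) ∪ z.image ε₀ ∈ octads := by
    intro z hz
    have := hoct₀ z hz
    simpa [Finset.insert_union] using this
  have hB : ∀ o ∈ octads, p0 ∈ o → q0 ∈ o → ∃ x ∈ D, a ∈ x ∧ o = insert q0 (x.image ε) := by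
    intro o ho hpo hqo
    have hsub : ({p0, q0} : Finset GolayPt) ⊆ o := by
      intro t ht
      simp only [Finset.mem_insert, Finset.mem_singleton] at ht
      rcases ht with rfl | rfl <;> assumption
    obtain ⟨z, ⟨x, hx, hax, rfl⟩, hoz⟩ := surj_octads hD' (by rw [hcard2]) hinj₀ hrange hεA hoct₁ ho hsub
    refine ⟨x, hx, hax, ?_⟩
    show o = insert q0 (x.image (extendAt a p0 ε₀))
    rw [image_extendAt_mem _ _ hax, hoz, Finset.insert_union, Finset.singleton_union,
      Finset.insert_comm]
  have hY : ∀ y ∈ D, a ∉ y → insert q0 (y.image ε) ∈ octads ∨ insert p0 (y.image ε) ∈ octads := by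
    intro y hy hay
    have hp1 : p0 ∉ y.image ε := by
      intro h
      obtain ⟨w, hw, hwe⟩ := Finset.mem_image.mp h
      have hwa : w ≠ a := fun h => hay (h ▸ hw)
      have : extendAt a p0 ε₀ w = p0 := hwe
      rw [extendAt_ne _ _ hwa] at this
      exact (hav₀ _).1 this
    have hq1 : q0 ∉ y.image ε := by
      intro h
      obtain ⟨w, -, hwe⟩ := Finset.mem_image.mp h
      exact hq w hwe
    have hcy : (y.image ε).card = 7 := by
      rw [Finset.card_image_of_injective _ hinj, hD.1 y hy]
    have := mem_of_orth_pq (y.image ε) hp1 hq1 (by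
      intro o ho hpo hqo
      obtain ⟨x, hx, hax, rfl⟩ := hB o ho hpo hqo
      have hqx : q0 ∉ x.image ε := by
        intro h
        obtain ⟨w, -, hwe⟩ := Finset.mem_image.mp h
        exact hq w hwe
      rw [Finset.insert_inter_of_mem (Finset.mem_insert_self _ _),
        Finset.inter_insert_of_notMem hqx,
        Finset.card_insert_of_notMem (fun h => hqx (Finset.mem_inter.mp h).1),
        image_inter_injective hinj, Finset.inter_comm]
      exact (inter_odd_423 hα hD hx hy).add_one)
    rcases this with h | h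
    · left
      apply mem_octads_of_chi h
      rw [Finset.card_insert_of_notMem hq1, hcy]
    · right
      apply mem_octads_of_chi h
      rw [Finset.card_insert_of_notMem hp1, hcy]
  by_cases hall : ∀ y ∈ D, a ∉ y → insert q0 (y.image ε) ∈ octads
  · refine ⟨ε, hinj, hq, ?_⟩
    intro z hz
    by_cases haz : a ∈ z
    · exact hA z hz haz
    · exact hall z hz haz
  · push Not at hall
    obtain ⟨y₁, hy₁, hay₁, hn⟩ := hall
    have hp₁ := (hY y₁ hy₁ hay₁).resolve_left hn
    have hall' : ∀ y ∈ D, a ∉ y → insert p0 (y.image ε) ∈ octads := by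
      intro y hy hay
      refine (hY y hy hay).resolve_left ?_
      intro hqy
      have h1 := octad_inter_even hqy hp₁
      have hp1 : p0 ∉ y.image ε := by
        intro h
        obtain ⟨w, hw, hwe⟩ := Finset.mem_image.mp h
        have hwa : w ≠ a := fun h => hay (h ▸ hw)
        have : extendAt a p0 ε₀ w = p0 := hwe
        rw [extendAt_ne _ _ hwa] at this
        exact (hav₀ _).1 this
      have hq1 : q0 ∉ y₁.image ε := by
        intro h
        obtain ⟨w, -, hwe⟩ := Finset.mem_image.mp h
        exact hq w hwe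
      rw [Finset.insert_inter_of_notMem (by
        intro h
        rcases Finset.mem_insert.mp h with h | h
        · exact p0_ne_q0 h.symm
        · exact hq1 h), Finset.inter_insert_of_notMem hp1, image_inter_injective hinj] at h1
      exact (Nat.not_even_iff_odd.mpr (inter_odd_423 hα hD hy₁ hy)) h1
    obtain ⟨τ, hτ, hτp, hτq⟩ := two_trans p0_ne_q0 p0_ne_q0.symm
    let ε₁ : {x // x ≠ a} → GolayPt := fun x => τ (ε₀ x)
    have hε₁ : ∀ z : Finset {x // x ≠ a}, z.image ε₁ = τ • z.image ε₀ := by
      intro z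
      ext t
      simp only [Finset.mem_smul_finset, Finset.mem_image, Equiv.Perm.smul_def, ε₁]
      constructor
      · rintro ⟨x, hx, rfl⟩
        exact ⟨_, ⟨x, hx, rfl⟩, rfl⟩
      · rintro ⟨_, ⟨x, hx, rfl⟩, rfl⟩
        exact ⟨x, hx, rfl⟩
    have hinj₁ : Function.Injective ε₁ := τ.injective.comp hinj₀
    have hp₁' : ∀ x, ε₁ x ≠ p0 := by
      intro x h
      apply (hav₀ x).2
      apply τ.injective
      rw [hτq]
      exact h
    have hq₁' : ∀ x, ε₁ x ≠ q0 := by
      intro x h
      apply (hav₀ x).1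
      apply τ.injective
      rw [hτp]
      exact h
    refine ⟨extendAt a p0 ε₁, extendAt_injective hinj₁ hp₁', ?_, ?_⟩
    · intro x
      by_cases hx : x = a
      · rw [hx, extendAt_self]
        exact p0_ne_q0
      · rw [extendAt_ne _ _ hx]
        exact hq₁' _
    · intro z hz
      by_cases haz : a ∈ z
      · rw [image_extendAt_mem _ _ haz, hε₁]
        have h1 := smul_mem_octads hτ (hoct₀ _ ⟨z, hz, haz, rfl⟩)
        rw [Finset.smul_finset_insert, Finset.smul_finset_insert, Equiv.Perm.smul_def,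
          Equiv.Perm.smul_def, hτp, hτq] at h1
        exact h1
      · rw [image_extendAt_not_mem _ _ haz, hε₁]
        have h1 := smul_mem_octads hτ (hall' z hz haz)
        have h2 : z.image ε = (z.subtype (fun x => x ≠ a)).image ε₀ := image_extendAt_not_mem _ _ haz
        rw [h2, Finset.smul_finset_insert, Equiv.Perm.smul_def, hτp] at h1
        exact h1

/-- Any S(5,8,24) embeds in the octads. -/
theorem embed524 (hα : Fintype.card α = 24) {D : Set (Finset α)} (hD : IsSteinerSystem 5 8 D) :
    ∃ ε : α → GolayPt, Function.Injective ε ∧ ∀ z ∈ D, z.image ε ∈ octads := by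
  have hpos : 0 < Fintype.card α := by omega
  obtain ⟨a⟩ := Fintype.card_pos_iff.mp hpos
  have hD' : IsSteinerSystem 4 7 (derived D a) := derived_steiner hD a
  have hP : Fintype.card {x // x ≠ a} = 23 := by
    rw [card_ne, hα]
  obtain ⟨ε₀, hinj₀, hav₀, hoct₀⟩ := embed423 hP hD'
  let ε := extendAt a q0 ε₀
  have hinj : Function.Injective ε := extendAt_injective hinj₀ hav₀
  have hA : ∀ x ∈ D, a ∈ x → x.image ε ∈ octads := by
    intro x hx hax
    have h1 := hoct₀ _ ⟨x, hx, hax, rfl⟩
    show x.image (extendAt a q0 ε₀) ∈ octads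
    rw [image_extendAt_mem _ _ hax]
    exact h1
  have hεA : ∀ x, ε₀ x ∉ ({q0} : Finset GolayPt) := by
    intro x hx
    exact hav₀ x (Finset.mem_singleton.mp hx)
  have hcard1 : ({q0} : Finset GolayPt).card = 1 := Finset.card_singleton _
  have hrange := range_of_card hinj₀ hεA (by rw [hP, hcard1])
  have hoct₁ : ∀ z ∈ derived D a, ({q0} : Finset GolayPt) ∪ z.image ε₀ ∈ octads := by
    intro z hz
    have := hoct₀ z hz
    simpa using this
  have hB : ∀ o ∈ octads, q0 ∈ o → ∃ x ∈ D, a ∈ x ∧ o = x.image ε := by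
    intro o ho hqo
    have hsub : ({q0} : Finset GolayPt) ⊆ o := Finset.singleton_subset_iff.mpr hqo
    obtain ⟨z, ⟨x, hx, hax, rfl⟩, hoz⟩ := surj_octads hD' (by rw [hcard1]) hinj₀ hrange hεA hoct₁ ho hsub
    refine ⟨x, hx, hax, ?_⟩
    show o = x.image (extendAt a q0 ε₀)
    rw [image_extendAt_mem _ _ hax, hoz, Finset.singleton_union]
  refine ⟨ε, hinj, ?_⟩
  intro z hz
  by_cases haz : a ∈ z
  · exact hA z hz haz
  · apply mem_octads_of_chi
    · apply mem_of_orth_q
      intro o ho hqo
      obtain ⟨x, hx, hax, rfl⟩ := hB o ho hqo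
      rw [image_inter_injective hinj, Finset.inter_comm]
      exact inter_even_524 hα hD hx hz
    · rw [Finset.card_image_of_injective _ hinj, hD.1 z hz]

end Cfsg.Agent.H02.Stn
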