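import Cfsg.Agent.Lib.H02.Stn5

/-!
Isomorphism from embeddings in the octads.
-/

set_option autoImplicit false

namespace Cfsg.Agent.H02.Stn

open Cfsg Cfsg.Agent.H27.Golay Cfsg.Agent.H02.Gol
open scoped Pointwise

section iso

variable {α β : Type*} [Fintype α] [DecidableEq α] [Fintype β] [DecidableEq β]

theorem eq_of_union_eq {A S S' : Finset GolayPt} (h1 : Disjoint A S) (h2 : Disjoint A S')
    (h : A ∪ S = A ∪ S') : S = S' := by
  have h3 : (A ∪ S) \ A = S := Finset.union_sdiff_cancel_left h1
  have h4 : (A ∪ S') \ A = S' := Finset.union_sdiff_cancel_left h2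
  rw [← h3, ← h4, h]

theorem disjoint_image {γ : Type*} [DecidableEq γ] {A : Finset GolayPt} {ε : γ → GolayPt} (h : ∀ x, ε x ∉ A) (z : Finset γ) :
    Disjoint A (z.image ε) := by
  rw [Finset.disjoint_right]
  intro y hy
  obtain ⟨x, -, rfl⟩ := Finset.mem_image.mp hy
  exact h x

/-- Isomorphism of two systems embedded in the same part of the octads. -/
theorem iso_via_octads {t k : ℕ} {D : Set (Finset α)} {D' : Set (Finset β)} {A : Finset GolayPt}
    (hA : A.card + t = 5) (hα : Fintype.card α + A.card = 24) (hβ : Fintype.card β + A.card = 24)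
    (hD : IsSteinerSystem t k D) (hD' : IsSteinerSystem t k D')
    {ε : α → GolayPt} {ε' : β → GolayPt} (hinj : Function.Injective ε) (hinj' : Function.Injective ε')
    (hav : ∀ x, ε x ∉ A) (hav' : ∀ x, ε' x ∉ A)
    (hoct : ∀ z ∈ D, A ∪ z.image ε ∈ octads) (hoct' : ∀ z ∈ D', A ∪ z.image ε' ∈ octads) :
    SetSystemIso D D' := by
  have hr := range_of_card hinj hav hα
  have hr' := range_of_card hinj' hav' hβ
  have hex : ∀ x, ∃ y, ε' y = ε x := fun x => hr' _ (hav x)
  choose f hf using hex
  have hfinj : Function.Injective f := by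
    intro x y hxy
    apply hinj
    rw [← hf, ← hf, hxy]
  have hfsurj : Function.Surjective f := by
    intro y
    obtain ⟨x, hx⟩ := hr (ε' y) (hav' y)
    refine ⟨x, hinj' ?_⟩
    rw [hf, hx]
  let e : α ≃ β := Equiv.ofBijective f ⟨hfinj, hfsurj⟩
  have he : ∀ z : Finset α, z.image ε = (z.image e).image ε' := by
    intro z
    rw [Finset.image_image]
    apply Finset.image_congr
    intro x _
    exact (hf x).symm
  refine ⟨e, ?_⟩
  ext z'
  simp only [Set.mem_image]
  constructor
  · rintro ⟨z, hz, rfl⟩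
    have h1 := hoct z hz
    obtain ⟨w, hw, hwe⟩ := surj_octads hD' hA hinj' hr' hav' hoct' h1 Finset.subset_union_left
    have h2 := eq_of_union_eq (disjoint_image hav z) (disjoint_image hav' w) hwe
    rw [he] at h2
    rw [Finset.image_injective hinj' h2]
    exact hw
  · intro hz'
    have h1 := hoct' z' hz'
    obtain ⟨w, hw, hwe⟩ := surj_octads hD hA hinj hr hav hoct h1 Finset.subset_union_left
    have h2 := eq_of_union_eq (disjoint_image hav' z') (disjoint_image hav w) hwe
    rw [he] at h2
    exact ⟨w, hw, (Finset.image_injective hinj' h2).symm⟩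

theorem iso524 (hα : Fintype.card α = 24) (hβ : Fintype.card β = 24) {D : Set (Finset α)} {D' : Set (Finset β)}
    (hD : IsSteinerSystem 5 8 D) (hD' : IsSteinerSystem 5 8 D') : SetSystemIso D D' := by
  obtain ⟨ε, h1, h2⟩ := embed524 hα hD
  obtain ⟨ε', h1', h2'⟩ := embed524 hβ hD'
  refine iso_via_octads (A := ∅) (by simp) (by simpa using hα) (by simpa using hβ) hD hD' h1 h1' (by simp) (by simp) ?_ ?_
  · simpa using h2
  · simpa using h2'

theorem iso423 (hα : Fintype.card α = 23) (hβ : Fintype.card β = 23) {D : Set (Finset α)} {D' : Set (Finset β)}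
    (hD : IsSteinerSystem 4 7 D) (hD' : IsSteinerSystem 4 7 D') : SetSystemIso D D' := by
  obtain ⟨ε, h1, h2, h3⟩ := embed423 hα hD
  obtain ⟨ε', h1', h2', h3'⟩ := embed423 hβ hD'
  refine iso_via_octads (A := {q0}) (by simp) (by simp [hα]) (by simp [hβ]) hD hD' h1 h1' (by simpa using h2) (by simpa using h2') ?_ ?_
  · simpa using h3
  · simpa using h3'

theorem iso322 (hα : Fintype.card α = 22) (hβ : Fintype.card β = 22) {D : Set (Finset α)} {D' : Set (Finset β)}
    (hD : IsSteinerSystem 3 6 D) (hD' : IsSteinerSystem 3 6 D') : SetSystemIso D D' := by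
  obtain ⟨ε, h1, h2, h3⟩ := embed322 hα hD
  obtain ⟨ε', h1', h2', h3'⟩ := embed322 hβ hD'
  have hc : ({p0, q0} : Finset GolayPt).card = 2 := Finset.card_pair p0_ne_q0
  refine iso_via_octads (A := {p0, q0}) (by rw [hc]) (by rw [hc, hα]) (by rw [hc, hβ]) hD hD' h1 h1' ?_ ?_ ?_ ?_
  · intro x hx
    simp only [Finset.mem_insert, Finset.mem_singleton] at hx
    rcases hx with hx | hx
    · exact (h2 x).1 hx
    · exact (h2 x).2 hx
  · intro x hx
    simp only [Finset.mem_insert, Finset.mem_singleton] at hx
    rcases hx with hx | hx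
    · exact (h2' x).1 hx
    · exact (h2' x).2 hx
  · intro z hz
    have := h3 z hz
    simpa [Finset.insert_union] using this
  · intro z hz
    have := h3' z hz
    simpa [Finset.insert_union] using this

end iso

end Cfsg.Agent.H02.Stn
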