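import Cfsg.Agent.Lib.H02.Stn6
import Cfsg.Agent.Lib.H02.Gol9

/-!
Transport of automorphism groups, systems derived at a set.
-/

set_option autoImplicit false

namespace Cfsg.Agent.H02.Stn

open Cfsg Cfsg.Agent.H27.Golay Cfsg.Agent.H02.Gol
open scoped Pointwise

section aut

variable {α β : Type*} [Fintype α] [DecidableEq α] [Fintype β] [DecidableEq β]

theorem image_mem_of_mem_aut {B : Set (Finset α)} {g : Equiv.Perm α} (hg : g ∈ setSystemAut B)
    {b : Finset α} (hb : b ∈ B) : b.image g ∈ B := by
  rw [MulAction.mem_stabilizer_iff] at hg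
  rw [← hg]
  exact ⟨b, hb, rfl⟩

theorem mem_aut_of_forward {B : Set (Finset α)} {g : Equiv.Perm α} (h : ∀ b ∈ B, b.image g ∈ B) :
    g ∈ setSystemAut B := by
  rw [MulAction.mem_stabilizer_iff]
  have hfin : B.Finite := Set.toFinite B
  have hm : Set.MapsTo (fun b : Finset α => b.image g) B B := h
  have hinj : Set.InjOn (fun b : Finset α => b.image g) B :=
    fun a _ b _ hab => Finset.image_injective g.injective hab
  have hbij := (hfin.injOn_iff_bijOn_of_mapsTo hm).mp hinj
  exact hbij.image_eq

theorem exists_preimage_of_aut {B : Set (Finset α)} {g : Equiv.Perm α} (hg : g ∈ setSystemAut B)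
    {b : Finset α} (hb : b ∈ B) : ∃ b₀ ∈ B, b₀.image g = b := by
  rw [MulAction.mem_stabilizer_iff] at hg
  rw [← hg] at hb
  obtain ⟨b₀, hb₀, rfl⟩ := hb
  exact ⟨b₀, hb₀, rfl⟩

theorem permCongr_mem {e : α ≃ β} {B : Set (Finset α)} {B' : Set (Finset β)}
    (h : (fun b => b.image e) '' B = B') {g : Equiv.Perm α} (hg : g ∈ setSystemAut B) :
    e.permCongr g ∈ setSystemAut B' := by
  apply mem_aut_of_forward
  intro b' hb'
  rw [← h] at hb' ⊢
  obtain ⟨b, hb, rfl⟩ := hb'
  refine ⟨b.image g, image_mem_of_mem_aut hg hb, ?_⟩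
  simp only [Finset.image_image]
  apply Finset.image_congr
  intro x _
  simp [Equiv.permCongr_apply]

theorem image_symm_eq {e : α ≃ β} {B : Set (Finset α)} {B' : Set (Finset β)}
    (h : (fun b => b.image e) '' B = B') : (fun b => b.image e.symm) '' B' = B := by
  rw [← h, Set.image_image]
  have : ∀ b : Finset α, (b.image e).image e.symm = b := by
    intro b
    rw [Finset.image_image]
    simp
  simp [this]

/-- Transport of the automorphism group along an isomorphism. -/
theorem exists_aut_equiv {e : α ≃ β} {B : Set (Finset α)} {B' : Set (Finset β)}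
    (h : (fun b => b.image e) '' B = B') :
    ∃ φ : setSystemAut B ≃* setSystemAut B', ∀ g x, ((φ g : Equiv.Perm β)) (e x) = e ((g : Equiv.Perm α) x) := by
  have h' := image_symm_eq h
  refine ⟨{ toFun := fun g => ⟨e.permCongr g, permCongr_mem h g.2⟩
            invFun := fun g => ⟨e.symm.permCongr g, permCongr_mem h' g.2⟩
            left_inv := ?_
            right_inv := ?_
            map_mul' := ?_ }, ?_⟩
  · intro g
    ext x
    simp [Equiv.permCongr_apply]
  · intro g
    ext x
    simp [Equiv.permCongr_apply]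
  · intro g g'
    ext x
    simp [Equiv.permCongr_apply]
  · intro g x
    simp [Equiv.permCongr_apply]

theorem pretrans_of_equiv {G H : Type*} [Group G] [Group H] [MulAction G α] [MulAction H β] (φ : G ≃* H)
    (e : α ≃ β) (hc : ∀ g x, φ g • e x = e (g • x)) {k : ℕ}
    (h : MulAction.IsMultiplyPretransitive H β k) : MulAction.IsMultiplyPretransitive G α k := by
  constructor
  intro x y
  obtain ⟨a, ha⟩ := MulAction.exists_smul_eq H (x.trans e.toEmbedding) (y.trans e.toEmbedding)
  refine ⟨φ.symm a, ?_⟩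
  apply Function.Embedding.ext
  intro i
  apply e.injective
  have h1 := hc (φ.symm a) (x i)
  rw [MulEquiv.apply_symm_apply] at h1
  have h2 : a • e (x i) = e (y i) := by
    have := congrArg (fun f : Fin k ↪ β => f i) ha
    exact this
  show e ((φ.symm a) • x i) = e (y i)
  rw [← h1, h2]

/-- System derived at a set. -/
def derivedA (D : Set (Finset α)) (A : Finset α) : Set (Finset {x // x ∉ A}) :=
  {l | ∃ z ∈ D, A ⊆ z ∧ l = z.subtype (fun x => x ∉ A)}

theorem derivedA_steiner {t k a : ℕ} {D : Set (Finset α)} (hD : IsSteinerSystem (t + a) (k + a) D)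
    {A : Finset α} (hA : A.card = a) : IsSteinerSystem t k (derivedA D A) := by
  refine ⟨?_, ?_⟩
  · rintro b ⟨z, hz, hAz, rfl⟩
    rw [Finset.card_subtype]
    have h1 : z.filter (fun x => x ∉ A) = z \ A := by
      ext x
      simp
    rw [h1, Finset.card_sdiff_of_subset hAz, hD.1 z hz, hA]
    omega
  · intro s hs
    have hdis : Disjoint (s.map (Function.Embedding.subtype _)) A := by
      rw [Finset.disjoint_left]
      intro x hx
      obtain ⟨y, _, rfl⟩ := Finset.mem_map.mp hx
      exact y.2
    have hS : (s.map (Function.Embedding.subtype _) ∪ A).card = t + a := by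
      rw [Finset.card_union_of_disjoint hdis, Finset.card_map, hs, hA]
    obtain ⟨o, ⟨ho, hoS⟩, huniq⟩ := hD.2 _ hS
    have hTo : A ⊆ o := Finset.subset_union_right.trans hoS
    refine ⟨Finset.subtype _ o, ⟨⟨o, ho, hTo, rfl⟩, ?_⟩, ?_⟩
    · intro x hx
      rw [Finset.mem_subtype]
      exact hoS (Finset.mem_union_left _ (Finset.mem_map.mpr ⟨x, hx, rfl⟩))
    · rintro b ⟨⟨o', ho', hTo', rfl⟩, hsb⟩
      have : o' = o := huniq o' ⟨ho', by
        intro x hx
        rcases Finset.mem_union.mp hx with hx | hx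
        · obtain ⟨y, hy, rfl⟩ := Finset.mem_map.mp hx
          exact Finset.mem_subtype.mp (hsb hy)
        · exact hTo' hx⟩
      rw [this]

theorem card_compl_A (A : Finset α) : Fintype.card {x // x ∉ A} = Fintype.card α - A.card := by
  rw [Fintype.card_subtype_compl]
  simp

end aut

section restrict

variable {A : Finset GolayPt}

/-- Restriction of a permutation fixing `A` setwise. -/
def restrPerm (g : Equiv.Perm GolayPt) (hg : ∀ x, g x ∉ A ↔ x ∉ A) : Equiv.Perm {x // x ∉ A} :=
  g.subtypePerm hg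

theorem compl_iff_of_smul {g : Equiv.Perm GolayPt} (hg : g • A = A) (x : GolayPt) : g x ∉ A ↔ x ∉ A := by
  have h1 : x ∈ A ↔ g x ∈ A := by
    conv_rhs => rw [← hg]
    rw [Finset.mem_smul_finset]
    constructor
    · intro h
      exact ⟨x, h, rfl⟩
    · rintro ⟨y, hy, he⟩
      have : y = x := g.injective he
      exact this ▸ hy
  rw [h1]

theorem restr_mem {g : Equiv.Perm GolayPt} (hm : g ∈ M24) (hg : g • A = A) :
    restrPerm g (compl_iff_of_smul hg) ∈ setSystemAut (derivedA octads A) := by
  apply mem_aut_of_forward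
  rintro b ⟨o, ho, hAo, rfl⟩
  refine ⟨g • o, smul_mem_octads hm ho, ?_, ?_⟩
  · rw [← hg]
    exact Finset.smul_finset_subset_smul_finset hAo
  · ext x
    simp only [Finset.mem_image, Finset.mem_subtype, Finset.mem_smul_finset, Equiv.Perm.smul_def]
    constructor
    · rintro ⟨y, hy, rfl⟩
      exact ⟨y.1, hy, rfl⟩
    · rintro ⟨y, hy, hyx⟩
      have hyA : y ∉ A := by
        have := (compl_iff_of_smul hg y).mp
        rw [hyx] at this
        exact this x.2
      exact ⟨⟨y, hyA⟩, hy, Subtype.ext hyx⟩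

/-- The restriction isomorphism. -/
theorem exists_restr_equiv (T : Subgroup ↥M24) (hT : ∀ g ∈ T, (g : Equiv.Perm GolayPt) • A = A)
    (hinj : ∀ g ∈ T, (∀ x, x ∉ A → (g : Equiv.Perm GolayPt) x = x) → g = 1)
    (hsurj : ∀ h ∈ setSystemAut (derivedA octads A), ∃ g ∈ T, ∀ x : {x // x ∉ A},
      (g : Equiv.Perm GolayPt) x.1 = (h x).1) :
    ∃ φ : T ≃* setSystemAut (derivedA octads A), ∀ g x,
      ((φ g : Equiv.Perm {x // x ∉ A}) x).1 = ((g : ↥M24) : Equiv.Perm GolayPt) x.1 := by
  let ρ : T →* setSystemAut (derivedA octads A) :=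
    { toFun := fun g => ⟨restrPerm g.1.1 (compl_iff_of_smul (hT g.1 g.2)),
        restr_mem g.1.2 (hT g.1 g.2)⟩
      map_one' := by
        ext x
        rfl
      map_mul' := by
        intro a b
        ext x
        rfl }
  have hρ : ∀ g x, ((ρ g : Equiv.Perm {x // x ∉ A}) x).1 = ((g : ↥M24) : Equiv.Perm GolayPt) x.1 := fun _ _ => rfl
  have hbij : Function.Bijective ρ := by
    constructor
    · rw [injective_iff_map_eq_one]
      intro g hg
      have := hinj g.1 g.2 (by
        intro x hx
        have h1 := hρ g ⟨x, hx⟩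
        rw [hg] at h1
        exact h1.symm)
      exact Subtype.ext this
    · rintro ⟨h, hh⟩
      obtain ⟨g, hg, hgh⟩ := hsurj h hh
      refine ⟨⟨g, hg⟩, ?_⟩
      apply Subtype.ext
      apply Equiv.ext
      intro x
      apply Subtype.ext
      exact hgh x
  exact ⟨MulEquiv.ofBijective ρ hbij, hρ⟩

end restrict

end Cfsg.Agent.H02.Stn
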