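import Cfsg.Agent.Lib.H02.Stn8

/-!
Automorphism group of S(3,6,22).
-/

set_option autoImplicit false

namespace Cfsg.Agent.H02.Stn

open Cfsg Cfsg.Agent.H27.Golay Cfsg.Agent.H02.Gol
open scoped Pointwise

/-- The pair of points. -/
abbrev A2 : Finset GolayPt := {p0, q0}

/-- The derived system at the pair. -/
abbrev M2 : Set (Finset {x // x ∉ A2}) := derivedA octads A2

theorem p0_mem_A2 : p0 ∈ A2 := by decide
theorem q0_mem_A2 : q0 ∈ A2 := by decide

theorem A2_subset {o : Finset GolayPt} (hp : p0 ∈ o) (hq : q0 ∈ o) : A2 ⊆ o := by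
  intro t ht
  simp only [A2, Finset.mem_insert, Finset.mem_singleton] at ht
  rcases ht with rfl | rfl <;> assumption

section dich

variable {h : Equiv.Perm {x // x ∉ A2}}

theorem hat_dichotomy (hh : h ∈ setSystemAut M2) :
    Equiv.Perm.ofSubtype h ∈ M24 ∨ Equiv.Perm.ofSubtype h * Equiv.swap p0 q0 ∈ M24 := by
  set g := Equiv.Perm.ofSubtype h with hg
  have hgp : g p0 = p0 := hat_fix h p0_mem_A2
  have hgq : g q0 = q0 := hat_fix h q0_mem_A2
  have hoctP : ∀ o ∈ octads, p0 ∈ o → q0 ∈ o → o.image g ∈ octads := fun o ho hp hq =>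
    (hat_octad hh ho (A2_subset hp hq)).1
  let P : Set (Finset GolayPt) := {o | o ∈ octads ∧ p0 ∈ o ∧ q0 ∈ o}
  have hm : Set.MapsTo (fun b : Finset GolayPt => b.image g) P P := by
    rintro o ⟨ho, hpo, hqo⟩
    refine ⟨hoctP o ho hpo hqo, ?_, ?_⟩
    · rw [← hgp]
      exact Finset.mem_image_of_mem _ hpo
    · rw [← hgq]
      exact Finset.mem_image_of_mem _ hqo
  have hinj : Set.InjOn (fun b : Finset GolayPt => b.image g) P :=
    fun a _ b _ hab => Finset.image_injective g.injective hab
  have hbij := ((Set.toFinite P).injOn_iff_bijOn_of_mapsTo hm).mp hinj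
  have hpY : ∀ Y : Finset GolayPt, p0 ∉ Y → p0 ∉ Y.image g := by
    intro Y hY h1
    obtain ⟨y, hy, hye⟩ := Finset.mem_image.mp h1
    rw [← hgp] at hye
    exact hY (g.injective hye ▸ hy)
  have hqY : ∀ Y : Finset GolayPt, q0 ∉ Y → q0 ∉ Y.image g := by
    intro Y hY h1
    obtain ⟨y, hy, hye⟩ := Finset.mem_image.mp h1
    rw [← hgq] at hye
    exact hY (g.injective hye ▸ hy)
  have himg : ∀ o : Finset GolayPt, q0 ∈ o → o.image g = insert q0 ((o.erase q0).image g) := by
    intro o hqo
    conv_lhs => rw [← Finset.insert_erase hqo]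
    rw [Finset.image_insert, hgq]
  have hkey : ∀ o ∈ octads, q0 ∈ o → p0 ∉ o → o.image g ∈ octads ∨ insert p0 ((o.erase q0).image g) ∈ octads := by
    intro o ho hqo hpo
    have hp1 : p0 ∉ (o.erase q0).image g :=
      hpY _ (fun h1 => hpo (Finset.mem_of_mem_erase h1))
    have hq1 : q0 ∉ (o.erase q0).image g := hqY _ (Finset.notMem_erase _ _)
    have hc : ((o.erase q0).image g).card = 7 := by
      rw [Finset.card_image_of_injective _ g.injective, Finset.card_erase_of_mem hqo, ho.2]
    have := mem_of_orth_pq ((o.erase q0).image g) hp1 hq1 (by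
      intro o' ho' hp' hq'
      obtain ⟨o₀, ⟨ho₀, -, -⟩, rfl⟩ := hbij.surjOn ⟨ho', hp', hq'⟩
      rw [← himg o hqo]
      simp only
      rw [image_inter_injective g.injective]
      exact octad_inter_even ho₀ ho)
    rcases this with h1 | h1
    · left
      rw [himg o hqo]
      apply mem_octads_of_chi h1
      rw [Finset.card_insert_of_notMem hq1, hc]
    · right
      apply mem_octads_of_chi h1
      rw [Finset.card_insert_of_notMem hp1, hc]
  by_cases hall : ∀ o ∈ octads, q0 ∈ o → p0 ∉ o → o.image g ∈ octads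
  · left
    apply ext_aut_q hgq
    intro o ho hqo
    by_cases hpo : p0 ∈ o
    · exact hoctP o ho hpo hqo
    · exact hall o ho hqo hpo
  · right
    push Not at hall
    obtain ⟨o₁, ho₁, hq₁, hp₁, hn⟩ := hall
    have hB₁ := (hkey o₁ ho₁ hq₁ hp₁).resolve_left hn
    have hallB : ∀ o ∈ octads, q0 ∈ o → p0 ∉ o → insert p0 ((o.erase q0).image g) ∈ octads := by
      intro o ho hqo hpo
      refine (hkey o ho hqo hpo).resolve_left ?_
      intro hA
      have h1 := octad_inter_even hA hB₁
      have hq2 : q0 ∉ insert p0 ((o₁.erase q0).image g) := by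
        intro h2
        rcases Finset.mem_insert.mp h2 with h2 | h2
        · exact p0_ne_q0 h2.symm
        · exact hqY _ (Finset.notMem_erase _ _) h2
      rw [himg o hqo, Finset.insert_inter_of_notMem hq2,
        Finset.inter_insert_of_notMem (hpY _ (fun h2 => hpo (Finset.mem_of_mem_erase h2))),
        image_inter_injective g.injective] at h1
      have h3 := octad_inter_even ho ho₁
      have h4 : (o ∩ o₁) = insert q0 (o.erase q0 ∩ o₁.erase q0) := by
        ext t
        simp only [Finset.mem_inter, Finset.mem_insert, Finset.mem_erase]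
        by_cases ht : t = q0
        · simp [ht, hqo, hq₁]
        · simp [ht]
      rw [h4, Finset.card_insert_of_notMem (fun h5 => Finset.notMem_erase _ _ (Finset.mem_inter.mp h5).1)] at h3
      exact (Nat.not_even_iff_odd.mpr h1.add_one) (by simpa using h3) |>.elim
    obtain ⟨τ, hτ, hτp, hτq⟩ := two_trans p0_ne_q0 p0_ne_q0.symm
    have hmem : τ * (g * Equiv.swap p0 q0) ∈ M24 := by
      apply ext_aut_q
      · rw [Equiv.Perm.mul_apply, Equiv.Perm.mul_apply, Equiv.swap_apply_right, hgp, hτp]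
      · intro o ho hqo
        have hsm := fun (X : Finset GolayPt) => (Finset.smul_finset_def (a := τ) (s := X))
        have hI : ∀ X : Finset GolayPt, X.image (τ * (g * Equiv.swap p0 q0)) = τ • (X.image (Equiv.swap p0 q0)).image g := by
          intro X
          ext t
          simp only [Finset.mem_image, Finset.mem_smul_finset, Equiv.Perm.smul_def, Equiv.Perm.mul_apply]
          constructor
          · rintro ⟨x, hx, rfl⟩
            exact ⟨_, ⟨_, ⟨x, hx, rfl⟩, rfl⟩, rfl⟩
          · rintro ⟨_, ⟨_, ⟨x, hx, rfl⟩, rfl⟩, rfl⟩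
            exact ⟨x, hx, rfl⟩
        rw [hI]
        apply smul_mem_octads hτ
        by_cases hpo : p0 ∈ o
        · have hS : o.image (Equiv.swap p0 q0) = o := by
            ext t
            simp only [Finset.mem_image]
            constructor
            · rintro ⟨x, hx, rfl⟩
              by_cases hx1 : x = p0
              · rw [hx1, Equiv.swap_apply_left]; exact hqo
              by_cases hx2 : x = q0
              · rw [hx2, Equiv.swap_apply_right]; exact hpo
              rw [Equiv.swap_apply_of_ne_of_ne hx1 hx2]; exact hx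
            · intro ht
              refine ⟨Equiv.swap p0 q0 t, ?_, Equiv.swap_apply_self _ _ _⟩
              by_cases hx1 : t = p0
              · rw [hx1, Equiv.swap_apply_left]; exact hqo
              by_cases hx2 : t = q0
              · rw [hx2, Equiv.swap_apply_right]; exact hpo
              rw [Equiv.swap_apply_of_ne_of_ne hx1 hx2]; exact ht
          rw [hS]
          exact hoctP o ho hpo hqo
        · have hS : o.image (Equiv.swap p0 q0) = insert p0 (o.erase q0) := by
            conv_lhs => rw [← Finset.insert_erase hqo]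
            rw [Finset.image_insert, Equiv.swap_apply_right]
            congr 1
            ext t
            simp only [Finset.mem_image, Finset.mem_erase]
            constructor
            · rintro ⟨x, ⟨hx1, hx2⟩, rfl⟩
              have hx3 : x ≠ p0 := fun e => hpo (e ▸ hx2)
              rw [Equiv.swap_apply_of_ne_of_ne hx3 hx1]
              exact ⟨hx1, hx2⟩
            · rintro ⟨hx1, hx2⟩
              have hx3 : t ≠ p0 := fun e => hpo (e ▸ hx2)
              exact ⟨t, ⟨hx1, hx2⟩, Equiv.swap_apply_of_ne_of_ne hx3 hx1⟩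
          rw [hS, Finset.image_insert, hgp]
          exact hallB o ho hqo hpo
    have := M24.mul_mem (M24.inv_mem hτ) hmem
    rwa [inv_mul_cancel_left] at this

end dich

theorem smul_A2 {g : Equiv.Perm GolayPt} (h : g p0 = p0 ∧ g q0 = q0 ∨ g p0 = q0 ∧ g q0 = p0) : g • A2 = A2 := by
  simp only [A2]
  rw [Finset.smul_finset_insert, Finset.smul_finset_singleton, Equiv.Perm.smul_def, Equiv.Perm.smul_def]
  rcases h with ⟨h1, h2⟩ | ⟨h1, h2⟩
  · rw [h1, h2]
  · rw [h1, h2, Finset.pair_comm]

theorem cases_of_smul_A2 {g : Equiv.Perm GolayPt} (h : g • A2 = A2) :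
    g p0 = p0 ∧ g q0 = q0 ∨ g p0 = q0 ∧ g q0 = p0 := by
  have h1 : g p0 ∈ A2 := by
    rw [← h]
    exact Finset.smul_mem_smul_finset p0_mem_A2
  have h2 : g q0 ∈ A2 := by
    rw [← h]
    exact Finset.smul_mem_smul_finset q0_mem_A2
  simp only [A2, Finset.mem_insert, Finset.mem_singleton] at h1 h2
  have hne : g p0 ≠ g q0 := fun e => p0_ne_q0 (g.injective e)
  rcases h1 with h1 | h1 <;> rcases h2 with h2 | h2
  · rw [h1, h2] at hne; exact absurd rfl hne
  · exact Or.inl ⟨h1, h2⟩
  · exact Or.inr ⟨h1, h2⟩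
  · rw [h1, h2] at hne; exact absurd rfl hne

/-- The setwise stabiliser of the pair. -/
def T2 : Subgroup ↥M24 where
  carrier := {g | (g : Equiv.Perm GolayPt) • A2 = A2}
  one_mem' := by
    show ((1 : Equiv.Perm GolayPt)) • A2 = A2
    exact one_smul _ _
  mul_mem' := by
    intro a b ha hb
    show ((a : Equiv.Perm GolayPt) * b) • A2 = A2
    rw [mul_smul, show (b : Equiv.Perm GolayPt) • A2 = A2 from hb]
    exact ha
  inv_mem' := by
    intro a ha
    show ((a : Equiv.Perm GolayPt))⁻¹ • A2 = A2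
    rw [inv_smul_eq_iff]
    exact (show (a : Equiv.Perm GolayPt) • A2 = A2 from ha).symm

theorem mem_T2 {g : ↥M24} : g ∈ T2 ↔ (g : Equiv.Perm GolayPt) • A2 = A2 := Iff.rfl

theorem eq_one_of_fix_pair {g : ↥M24} (hg : g ∈ T2) (hfix : ∀ x, x ∉ A2 → (g : Equiv.Perm GolayPt) x = x) : g = 1 := by
  apply eq_one_of_apply
  rcases cases_of_smul_A2 hg with ⟨h1, h2⟩ | ⟨h1, h2⟩
  · intro x
    by_cases hx : x ∈ A2
    · simp only [A2, Finset.mem_insert, Finset.mem_singleton] at hx
      rcases hx with rfl | rfl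
      · exact h1
      · exact h2
    · exact hfix x hx
  · exfalso
    have ho : fs m00 ∈ octads := fs_mem_octads m00_oct.1
    have hp : p0 ∈ fs m00 := mem_fs.mpr m00_oct.2.2
    have hq : q0 ∉ fs m00 := by
      rw [mem_fs]
      intro h'
      have h'' : m00.testBit 23 = true := h'
      rw [m00_oct.2.1] at h''
      cases h''
    have h3 := octad_inter_even ho (smul_mem_octads g.2 ho)
    have h4 : fs m00 ∩ ((g : Equiv.Perm GolayPt) • fs m00) = (fs m00).erase p0 := by
      ext t
      simp only [Finset.mem_inter, Finset.mem_erase, Finset.mem_smul_finset, Equiv.Perm.smul_def]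
      constructor
      · rintro ⟨ht, x, hx, rfl⟩
        refine ⟨?_, ht⟩
        intro e
        have : x = q0 := by
          apply (g : Equiv.Perm GolayPt).injective
          rw [e, h2]
        exact hq (this ▸ hx)
      · rintro ⟨ht1, ht2⟩
        refine ⟨ht2, t, ht2, ?_⟩
        apply hfix
        simp only [A2, Finset.mem_insert, Finset.mem_singleton, not_or]
        refine ⟨ht1, ?_⟩
        rintro rfl
        exact hq ht2
    rw [h4, Finset.card_erase_of_mem hp, ho.2] at h3
    exact absurd h3 (by decide)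

theorem M2_equiv : ∃ φ : T2 ≃* setSystemAut M2, ∀ g x,
      ((φ g : Equiv.Perm {x // x ∉ A2}) x).1 = ((g : ↥M24) : Equiv.Perm GolayPt) x.1 := by
  apply exists_restr_equiv T2
  · intro g hg
    exact hg
  · exact fun g hg h => eq_one_of_fix_pair hg h
  · intro h hh
    have hgp : Equiv.Perm.ofSubtype h p0 = p0 := hat_fix h p0_mem_A2
    have hgq : Equiv.Perm.ofSubtype h q0 = q0 := hat_fix h q0_mem_A2
    rcases hat_dichotomy hh with hm | hm
    · refine ⟨⟨_, hm⟩, smul_A2 (Or.inl ⟨hgp, hgq⟩), ?_⟩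
      intro x
      exact hat_apply h x
    · refine ⟨⟨_, hm⟩, smul_A2 (Or.inr ?_), ?_⟩
      · rw [Equiv.Perm.mul_apply, Equiv.Perm.mul_apply, Equiv.swap_apply_left, Equiv.swap_apply_right, hgp, hgq]
        exact ⟨rfl, rfl⟩
      · intro x
        have h1 : x.1 ≠ p0 := fun e => x.2 (e ▸ p0_mem_A2)
        have h2 : x.1 ≠ q0 := fun e => x.2 (e ▸ q0_mem_A2)
        show (Equiv.Perm.ofSubtype h * Equiv.swap p0 q0) x.1 = _
        rw [Equiv.Perm.mul_apply, Equiv.swap_apply_of_ne_of_ne h1 h2]
        exact hat_apply h x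

/-- The pointwise stabiliser. -/
abbrev U2 : Subgroup ↥M24 := MulAction.stabilizer M24 p0 ⊓ MulAction.stabilizer M24 q0

theorem U2_le : U2 ≤ T2 := by
  rintro g ⟨h1, h2⟩
  exact smul_A2 (Or.inl ⟨h1, h2⟩)

theorem card_T2 : Nat.card T2 = 887040 := by
  have hidx : (U2.subgroupOf T2).index = 2 := by
    rw [Subgroup.index_eq_two_iff]
    obtain ⟨τ, hτ, hτp, hτq⟩ := two_trans p0_ne_q0 p0_ne_q0.symm
    have hτT : (⟨τ, hτ⟩ : ↥M24) ∈ T2 := smul_A2 (Or.inr ⟨hτp, hτq⟩)
    refine ⟨⟨⟨τ, hτ⟩, hτT⟩, ?_⟩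
    rintro ⟨b, hb⟩
    have hmem : ∀ {c : T2}, c ∈ U2.subgroupOf T2 ↔ ((c : ↥M24) : Equiv.Perm GolayPt) p0 = p0 ∧ ((c : ↥M24) : Equiv.Perm GolayPt) q0 = q0 := by
      intro c
      rw [Subgroup.mem_subgroupOf]
      exact Iff.rfl
    rw [hmem, hmem]
    have hcase := cases_of_smul_A2 hb
    have e1 : (((⟨b, hb⟩ * ⟨⟨τ, hτ⟩, hτT⟩ : T2) : ↥M24) : Equiv.Perm GolayPt) p0 = (b : Equiv.Perm GolayPt) q0 := by
      show (b : Equiv.Perm GolayPt) (τ p0) = _
      rw [hτp]
    have e2 : (((⟨b, hb⟩ * ⟨⟨τ, hτ⟩, hτT⟩ : T2) : ↥M24) : Equiv.Perm GolayPt) q0 = (b : Equiv.Perm GolayPt) p0 := by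
      show (b : Equiv.Perm GolayPt) (τ q0) = _
      rw [hτq]
    rw [e1, e2]
    show Xor' (_ ∧ _) ((b : Equiv.Perm GolayPt) p0 = p0 ∧ (b : Equiv.Perm GolayPt) q0 = q0)
    rcases hcase with ⟨h1, h2⟩ | ⟨h1, h2⟩
    · right
      refine ⟨⟨h1, h2⟩, ?_⟩
      rintro ⟨h3, -⟩
      rw [h2] at h3
      exact p0_ne_q0 h3.symm
    · left
      refine ⟨⟨h2, h1⟩, ?_⟩
      rintro ⟨h3, -⟩
      rw [h1] at h3
      exact p0_ne_q0 h3.symm
  have hc := Subgroup.card_mul_index (U2.subgroupOf T2)
  rw [hidx, Nat.card_congr (Subgroup.subgroupOfEquivOfLe U2_le).toEquiv, card_two_stab p0_ne_q0] at hc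
  exact hc.symm

theorem M2_pretrans : MulAction.IsMultiplyPretransitive (setSystemAut M2) {x // x ∉ A2} 3 := by
  constructor
  intro x y
  have ne : ∀ (z : Fin 3 ↪ {x // x ∉ A2}), Function.Injective (Fin.cons p0 (Fin.cons q0 (fun i => (z i).1)) : Fin 5 → GolayPt) := by
    intro z
    rw [Fin.cons_injective_iff]
    constructor
    · rintro ⟨i, hi⟩
      revert hi
      refine Fin.cases ?_ ?_ i
      · exact p0_ne_q0.symm
      · intro j hj
        apply (z j).2
        have hj' : (z j).1 = p0 := hj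
        rw [hj']
        exact p0_mem_A2
    · rw [Fin.cons_injective_iff]
      constructor
      · rintro ⟨i, hi⟩
        apply (z i).2
        have hj' : (z i).1 = q0 := hi
        rw [hj']
        exact q0_mem_A2
      · intro i j hij
        exact z.injective (Subtype.ext hij)
  obtain ⟨g, hg, hgi⟩ := five_transitive _ _ (ne x) (ne y)
  have hp : g p0 = p0 := hgi 0
  have hq : g q0 = q0 := hgi 1
  have hs : g • A2 = A2 := smul_A2 (Or.inl ⟨hp, hq⟩)
  refine ⟨⟨restrPerm g (compl_iff_of_smul hs), restr_mem hg hs⟩, ?_⟩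
  apply Function.Embedding.ext
  intro i
  apply Subtype.ext
  exact hgi i.succ.succ

theorem aut322 {α : Type*} [Fintype α] [DecidableEq α] (hα : Fintype.card α = 22) {B : Set (Finset α)}
    (hB : IsSteinerSystem 3 6 B) :
    Nat.card (setSystemAut B) = 887040 ∧ MulAction.IsMultiplyPretransitive (setSystemAut B) α 3 ∧
      ∃ H : Subgroup (setSystemAut B), H.index = 2 ∧ IsM22 H := by
  have hM2 : IsSteinerSystem 3 6 M2 := derivedA_steiner (a := 2) steiner_octads (Finset.card_pair p0_ne_q0)
  have hc : Fintype.card {x // x ∉ A2} = 22 := by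
    rw [card_compl_A, Finset.card_pair p0_ne_q0]
    rfl
  obtain ⟨e, he⟩ := iso322 hα hc hB hM2
  obtain ⟨φ, hφ⟩ := exists_aut_equiv he
  obtain ⟨χ, -⟩ := M2_equiv
  let ψ : setSystemAut B ≃* T2 := φ.trans χ.symm
  have hcard : Nat.card (setSystemAut B) = 887040 := by
    rw [Nat.card_congr ψ.toEquiv, card_T2]
  refine ⟨hcard, ?_, ?_⟩
  · refine pretrans_of_equiv φ e ?_ M2_pretrans
    intro g x
    exact hφ g x
  · let U := U2.subgroupOf T2
    let H : Subgroup (setSystemAut B) := U.map ψ.symm.toMonoidHom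
    let eU : U ≃* H := ψ.symm.subgroupMap U
    let eU2 : H ≃* U2 := eU.symm.trans (Subgroup.subgroupOfEquivOfLe U2_le)
    have hH : Nat.card H = 443520 := by
      rw [Nat.card_congr eU2.toEquiv, card_two_stab p0_ne_q0]
    refine ⟨H, ?_, ?_, hH⟩
    · have h1 := Subgroup.card_mul_index H
      rw [hH, hcard] at h1
      omega
    · haveI := m22_simple p0_ne_q0
      exact eU2.isSimpleGroup

end Cfsg.Agent.H02.Stn
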