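import Cfsg.Agent.Lib.H01.Hall
import Cfsg.Agent.Lib.H01.Solv
import Cfsg.Agent.Lib.H01.Coprime
import Cfsg.Prelude.Def_SolvableStructure

/-!
Hall complement systems: maps, conjugation, conjugacy relative to a normal subgroup.
-/

set_option autoImplicit false

namespace Cfsg.Agent.H02

open Cfsg
open scoped Pointwise

universe u

section basic

variable {G : Type u} [Group G] [Finite G]

theorem comp_card_coprime {K : Nat.Primes → Subgroup G} (hK : IsComplementSystem K) (q : Nat.Primes) :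
    (Nat.card (K q)).Coprime q := by
  have hq : (q : ℕ).Prime := q.2
  have h1 := (K q).card_mul_index
  rw [hK q] at h1
  have hc : Nat.Coprime q (Nat.card (K q)) := by
    rw [hq.coprime_iff_not_dvd]
    intro hd
    apply Nat.pow_succ_factorization_not_dvd (Nat.card_pos (α := G)).ne' hq
    rw [pow_succ, mul_comm]
    nth_rewrite 2 [← h1]
    exact Nat.mul_dvd_mul_right hd _
  exact hc.symm

theorem comp_of_index_coprime {K : Nat.Primes → Subgroup G}
    (h : ∀ q : Nat.Primes, (∃ b : ℕ, (K q).index = (q : ℕ) ^ b) ∧ (Nat.card (K q)).Coprime q) :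
    IsComplementSystem K := by
  intro q
  obtain ⟨⟨b, hb⟩, hc⟩ := h q
  have hq : (q : ℕ).Prime := q.2
  have h1 := (K q).card_mul_index
  rw [hb] at h1
  have hK0 : Nat.card (K q) ≠ 0 := Nat.card_pos.ne'
  have h2 : (Nat.card G).factorization q = b := by
    rw [← h1, Nat.factorization_mul hK0 (pow_ne_zero _ hq.ne_zero), Finsupp.add_apply,
      Nat.factorization_pow, Finsupp.smul_apply, hq.factorization_self, smul_eq_mul, mul_one,
      Nat.factorization_eq_zero_of_not_dvd, zero_add]
    intro hd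
    have := Nat.Coprime.eq_one_of_dvd hc.symm hd
    exact hq.one_lt.ne' this
  rw [hb, h2]

theorem comp_map {Q : Type u} [Group Q] [Finite Q] (f : G →* Q) (hf : Function.Surjective f)
    {K : Nat.Primes → Subgroup G} (hK : IsComplementSystem K) :
    IsComplementSystem (fun q => (K q).map f) := by
  apply comp_of_index_coprime
  intro q
  have hq : (q : ℕ).Prime := q.2
  constructor
  · have h1 : ((K q).map f).index ∣ (K q).index := Subgroup.index_map_dvd _ hf
    rw [hK q] at h1
    obtain ⟨b, -, hb⟩ := (Nat.dvd_prime_pow hq).mp h1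
    exact ⟨b, hb⟩
  · exact Nat.Coprime.coprime_dvd_left (Subgroup.card_map_dvd _ _) (comp_card_coprime hK q)

theorem comp_conj {K : Nat.Primes → Subgroup G} (hK : IsComplementSystem K) (g : G) :
    IsComplementSystem (fun q => MulAut.conj g • K q) :=
  comp_map (MulAut.conj g).toMonoidHom (MulAut.conj g).surjective hK

/-- A normal subgroup of order prime to `q` lies in every subgroup of `q`-power index. -/
theorem normal_le_of_coprime {H N : Subgroup G} [N.Normal] {q a : ℕ} (hq : q.Prime)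
    (hH : H.index = q ^ a) (hN : (Nat.card N).Coprime q) : N ≤ H := by
  have h1 := H01.card_sup_mul_card_inf H N
  have h2 : H.relIndex (H ⊔ N) * (H ⊔ N).index = H.index := Subgroup.relIndex_mul_index le_sup_left
  have h3 : H.relIndex (H ⊔ N) ∣ q ^ a := by rw [← hH, ← h2]; exact dvd_mul_right _ _
  have h4 : Nat.card (H ⊔ N : Subgroup G) = Nat.card H * H.relIndex (H ⊔ N) := by
    have h40 := (H.subgroupOf (H ⊔ N)).card_mul_index
    rw [Nat.card_congr (Subgroup.subgroupOfEquivOfLe (le_sup_left : H ≤ H ⊔ N)).toEquiv] at h40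
    exact h40.symm
  rw [h4, mul_assoc] at h1
  have h5 : H.relIndex (H ⊔ N) * Nat.card (H ⊓ N : Subgroup G) = Nat.card N :=
    Nat.eq_of_mul_eq_mul_left Nat.card_pos h1
  have h6 : H.relIndex (H ⊔ N) ∣ Nat.card N := ⟨_, h5.symm⟩
  have h7 : H.relIndex (H ⊔ N) = 1 :=
    Nat.Coprime.eq_one_of_dvd (Nat.Coprime.coprime_dvd_left h6 (hN.pow_right a)) h3
  rw [Subgroup.relIndex_eq_one] at h7
  exact le_trans le_sup_right h7

/-- An element normalizing a subgroup of `q`-power index with order prime to `q` lies in it. -/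
theorem mem_of_mem_normalizer_of_coprime {H : Subgroup G} {q a : ℕ} (hH : H.index = q ^ a)
    {z : G} (hz : z ∈ Subgroup.normalizer (H : Set G)) (hc : (orderOf z).Coprime q) : z ∈ H := by
  set N := Subgroup.normalizer (H : Set G) with hN
  have hHN : H ≤ N := Subgroup.le_normalizer
  haveI : (H.subgroupOf N).Normal := (Subgroup.normal_subgroupOf_iff_le_normalizer hHN).mpr le_rfl
  let z' : N := ⟨z, hz⟩
  let zb : N ⧸ H.subgroupOf N := (z' : N ⧸ H.subgroupOf N)
  have h1 : orderOf zb ∣ orderOf z := by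
    have h2 : zb ^ orderOf z = 1 := by
      show ((z' ^ orderOf z : N) : N ⧸ H.subgroupOf N) = 1
      have : z' ^ orderOf z = 1 := Subtype.ext (pow_orderOf_eq_one z)
      rw [this]; rfl
    exact orderOf_dvd_of_pow_eq_one h2
  have h2 : orderOf zb ∣ q ^ a := by
    have h3 : orderOf zb ∣ Nat.card (N ⧸ H.subgroupOf N) := orderOf_dvd_natCard zb
    have h4 : Nat.card (N ⧸ H.subgroupOf N) = H.relIndex N := rfl
    rw [h4] at h3
    refine h3.trans ?_
    rw [← hH, ← Subgroup.relIndex_mul_index hHN]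
    exact dvd_mul_right _ _
  have h3 : orderOf zb = 1 := Nat.Coprime.eq_one_of_dvd (Nat.Coprime.coprime_dvd_left h1 (hc.pow_right a)) h2
  have h4 : zb = 1 := orderOf_eq_one_iff.mp h3
  have h5 : z' ∈ H.subgroupOf N := (QuotientGroup.eq_one_iff _).mp h4
  exact h5

end basic

/-- Conjugacy of complement systems relative to a normal subgroup. -/
theorem rel_conj_aux : ∀ (n : ℕ) (G : Type u) [Group G] [Finite G] [Group.IsSolvable G],
    Nat.card G = n → ∀ (K L : Nat.Primes → Subgroup G), IsComplementSystem K → IsComplementSystem L →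
    ∀ (N : Subgroup G) [N.Normal], (∀ q, K q ⊔ N = L q ⊔ N) →
    ∃ x ∈ N, ∀ q, MulAut.conj x • K q = L q := by
  intro n
  induction n using Nat.strong_induction_on with
  | _ n ih =>
  intro G _ _ _ hn K L hK hL N _ hsup
  by_cases hNb : N = ⊥
  · subst hNb
    refine ⟨1, Subgroup.one_mem _, fun q => ?_⟩
    have := hsup q
    rw [sup_bot_eq, sup_bot_eq] at this
    rw [map_one, one_smul, this]
  obtain ⟨N₁, hN₁N, hN₁n, hN₁b, hN₁min⟩ := H01.exists_minimal_normal_le (inferInstance : N.Normal) hNb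
  haveI := hN₁n
  obtain ⟨hN₁ab, p, hp, hN₁p⟩ := H01.minimal_normal_elementary_abelian N₁ hN₁b hN₁min
  haveI : Fact p.Prime := ⟨hp⟩
  have hN₁pg : IsPGroup p N₁ := by
    intro x
    refine ⟨1, ?_⟩
    apply Subtype.ext
    simpa using hN₁p x x.2
  obtain ⟨k, hk⟩ := IsPGroup.iff_card.mp hN₁pg
  have hcopq : ∀ q : Nat.Primes, (q : ℕ) ≠ p → (Nat.card N₁).Coprime q := by
    intro q hq
    rw [hk]
    apply Nat.Coprime.pow_left
    exact (Nat.coprime_primes hp q.2).mpr (Ne.symm hq)
  let f := QuotientGroup.mk' N₁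
  have hf : Function.Surjective f := QuotientGroup.mk'_surjective N₁
  have hlt : Nat.card (G ⧸ N₁) < n := by
    have h1 := N₁.card_mul_index
    have h2 : 1 < Nat.card N₁ := by
      have : Nontrivial N₁ := (Subgroup.nontrivial_iff_ne_bot N₁).mpr hN₁b
      exact Finite.one_lt_card
    rw [← hn, ← h1]
    have h3 : Nat.card (G ⧸ N₁) = N₁.index := rfl
    rw [h3]
    exact lt_mul_of_one_lt_left (Nat.pos_of_ne_zero Subgroup.index_ne_zero_of_finite) h2
  haveI hNbarn : (N.map f).Normal := Subgroup.Normal.map inferInstance f hf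
  haveI : Group.IsSolvable (G ⧸ N₁) := solvable_of_surjective hf
  have hsup' : ∀ q, (K q).map f ⊔ N.map f = (L q).map f ⊔ N.map f := by
    intro q
    rw [← Subgroup.map_sup, ← Subgroup.map_sup, hsup q]
  obtain ⟨xb, hxb, hx⟩ := ih _ hlt (G ⧸ N₁) rfl (fun q => (K q).map f) (fun q => (L q).map f)
    (comp_map f hf hK) (comp_map f hf hL) (N.map f) hsup'
  obtain ⟨x, hxN, rfl⟩ := hxb
  set K' : Nat.Primes → Subgroup G := fun q => MulAut.conj x • K q with hK'
  have hK'c : IsComplementSystem K' := comp_conj hK x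
  have hmapeq : ∀ q, (K' q).map f = (L q).map f := by
    intro q
    rw [← hx q]
    ext y
    constructor
    · rintro ⟨_, ⟨z, hz, rfl⟩, rfl⟩
      exact ⟨f z, ⟨z, hz, rfl⟩, by simp [f]⟩
    · rintro ⟨_, ⟨z, hz, rfl⟩, rfl⟩
      exact ⟨_, ⟨z, hz, rfl⟩, by simp [f]⟩
  have hsup₁ : ∀ q, K' q ⊔ N₁ = L q ⊔ N₁ := by
    intro q
    have h1 := congrArg (Subgroup.comap f) (hmapeq q)
    rw [Subgroup.comap_map_eq, Subgroup.comap_map_eq, QuotientGroup.ker_mk'] at h1
    exact h1
  -- the primes different from `p`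
  have hother : ∀ q : Nat.Primes, (q : ℕ) ≠ p → K' q = L q := by
    intro q hq
    have h1 : N₁ ≤ K' q := normal_le_of_coprime q.2 (hK'c q) (hcopq q hq)
    have h2 : N₁ ≤ L q := normal_le_of_coprime q.2 (hL q) (hcopq q hq)
    have h3 := hsup₁ q
    rwa [sup_eq_left.mpr h1, sup_eq_left.mpr h2] at h3
  -- the prime `p`
  let pp : Nat.Primes := ⟨p, hp⟩
  have hcopp : (Nat.card N₁).Coprime (Nat.card (K' pp)) := by
    rw [hk]
    apply Nat.Coprime.pow_left
    exact (comp_card_coprime hK'c pp).symm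
  have hcopL : (Nat.card N₁).Coprime (Nat.card (L pp)) := by
    rw [hk]
    apply Nat.Coprime.pow_left
    exact (comp_card_coprime hL pp).symm
  have hcardT : Nat.card N₁ * Nat.card (K' pp) = Nat.card (K' pp ⊔ N₁ : Subgroup G) := by
    have h1 := H01.card_sup_mul_card_inf (K' pp) N₁
    have h2 : (K' pp ⊓ N₁ : Subgroup G) = ⊥ := (Subgroup.disjoint_of_coprime_natCard hcopp.symm).eq_bot
    rw [h2, Subgroup.card_bot, mul_one] at h1
    rw [h1, mul_comm]
  have hcardT2 : Nat.card N₁ * Nat.card (L pp) = Nat.card (K' pp ⊔ N₁ : Subgroup G) := by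
    have h1 := H01.card_sup_mul_card_inf (L pp) N₁
    have h2 : (L pp ⊓ N₁ : Subgroup G) = ⊥ := (Subgroup.disjoint_of_coprime_natCard hcopL.symm).eq_bot
    rw [h2, Subgroup.card_bot, mul_one] at h1
    rw [hsup₁ pp, h1, mul_comm]
  have hsameCard : Nat.card (L pp) = Nat.card (K' pp) :=
    Nat.eq_of_mul_eq_mul_left Nat.card_pos (hcardT2.trans hcardT.symm)
  haveI : Group.IsSolvable (K' pp) := inferInstance
  obtain ⟨g, hgT, hg⟩ := H01.conj_rel (L := K' pp ⊔ N₁) (N := N₁) (H := K' pp) (K := L pp) le_sup_right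
    (by rw [Subgroup.normalizer_eq_top_iff.mpr inferInstance]; exact le_top) le_sup_left
    (by rw [hsup₁ pp]; exact le_sup_left) hcopp hcardT hsameCard (Or.inr inferInstance)
  have hgT' : g ∈ N₁ ⊔ K' pp := by rw [sup_comm]; exact hgT
  obtain ⟨y, hy, c, hc, rfl⟩ := Subgroup.mem_sup_of_normal_left.mp hgT'
  refine ⟨y * x, N.mul_mem (hN₁N hy) hxN, fun q => ?_⟩
  have h0 : MulAut.conj (y * x) • K q = MulAut.conj y • K' q := by
    rw [hK', map_mul, mul_smul]
  rw [h0]
  by_cases hq : (q : ℕ) = p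
  · have hqq : q = pp := Subtype.ext hq
    subst hqq
    rw [← hg, map_mul, mul_smul, Subgroup.conj_smul_eq_self_of_mem hc]
  · have h1 : N₁ ≤ K' q := normal_le_of_coprime q.2 (hK'c q) (hcopq q hq)
    rw [Subgroup.conj_smul_eq_self_of_mem (h1 hy), hother q hq]

/-- Conjugacy of complement systems relative to a normal subgroup. -/
theorem rel_conj {G : Type u} [Group G] [Finite G] [Group.IsSolvable G]
    {K L : Nat.Primes → Subgroup G} (hK : IsComplementSystem K) (hL : IsComplementSystem L)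
    (N : Subgroup G) [N.Normal] (h : ∀ q, K q ⊔ N = L q ⊔ N) :
    ∃ x ∈ N, ∀ q, MulAut.conj x • K q = L q :=
  rel_conj_aux _ G rfl K L hK hL N h

/-- S0543. -/
theorem complement_systems_conj {G : Type u} [Group G] [Finite G] [Group.IsSolvable G]
    {K L : Nat.Primes → Subgroup G} (hK : IsComplementSystem K) (hL : IsComplementSystem L) :
    ∃ g : G, ∀ q, MulAut.conj g • K q = L q := by
  obtain ⟨x, -, hx⟩ := rel_conj hK hL ⊤ (fun q => by simp)
  exact ⟨x, hx⟩

end Cfsg.Agent.H02
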