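import Cfsg.Agent.Lib.H02.Sys1
import Cfsg.Agent.Lib.H01.Basic

/-!
System normalizers: nilpotency, images in quotients, covering and avoidance.
-/

set_option autoImplicit false

namespace Cfsg.Agent.H02

open Cfsg
open scoped Pointwise commutatorElement

universe u

section nil

/-- A finite group in which elements of coprime prime-power type commute is nilpotent. -/
theorem nilpotent_of_coprime_commute {D : Type*} [Group D] [Finite D]
    (h : ∀ (p : ℕ), p.Prime → ∀ (n : ℕ) (x y : D), x ^ p ^ n = 1 → (orderOf y).Coprime p → x * y = y * x) :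
    Group.IsNilpotent D := by
  classical
  have hS : ∀ p : ℕ, ∀ [Fact p.Prime], ∀ P : Sylow p D, (P : Subgroup D).Normal := by
    intro p _ P
    have hnorm : Subgroup.normalizer ((P : Subgroup D) : Set D) = ⊤ := by
      rw [← Subgroup.index_eq_one]
      by_contra hne
      obtain ⟨r, hr, hrd⟩ := Nat.exists_prime_and_dvd hne
      by_cases hrp : r = p
      · subst hrp
        have h1 : (Subgroup.normalizer ((P : Subgroup D) : Set D)).index ∣ (P : Subgroup D).index :=
          Subgroup.index_dvd_of_le Subgroup.le_normalizer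
        exact P.not_dvd_index (hrd.trans h1)
      · haveI : Fact r.Prime := ⟨hr⟩
        obtain ⟨T⟩ : Nonempty (Sylow r D) := inferInstance
        have hle : (T : Subgroup D) ≤ Subgroup.normalizer ((P : Subgroup D) : Set D) := by
          intro y hy
          obtain ⟨k, hk⟩ := T.2 ⟨y, hy⟩
          have hyk : y ^ r ^ k = 1 := by simpa using congrArg Subtype.val hk
          have hcop : (orderOf y).Coprime p := by
            have h2 : orderOf y ∣ r ^ k := orderOf_dvd_of_pow_eq_one hyk
            exact Nat.Coprime.coprime_dvd_left h2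
              (Nat.Coprime.pow_left k ((Nat.coprime_primes hr (Fact.out)).mpr hrp))
          rw [Subgroup.mem_normalizer_iff]
          intro x
          constructor
          · intro hx
            obtain ⟨n, hn⟩ := P.2 ⟨x, hx⟩
            have hxn : x ^ p ^ n = 1 := by simpa using congrArg Subtype.val hn
            have hc := h p (Fact.out) n x y hxn hcop
            have : y * x * y⁻¹ = x := by rw [← hc]; group
            rw [this]; exact hx
          · intro hx
            obtain ⟨n, hn⟩ := P.2 ⟨_, hx⟩
            have hxn : (y * x * y⁻¹) ^ p ^ n = 1 := by simpa using congrArg Subtype.val hn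
            have hxn' : x ^ p ^ n = 1 := by
              rw [conj_pow] at hxn
              have := congrArg (fun z => y⁻¹ * z * y) hxn
              simpa [mul_assoc] using this
            have hc := h p (Fact.out) n x y hxn' hcop
            have : y * x * y⁻¹ = x := by rw [← hc]; group
            rw [this] at hx; exact hx
        have h1 := Subgroup.index_dvd_of_le hle
        exact T.not_dvd_index (hrd.trans h1)
    exact Subgroup.normalizer_eq_top_iff.mp hnorm
  have := (Group.isNilpotent_of_finite_tfae (G := D)).out 0 3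
  exact this.mpr (fun p _ P => hS p P)

end nil

variable {G : Type u} [Group G] [Finite G] {K : Nat.Primes → Subgroup G}

theorem mem_sysNorm_iff {Γ : Type*} [Group Γ] {L : Nat.Primes → Subgroup Γ} {x : Γ} :
    x ∈ systemNormalizer L ↔ ∀ p, x ∈ Subgroup.normalizer (L p : Set Γ) :=
  Subgroup.mem_iInf

theorem eq_one_of_mem_all (hK : IsComplementSystem K) {c : G} (h : ∀ q, c ∈ K q) : c = 1 := by
  by_contra hc
  have h1 : orderOf c ≠ 1 := fun h2 => hc (orderOf_eq_one_iff.mp h2)
  obtain ⟨r, hr, hrd⟩ := Nat.exists_prime_and_dvd h1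
  have h2 : orderOf c ∣ Nat.card (K ⟨r, hr⟩) := by
    have h3 := orderOf_dvd_natCard (⟨c, h ⟨r, hr⟩⟩ : K ⟨r, hr⟩)
    rwa [Subgroup.orderOf_mk] at h3
  have h3 := comp_card_coprime hK ⟨r, hr⟩
  have h4 : r ∣ Nat.card (K ⟨r, hr⟩) := hrd.trans h2
  have h5 : r ∣ 1 := by
    rw [← h3.gcd_eq_one]
    exact Nat.dvd_gcd h4 (dvd_refl _)
  exact hr.one_lt.ne' (Nat.dvd_one.mp h5)

theorem sysNorm_comm (hK : IsComplementSystem K) {x y : G} (hx : x ∈ systemNormalizer K)
    (hy : y ∈ systemNormalizer K) {p n : ℕ} (hp : p.Prime) (hxp : x ^ p ^ n = 1)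
    (hyc : (orderOf y).Coprime p) : x * y = y * x := by
  have hx' := mem_sysNorm_iff.mp hx
  have hy' := mem_sysNorm_iff.mp hy
  have hc : x * y * x⁻¹ * y⁻¹ = 1 := by
    apply eq_one_of_mem_all hK
    intro q
    by_cases hq : (q : ℕ) = p
    · have hyK : y ∈ K q := by
        apply mem_of_mem_normalizer_of_coprime (hK q) (hy' q)
        rw [hq]; exact hyc
      have h1 : x * y * x⁻¹ ∈ K q := (Subgroup.mem_normalizer_iff.mp (hx' q) y).mp hyK
      exact (K q).mul_mem h1 ((K q).inv_mem hyK)
    · have hxK : x ∈ K q := by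
        apply mem_of_mem_normalizer_of_coprime (hK q) (hx' q)
        have h1 : orderOf x ∣ p ^ n := orderOf_dvd_of_pow_eq_one hxp
        exact Nat.Coprime.coprime_dvd_left h1
          (Nat.Coprime.pow_left n ((Nat.coprime_primes hp q.2).mpr (Ne.symm hq)))
      have h1 : y * x⁻¹ * y⁻¹ ∈ K q := (Subgroup.mem_normalizer_iff.mp (hy' q) _).mp ((K q).inv_mem hxK)
      have h2 : x * y * x⁻¹ * y⁻¹ = x * (y * x⁻¹ * y⁻¹) := by group
      rw [h2]
      exact (K q).mul_mem hxK h1
  have : x * y = (x * y * x⁻¹ * y⁻¹) * (y * x) := by group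
  rw [this, hc, one_mul]

/-- S0544. -/
theorem sysNorm_nilpotent (hK : IsComplementSystem K) : Group.IsNilpotent (systemNormalizer K) := by
  apply nilpotent_of_coprime_commute
  intro p hp n x y hx hy
  apply Subtype.ext
  apply sysNorm_comm hK x.2 y.2 hp (n := n)
  · simpa using congrArg Subtype.val hx
  · rwa [Subgroup.orderOf_coe]

theorem map_conj_eq {Q : Type*} [Group Q] (f : G →* Q) (g : G) (H : Subgroup G) :
    (MulAut.conj g • H).map f = MulAut.conj (f g) • H.map f := by
  ext y
  constructor
  · rintro ⟨_, ⟨z, hz, rfl⟩, rfl⟩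
    exact ⟨f z, ⟨z, hz, rfl⟩, by simp⟩
  · rintro ⟨_, ⟨z, hz, rfl⟩, rfl⟩
    exact ⟨_, ⟨z, hz, rfl⟩, by simp⟩

theorem mem_normalizer_iff_conj_smul {Γ : Type*} [Group Γ] {g : Γ} {H : Subgroup Γ} :
    g ∈ Subgroup.normalizer (H : Set Γ) ↔ MulAut.conj g • H = H := by
  rw [Subgroup.mem_normalizer_iff]
  constructor
  · intro h
    ext x
    constructor
    · rintro ⟨y, hy, rfl⟩
      exact (h y).mp hy
    · intro hx
      refine ⟨g⁻¹ * x * g, ?_, ?_⟩
      · exact (h _).mpr (by simpa [mul_assoc] using hx)
      · simp [mul_assoc]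
  · intro h x
    constructor
    · intro hx
      rw [← h]
      exact ⟨x, hx, rfl⟩
    · intro hx
      rw [← h] at hx
      obtain ⟨y, hy, hxy⟩ := hx
      have : x = y := mul_left_cancel (mul_right_cancel (show g * x * g⁻¹ = g * y * g⁻¹ from hxy.symm))
      rw [this]; exact hy

theorem map_sysNorm_le {Q : Type*} [Group Q] (f : G →* Q) :
    (systemNormalizer K).map f ≤ systemNormalizer (fun p => (K p).map f) := by
  rintro _ ⟨x, hx, rfl⟩
  rw [mem_sysNorm_iff]
  intro p
  rw [mem_normalizer_iff_conj_smul, ← map_conj_eq]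
  congr 1
  exact mem_normalizer_iff_conj_smul.mp (mem_sysNorm_iff.mp hx p)

/-- S0545, second part. -/
theorem sysNorm_map_eq [Group.IsSolvable G] (hK : IsComplementSystem K) (N : Subgroup G) [N.Normal] :
    systemNormalizer (fun p => (K p).map (QuotientGroup.mk' N)) =
      (systemNormalizer K).map (QuotientGroup.mk' N) := by
  apply le_antisymm _ (map_sysNorm_le _)
  intro y hy
  obtain ⟨g, rfl⟩ := QuotientGroup.mk'_surjective N y
  have h1 := mem_sysNorm_iff.mp hy
  have hsup : ∀ q, (MulAut.conj g • K q) ⊔ N = K q ⊔ N := by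
    intro q
    have h2 := mem_normalizer_iff_conj_smul.mp (h1 q)
    rw [← map_conj_eq] at h2
    have h3 := congrArg (Subgroup.comap (QuotientGroup.mk' N)) h2
    rw [Subgroup.comap_map_eq, Subgroup.comap_map_eq, QuotientGroup.ker_mk'] at h3
    exact h3
  obtain ⟨x, hx, hxq⟩ := rel_conj (comp_conj hK g) hK N hsup
  refine ⟨x * g, ?_, ?_⟩
  · show x * g ∈ systemNormalizer K
    rw [mem_sysNorm_iff]
    intro q
    rw [mem_normalizer_iff_conj_smul, map_mul, mul_smul]
    exact hxq q
  · rw [map_mul]
    have : QuotientGroup.mk' N x = 1 := (QuotientGroup.eq_one_iff x).mpr hx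
    rw [this, one_mul]

/-- S0546. -/
theorem sysNorm_normalClosure [Group.IsSolvable G] (hK : IsComplementSystem K) :
    Subgroup.normalClosure ((systemNormalizer K : Subgroup G) : Set G) = ⊤ := by
  set T := Subgroup.normalClosure ((systemNormalizer K : Subgroup G) : Set G) with hT
  haveI hTn : T.Normal := Subgroup.normalClosure_normal
  have hDT : systemNormalizer K ≤ T := Subgroup.subset_normalClosure
  haveI : (commutator G).Normal := inferInstance
  -- in `G / G'` everything normalizes
  have h1 := sysNorm_map_eq hK (commutator G)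
  have h2 : systemNormalizer (fun p => (K p).map (QuotientGroup.mk' (commutator G))) = ⊤ := by
    rw [eq_top_iff]
    intro y _
    rw [mem_sysNorm_iff]
    intro p
    have : ((K p).map (QuotientGroup.mk' (commutator G))).Normal := by
      constructor
      intro a ha g
      have hcm : ∀ u v : G ⧸ commutator G, u * v = v * u :=
        fun u v => mul_comm (G := Abelianization G) u v
      have : g * a * g⁻¹ = a := by
        rw [hcm g a, mul_assoc, mul_inv_cancel, mul_one]
      rw [this]; exact ha
    rw [Subgroup.normalizer_eq_top_iff.mpr this]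
    exact Subgroup.mem_top _
  rw [h2] at h1
  have h3 : T ⊔ commutator G = ⊤ := by
    rw [eq_top_iff]
    intro g _
    have h4 : QuotientGroup.mk' (commutator G) g ∈
        (systemNormalizer K).map (QuotientGroup.mk' (commutator G)) := by
      rw [← h1]; exact Subgroup.mem_top _
    obtain ⟨d, hd, hdg⟩ := h4
    have h5 : d⁻¹ * g ∈ commutator G := by
      rw [← QuotientGroup.eq]
      exact hdg
    have h6 : g = d * (d⁻¹ * g) := by group
    rw [h6]
    exact Subgroup.mul_mem _ (Subgroup.mem_sup_left (hDT hd)) (Subgroup.mem_sup_right h5)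
  -- `G / T` is perfect and solvable
  let f := QuotientGroup.mk' T
  have hf : Function.Surjective f := QuotientGroup.mk'_surjective T
  haveI : Group.IsSolvable (G ⧸ T) := solvable_of_surjective hf
  have h4 : commutator (G ⧸ T) = ⊤ := by
    have h5 := congrArg (Subgroup.map f) h3
    rw [Subgroup.map_sup, Subgroup.map_top_of_surjective f hf] at h5
    have h6 : T.map f = ⊥ := by
      rw [Subgroup.map_eq_bot_iff, QuotientGroup.ker_mk']
    rw [h6, bot_sup_eq] at h5
    rw [commutator_def, ← Subgroup.map_top_of_surjective f hf, ← Subgroup.map_commutator,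
      ← commutator_def]
    exact h5.trans (Subgroup.map_top_of_surjective f hf).symm
  by_contra hne
  have hnt : Nontrivial (G ⧸ T) := QuotientGroup.nontrivial_iff.mpr hne
  have := IsSolvable.commutator_lt_top_of_nontrivial (G ⧸ T)
  exact this.ne h4

end Cfsg.Agent.H02
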