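import Cfsg.Agent.Lib.H02.Sys3
import Cfsg.Agent.Lib.H02.SolvF
import Cfsg.Agent.Lib.H18.PGroup
import Cfsg.Agent.Lib.H05.PComp3
import Cfsg.Agent.Lib.H05.Comp6
import Cfsg.Agent.Lib.H08.PCoreL

/-!
Hall `p'`-parts of nilpotent subgroups; Carter subgroups (existence, conjugacy).
-/

set_option autoImplicit false

namespace Cfsg.Agent.H02

open Cfsg
open scoped Pointwise commutatorElement

universe u

/-- `Q` is the Hall `p'`-subgroup of `C`. -/
structure IsHallPP {G : Type*} [Group G] (C Q : Subgroup G) (p : ℕ) : Prop where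
  le : Q ≤ C
  norm : C ≤ Subgroup.normalizer (Q : Set G)
  cop : (Nat.card Q).Coprime p
  pow : ∀ x ∈ C, ∃ k : ℕ, x ^ p ^ k ∈ Q

section hallpp

variable {G : Type u} [Group G] [Finite G] {p : ℕ} [hp : Fact p.Prime]

theorem mem_of_pow_mem_of_coprime {Q : Subgroup G} {x : G} {n : ℕ} (h : x ^ n ∈ Q)
    (hc : n.Coprime (orderOf x)) : x ∈ Q := by
  obtain ⟨m, hm⟩ := exists_pow_eq_self_of_coprime hc
  rw [← hm]
  exact Q.pow_mem h m

theorem IsHallPP.mem_of_coprime {C Q : Subgroup G} (h : IsHallPP C Q p) {x : G} (hx : x ∈ C)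
    (hc : (orderOf x).Coprime p) : x ∈ Q := by
  obtain ⟨k, hk⟩ := h.pow x hx
  exact mem_of_pow_mem_of_coprime hk (Nat.Coprime.pow_left k hc.symm)

theorem coprime_orderOf_of_mem {Q : Subgroup G} (hQ : (Nat.card Q).Coprime p) {x : G} (hx : x ∈ Q) :
    (orderOf x).Coprime p := by
  have h1 : orderOf (⟨x, hx⟩ : Q) ∣ Nat.card Q := orderOf_dvd_natCard _
  rw [Subgroup.orderOf_mk] at h1
  exact Nat.Coprime.coprime_dvd_left h1 hQ

theorem IsHallPP.map {C Q : Subgroup G} (h : IsHallPP C Q p) {Γ : Type*} [Group Γ] (f : G →* Γ) :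
    IsHallPP (C.map f) (Q.map f) p := by
  refine ⟨Subgroup.map_mono h.le, ?_, ?_, ?_⟩
  · rintro _ ⟨c, hc, rfl⟩
    rw [Subgroup.mem_normalizer_iff]
    have hn := h.norm hc
    haveI : Finite (C.map f) := Finite.of_surjective _ (f.subgroupMap_surjective C)
    have hfwd : ∀ y ∈ Q.map f, f c * y * (f c)⁻¹ ∈ Q.map f := by
      rintro _ ⟨q, hq, rfl⟩
      exact ⟨c * q * c⁻¹, (Subgroup.mem_normalizer_iff.mp hn q).mp hq, by simp⟩
    have hbwd : ∀ y ∈ Q.map f, (f c)⁻¹ * y * f c ∈ Q.map f := by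
      rintro _ ⟨q, hq, rfl⟩
      have hn' := Subgroup.inv_mem _ hn
      refine ⟨c⁻¹ * q * c, ?_, by simp⟩
      have := (Subgroup.mem_normalizer_iff.mp hn' q).mp hq
      simpa using this
    intro y
    constructor
    · exact hfwd y
    · intro hy
      have := hbwd _ hy
      simpa [mul_assoc] using this
  · exact Nat.Coprime.coprime_dvd_left (Subgroup.card_map_dvd _ _) h.cop
  · rintro _ ⟨c, hc, rfl⟩
    obtain ⟨k, hk⟩ := h.pow c hc
    exact ⟨k, c ^ p ^ k, hk, by simp⟩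

/-- The cardinal formula. -/
theorem IsHallPP.card_eq {C Q : Subgroup G} (h : IsHallPP C Q p) : ∃ m : ℕ, Q.relIndex C = p ^ m := by
  haveI hn : (Q.subgroupOf C).Normal := (Subgroup.normal_subgroupOf_iff_le_normalizer h.le).mpr h.norm
  have hpg : IsPGroup p (C ⧸ Q.subgroupOf C) := by
    intro x
    obtain ⟨c, rfl⟩ := QuotientGroup.mk_surjective x
    obtain ⟨k, hk⟩ := h.pow c c.2
    refine ⟨k, ?_⟩
    rw [← QuotientGroup.mk_pow, QuotientGroup.eq_one_iff]
    exact hk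
  obtain ⟨m, hm⟩ := IsPGroup.iff_card.mp hpg
  exact ⟨m, hm⟩

theorem card_eq_mul_relIndex {Q C : Subgroup G} (h : Q ≤ C) : Nat.card C = Nat.card Q * Q.relIndex C := by
  have h40 := (Q.subgroupOf C).card_mul_index
  rw [Nat.card_congr (Subgroup.subgroupOfEquivOfLe h).toEquiv] at h40
  exact h40.symm

/-- The Hall part of a nilpotent group. -/
theorem exists_hallPP {C : Subgroup G} (hC : Group.IsNilpotent C) : ∃ Q : Subgroup G, IsHallPP C Q p := by
  set R := pPrimeCore p C with hR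
  haveI hRn : R.Normal := H05.pp_normal p
  refine ⟨R.map C.subtype, ?_, ?_, ?_, ?_⟩
  · rintro _ ⟨x, -, rfl⟩
    exact x.2
  · intro c hc
    rw [Subgroup.mem_normalizer_iff]
    intro y
    constructor
    · rintro ⟨r, hr, rfl⟩
      exact ⟨⟨c, hc⟩ * r * (⟨c, hc⟩ : C)⁻¹, hRn.conj_mem r hr _, rfl⟩
    · rintro ⟨r, hr, hry⟩
      refine ⟨(⟨c, hc⟩ : C)⁻¹ * r * ⟨c, hc⟩, ?_, ?_⟩
      · have := hRn.conj_mem r hr (⟨c, hc⟩ : C)⁻¹
        simpa using this
      · have h1 : (r : G) = c * y * c⁻¹ := hry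
        show c⁻¹ * (r : G) * c = y
        rw [h1]; group
  · have h1 : Nat.card (R.map C.subtype) = Nat.card R :=
      Subgroup.card_map_of_injective C.subtype_injective
    rw [h1]
    exact H05.pp_coprime p
  · intro x hx
    -- the quotient is a `p`-group
    have hq : IsPGroup p (C ⧸ R) := by
      have h2 : pPrimeCore p (C ⧸ R) = ⊥ := H08.pPrimeCore_quotient_eq_bot p
      have h3 := H05.fitting_eq_pCore_of_pp_bot h2
      haveI hnil : Group.IsNilpotent (C ⧸ R) := nilpotent_of_surjective _ (QuotientGroup.mk'_surjective R)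
      have h4 : fittingSubgroup (C ⧸ R) = ⊤ := by
        rw [eq_top_iff]
        apply le_sSup
        refine ⟨inferInstance, ?_⟩
        exact (inferInstance : Group.IsNilpotent (⊤ : Subgroup (C ⧸ R)))
      rw [h4] at h3
      have h5 : IsPGroup p (pCore p (C ⧸ R)) := H01.pCore_isPGroup p
      rw [← h3] at h5
      intro y
      obtain ⟨k, hk⟩ := h5 ⟨y, Subgroup.mem_top _⟩
      refine ⟨k, ?_⟩
      simpa using congrArg Subtype.val hk
    obtain ⟨k, hk⟩ := hq ((⟨x, hx⟩ : C) : C ⧸ R)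
    refine ⟨k, ?_⟩
    rw [← QuotientGroup.mk_pow, QuotientGroup.eq_one_iff] at hk
    exact ⟨_, hk, rfl⟩

/-- Conjugacy of `p'`-parts. -/
theorem exists_conj_of_hall [Group.IsSolvable G] {H X Y : Subgroup G} (hX : X ≤ H) (hY : Y ≤ H)
    (hXc : (Nat.card X).Coprime p) (hYc : (Nat.card Y).Coprime p) {a b : ℕ}
    (hXi : X.relIndex H = p ^ a) (hYi : Y.relIndex H = p ^ b) :
    ∃ t ∈ H, MulAut.conj t • X = Y := by
  have h1 := card_eq_mul_relIndex hX
  have h2 := card_eq_mul_relIndex hY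
  rw [hXi] at h1
  rw [hYi] at h2
  have hcard : Nat.card X = Nat.card Y := by
    have h3 : Nat.card X * p ^ a = Nat.card Y * p ^ b := h1.symm.trans h2
    have h4 : Nat.card X ∣ Nat.card Y := by
      have : Nat.card X ∣ Nat.card Y * p ^ b := ⟨_, h3.symm⟩
      exact (Nat.Coprime.dvd_of_dvd_mul_right (Nat.Coprime.pow_right b hXc) this)
    have h5 : Nat.card Y ∣ Nat.card X := by
      have : Nat.card Y ∣ Nat.card X * p ^ a := ⟨_, h3⟩
      exact (Nat.Coprime.dvd_of_dvd_mul_right (Nat.Coprime.pow_right a hYc) this)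
    exact Nat.dvd_antisymm h4 h5
  have hXs : Nat.card (X.subgroupOf H) = Nat.card X := Nat.card_congr (Subgroup.subgroupOfEquivOfLe hX).toEquiv
  have hYs : Nat.card (Y.subgroupOf H) = Nat.card X := by
    rw [hcard]; exact Nat.card_congr (Subgroup.subgroupOfEquivOfLe hY).toEquiv
  obtain ⟨g, hg⟩ := H01.hall_conj _ H rfl (Nat.card X) (p ^ a) h1 (Nat.Coprime.pow_right a hXc)
    (X.subgroupOf H) (Y.subgroupOf H) hXs hYs
  refine ⟨g, g.2, ?_⟩
  ext y
  constructor
  · rintro ⟨x, hx, rfl⟩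
    have h3 : g * (⟨x, hX hx⟩ : H) * g⁻¹ ∈ Y.subgroupOf H := by
      rw [← hg]
      exact ⟨⟨x, hX hx⟩, hx, rfl⟩
    exact h3
  · intro hy
    have h3 : (⟨y, hY hy⟩ : H) ∈ Y.subgroupOf H := hy
    rw [← hg] at h3
    obtain ⟨x, hx, hxy⟩ := h3
    exact ⟨x, hx, congrArg Subtype.val hxy⟩

end hallpp

end Cfsg.Agent.H02
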