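import Cfsg.Agent.Lib.H02.Sys4

/-!
Carter subgroups: the key normalizer lemma, images, conjugacy.
-/

set_option autoImplicit false

namespace Cfsg.Agent.H02

open Cfsg
open scoped Pointwise commutatorElement

universe u

variable {G : Type u} [Group G] [Finite G] {p : ℕ} [hp : Fact p.Prime]

/-- Normalizers grow modulo a normal `p'`-subgroup. -/
theorem grow {C W Q : Subgroup G} (hCW : C ≤ W) (hQC : Q ≤ C) (hWQ : W ≤ Subgroup.normalizer (Q : Set G))
    {k : ℕ} (hidx : Q.relIndex W = p ^ k) (hne : C ≠ W) :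
    ∃ y ∈ W, y ∉ C ∧ y ∈ Subgroup.normalizer (C : Set G) := by
  have hQW : Q ≤ W := hQC.trans hCW
  haveI hn : (Q.subgroupOf W).Normal := (Subgroup.normal_subgroupOf_iff_le_normalizer hQW).mpr hWQ
  let f := QuotientGroup.mk' (Q.subgroupOf W)
  have hf : Function.Surjective f := QuotientGroup.mk'_surjective _
  have hpg : IsPGroup p (W ⧸ Q.subgroupOf W) := IsPGroup.iff_card.mpr ⟨k, hidx⟩
  let Cb := (C.subgroupOf W).map f
  have hdesc : ∀ w : W, f w ∈ Cb → (w : G) ∈ C := by
    rintro w ⟨c, hc, hcw⟩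
    have h1 : c⁻¹ * w ∈ Q.subgroupOf W := by
      rw [← QuotientGroup.eq]
      exact hcw
    have h2 : ((c⁻¹ * w : W) : G) ∈ Q := h1
    have h3 : (w : G) = (c : G) * ((c⁻¹ * w : W) : G) := by simp
    rw [h3]
    exact C.mul_mem hc (hQC h2)
  have hCb : Cb < ⊤ := by
    rw [lt_top_iff_ne_top]
    intro htop
    apply hne
    apply le_antisymm hCW
    intro w hw
    exact hdesc ⟨w, hw⟩ (by rw [htop]; exact Subgroup.mem_top _)
  obtain ⟨yb, -, hy1, hy2⟩ := H18.exists_mem_sdiff_normalizer (hpg.to_subgroup ⊤) hCb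
  obtain ⟨y, rfl⟩ := hf yb
  refine ⟨y, y.2, ?_, ?_⟩
  · intro hyC
    exact hy1 ⟨y, hyC, rfl⟩
  · apply mem_normalizer_of_conj_le
    intro x hx
    have h1 : f (y * ⟨x, hCW hx⟩ * y⁻¹) ∈ Cb := by
      rw [map_mul, map_mul, map_inv]
      exact (Subgroup.mem_normalizer_iff.mp hy2 _).mp ⟨⟨x, hCW hx⟩, hx, rfl⟩
    exact hdesc _ h1

/-- The key lemma: the normalizer of the `p'`-part in `C N` is `C`. -/
theorem carter_normalizer_hall {C Q N : Subgroup G} (hC : IsCarterSubgroup C) (hQ : IsHallPP C Q p)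
    [hNn : N.Normal] (hNp : IsPGroup p N) {y : G} (hy : y ∈ C ⊔ N)
    (hyQ : y ∈ Subgroup.normalizer (Q : Set G)) : y ∈ C := by
  by_contra hyC
  let W : Subgroup G := (C ⊔ N) ⊓ Subgroup.normalizer (Q : Set G)
  have hCW : C ≤ W := le_inf le_sup_left hQ.norm
  have hne : C ≠ W := by
    intro h
    exact hyC (h ▸ (⟨hy, hyQ⟩ : y ∈ W))
  obtain ⟨m, hm⟩ := hQ.card_eq
  -- the index of `C` in `C ⊔ N` is a power of `p`
  have hT : ∃ s : ℕ, C.relIndex (C ⊔ N) = p ^ s := by
    have h1 := H01.card_sup_mul_card_inf C N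
    have h2 := card_eq_mul_relIndex (le_sup_left : C ≤ C ⊔ N)
    rw [h2, mul_assoc] at h1
    have h3 := Nat.eq_of_mul_eq_mul_left Nat.card_pos h1
    have h4 : C.relIndex (C ⊔ N) ∣ Nat.card N := ⟨_, h3.symm⟩
    obtain ⟨t, ht⟩ := IsPGroup.iff_card.mp hNp
    rw [ht] at h4
    obtain ⟨s, -, hs⟩ := (Nat.dvd_prime_pow hp.out).mp h4
    exact ⟨s, hs⟩
  obtain ⟨s, hs⟩ := hT
  have hWidx : ∃ k, Q.relIndex W = p ^ k := by
    have h1 : C.relIndex W * W.relIndex (C ⊔ N) = C.relIndex (C ⊔ N) :=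
      Subgroup.relIndex_mul_relIndex _ _ _ hCW inf_le_left
    have h2 : C.relIndex W ∣ p ^ s := by rw [← hs, ← h1]; exact dvd_mul_right _ _
    obtain ⟨i, -, hi⟩ := (Nat.dvd_prime_pow hp.out).mp h2
    have h3 : Q.relIndex C * C.relIndex W = Q.relIndex W := Subgroup.relIndex_mul_relIndex _ _ _ hQ.le hCW
    refine ⟨m + i, ?_⟩
    rw [← h3, hm, hi, pow_add]
  obtain ⟨k, hk⟩ := hWidx
  obtain ⟨z, hzW, hzC, hzN⟩ := grow hCW hQ.le inf_le_right hk hne
  apply hzC
  have := hC.2
  rw [← this]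
  exact hzN

theorem carter_conj_smul {C : Subgroup G} (hC : IsCarterSubgroup C) (g : G) :
    IsCarterSubgroup (MulAut.conj g • C) := by
  constructor
  · have hf : Function.Surjective ((MulAut.conj g).toMonoidHom.subgroupMap C) :=
      (MulAut.conj g).toMonoidHom.subgroupMap_surjective C
    haveI := hC.1
    exact nilpotent_of_surjective _ hf
  · apply le_antisymm
    · intro x hx
      have h1 := mem_normalizer_iff_conj_smul.mp hx
      have h2 : MulAut.conj (g⁻¹ * x * g) • C = C := by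
        have h3 : MulAut.conj (g⁻¹ * x * g) = (MulAut.conj g)⁻¹ * MulAut.conj x * MulAut.conj g := by
          rw [map_mul, map_mul, map_inv]
        rw [h3, mul_smul, mul_smul, h1, ← mul_smul, inv_mul_cancel, one_smul]
      have h4 : g⁻¹ * x * g ∈ Subgroup.normalizer (C : Set G) := mem_normalizer_iff_conj_smul.mpr h2
      rw [hC.2] at h4
      refine ⟨_, h4, ?_⟩
      show g * (g⁻¹ * x * g) * g⁻¹ = x
      group
    · exact Subgroup.le_normalizer

theorem IsHallPP.conj_smul {C Q : Subgroup G} (h : IsHallPP C Q p) (g : G) :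
    IsHallPP (MulAut.conj g • C) (MulAut.conj g • Q) p :=
  h.map (MulAut.conj g).toMonoidHom

theorem card_conj_smul (Q : Subgroup G) (g : G) : Nat.card (MulAut.conj g • Q : Subgroup G) = Nat.card Q :=
  Subgroup.card_map_of_injective (MulAut.conj g).injective

theorem conj_smul_le {X Y : Subgroup G} (h : X ≤ Y) (g : G) : MulAut.conj g • X ≤ MulAut.conj g • Y :=
  Subgroup.pointwise_smul_le_pointwise_smul_iff.mpr h

/-- The `p'`-part has `p`-power index in `C ⊔ N`. -/
theorem relIndex_hall_sup {C Q N : Subgroup G} (hQ : IsHallPP C Q p) [hNn : N.Normal]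
    (hNp : IsPGroup p N) : ∃ a : ℕ, Q.relIndex (C ⊔ N) = p ^ a := by
  obtain ⟨m, hm⟩ := hQ.card_eq
  have h1 := H01.card_sup_mul_card_inf C N
  have h2 := card_eq_mul_relIndex (le_sup_left : C ≤ C ⊔ N)
  rw [h2, mul_assoc] at h1
  have h3 := Nat.eq_of_mul_eq_mul_left Nat.card_pos h1
  have h4 : C.relIndex (C ⊔ N) ∣ Nat.card N := ⟨_, h3.symm⟩
  obtain ⟨t, ht⟩ := IsPGroup.iff_card.mp hNp
  rw [ht] at h4
  obtain ⟨s, -, hs⟩ := (Nat.dvd_prime_pow hp.out).mp h4
  refine ⟨m + s, ?_⟩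
  rw [← Subgroup.relIndex_mul_relIndex _ _ _ hQ.le le_sup_left, hm, hs, pow_add]

/-- The image of a Carter subgroup modulo a normal `p`-subgroup is Carter. -/
theorem carter_map [Group.IsSolvable G] {C N : Subgroup G} (hC : IsCarterSubgroup C) [hNn : N.Normal]
    (hNp : IsPGroup p N) : IsCarterSubgroup (C.map (QuotientGroup.mk' N)) := by
  have hf : Function.Surjective (QuotientGroup.mk' N) := QuotientGroup.mk'_surjective N
  constructor
  · haveI := hC.1
    exact nilpotent_of_surjective _ ((QuotientGroup.mk' N).subgroupMap_surjective C)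
  apply le_antisymm _ Subgroup.le_normalizer
  intro yb hyb
  obtain ⟨g, rfl⟩ := hf yb
  -- `g` normalizes `C ⊔ N`
  set H := C ⊔ N with hH
  have hgH : MulAut.conj g • H = H := by
    have h1 := mem_normalizer_iff_conj_smul.mp hyb
    rw [← map_conj_eq] at h1
    have h3 := congrArg (Subgroup.comap (QuotientGroup.mk' N)) h1
    rw [Subgroup.comap_map_eq, Subgroup.comap_map_eq, QuotientGroup.ker_mk'] at h3
    -- `(g C g⁻¹) ⊔ N = H`
    have h4 : MulAut.conj g • N = N := by
      rw [← mem_normalizer_iff_conj_smul, Subgroup.normalizer_eq_top_iff.mpr hNn]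
      exact Subgroup.mem_top _
    rw [hH, Subgroup.smul_sup, h4]
    exact h3
  obtain ⟨Q, hQ⟩ := exists_hallPP (p := p) hC.1
  have hQ' := hQ.conj_smul g
  obtain ⟨a, ha⟩ := relIndex_hall_sup hQ hNp
  have hQ'H : MulAut.conj g • Q ≤ H := by
    rw [← hgH]
    exact conj_smul_le (hQ.le.trans le_sup_left) g
  have hb : ∃ b, (MulAut.conj g • Q).relIndex H = p ^ b := by
    have h1 : (MulAut.conj g • Q).relIndex (MulAut.conj g • H) = Q.relIndex H :=
      Subgroup.relIndex_map_map_of_injective _ _ (MulAut.conj g).injective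
    rw [hgH] at h1
    exact ⟨a, h1.trans ha⟩
  obtain ⟨b, hb⟩ := hb
  obtain ⟨t, htH, ht⟩ := exists_conj_of_hall hQ'H (hQ.le.trans le_sup_left) hQ'.cop hQ.cop hb ha
  -- `v = t * g` normalizes `Q` and `H`
  set v := t * g with hv
  have hvQ : MulAut.conj v • Q = Q := by
    rw [hv, map_mul, mul_smul, ht]
  have hvH : MulAut.conj v • H = H := by
    rw [hv, map_mul, mul_smul, hgH, Subgroup.conj_smul_eq_self_of_mem htH]
  -- `v` normalizes `C`
  have hvC : v ∈ Subgroup.normalizer (C : Set G) := by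
    apply mem_normalizer_of_conj_le
    intro x hx
    apply carter_normalizer_hall hC hQ hNp
    · have h1 : v * x * v⁻¹ ∈ MulAut.conj v • H := ⟨x, Subgroup.mem_sup_left hx, rfl⟩
      rw [hvH] at h1
      exact h1
    · rw [mem_normalizer_iff_conj_smul] at ⊢
      have hx' := mem_normalizer_iff_conj_smul.mp (hQ.norm hx)
      have h3 : MulAut.conj (v * x * v⁻¹) = MulAut.conj v * MulAut.conj x * (MulAut.conj v)⁻¹ := by
        rw [map_mul, map_mul, map_inv]
      have h4 : (MulAut.conj v)⁻¹ • Q = Q := by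
        conv_lhs => rw [← hvQ]
        rw [← mul_smul, inv_mul_cancel, one_smul]
      rw [h3, mul_smul, mul_smul, h4, hx', hvQ]
  rw [hC.2] at hvC
  have hgmem : g ∈ H := by
    have : g = t⁻¹ * v := by rw [hv]; group
    rw [this]
    exact H.mul_mem (H.inv_mem htH) (Subgroup.mem_sup_left hvC)
  obtain ⟨c, hc, n, hn, rfl⟩ := Subgroup.mem_sup_of_normal_right.mp hgmem
  refine ⟨c, hc, ?_⟩
  rw [map_mul]
  have : QuotientGroup.mk' N n = 1 := (QuotientGroup.eq_one_iff n).mpr hn
  rw [this, mul_one]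

end Cfsg.Agent.H02
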