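import Cfsg.Agent.Lib.H02.Sys5

/-!
Carter subgroups: conjugacy, existence; system normalizers inside Carter subgroups.
-/

set_option autoImplicit false

namespace Cfsg.Agent.H02

open Cfsg
open scoped Pointwise commutatorElement

universe u

/-- A minimal normal subgroup in a nontrivial solvable group. -/
theorem exists_min_normal_pgroup {G : Type u} [Group G] [Finite G] [Group.IsSolvable G] [Nontrivial G] :
    ∃ (N : Subgroup G) (p : ℕ), N.Normal ∧ N ≠ ⊥ ∧ p.Prime ∧ IsPGroup p N := by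
  obtain ⟨N, hNn, hNb, hNmin⟩ := H01.exists_minimal_normal (G := G)
  haveI := hNn
  obtain ⟨-, p, hp, hNp⟩ := H01.minimal_normal_elementary_abelian N hNb hNmin
  refine ⟨N, p, hNn, hNb, hp, ?_⟩
  intro y
  refine ⟨1, Subtype.ext ?_⟩
  simpa using hNp y y.2

theorem card_quotient_lt {G : Type u} [Group G] [Finite G] {N : Subgroup G} (hN : N ≠ ⊥) :
    Nat.card (G ⧸ N) < Nat.card G := by
  have h1 := N.card_mul_index
  have h2 : 1 < Nat.card N := by
    have : Nontrivial N := (Subgroup.nontrivial_iff_ne_bot N).mpr hN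
    exact Finite.one_lt_card
  rw [← h1]
  have h3 : Nat.card (G ⧸ N) = N.index := rfl
  rw [h3]
  exact lt_mul_of_one_lt_left (Nat.pos_of_ne_zero Subgroup.index_ne_zero_of_finite) h2

/-- Conjugacy of Carter subgroups. -/
theorem carter_conj_aux : ∀ (n : ℕ) (G : Type u) [Group G] [Finite G] [Group.IsSolvable G],
    Nat.card G = n → ∀ C₁ C₂ : Subgroup G, IsCarterSubgroup C₁ → IsCarterSubgroup C₂ →
    ∃ g : G, MulAut.conj g • C₁ = C₂ := by
  intro n
  induction n using Nat.strong_induction_on with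
  | _ n ih =>
  intro G _ _ _ hn C₁ C₂ h₁ h₂
  by_cases hnt : Nontrivial G
  swap
  · rw [not_nontrivial_iff_subsingleton] at hnt
    refine ⟨1, ?_⟩
    rw [map_one, one_smul]
    exact Subsingleton.elim _ _
  obtain ⟨N, p, hNn, hNb, hp, hNp⟩ := exists_min_normal_pgroup (G := G)
  haveI := hNn
  haveI : Fact p.Prime := ⟨hp⟩
  let f := QuotientGroup.mk' N
  have hf : Function.Surjective f := QuotientGroup.mk'_surjective N
  haveI : Group.IsSolvable (G ⧸ N) := solvable_of_surjective hf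
  have hlt : Nat.card (G ⧸ N) < n := hn ▸ card_quotient_lt hNb
  obtain ⟨xb, hxb⟩ := ih _ hlt (G ⧸ N) rfl _ _ (carter_map h₁ hNp) (carter_map h₂ hNp)
  obtain ⟨x, rfl⟩ := hf xb
  set C₃ := MulAut.conj x • C₁ with hC₃
  have h₃ : IsCarterSubgroup C₃ := carter_conj_smul h₁ x
  have hsup : C₃ ⊔ N = C₂ ⊔ N := by
    have h3 := congrArg (Subgroup.comap f) hxb
    rw [← map_conj_eq, Subgroup.comap_map_eq, Subgroup.comap_map_eq] at h3
    have hk : f.ker = N := QuotientGroup.ker_mk' N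
    rw [hk] at h3
    exact h3
  set H := C₂ ⊔ N with hH
  obtain ⟨Q₂, hQ₂⟩ := exists_hallPP (p := p) h₂.1
  obtain ⟨Q₃, hQ₃⟩ := exists_hallPP (p := p) h₃.1
  obtain ⟨a, ha⟩ := relIndex_hall_sup hQ₂ hNp
  obtain ⟨b, hb⟩ := relIndex_hall_sup hQ₃ hNp
  rw [hsup] at hb
  have hQ₃H : Q₃ ≤ H := by
    rw [← hsup]; exact hQ₃.le.trans le_sup_left
  have hQ₂H : Q₂ ≤ H := hQ₂.le.trans le_sup_left
  obtain ⟨t, htH, ht⟩ := exists_conj_of_hall hQ₃H hQ₂H hQ₃.cop hQ₂.cop hb ha
  set C₄ := MulAut.conj t • C₃ with hC₄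
  have h₄ : IsCarterSubgroup C₄ := carter_conj_smul h₃ t
  have hQ₄ : IsHallPP C₄ Q₂ p := by
    have := hQ₃.conj_smul t
    rwa [ht] at this
  have hN₄ : MulAut.conj t • N = N := by
    rw [← mem_normalizer_iff_conj_smul, Subgroup.normalizer_eq_top_iff.mpr hNn]
    exact Subgroup.mem_top _
  have hsup₄ : C₄ ⊔ N = H := by
    rw [hC₄]
    conv_lhs => rw [← hN₄]
    rw [← Subgroup.smul_sup, hsup]
    exact Subgroup.conj_smul_eq_self_of_mem htH
  have hle1 : C₄ ≤ C₂ := by
    intro y hy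
    apply carter_normalizer_hall h₂ hQ₂ hNp
    · rw [← hH, ← hsup₄]; exact Subgroup.mem_sup_left hy
    · exact hQ₄.norm hy
  have hle2 : C₂ ≤ C₄ := by
    intro y hy
    apply carter_normalizer_hall h₄ hQ₄ hNp
    · rw [hsup₄]; exact Subgroup.mem_sup_left hy
    · exact hQ₂.norm hy
  refine ⟨t * x, ?_⟩
  rw [map_mul, mul_smul]
  exact le_antisymm hle1 hle2

theorem carter_conj {G : Type u} [Group G] [Finite G] [Group.IsSolvable G] {C₁ C₂ : Subgroup G}
    (h₁ : IsCarterSubgroup C₁) (h₂ : IsCarterSubgroup C₂) : ∃ g : G, MulAut.conj g • C₁ = C₂ :=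
  carter_conj_aux _ G rfl C₁ C₂ h₁ h₂

/-- Existence of Carter subgroups. -/
theorem carter_exists_aux : ∀ (n : ℕ) (G : Type u) [Group G] [Finite G] [Group.IsSolvable G],
    Nat.card G = n → ∃ C : Subgroup G, IsCarterSubgroup C := by
  intro n
  induction n using Nat.strong_induction_on with
  | _ n ih =>
  intro G _ _ _ hn
  by_cases hnt : Nontrivial G
  swap
  · rw [not_nontrivial_iff_subsingleton] at hnt
    refine ⟨⊤, ?_, ?_⟩
    · exact (inferInstance : Group.IsNilpotent (⊤ : Subgroup G))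
    · exact Subgroup.normalizer_eq_top_iff.mpr inferInstance
  obtain ⟨N, p, hNn, hNb, hp, hNp⟩ := exists_min_normal_pgroup (G := G)
  haveI := hNn
  haveI : Fact p.Prime := ⟨hp⟩
  let f := QuotientGroup.mk' N
  have hf : Function.Surjective f := QuotientGroup.mk'_surjective N
  have hker : f.ker = N := QuotientGroup.ker_mk' N
  haveI : Group.IsSolvable (G ⧸ N) := solvable_of_surjective hf
  have hlt : Nat.card (G ⧸ N) < n := hn ▸ card_quotient_lt hNb
  obtain ⟨Cb, hCb⟩ := ih _ hlt (G ⧸ N) rfl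
  set H : Subgroup G := Cb.comap f with hH
  have hNH : N ≤ H := by
    rw [← hker]; exact Subgroup.ker_le_comap f Cb
  -- Hall `p'`-subgroup of `H`
  have hcardH : Nat.card H ≠ 0 := Nat.card_pos.ne'
  obtain ⟨m, a, hma, hmc⟩ : ∃ m a : ℕ, Nat.card H = m * p ^ a ∧ m.Coprime p :=
    ⟨Nat.card H / p ^ (Nat.card H).factorization p, (Nat.card H).factorization p,
      by rw [mul_comm]; exact (Nat.ordProj_mul_ordCompl_eq_self _ _).symm,
      (Nat.coprime_ordCompl hp hcardH).symm⟩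
  obtain ⟨X, hXc, -⟩ := H01.hall_containment _ H rfl m (p ^ a) hma (Nat.Coprime.pow_right a hmc) ⊥ (by simp)
  set Q₀ : Subgroup G := X.map H.subtype with hQ₀
  have hQ₀H : Q₀ ≤ H := by
    rintro _ ⟨x, -, rfl⟩; exact x.2
  have hQ₀card : Nat.card Q₀ = m := by
    rw [hQ₀, Subgroup.card_map_of_injective H.subtype_injective, hXc]
  have hQ₀cop : (Nat.card Q₀).Coprime p := by
    rw [hQ₀card]; exact hmc
  have hQ₀idx : Q₀.relIndex H = p ^ a := by
    have h1 := card_eq_mul_relIndex hQ₀H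
    rw [hma, hQ₀card] at h1
    have hpos : 0 < m := by
      rw [← hQ₀card]; exact Nat.card_pos
    exact (Nat.eq_of_mul_eq_mul_left hpos h1).symm
  obtain ⟨t₀, ht₀⟩ := IsPGroup.iff_card.mp hNp
  have hcopNQ : (Nat.card N).Coprime (Nat.card Q₀) := by
    rw [ht₀]; exact Nat.Coprime.pow_left t₀ hQ₀cop.symm
  have hdis : Q₀ ⊓ N = ⊥ := (Subgroup.disjoint_of_coprime_natCard hcopNQ.symm).eq_bot
  -- the image of `Q₀` is the Hall subgroup of the image
  obtain ⟨Qb, hQb⟩ := exists_hallPP (p := p) hCb.1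
  have hmapinj : Nat.card (Q₀.map f) = Nat.card Q₀ :=
    H01.card_map_mk_of_disjoint N Q₀ (Subgroup.disjoint_of_coprime_natCard hcopNQ.symm)
  have hmaple : Q₀.map f ≤ Qb := by
    rintro _ ⟨q, hq, rfl⟩
    apply hQb.mem_of_coprime (hQ₀H hq)
    exact Nat.Coprime.coprime_dvd_left (orderOf_map_dvd f q) (coprime_orderOf_of_mem hQ₀cop hq)
  have hmapeq : Q₀.map f = Qb := by
    apply Subgroup.eq_of_le_of_card_ge hmaple
    rw [hmapinj, hQ₀card]
    apply Nat.le_of_dvd
    · rw [← hQ₀card]; exact Nat.card_pos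
    · have h1 : Nat.card Qb ∣ Nat.card Cb := Subgroup.card_dvd_of_le hQb.le
      have h2 : Nat.card Cb ∣ Nat.card H := by
        have h3 : H.map f = Cb := Subgroup.map_comap_eq_self_of_surjective hf Cb
        rw [← h3]
        exact Subgroup.card_map_dvd _ _
      have h3 : Nat.card Qb ∣ m * p ^ a := by rw [← hma]; exact h1.trans h2
      exact Nat.Coprime.dvd_of_dvd_mul_right (Nat.Coprime.pow_right a hQb.cop) h3
  -- the Frattini argument
  set T : Subgroup G := H ⊓ Subgroup.normalizer (Q₀ : Set G) with hT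
  have hconjL : ∀ h ∈ H, MulAut.conj h • Q₀ ≤ Q₀ ⊔ N := by
    rintro h hh _ ⟨q, hq, rfl⟩
    have h1 : f (h * q * h⁻¹) ∈ Q₀.map f := by
      rw [hmapeq, map_mul, map_mul, map_inv]
      have hfq : f q ∈ Qb := hmaple ⟨q, hq, rfl⟩
      exact (Subgroup.mem_normalizer_iff.mp (hQb.norm hh) _).mp hfq
    obtain ⟨q₁, hq₁, hq₁e⟩ := h1
    have h2 : q₁⁻¹ * (h * q * h⁻¹) ∈ N := by
      rw [← QuotientGroup.eq]
      exact hq₁e
    have h3 : h * q * h⁻¹ = q₁ * (q₁⁻¹ * (h * q * h⁻¹)) := by group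
    show h * q * h⁻¹ ∈ Q₀ ⊔ N
    rw [h3]
    exact Subgroup.mul_mem _ (Subgroup.mem_sup_left hq₁) (Subgroup.mem_sup_right h2)
  have hcardL : Nat.card N * Nat.card Q₀ = Nat.card (Q₀ ⊔ N : Subgroup G) := by
    have h1 := H01.card_sup_mul_card_inf Q₀ N
    rw [hdis, Subgroup.card_bot, mul_one] at h1
    rw [h1, mul_comm]
  have hfrat : ∀ h ∈ H, ∃ n ∈ N, n * h ∈ T := by
    intro h hh
    have hcardX : Nat.card (MulAut.conj h • Q₀ : Subgroup G) = Nat.card Q₀ := card_conj_smul Q₀ h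
    obtain ⟨g, hgL, hg⟩ := H01.conj_rel (L := Q₀ ⊔ N) (N := N) (H := MulAut.conj h • Q₀) (K := Q₀)
      le_sup_right (by rw [Subgroup.normalizer_eq_top_iff.mpr hNn]; exact le_top) (hconjL h hh) le_sup_left
      (by rw [hcardX]; exact hcopNQ) (by rw [hcardX]; exact hcardL) hcardX.symm
      (Or.inr inferInstance)
    obtain ⟨q, hq, n, hn, rfl⟩ := Subgroup.mem_sup_of_normal_right.mp hgL
    refine ⟨n, hn, H.mul_mem (hNH hn) hh, ?_⟩
    show n * h ∈ Subgroup.normalizer (Q₀ : Set G)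
    rw [mem_normalizer_iff_conj_smul]
    have h1 : MulAut.conj (q * n * h) • Q₀ = Q₀ := by
      rw [map_mul, mul_smul]
      exact hg
    have h2 : MulAut.conj (n * h) • Q₀ = (MulAut.conj q)⁻¹ • (MulAut.conj (q * n * h) • Q₀) := by
      rw [← mul_smul, ← map_inv, ← map_mul]
      congr 2
      group
    rw [h2, h1, ← map_inv]
    exact Subgroup.conj_smul_eq_self_of_mem (Q₀.inv_mem hq)
  have hQ₀T : Q₀ ≤ T := le_inf hQ₀H Subgroup.le_normalizer
  have hTH : T ≤ H := inf_le_left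
  have hTN : T ≤ Subgroup.normalizer (Q₀ : Set G) := inf_le_right
  haveI hQ₀Tn : (Q₀.subgroupOf T).Normal := (Subgroup.normal_subgroupOf_iff_le_normalizer hQ₀T).mpr hTN
  have hTidx : ∃ k, Q₀.relIndex T = p ^ k := by
    have h1 : Q₀.relIndex T * T.relIndex H = Q₀.relIndex H := Subgroup.relIndex_mul_relIndex _ _ _ hQ₀T hTH
    have h2 : Q₀.relIndex T ∣ p ^ a := by rw [← hQ₀idx, ← h1]; exact dvd_mul_right _ _
    obtain ⟨i, -, hi⟩ := (Nat.dvd_prime_pow hp).mp h2
    exact ⟨i, hi⟩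
  have hTpg : IsPGroup p (T ⧸ Q₀.subgroupOf T) := by
    obtain ⟨k, hk⟩ := hTidx
    exact IsPGroup.iff_card.mpr ⟨k, hk⟩
  have hHallT : IsHallPP T Q₀ p := by
    refine ⟨hQ₀T, hTN, hQ₀cop, ?_⟩
    intro x hx
    obtain ⟨k, hk⟩ := hTpg ((⟨x, hx⟩ : T) : T ⧸ Q₀.subgroupOf T)
    refine ⟨k, ?_⟩
    rw [← QuotientGroup.mk_pow, QuotientGroup.eq_one_iff] at hk
    exact hk
  -- `T` is nilpotent
  have hTnil : Group.IsNilpotent T := by
    let φ₁ : T →* Cb := (f.comp T.subtype).codRestrict Cb (fun t => hTH t.2)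
    let φ₂ : T →* T ⧸ Q₀.subgroupOf T := QuotientGroup.mk' _
    let φ := φ₁.prod φ₂
    have hφ : Function.Injective φ := by
      rw [injective_iff_map_eq_one]
      intro t ht
      have h1 : φ₁ t = 1 := congrArg Prod.fst ht
      have h2 : φ₂ t = 1 := congrArg Prod.snd ht
      have h3 : (t : G) ∈ N := by
        have h4 : f t = 1 := congrArg Subtype.val h1
        exact (QuotientGroup.eq_one_iff _).mp h4
      have h5 : (t : G) ∈ Q₀ := (QuotientGroup.eq_one_iff t).mp h2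
      have h6 : (t : G) ∈ Q₀ ⊓ N := ⟨h5, h3⟩
      rw [hdis, Subgroup.mem_bot] at h6
      exact Subtype.ext h6
    haveI := hCb.1
    haveI : Group.IsNilpotent (T ⧸ Q₀.subgroupOf T) := hTpg.isNilpotent
    exact nilpotent_of_surjective (MonoidHom.ofInjective hφ).symm.toMonoidHom
      (MonoidHom.ofInjective hφ).symm.surjective
  refine ⟨T, hTnil, ?_⟩
  apply le_antisymm _ Subgroup.le_normalizer
  intro g hg
  have hgQ : g ∈ Subgroup.normalizer (Q₀ : Set G) := by
    apply mem_normalizer_of_conj_le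
    intro q hq
    apply hHallT.mem_of_coprime
    · exact (Subgroup.mem_normalizer_iff.mp hg q).mp (hQ₀T hq)
    · have h1 : orderOf (g * q * g⁻¹) = orderOf q :=
        orderOf_injective (MulAut.conj g).toMonoidHom (MulAut.conj g).injective q
      rw [h1]
      exact coprime_orderOf_of_mem hQ₀cop hq
  have hgH : g ∈ H := by
    have h1 : f g ∈ Subgroup.normalizer (Cb : Set (G ⧸ N)) := by
      apply mem_normalizer_of_conj_le
      intro c hc
      obtain ⟨h, rfl⟩ := hf c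
      obtain ⟨n, hn, hnh⟩ := hfrat h hc
      have h2 : g * (n * h) * g⁻¹ ∈ T := (Subgroup.mem_normalizer_iff.mp hg _).mp hnh
      have h3 : f (g * (n * h) * g⁻¹) ∈ Cb := hTH h2
      have h4 : f (g * (n * h) * g⁻¹) = f g * f h * (f g)⁻¹ := by
        have h5 : f n = 1 := (QuotientGroup.eq_one_iff n).mpr hn
        rw [map_mul, map_mul, map_mul, map_inv, h5, one_mul]
      rw [h4] at h3
      exact h3
    rw [hCb.2] at h1
    exact h1
  exact ⟨hgH, hgQ⟩

theorem carter_exists (G : Type u) [Group G] [Finite G] [Group.IsSolvable G] :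
    ∃ C : Subgroup G, IsCarterSubgroup C :=
  carter_exists_aux _ G rfl

/-- A complement system adapted to a nilpotent subgroup. -/
theorem exists_reducing {G : Type u} [Group G] [Finite G] [Group.IsSolvable G] {C : Subgroup G}
    (hC : Group.IsNilpotent C) :
    ∃ K : Nat.Primes → Subgroup G, IsComplementSystem K ∧ ∀ q : Nat.Primes, ∃ Q, IsHallPP C Q q ∧ Q ≤ K q := by
  have hex : ∀ q : Nat.Primes, ∃ X : Subgroup G, X.index = (q : ℕ) ^ (Nat.card G).factorization q ∧
      ∃ Q, IsHallPP C Q q ∧ Q ≤ X := by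
    intro q
    haveI : Fact (q : ℕ).Prime := ⟨q.2⟩
    obtain ⟨Q, hQ⟩ := exists_hallPP (p := (q : ℕ)) hC
    have hcardG : Nat.card G ≠ 0 := Nat.card_pos.ne'
    have hcop : (Nat.card G / (q : ℕ) ^ (Nat.card G).factorization q).Coprime ((q : ℕ) ^ (Nat.card G).factorization q) :=
      Nat.Coprime.pow_right _ (Nat.coprime_ordCompl q.2 hcardG).symm
    have hfac : Nat.card G = (Nat.card G / (q : ℕ) ^ (Nat.card G).factorization q) * (q : ℕ) ^ (Nat.card G).factorization q := by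
      rw [mul_comm]; exact (Nat.ordProj_mul_ordCompl_eq_self _ _).symm
    obtain ⟨X, hXc, hQX⟩ := H01.hall_containment _ G rfl _ _ hfac hcop Q (Nat.Coprime.pow_right _ hQ.cop)
    refine ⟨X, ?_, Q, hQ, hQX⟩
    have h1 := X.card_mul_index
    rw [hXc] at h1
    have hpos : 0 < Nat.card G / (q : ℕ) ^ (Nat.card G).factorization q := by
      rw [← hXc]; exact Nat.card_pos
    exact Nat.eq_of_mul_eq_mul_left hpos (h1.trans hfac)
  choose K hK hK' using hex
  exact ⟨K, hK, hK'⟩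

/-- A system normalizer of an adapted system lies in the Carter subgroup. -/
theorem sysNorm_le_carter_aux : ∀ (n : ℕ) (G : Type u) [Group G] [Finite G] [Group.IsSolvable G],
    Nat.card G = n → ∀ (C : Subgroup G) (K : Nat.Primes → Subgroup G), IsCarterSubgroup C → IsComplementSystem K →
    (∀ q : Nat.Primes, ∃ Q, IsHallPP C Q q ∧ Q ≤ K q) → systemNormalizer K ≤ C := by
  intro n
  induction n using Nat.strong_induction_on with
  | _ n ih =>
  intro G _ _ _ hn C K hC hK hKQ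
  by_cases hnt : Nontrivial G
  swap
  · rw [not_nontrivial_iff_subsingleton] at hnt
    intro x _
    rw [Subsingleton.elim x 1]
    exact C.one_mem
  obtain ⟨N, p, hNn, hNb, hp, hNp⟩ := exists_min_normal_pgroup (G := G)
  haveI := hNn
  haveI : Fact p.Prime := ⟨hp⟩
  let f := QuotientGroup.mk' N
  have hf : Function.Surjective f := QuotientGroup.mk'_surjective N
  haveI : Group.IsSolvable (G ⧸ N) := solvable_of_surjective hf
  have hlt : Nat.card (G ⧸ N) < n := hn ▸ card_quotient_lt hNb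
  have hIH := ih _ hlt (G ⧸ N) rfl (C.map f) (fun q => (K q).map f) (carter_map hC hNp) (comp_map f hf hK) (by
    intro q
    haveI : Fact (q : ℕ).Prime := ⟨q.2⟩
    obtain ⟨Q, hQ, hQK⟩ := hKQ q
    exact ⟨Q.map f, hQ.map f, Subgroup.map_mono hQK⟩)
  intro x hx
  have h1 : f x ∈ C.map f := hIH (map_sysNorm_le f ⟨x, hx, rfl⟩)
  have hxT : x ∈ C ⊔ N := by
    obtain ⟨c, hc, hcx⟩ := h1
    have h2 : c⁻¹ * x ∈ N := by
      rw [← QuotientGroup.eq]
      exact hcx
    have h3 : x = c * (c⁻¹ * x) := by group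
    rw [h3]
    exact Subgroup.mul_mem _ (Subgroup.mem_sup_left hc) (Subgroup.mem_sup_right h2)
  let pp : Nat.Primes := ⟨p, hp⟩
  obtain ⟨Q, hQ, hQK⟩ := hKQ pp
  have hQ' : IsHallPP C Q p := hQ
  obtain ⟨s, hs⟩ := relIndex_hall_sup hQ' hNp
  -- `K p ⊓ (C ⊔ N) = Q`
  have hinf : K pp ⊓ (C ⊔ N) = Q := by
    symm
    apply Subgroup.eq_of_le_of_card_ge (le_inf hQK (hQ'.le.trans le_sup_left))
    apply Nat.le_of_dvd Nat.card_pos
    have h2 : Nat.card (K pp ⊓ (C ⊔ N) : Subgroup G) ∣ Nat.card (C ⊔ N : Subgroup G) :=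
      Subgroup.card_dvd_of_le inf_le_right
    rw [card_eq_mul_relIndex (hQ'.le.trans le_sup_left), hs] at h2
    have h3 : (Nat.card (K pp ⊓ (C ⊔ N) : Subgroup G)).Coprime p :=
      Nat.Coprime.coprime_dvd_left (Subgroup.card_dvd_of_le inf_le_left) (comp_card_coprime hK pp)
    exact Nat.Coprime.dvd_of_dvd_mul_right (Nat.Coprime.pow_right s h3) h2
  apply carter_normalizer_hall hC hQ' hNp hxT
  rw [mem_normalizer_iff_conj_smul, ← hinf, Subgroup.smul_inf]
  rw [mem_normalizer_iff_conj_smul.mp (mem_sysNorm_iff.mp hx pp), Subgroup.conj_smul_eq_self_of_mem hxT]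

theorem sysNorm_le_carter {G : Type u} [Group G] [Finite G] [Group.IsSolvable G] {C : Subgroup G}
    {K : Nat.Primes → Subgroup G} (hC : IsCarterSubgroup C) (hK : IsComplementSystem K)
    (hKQ : ∀ q : Nat.Primes, ∃ Q, IsHallPP C Q q ∧ Q ≤ K q) : systemNormalizer K ≤ C :=
  sysNorm_le_carter_aux _ G rfl C K hC hK hKQ

theorem sysNorm_conj {G : Type u} [Group G] {K L : Nat.Primes → Subgroup G} {g : G}
    (h : ∀ q, MulAut.conj g • K q = L q) : systemNormalizer L = MulAut.conj g • systemNormalizer K := by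
  ext x
  rw [mem_sysNorm_iff, Subgroup.mem_pointwise_smul_iff_inv_smul_mem, mem_sysNorm_iff]
  constructor
  · intro hx q
    have h1 := mem_normalizer_iff_conj_smul.mp (hx q)
    rw [mem_normalizer_iff_conj_smul]
    rw [← h q] at h1
    have h2 : (MulAut.conj g)⁻¹ • x = g⁻¹ * x * g := by
      rw [MulAut.smul_def, MulAut.inv_apply, MulAut.conj_symm_apply]
    rw [h2]
    have h3 : MulAut.conj (g⁻¹ * x * g) = (MulAut.conj g)⁻¹ * MulAut.conj x * MulAut.conj g := by
      rw [map_mul, map_mul, map_inv]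
    rw [h3, mul_smul, mul_smul, h1, ← mul_smul, inv_mul_cancel, one_smul]
  · intro hx q
    have h2 : (MulAut.conj g)⁻¹ • x = g⁻¹ * x * g := by
      rw [MulAut.smul_def, MulAut.inv_apply, MulAut.conj_symm_apply]
    have h1 := mem_normalizer_iff_conj_smul.mp (hx q)
    rw [h2] at h1
    rw [mem_normalizer_iff_conj_smul, ← h q]
    have h3 : MulAut.conj x * MulAut.conj g = MulAut.conj g * MulAut.conj (g⁻¹ * x * g) := by
      rw [← map_mul, ← map_mul]
      congr 1
      group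
    rw [← mul_smul, h3, mul_smul, h1]

/-- S0569. -/
theorem carter_and_sysNorm {G : Type u} [Group G] [Finite G] [Group.IsSolvable G] :
    (∀ C : Subgroup G, IsCarterSubgroup C → ∃ K : Nat.Primes → Subgroup G, IsComplementSystem K ∧ systemNormalizer K ≤ C) ∧
    ∀ K : Nat.Primes → Subgroup G, IsComplementSystem K → ∃ C : Subgroup G, IsCarterSubgroup C ∧ systemNormalizer K ≤ C := by
  constructor
  · intro C hC
    obtain ⟨K, hK, hKQ⟩ := exists_reducing hC.1
    exact ⟨K, hK, sysNorm_le_carter hC hK hKQ⟩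
  · intro K hK
    obtain ⟨C₀, hC₀⟩ := carter_exists G
    obtain ⟨K₀, hK₀, hKQ⟩ := exists_reducing hC₀.1
    obtain ⟨g, hg⟩ := complement_systems_conj hK₀ hK
    refine ⟨MulAut.conj g • C₀, carter_conj_smul hC₀ g, ?_⟩
    rw [sysNorm_conj hg]
    exact conj_smul_le (sysNorm_le_carter hC₀ hK₀ hKQ) g

end Cfsg.Agent.H02
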