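import Cfsg.Agent.Lib.H02.Sys6

/-!
Carter subgroups and system normalizers in groups of nilpotent length at most two.
-/

set_option autoImplicit false

namespace Cfsg.Agent.H02

open Cfsg
open scoped Pointwise commutatorElement

universe u

variable {G : Type u} [Group G] [Finite G]

theorem carter_subgroupOf {C T : Subgroup G} (hC : IsCarterSubgroup C) (hCT : C ≤ T) :
    IsCarterSubgroup (C.subgroupOf T) := by
  constructor
  · haveI := hC.1
    exact nilpotent_of_surjective (Subgroup.subgroupOfEquivOfLe hCT).symm.toMonoidHom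
      (Subgroup.subgroupOfEquivOfLe hCT).symm.surjective
  · apply le_antisymm _ Subgroup.le_normalizer
    intro x hx
    have h1 : (x : G) ∈ Subgroup.normalizer (C : Set G) := by
      apply mem_normalizer_of_conj_le
      intro c hc
      have h2 : (⟨c, hCT hc⟩ : T) ∈ C.subgroupOf T := hc
      have h3 := (Subgroup.mem_normalizer_iff.mp hx _).mp h2
      exact h3
    rw [hC.2] at h1
    exact h1

/-- A Carter subgroup covers a nilpotent quotient. -/
theorem carter_sup_eq_top [Group.IsSolvable G] {C F : Subgroup G} [hFn : F.Normal]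
    (hGF : Group.IsNilpotent (G ⧸ F)) (hC : IsCarterSubgroup C) : C ⊔ F = ⊤ := by
  by_contra hne
  let f := QuotientGroup.mk' F
  have hf : Function.Surjective f := QuotientGroup.mk'_surjective F
  have hker : f.ker = F := QuotientGroup.ker_mk' F
  set T := C ⊔ F with hT
  have hcomap : (T.map f).comap f = T := by
    rw [Subgroup.comap_map_eq, hker, hT, sup_assoc, sup_idem]
  have hlt : T.map f < ⊤ := by
    rw [lt_top_iff_ne_top]
    intro h
    apply hne
    rw [← hcomap, h, Subgroup.comap_top]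
  have hnc := Group.normalizerCondition_of_isNilpotent (G := G ⧸ F)
  have h1 := hnc _ hlt
  obtain ⟨yb, hy1, hy2⟩ := SetLike.exists_of_lt h1
  obtain ⟨g, rfl⟩ := hf yb
  have hgT : g ∉ T := by
    intro h
    exact hy2 ⟨g, h, rfl⟩
  have hgN : ∀ x ∈ T, g * x * g⁻¹ ∈ T := by
    intro x hx
    have h2 : f (g * x * g⁻¹) ∈ T.map f := by
      rw [map_mul, map_mul, map_inv]
      exact (Subgroup.mem_normalizer_iff.mp hy1 _).mp ⟨x, hx, rfl⟩
    rw [← hcomap]
    exact h2
  have hCT : C ≤ T := le_sup_left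
  have hC' : IsCarterSubgroup (MulAut.conj g • C) := carter_conj_smul hC g
  have hC'T : MulAut.conj g • C ≤ T := by
    rintro _ ⟨c, hc, rfl⟩
    exact hgN c (hCT hc)
  obtain ⟨t, ht⟩ := carter_conj (carter_subgroupOf hC hCT) (carter_subgroupOf hC' hC'T)
  have h2 : MulAut.conj (t : G) • C = MulAut.conj g • C := H01.conj_of_subgroupOf hCT hC'T t ht
  have h3 : (t : G)⁻¹ * g ∈ Subgroup.normalizer (C : Set G) := by
    rw [mem_normalizer_iff_conj_smul, map_mul, mul_smul, ← h2, map_inv, ← mul_smul, inv_mul_cancel, one_smul]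
  rw [hC.2] at h3
  apply hgT
  have h4 : g = (t : G) * ((t : G)⁻¹ * g) := by group
  rw [h4]
  exact T.mul_mem t.2 (hCT h3)

/-- For an adapted system, `C` normalizes every member when `G = C F`. -/
theorem carter_eq_sysNorm [Group.IsSolvable G] {C F : Subgroup G} [hFn : F.Normal]
    (hF : Group.IsNilpotent F) (hGF : Group.IsNilpotent (G ⧸ F)) (hC : IsCarterSubgroup C)
    {K : Nat.Primes → Subgroup G} (hK : IsComplementSystem K)
    (hKQ : ∀ q : Nat.Primes, ∃ Q, IsHallPP C Q q ∧ Q ≤ K q) : C = systemNormalizer K := by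
  apply le_antisymm _ (sysNorm_le_carter hC hK hKQ)
  intro c hc
  rw [mem_sysNorm_iff]
  intro q
  haveI : Fact (q : ℕ).Prime := ⟨q.2⟩
  obtain ⟨Q, hQ, hQK⟩ := hKQ q
  obtain ⟨O, hO⟩ := exists_hallPP (p := (q : ℕ)) hF
  have hsup := carter_sup_eq_top hGF hC
  let f := QuotientGroup.mk' F
  have hf : Function.Surjective f := QuotientGroup.mk'_surjective F
  have hOn : O.Normal := by
    constructor
    intro x hx g
    apply hO.mem_of_coprime
    · exact hFn.conj_mem x (hO.le hx) g
    · have h1 : orderOf (g * x * g⁻¹) = orderOf x :=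
        orderOf_injective (MulAut.conj g).toMonoidHom (MulAut.conj g).injective x
      rw [h1]
      exact coprime_orderOf_of_mem hO.cop hx
  have hOK : O ≤ K q := normal_le_of_coprime q.2 (hK q) hO.cop
  have hCtop : C.map f = ⊤ := by
    have h1 := congrArg (Subgroup.map f) hsup
    rw [Subgroup.map_sup, Subgroup.map_top_of_surjective f hf] at h1
    have h2 : F.map f = ⊥ := by
      rw [Subgroup.map_eq_bot_iff, QuotientGroup.ker_mk']
    rwa [h2, sup_bot_eq] at h1
  have hQb := hQ.map f
  rw [hCtop] at hQb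
  have hKeq : K q = O ⊔ Q := by
    apply le_antisymm _ (sup_le hOK hQK)
    intro z hz
    have hzc : (orderOf z).Coprime q := coprime_orderOf_of_mem (comp_card_coprime hK q) hz
    have h1 : f z ∈ Q.map f := by
      apply hQb.mem_of_coprime (Subgroup.mem_top _)
      exact Nat.Coprime.coprime_dvd_left (orderOf_map_dvd f z) hzc
    obtain ⟨b, hb, hbz⟩ := h1
    have h2 : b⁻¹ * z ∈ F := by
      rw [← QuotientGroup.eq]
      exact hbz
    have h3 : b⁻¹ * z ∈ K q := (K q).mul_mem ((K q).inv_mem (hQK hb)) hz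
    have h4 : b⁻¹ * z ∈ O := by
      apply hO.mem_of_coprime h2
      exact coprime_orderOf_of_mem (comp_card_coprime hK q) h3
    have h5 : z = b * (b⁻¹ * z) := by group
    rw [h5]
    exact Subgroup.mul_mem _ (Subgroup.mem_sup_right hb) (Subgroup.mem_sup_left h4)
  rw [hKeq, mem_normalizer_iff_conj_smul, Subgroup.smul_sup]
  have h1 : MulAut.conj c • O = O := by
    rw [← mem_normalizer_iff_conj_smul, Subgroup.normalizer_eq_top_iff.mpr hOn]
    exact Subgroup.mem_top _
  have h2 : MulAut.conj c • Q = Q := mem_normalizer_iff_conj_smul.mp (hQ.norm hc)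
  rw [h1, h2]

/-- S0570. -/
theorem carter_iff_sysNorm (F : Subgroup G) [hFn : F.Normal] (hF : Group.IsNilpotent F)
    (hGF : Group.IsNilpotent (G ⧸ F)) (C : Subgroup G) :
    IsCarterSubgroup C ↔ ∃ K : Nat.Primes → Subgroup G, IsComplementSystem K ∧ C = systemNormalizer K := by
  haveI : Group.IsSolvable F := inferInstance
  haveI : Group.IsSolvable (G ⧸ F) := inferInstance
  haveI : Group.IsSolvable G := solvable_of_ker_le_range F.subtype (QuotientGroup.mk' F) (by
    rw [QuotientGroup.ker_mk', Subgroup.range_subtype])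
  constructor
  · intro hC
    obtain ⟨K, hK, hKQ⟩ := exists_reducing hC.1
    exact ⟨K, hK, carter_eq_sysNorm hF hGF hC hK hKQ⟩
  · rintro ⟨K, hK, rfl⟩
    obtain ⟨C₀, hC₀⟩ := carter_exists G
    obtain ⟨K₀, hK₀, hKQ⟩ := exists_reducing hC₀.1
    obtain ⟨g, hg⟩ := complement_systems_conj hK₀ hK
    rw [sysNorm_conj hg, ← carter_eq_sysNorm hF hGF hC₀ hK₀ hKQ]
    exact carter_conj_smul hC₀ g

end Cfsg.Agent.H02
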