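import Cfsg.Agent.Lib.H01.Frobenius
import Cfsg.Prelude.Def_LieExceptional

/-!
Zassenhaus groups: basic data and the Frobenius kernel of a point stabiliser.
-/

set_option autoImplicit false

namespace Cfsg.Agent.H02.Zas

open Cfsg
open scoped Pointwise

universe u v

/-- The permutation-theoretic data of a Zassenhaus group (without the condition on regular normal subgroups). -/
structure Z0 (G : Type u) (Ω : Type v) [Group G] [MulAction G Ω] : Prop where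
  faith : ∀ g : G, (∀ x : Ω, g • x = x) → g = 1
  tr2 : ∀ a b a' b' : Ω, a ≠ b → a' ≠ b' → ∃ g : G, g • a = a' ∧ g • b = b'
  fix3 : ∀ g : G, ∀ a b c : Ω, a ≠ b → b ≠ c → a ≠ c → g • a = a → g • b = b → g • c = c → g = 1
  nt : ∃ g : G, g ≠ 1 ∧ ∃ a b : Ω, a ≠ b ∧ g • a = a ∧ g • b = b

theorem inj2' {Ω : Type*} {x y : Ω} (hxy : x ≠ y) : Function.Injective (![x, y] : Fin 2 → Ω) := by
  intro i j hij
  fin_cases i <;> fin_cases j <;> first
    | rfl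
    | (simp at hij; first
        | exact absurd hij hxy
        | exact absurd hij.symm hxy)

theorem tr2_of_pretrans {G : Type u} {Ω : Type v} [Group G] [MulAction G Ω]
    (h2 : MulAction.IsMultiplyPretransitive G Ω 2) (a b a' b' : Ω) (hab : a ≠ b) (hab' : a' ≠ b') :
    ∃ g : G, g • a = a' ∧ g • b = b' := by
  haveI := h2
  obtain ⟨g, hg⟩ := MulAction.exists_smul_eq G (⟨_, inj2' hab⟩ : Fin 2 ↪ Ω) (⟨_, inj2' hab'⟩ : Fin 2 ↪ Ω)
  exact ⟨g, congrArg (fun f : Fin 2 ↪ Ω => f 0) hg, congrArg (fun f : Fin 2 ↪ Ω => f 1) hg⟩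

theorem pretrans_of_tr2 {G : Type u} {Ω : Type v} [Group G] [MulAction G Ω]
    (h : ∀ a b a' b' : Ω, a ≠ b → a' ≠ b' → ∃ g : G, g • a = a' ∧ g • b = b') :
    MulAction.IsMultiplyPretransitive G Ω 2 := by
  refine ⟨fun x y => ?_⟩
  have h01 : ∀ z : Fin 2 ↪ Ω, z 0 ≠ z 1 := fun z e => absurd (z.injective e) (by decide)
  obtain ⟨g, h0, h1⟩ := h (x 0) (x 1) (y 0) (y 1) (h01 x) (h01 y)
  refine ⟨g, ?_⟩
  apply Function.Embedding.ext
  intro i
  fin_cases i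
  · exact h0
  · exact h1

theorem Z0.of_isZ {G : Type u} {Ω : Type v} [Group G] [MulAction G Ω] (hZ : IsZassenhausGroup G Ω) : Z0 G Ω := by
  obtain ⟨h1, h2, h3, h4, -⟩ := hZ
  exact ⟨fun g hg => h1.eq_of_smul_eq_smul (fun x => by rw [hg, one_smul]), tr2_of_pretrans h2, h3, h4⟩

/-- A Frobenius action on a subset gives the kernel. -/
theorem exists_frob_kernel {G : Type u} {Ω : Type v} [Group G] [Finite G] [MulAction G Ω] (X : Subgroup G) (Y : Set Ω)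
    (hinv : ∀ g ∈ X, ∀ y ∈ Y, g • y ∈ Y) (htr : ∀ y ∈ Y, ∀ y' ∈ Y, ∃ g ∈ X, g • y = y')
    (hfix : ∀ g ∈ X, ∀ y ∈ Y, ∀ y' ∈ Y, y ≠ y' → g • y = y → g • y' = y' → g = 1)
    (hne : ∃ y ∈ Y, ∃ y' ∈ Y, y ≠ y') (hH : ∃ g ∈ X, g ≠ 1 ∧ ∃ y ∈ Y, g • y = y) :
    ∃ K : Subgroup G, K ≤ X ∧ (∀ g ∈ X, ∀ k ∈ K, g * k * g⁻¹ ∈ K) ∧
      (∀ x, x ∈ K ↔ x ∈ X ∧ (x = 1 ∨ ∀ y ∈ Y, x • y ≠ y)) ∧ (∀ y ∈ Y, ∀ y' ∈ Y, ∃ k ∈ K, k • y = y') := by
  obtain ⟨y₀, hy₀, y₁, hy₁, hy01⟩ := hne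
  -- the point stabiliser in `X`
  let H : Subgroup X :=
    { carrier := {x | x.1 • y₀ = y₀}
      one_mem' := one_smul _ _
      mul_mem' := by
        intro a b ha hb
        show (a.1 * b.1) • y₀ = y₀
        rw [mul_smul, Set.mem_setOf_eq.mp hb, Set.mem_setOf_eq.mp ha]
      inv_mem' := by
        intro a ha
        show a.1⁻¹ • y₀ = y₀
        rw [inv_smul_eq_iff, Set.mem_setOf_eq.mp ha] }
  have hmemH : ∀ x : X, x ∈ H ↔ x.1 • y₀ = y₀ := fun x => Iff.rfl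
  have hconj : ∀ (g x : X), x ∈ MulAut.conj g • H ↔ x.1 • (g.1 • y₀) = g.1 • y₀ := by
    intro g x
    rw [Subgroup.mem_pointwise_smul_iff_inv_smul_mem, hmemH]
    have e : ((MulAut.conj g)⁻¹ • x) = g⁻¹ * x * g := by simp [MulAut.smul_def]
    rw [e]
    show (g.1⁻¹ * x.1 * g.1) • y₀ = y₀ ↔ _
    rw [mul_smul, mul_smul, inv_smul_eq_iff]
  have hC : IsFrobeniusComplement H := by
    refine ⟨?_, ?_, ?_⟩
    · -- nontrivial
      obtain ⟨g, hg, hg1, y, hy, hgy⟩ := hH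
      obtain ⟨k, hk, hky⟩ := htr y hy y₀ hy₀
      intro hbot
      have hmem : (⟨k * g * k⁻¹, X.mul_mem (X.mul_mem hk hg) (X.inv_mem hk)⟩ : X) ∈ H := by
        show (k * g * k⁻¹) • y₀ = y₀
        rw [← hky, mul_smul, mul_smul, inv_smul_smul, hgy]
      rw [hbot, Subgroup.mem_bot] at hmem
      have h2 : k * g * k⁻¹ = 1 := congrArg Subtype.val hmem
      apply hg1
      have : g = k⁻¹ * (k * g * k⁻¹) * k := by group
      rw [this, h2]
      group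
    · intro htop
      obtain ⟨k, hk, hky⟩ := htr y₀ hy₀ y₁ hy₁
      have : (⟨k, hk⟩ : X) ∈ H := by rw [htop]; trivial
      rw [hmemH] at this
      exact hy01 (this.symm.trans hky)
    · intro g hg
      rw [eq_bot_iff]
      rintro x ⟨hx1, hx2⟩
      rw [Subgroup.mem_bot]
      have hx1' : x.1 • y₀ = y₀ := hx1
      have hx2' := (hconj g x).mp hx2
      have hne' : y₀ ≠ g.1 • y₀ := fun e => hg ((hmemH g).mpr e.symm)
      apply Subtype.ext
      exact hfix x.1 x.2 y₀ hy₀ _ (hinv g.1 g.2 y₀ hy₀) hne' hx1' hx2'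
  obtain ⟨N, hNset, hNn, hNc⟩ := Cfsg.Agent.H01.frobenius_theorem H hC
  have hNmem : ∀ x : X, x ∈ N ↔ x = 1 ∨ ∀ y ∈ Y, x.1 • y ≠ y := by
    intro x
    have h1 : x ∈ N ↔ x ∈ frobeniusKernel H := by
      rw [← hNset]
      rfl
    rw [h1]
    constructor
    · rintro (h | h)
      · exact Or.inl h
      · right
        intro y hy hxy
        obtain ⟨g, hg, hgy⟩ := htr y₀ hy₀ y hy
        apply h ⟨g, hg⟩
        rw [hconj]
        show x.1 • (g • y₀) = g • y₀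
        rw [hgy, hxy]
    · rintro (h | h)
      · exact Or.inl h
      · right
        intro g hg
        rw [hconj] at hg
        exact h _ (hinv g.1 g.2 y₀ hy₀) hg
  refine ⟨N.map X.subtype, Subgroup.map_subtype_le N, ?_, ?_, ?_⟩
  · rintro g hg _ ⟨k, hk, rfl⟩
    exact ⟨⟨g, hg⟩ * k * ⟨g, hg⟩⁻¹, hNn.conj_mem k hk ⟨g, hg⟩, rfl⟩
  · intro x
    constructor
    · rintro ⟨k, hk, rfl⟩
      refine ⟨k.2, ?_⟩
      rcases (hNmem k).mp hk with h | h
      · left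
        rw [h]
        rfl
      · exact Or.inr h
    · rintro ⟨hx, h⟩
      refine ⟨⟨x, hx⟩, ?_, rfl⟩
      show (⟨x, hx⟩ : X) ∈ N
      rw [hNmem]
      rcases h with h | h
      · left
        exact Subtype.ext h
      · exact Or.inr h
  · -- transitivity
    have hfrom : ∀ y ∈ Y, ∃ k ∈ N, k.1 • y₀ = y := by
      intro y hy
      obtain ⟨g, hg, hgy⟩ := htr y₀ hy₀ y hy
      obtain ⟨⟨k, h⟩, hkh, -⟩ := hNc.existsUnique ⟨g, hg⟩
      refine ⟨k.1, k.2, ?_⟩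
      have h1 : (k.1 : X).1 * (h.1 : X).1 = g := congrArg Subtype.val hkh
      have h2 : (h.1 : X).1 • y₀ = y₀ := h.2
      rw [← hgy, ← h1, mul_smul, h2]
    intro y hy y' hy'
    obtain ⟨k, hk, rfl⟩ := hfrom y hy
    obtain ⟨k', hk', rfl⟩ := hfrom y' hy'
    refine ⟨(k' * k⁻¹).1, ⟨k' * k⁻¹, N.mul_mem hk' (N.inv_mem hk), rfl⟩, ?_⟩
    show (k'.1 * k.1⁻¹) • k.1 • y₀ = _
    rw [mul_smul, inv_smul_smul]

end Cfsg.Agent.H02.Zas
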