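import Cfsg.Agent.Lib.H02.ZasA

/-!
Zassenhaus groups: the Frobenius kernel at a point, transitivity of normal subgroups.
-/

set_option autoImplicit false

namespace Cfsg.Agent.H02.Zas

open Cfsg

universe u v

variable {G : Type u} {Ω : Type v} [Group G] [MulAction G Ω]

theorem Z0.exists_fix (hZ : Z0 G Ω) {a b : Ω} (hab : a ≠ b) : ∃ w : G, w ≠ 1 ∧ w • a = a ∧ w • b = b := by
  obtain ⟨g, hg, a₀, b₀, h0, h1, h2⟩ := hZ.nt
  obtain ⟨k, hk1, hk2⟩ := hZ.tr2 a₀ b₀ a b h0 hab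
  refine ⟨k * g * k⁻¹, ?_, ?_, ?_⟩
  · intro e
    apply hg
    have : g = k⁻¹ * (k * g * k⁻¹) * k := by group
    rw [this, e]
    group
  · rw [← hk1, mul_smul, mul_smul, inv_smul_smul, h1]
  · rw [← hk2, mul_smul, mul_smul, inv_smul_smul, h2]

theorem Z0.exists_moved (hZ : Z0 G Ω) {g : G} (hg : g ≠ 1) : ∃ x : Ω, g • x ≠ x := by
  by_contra h
  push Not at h
  exact hg (hZ.faith g h)

/-- Three points exist. -/
theorem Z0.exists_two_ne (hZ : Z0 G Ω) (a : Ω) : ∃ y y' : Ω, y ≠ a ∧ y' ≠ a ∧ y ≠ y' := by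
  obtain ⟨g, hg, a₀, b₀, h0, h1, h2⟩ := hZ.nt
  obtain ⟨c, hc⟩ := hZ.exists_moved hg
  have hca : c ≠ a₀ := by
    rintro rfl
    exact hc h1
  have hcb : c ≠ b₀ := by
    rintro rfl
    exact hc h2
  by_cases e1 : a₀ = a
  · subst e1
    exact ⟨b₀, c, h0.symm, hca, hcb.symm⟩
  by_cases e2 : b₀ = a
  · subst e2
    exact ⟨a₀, c, h0, hcb, hca.symm⟩
  · exact ⟨a₀, b₀, e1, e2, h0⟩

theorem Z0.exists_ne (hZ : Z0 G Ω) (a : Ω) : ∃ y : Ω, y ≠ a := by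
  obtain ⟨y, -, h, -, -⟩ := hZ.exists_two_ne a
  exact ⟨y, h⟩

/-- The Frobenius kernel at a point. -/
theorem Z0.exists_kernel [Finite G] (hZ : Z0 G Ω) (a : Ω) :
    ∃ K : Subgroup G, K ≤ MulAction.stabilizer G a ∧ (∀ g ∈ MulAction.stabilizer G a, ∀ k ∈ K, g * k * g⁻¹ ∈ K) ∧
      (∀ x, x ∈ K ↔ x ∈ MulAction.stabilizer G a ∧ (x = 1 ∨ ∀ y, y ≠ a → x • y ≠ y)) ∧
      (∀ y y', y ≠ a → y' ≠ a → ∃ k ∈ K, k • y = y') := by
  obtain ⟨K, h1, h2, h3, h4⟩ := exists_frob_kernel (MulAction.stabilizer G a) {x : Ω | x ≠ a}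
    (by
      intro g hg y hy e
      apply hy
      have h : g • a = a := hg
      exact smul_left_cancel g (e.trans h.symm))
    (by
      intro y hy y' hy'
      obtain ⟨g, hg1, hg2⟩ := hZ.tr2 a y a y' (Ne.symm hy) (Ne.symm hy')
      exact ⟨g, hg1, hg2⟩)
    (by
      intro g hg y hy y' hy' hyy e1 e2
      exact hZ.fix3 g a y y' (Ne.symm hy) hyy (Ne.symm hy') hg e1 e2)
    (by
      obtain ⟨y, y', h1, h2, h3⟩ := hZ.exists_two_ne a
      exact ⟨y, h1, y', h2, h3⟩)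
    (by
      obtain ⟨y, hy⟩ := hZ.exists_ne a
      obtain ⟨w, hw, h1, h2⟩ := hZ.exists_fix (Ne.symm hy)
      exact ⟨w, h1, hw, y, hy, h2⟩)
  exact ⟨K, h1, h2, fun x => h3 x, fun y y' hy hy' => h4 y hy y' hy'⟩

/-- A subgroup normalised by the point stabiliser and containing a nonidentity element
fixing two points contains the kernel. -/
theorem Z0.kernel_le [Finite G] (hZ : Z0 G Ω) {a b : Ω} (hab : b ≠ a) {K N : Subgroup G}
    (hK1 : K ≤ MulAction.stabilizer G a)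
    (hK2 : ∀ g ∈ MulAction.stabilizer G a, ∀ k ∈ K, g * k * g⁻¹ ∈ K)
    (hK3 : ∀ x, x ∈ K ↔ x ∈ MulAction.stabilizer G a ∧ (x = 1 ∨ ∀ y, y ≠ a → x • y ≠ y))
    (hN : ∀ g ∈ MulAction.stabilizer G a, ∀ n ∈ N, g * n * g⁻¹ ∈ N)
    {w : G} (hw : w ≠ 1) (hwN : w ∈ N) (hwa : w • a = a) (hwb : w • b = b) : K ≤ N := by
  have hwS : w ∈ MulAction.stabilizer G a := hwa
  let f : K → K := fun k => ⟨k.1⁻¹ * (w * k.1 * w⁻¹), K.mul_mem (K.inv_mem k.2) (hK2 w hwS k.1 k.2)⟩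
  have hf : Function.Injective f := by
    intro k₁ k₂ h12
    have h1 : k₁.1⁻¹ * (w * k₁.1 * w⁻¹) = k₂.1⁻¹ * (w * k₂.1 * w⁻¹) := congrArg Subtype.val h12
    -- the quotient commutes with `w`
    set c : G := k₂.1 * k₁.1⁻¹ with hc
    have hcK : c ∈ K := K.mul_mem k₂.2 (K.inv_mem k₁.2)
    have hcomm : c * w = w * c := by
      have h2 : k₁.1⁻¹ * w * k₁.1 = k₂.1⁻¹ * w * k₂.1 := by
        have : k₁.1⁻¹ * (w * k₁.1 * w⁻¹) * w = k₂.1⁻¹ * (w * k₂.1 * w⁻¹) * w := by rw [h1]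
        simpa [mul_assoc] using this
      calc c * w = k₂.1 * (k₁.1⁻¹ * w * k₁.1) * k₁.1⁻¹ := by rw [hc]; group
        _ = k₂.1 * (k₂.1⁻¹ * w * k₂.1) * k₁.1⁻¹ := by rw [h2]
        _ = w * c := by rw [hc]; group
    have hca : c • a = a := hK1 hcK
    have hfix : w • (c • b) = c • b := by
      rw [← mul_smul, ← hcomm, mul_smul, hwb]
    have hcb : c • b = b := by
      by_contra hne
      have hne' : c • b ≠ a := by
        intro e
        apply hab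
        have : c • b = c • a := e.trans hca.symm
        exact smul_left_cancel c this
      exact hw (hZ.fix3 w a b (c • b) (Ne.symm hab) (Ne.symm hne) (Ne.symm hne') hwa hwb hfix)
    have hc1 : c = 1 := by
      rcases ((hK3 c).mp hcK).2 with h | h
      · exact h
      · exact absurd hcb (h b hab)
    apply Subtype.ext
    have : k₂.1 * k₁.1⁻¹ = 1 := hc1
    exact (mul_inv_eq_one.mp this).symm
  have hs := Finite.injective_iff_surjective.mp hf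
  intro k hk
  obtain ⟨k', hk'⟩ := hs ⟨k, hk⟩
  have h2 : k'.1⁻¹ * (w * k'.1 * w⁻¹) = k := congrArg Subtype.val hk'
  rw [← h2]
  have h3 : k'.1⁻¹ * (w * k'.1 * w⁻¹) = (k'.1⁻¹ * w * (k'.1⁻¹)⁻¹) * w⁻¹ := by group
  rw [h3]
  exact N.mul_mem (hN _ (Subgroup.inv_mem _ (hK1 k'.2)) w hwN) (N.inv_mem hwN)

/-- A nontrivial normal subgroup is transitive. -/
theorem Z0.normal_transitive (hZ : Z0 G Ω) {N : Subgroup G} (hN : N.Normal) (hN1 : N ≠ ⊥) (x y : Ω) :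
    ∃ n ∈ N, n • x = y := by
  by_cases hxy : x = y
  · exact ⟨1, N.one_mem, by rw [one_smul, hxy]⟩
  obtain ⟨n, hn1⟩ := Subgroup.ne_bot_iff_exists_ne_one.mp hN1
  obtain ⟨c, hc⟩ := hZ.exists_moved (g := (n : G)) (fun e => hn1 (Subtype.ext e))
  obtain ⟨g, hg1, hg2⟩ := hZ.tr2 c (n.1 • c) x y (Ne.symm hc) hxy
  refine ⟨g * n.1 * g⁻¹, hN.conj_mem _ n.2 g, ?_⟩
  rw [mul_smul, mul_smul, ← hg1, inv_smul_smul, hg2]

end Cfsg.Agent.H02.Zas
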