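import Cfsg.Agent.Lib.H02.ZasB
import Cfsg.Agent.Lib.H02.Jor1
import Cfsg.Agent.Lib.H02.Klein
import Cfsg.Agent.S0058

/-!
Zassenhaus groups of odd degree are simple.
-/

set_option autoImplicit false

namespace Cfsg.Agent.H02.Zas

open Cfsg

universe u v

variable {G : Type u} {Ω : Type v} [Group G] [MulAction G Ω]

section odd

variable [Fintype Ω] (hZ : Z0 G Ω) (hodd : Odd (Fintype.card Ω))
include hZ hodd

/-- Every involution has exactly one fixed point. -/
theorem inv_unique_fix {t : G} (h1 : t ≠ 1) (h2 : t * t = 1) : ∃ c : Ω, t • c = c ∧ ∀ x : Ω, t • x = x → x = c := by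
  classical
  let g : Equiv.Perm Ω := MulAction.toPerm t
  have hg : g * g = 1 := by
    ext x
    show t • t • x = x
    rw [← mul_smul, h2, one_smul]
  have hM := Jor.even_Mv hg
  have hS := Jor.card_Fx_add g
  have hFmem : ∀ x, x ∈ Jor.Fx g ↔ t • x = x := fun x => Jor.mem_Fx
  have hodd' : Odd (Jor.Fx g).card := by
    rw [← Nat.not_even_iff_odd]
    intro he
    have : Even ((Jor.Fx g).card + (Jor.Mv g).card) := he.add (even_iff_two_dvd.mpr hM)
    rw [hS] at this
    exact (Nat.not_even_iff_odd.mpr hodd) this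
  have hpos : 0 < (Jor.Fx g).card := hodd'.pos
  obtain ⟨c, hc⟩ := Finset.card_pos.mp hpos
  refine ⟨c, (hFmem c).mp hc, ?_⟩
  intro x hx
  by_contra hne
  have hle : (Jor.Fx g).card ≤ 2 := by
    by_contra hgt
    push Not at hgt
    obtain ⟨p, hp, q, hq, r, hr, hpq, hpr, hqr⟩ := Finset.two_lt_card.mp hgt
    exact h1 (hZ.fix3 t p q r hpq hqr hpr ((hFmem p).mp hp) ((hFmem q).mp hq) ((hFmem r).mp hr))
  have h3 : 1 < (Jor.Fx g).card := Finset.one_lt_card.mpr ⟨x, (hFmem x).mpr hx, c, hc, hne⟩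
  have h4 : (Jor.Fx g).card = 2 := by omega
  rw [h4] at hodd'
  exact (by decide : ¬ Odd 2) hodd'

theorem exists_involution [Finite G] : ∃ t : G, t ≠ 1 ∧ t * t = 1 := by
  obtain ⟨g₀, -, a, b, hab, -, -⟩ := hZ.nt
  obtain ⟨v, h1, h2⟩ := hZ.tr2 a b b a hab hab.symm
  have hev : ∀ k : ℕ, v ^ (2 * k) • a = a ∧ v ^ (2 * k) • b = b := by
    intro k
    induction k with
    | zero => simp
    | succ k ih =>
      have e : v ^ (2 * (k + 1)) = v ^ (2 * k) * (v * v) := by
        rw [mul_add, pow_add, mul_one, sq]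
      constructor
      · rw [e, mul_smul, mul_smul, h1, h2]
        exact ih.1
      · rw [e, mul_smul, mul_smul, h2, h1]
        exact ih.2
  have hpos : 0 < orderOf v := orderOf_pos v
  have hoe : Even (orderOf v) := by
    rw [← Nat.not_odd_iff_even]
    rintro ⟨k, hk⟩
    have h3 : v ^ (2 * k + 1) = 1 := by
      rw [← hk]
      exact pow_orderOf_eq_one v
    have h4 : v ^ (2 * k + 1) • a = b := by
      rw [pow_succ, mul_smul, h1]
      exact (hev k).2
    rw [h3, one_smul] at h4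
    exact hab h4
  obtain ⟨m, hm⟩ := hoe
  refine ⟨v ^ m, ?_, ?_⟩
  · apply pow_ne_one_of_lt_orderOf <;> omega
  · rw [← pow_add, ← hm]
    exact pow_orderOf_eq_one v

/-- A normal subgroup containing an involution contains an involution swapping any two points. -/
theorem exists_swap {N : Subgroup G} (hN : N.Normal) {t : G} (ht : t ∈ N) (h1 : t ≠ 1) (h2 : t * t = 1) {a b : Ω}
    (hab : a ≠ b) : ∃ v ∈ N, v ≠ 1 ∧ v * v = 1 ∧ v • a = b ∧ v • b = a := by
  obtain ⟨x, hx⟩ := hZ.exists_moved h1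
  obtain ⟨g, hg1, hg2⟩ := hZ.tr2 x (t • x) a b (Ne.symm hx) hab
  refine ⟨g * t * g⁻¹, hN.conj_mem _ ht g, ?_, ?_, ?_, ?_⟩
  · intro e
    apply h1
    have : t = g⁻¹ * (g * t * g⁻¹) * g := by group
    rw [this, e]
    group
  · calc g * t * g⁻¹ * (g * t * g⁻¹) = g * (t * t) * g⁻¹ := by group
      _ = 1 := by rw [h2]; group
  · rw [mul_smul, mul_smul, ← hg1, inv_smul_smul, hg2]
  · have htt : t • t • x = x := by rw [← mul_smul, h2, one_smul]
    rw [mul_smul, mul_smul, ← hg2, inv_smul_smul, htt, hg1]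

/-- All elements in the coset of two-point stabilisers of a swapping involution are conjugate to it. -/
theorem conj_coset [Finite G] {v : G} (h1 : v ≠ 1) (h2 : v * v = 1) {a b : Ω} (hab : a ≠ b) (hva : v • a = b)
    (hvb : v • b = a) {y : G} (hya : y • a = a) (hyb : y • b = b) :
    ∃ x : G, x • a = a ∧ x • b = b ∧ v * y = x * v * x⁻¹ := by
  obtain ⟨c, hc, hcu⟩ := inv_unique_fix hZ hodd h1 h2
  have hca : c ≠ a := by
    rintro rfl
    exact hab (hc.symm.trans hva)
  have hcb : c ≠ b := by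
    rintro rfl
    exact hab (hvb.symm.trans hc)
  have hvinv : v⁻¹ = v := inv_eq_of_mul_eq_one_right h2
  let H : Subgroup G := MulAction.stabilizer G a ⊓ MulAction.stabilizer G b
  have hmemH : ∀ x, x ∈ H ↔ x • a = a ∧ x • b = b := fun x => Iff.rfl
  have hvH : ∀ x ∈ H, v * x * v ∈ H := by
    intro x hx
    obtain ⟨e1, e2⟩ := (hmemH x).mp hx
    rw [hmemH]
    constructor
    · rw [mul_smul, mul_smul, hva, e2, hvb]
    · rw [mul_smul, mul_smul, hvb, e1, hva]
  let f : H → H := fun x => ⟨v * x.1 * v * x.1⁻¹, H.mul_mem (hvH x.1 x.2) (H.inv_mem x.2)⟩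
  have hf : Function.Injective f := by
    intro x₁ x₂ h12
    have h3 : v * x₁.1 * v * x₁.1⁻¹ = v * x₂.1 * v * x₂.1⁻¹ := congrArg Subtype.val h12
    have h4 : x₁.1 * v * x₁.1⁻¹ = x₂.1 * v * x₂.1⁻¹ := by
      have : v * (v * x₁.1 * v * x₁.1⁻¹) = v * (v * x₂.1 * v * x₂.1⁻¹) := by rw [h3]
      simpa [← mul_assoc, h2] using this
    set d := x₂.1⁻¹ * x₁.1 with hd
    have hdH : d ∈ H := H.mul_mem (H.inv_mem x₂.2) x₁.2
    have hcomm : d * v = v * d := by
      calc d * v = x₂.1⁻¹ * (x₁.1 * v * x₁.1⁻¹) * x₁.1 := by rw [hd]; group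
        _ = x₂.1⁻¹ * (x₂.1 * v * x₂.1⁻¹) * x₁.1 := by rw [h4]
        _ = v * d := by rw [hd]; group
    have hfix : v • (d • c) = d • c := by
      rw [← mul_smul, ← hcomm, mul_smul, hc]
    have hdc : d • c = c := hcu _ hfix
    obtain ⟨e1, e2⟩ := (hmemH d).mp hdH
    have hd1 : d = 1 := hZ.fix3 d a b c hab hcb.symm hca.symm e1 e2 hdc
    apply Subtype.ext
    have : x₂.1⁻¹ * x₁.1 = 1 := hd1
    exact (inv_mul_eq_one.mp this).symm
  have hs := Finite.injective_iff_surjective.mp hf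
  obtain ⟨x, hx⟩ := hs ⟨y, (hmemH y).mpr ⟨hya, hyb⟩⟩
  have h5 : v * x.1 * v * x.1⁻¹ = y := congrArg Subtype.val hx
  obtain ⟨e1, e2⟩ := (hmemH x.1).mp x.2
  refine ⟨x.1, e1, e2, ?_⟩
  rw [← h5]
  calc v * (v * x.1 * v * x.1⁻¹) = (v * v) * x.1 * v * x.1⁻¹ := by group
    _ = x.1 * v * x.1⁻¹ := by rw [h2, one_mul]

/-- A normal subgroup containing an involution contains all two-point stabilisers. -/
theorem H_le_of_normal [Finite G] {N : Subgroup G} (hN : N.Normal) {t : G} (ht : t ∈ N) (h1 : t ≠ 1) (h2 : t * t = 1)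
    {a b : Ω} (hab : a ≠ b) {y : G} (hya : y • a = a) (hyb : y • b = b) : y ∈ N := by
  obtain ⟨v, hvN, hv1, hv2, hva, hvb⟩ := exists_swap hZ hodd hN ht h1 h2 hab
  obtain ⟨x, -, -, hx⟩ := conj_coset hZ hodd hv1 hv2 hab hva hvb hya hyb
  have h3 : v * y ∈ N := by
    rw [hx]
    exact hN.conj_mem v hvN x
  have h4 : y = v⁻¹ * (v * y) := by group
  rw [h4]
  exact N.mul_mem (N.inv_mem hvN) h3

theorem eq_top_of_invol [Finite G] {N : Subgroup G} (hN : N.Normal) {t : G} (ht : t ∈ N) (h1 : t ≠ 1) (h2 : t * t = 1) :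
    N = ⊤ := by
  have hne : N ≠ ⊥ := by
    rintro rfl
    exact h1 (Subgroup.mem_bot.mp ht)
  rw [eq_top_iff]
  intro g _
  obtain ⟨a⟩ : Nonempty Ω := by
    obtain ⟨x, -⟩ := hZ.exists_moved h1
    exact ⟨x⟩
  obtain ⟨n, hn, hna⟩ := hZ.normal_transitive hN hne a (g • a)
  -- the stabiliser of `a` lies in `N`
  obtain ⟨K, hK1, hK2, hK3, hK4⟩ := hZ.exists_kernel a
  obtain ⟨b, hb⟩ := hZ.exists_ne a
  obtain ⟨w, hw, hwa, hwb⟩ := hZ.exists_fix (Ne.symm hb)
  have hwN : w ∈ N := H_le_of_normal hZ hodd hN ht h1 h2 (Ne.symm hb) hwa hwb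
  have hKN : K ≤ N := hZ.kernel_le hb hK1 hK2 hK3 (fun g _ m hm => hN.conj_mem m hm g) hw hwN hwa hwb
  have hstab : ∀ s : G, s • a = a → s ∈ N := by
    intro s hs
    have hsb : s • b ≠ a := by
      intro e
      apply hb
      exact smul_left_cancel s (e.trans hs.symm)
    obtain ⟨k, hk, hkb⟩ := hK4 b (s • b) hb hsb
    have hka : k • a = a := hK1 hk
    have h3 : k⁻¹ * s ∈ N := by
      apply H_le_of_normal hZ hodd hN ht h1 h2 (Ne.symm hb)
      · rw [mul_smul, hs, inv_smul_eq_iff, hka]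
      · rw [mul_smul, ← hkb, inv_smul_smul]
    have h4 : s = k * (k⁻¹ * s) := by group
    rw [h4]
    exact N.mul_mem (hKN hk) h3
  have h5 : n⁻¹ * g ∈ N := hstab _ (by rw [mul_smul, inv_smul_eq_iff, hna])
  have h6 : g = n * (n⁻¹ * g) := by group
  rw [h6]
  exact N.mul_mem hn h5

/-- The centraliser of an involution is transitive on the points other than its fixed point. -/
theorem centralizer_trans [Finite G] {t : G} (h1 : t ≠ 1) (h2 : t * t = 1) {a : Ω} (hta : t • a = a) {x y : Ω}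
    (hxa : x ≠ a) (hya : y ≠ a) : ∃ g : G, g * t = t * g ∧ g • x = y := by
  obtain ⟨c, hc, hcu⟩ := inv_unique_fix hZ hodd h1 h2
  have hac : a = c := hcu a hta
  subst hac
  have htm : ∀ z, z ≠ a → t • z ≠ z := fun z hz e => hz (hcu z e)
  have hxx : x ≠ t • x := fun e => htm x hxa e.symm
  have hyy : y ≠ t • y := fun e => htm y hya e.symm
  have htt : ∀ z : Ω, t • t • z = z := fun z => by rw [← mul_smul, h2, one_smul]
  obtain ⟨g₀, h3, h4⟩ := hZ.tr2 x (t • x) y (t • y) hxx hyy
  set v := g₀ * t * g₀⁻¹ with hv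
  have hv1 : v ≠ 1 := by
    intro e
    apply h1
    have : t = g₀⁻¹ * v * g₀ := by rw [hv]; group
    rw [this, e]
    group
  have hv2 : v * v = 1 := by
    calc v * v = g₀ * (t * t) * g₀⁻¹ := by rw [hv]; group
      _ = 1 := by rw [h2]; group
  have hvy : v • y = t • y := by
    have e : g₀⁻¹ • y = x := by rw [← h3, inv_smul_smul]
    rw [hv, mul_smul, mul_smul, e, h4]
  have hvy' : v • (t • y) = y := by
    have e : g₀⁻¹ • (t • y) = t • x := by rw [← h4, inv_smul_smul]
    rw [hv, mul_smul, mul_smul, e, htt, h3]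
  -- `t` lies in the coset of `v`
  have hya1 : (v⁻¹ * t) • y = y := by
    rw [mul_smul, inv_smul_eq_iff, hvy]
  have hya2 : (v⁻¹ * t) • (t • y) = t • y := by
    rw [mul_smul, inv_smul_eq_iff, htt, hvy']
  obtain ⟨w, hw1, -, hw⟩ := conj_coset hZ hodd hv1 hv2 hyy hvy hvy' hya1 hya2
  have ht' : t = w * v * w⁻¹ := by
    rw [← hw]
    group
  refine ⟨w * g₀, ?_, ?_⟩
  · calc w * g₀ * t = (w * (g₀ * t * g₀⁻¹) * w⁻¹) * (w * g₀) := by group
      _ = t * (w * g₀) := by rw [← hv, ← ht']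
  · rw [mul_smul, h3, hw1]

/-- Two distinct commuting involutions with a common fixed point. -/
theorem exists_commuting [Finite G] : ∃ (a : Ω) (t t' : G), t ≠ 1 ∧ t * t = 1 ∧ t' ≠ 1 ∧ t' * t' = 1 ∧ t • a = a ∧ t' • a = a ∧
    t ≠ t' ∧ t * t' = t' * t := by
  obtain ⟨t, h1, h2⟩ := exists_involution hZ hodd
  obtain ⟨a, hta, hau⟩ := inv_unique_fix hZ hodd h1 h2
  obtain ⟨b, hb⟩ := hZ.exists_ne a
  obtain ⟨w, hw, hwa, hwb⟩ := hZ.exists_fix (Ne.symm hb)
  have hm : ∀ z, z ≠ a → t • z ≠ z := fun z hz e => hz (hau z e)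
  set t' := w * t * w⁻¹ with ht'
  have h1' : t' ≠ 1 := by
    intro e
    apply h1
    have : t = w⁻¹ * t' * w := by rw [ht']; group
    rw [this, e]
    group
  have h2' : t' * t' = 1 := by
    calc t' * t' = w * (t * t) * w⁻¹ := by rw [ht']; group
      _ = 1 := by rw [h2]; group
  have hta' : t' • a = a := by
    have e : w⁻¹ • a = a := by rw [inv_smul_eq_iff, hwa]
    rw [ht', mul_smul, mul_smul, e, hta, hwa]
  have hne : t ≠ t' := by
    intro e
    -- `w` commutes with `t`
    have hcomm : w * t = t * w := by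
      calc w * t = t' * w := by rw [ht']; group
        _ = t * w := by rw [← e]
    have hfix : w • (t • b) = t • b := by
      rw [← mul_smul, hcomm, mul_smul, hwb]
    have h3 : t • b ≠ a := by
      intro e2
      apply hb
      exact smul_left_cancel t (e2.trans hta.symm)
    exact hw (hZ.fix3 w a b (t • b) (Ne.symm hb) (Ne.symm (hm b hb)) (Ne.symm h3) hwa hwb hfix)
  refine ⟨a, t, t', h1, h2, h1', h2', hta, hta', hne, ?_⟩
  -- the kernel at `a` is the centraliser of `t`
  obtain ⟨K, hK1, hK2, hK3, hK4⟩ := hZ.exists_kernel a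
  have hCK : ∀ g : G, g * t = t * g → g ∈ K := by
    intro g hg
    have hga : g • a = a := by
      apply hau
      rw [← mul_smul, ← hg, mul_smul, hta]
    rw [hK3]
    refine ⟨hga, ?_⟩
    by_cases hg1 : g = 1
    · exact Or.inl hg1
    right
    intro y hy hgy
    apply hg1
    have hfix : g • (t • y) = t • y := by
      rw [← mul_smul, hg, mul_smul, hgy]
    have h3 : t • y ≠ a := by
      intro e2
      apply hy
      exact smul_left_cancel t (e2.trans hta.symm)
    exact hZ.fix3 g a y (t • y) (Ne.symm hy) (Ne.symm (hm y hy)) (Ne.symm h3) hga hgy hfix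
  have hKC : ∀ k ∈ K, k * t = t * k := by
    intro k hk
    have hkb : k • b ≠ a := by
      intro e
      apply hb
      have hka : k • a = a := hK1 hk
      exact smul_left_cancel k (e.trans hka.symm)
    obtain ⟨g, hg, hgb⟩ := centralizer_trans hZ hodd h1 h2 hta hb hkb
    have hgK := hCK g hg
    have h3 : g⁻¹ * k ∈ K := K.mul_mem (K.inv_mem hgK) hk
    have h4 : g⁻¹ * k = 1 := by
      rcases ((hK3 _).mp h3).2 with h | h
      · exact h
      · exact absurd (by rw [mul_smul, inv_smul_eq_iff, hgb]) (h b hb)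
    have h5 : k = g := by
      rw [inv_mul_eq_one] at h4
      exact h4.symm
    rw [h5]
    exact hg
  -- `t'` lies in the kernel
  have ht'K : t' ∈ K := by
    rw [hK3]
    refine ⟨hta', Or.inr ?_⟩
    intro y hy e
    obtain ⟨c, hc, hcu⟩ := inv_unique_fix hZ hodd h1' h2'
    exact hy ((hcu y e).trans (hcu a hta').symm)
  exact (hKC t' ht'K).symm

/-- A nontrivial normal subgroup has even order. -/
theorem exists_invol_in_normal [Finite G] {N : Subgroup G} (hN : N.Normal) (hne : N ≠ ⊥) :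
    ∃ t ∈ N, t ≠ 1 ∧ t * t = 1 := by
  by_contra hno
  push Not at hno
  have hodd' : Nat.Coprime 4 (Nat.card N) := by
    have h2 : ¬ 2 ∣ Nat.card N := by
      intro h
      haveI : Fact (Nat.Prime 2) := ⟨Nat.prime_two⟩
      obtain ⟨x, hx⟩ := exists_prime_orderOf_dvd_card' 2 h
      have h3 : x.1 ≠ 1 := by
        intro e
        have : x = 1 := Subtype.ext e
        rw [this, orderOf_one] at hx
        exact absurd hx (by norm_num)
      have h4 : x.1 * x.1 = 1 := by
        have : x ^ 2 = 1 := by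
          rw [← hx]
          exact pow_orderOf_eq_one x
        rw [← sq]
        exact congrArg Subtype.val this
      exact hno x.1 x.2 h3 h4
    have : (4 : ℕ) = 2 ^ 2 := by norm_num
    rw [this]
    exact Nat.Coprime.pow_left 2 ((Nat.Prime.coprime_iff_not_dvd Nat.prime_two).mpr h2)
  obtain ⟨a, t, t', h1, h2, h1', h2', hta, hta', hne', hcomm⟩ := exists_commuting hZ hodd
  have hs1 : t ^ 2 = 1 := by rw [sq, h2]
  have hs2 : t' ^ 2 = 1 := by rw [sq, h2']
  let E : Subgroup G := kleinOf t t' hs1 hs2 hcomm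
  have hE : IsKleinFour E := isKleinFour_kleinOf t t' hs1 hs2 hcomm h1 h1' hne'
  haveI hEc : IsMulCommutative E := hE.isMulCommutative
  have hcyc : ¬ IsCyclic E := IsKleinFour.not_isCyclic
  have hAK : E ≤ Subgroup.normalizer (N : Set G) := by
    intro e _
    rw [Subgroup.mem_normalizer_iff]
    intro h
    constructor
    · intro hh
      exact hN.conj_mem h hh e
    · intro hh
      have := hN.conj_mem _ hh e⁻¹
      simpa [mul_assoc] using this
  have hcop : (Nat.card E).Coprime (Nat.card N) := by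
    rw [hE.card_four]
    exact hodd'
  have key := Cfsg.Agent.S0058.result E N hcyc hAK hcop
  have hle : N ≤ MulAction.stabilizer G a := by
    rw [← key]
    apply iSup₂_le
    rintro e ⟨heE, he1⟩ n ⟨hnN, hnC⟩
    -- `e` is an involution fixing `a`
    have hse : e * e = 1 := by
      rw [← sq]
      exact kleinOf_sq heE
    have hea : e • a = a := by
      rcases mem_kleinOf.mp heE with rfl | rfl | rfl | rfl
      · exact one_smul _ _
      · exact hta
      · exact hta'
      · rw [mul_smul, hta', hta]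
    obtain ⟨c, hc, hcu⟩ := inv_unique_fix hZ hodd he1 hse
    have hac := hcu a hea
    have hcomm2 : n * e = e * n := by
      have := Subgroup.mem_centralizer_iff.mp hnC e (by simp)
      exact this.symm
    have hfix : e • (n • a) = n • a := by
      rw [← mul_smul, ← hcomm2, mul_smul, hea]
    exact (hcu _ hfix).trans hac.symm
  obtain ⟨b, hb⟩ := hZ.exists_ne a
  obtain ⟨n, hn, hna⟩ := hZ.normal_transitive hN hne a b
  exact hb (hna.symm.trans (hle hn))

theorem isSimple_of_odd [Finite G] : IsSimpleGroup G := by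
  haveI : Nontrivial G := by
    obtain ⟨g, hg, -⟩ := hZ.nt
    exact ⟨⟨g, 1, hg⟩⟩
  refine ⟨?_⟩
  intro N hN
  by_cases hne : N = ⊥
  · exact Or.inl hne
  · obtain ⟨t, ht, h1, h2⟩ := exists_invol_in_normal hZ hodd hN hne
    exact Or.inr (eq_top_of_invol hZ hodd hN ht h1 h2)

end odd

theorem finite_of_faith (hZ : Z0 G Ω) [Finite Ω] : Finite G := by
  apply Finite.of_injective (fun g : G => (MulAction.toPerm g : Equiv.Perm Ω))
  intro g h hgh
  have h1 : h⁻¹ * g = 1 := by
    apply hZ.faith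
    intro x
    have : g • x = h • x := congrArg (fun f : Equiv.Perm Ω => f x) hgh
    rw [mul_smul, this, inv_smul_smul]
  exact (inv_mul_eq_one.mp h1).symm

end Cfsg.Agent.H02.Zas
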