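import Cfsg.Agent.Lib.H02.ZasB

/-!
Regular normal subgroups of doubly transitive groups; normal subgroups of Zassenhaus groups.
-/

set_option autoImplicit false

namespace Cfsg.Agent.H02.Zas

open Cfsg

universe u v

variable {G : Type u} {Ω : Type v} [Group G] [MulAction G Ω]

/-- Regular subgroups normalised by a doubly transitive subgroup. -/
structure RegIn (N R : Subgroup G) (Ω : Type v) [MulAction G Ω] : Prop where
  conj : ∀ n ∈ N, ∀ r ∈ R, n * r * n⁻¹ ∈ R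
  tr : ∀ x y : Ω, ∃ r ∈ R, r • x = y
  free : ∀ r ∈ R, ∀ x : Ω, r • x = x → r = 1

section

variable {N R : Subgroup G} (hN : ∀ a b a' b' : Ω, a ≠ b → a' ≠ b' → ∃ n ∈ N, n • a = a' ∧ n • b = b')
  (hR : RegIn N R Ω)

include hN hR

theorem reg_conj [Nonempty Ω] {r₁ r₂ : G} (h1 : r₁ ∈ R) (h2 : r₂ ∈ R) (n1 : r₁ ≠ 1) (n2 : r₂ ≠ 1) :
    ∃ n ∈ N, n * r₁ * n⁻¹ = r₂ := by
  obtain ⟨a⟩ := ‹Nonempty Ω›
  have m1 : a ≠ r₁ • a := fun e => n1 (hR.free r₁ h1 a e.symm)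
  have m2 : a ≠ r₂ • a := fun e => n2 (hR.free r₂ h2 a e.symm)
  obtain ⟨n, hn, e1, e2⟩ := hN a (r₁ • a) a (r₂ • a) m1 m2
  refine ⟨n, hn, ?_⟩
  have h3 : r₂⁻¹ * (n * r₁ * n⁻¹) = 1 := by
    apply hR.free _ (R.mul_mem (R.inv_mem h2) (hR.conj n hn r₁ h1)) a
    have e3 : n⁻¹ • a = a := by rw [inv_smul_eq_iff, e1]
    rw [mul_smul, mul_smul, mul_smul, e3, e2, inv_smul_smul]
  exact (inv_mul_eq_one.mp h3).symm

theorem reg_comm [Finite G] [Nonempty Ω] {r s : G} (hr : r ∈ R) (hs : s ∈ R) : r * s = s * r := by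
  by_cases hex : ∃ z ∈ R, z ≠ 1
  swap
  · push Not at hex
    rw [hex r hr, hex s hs]
  obtain ⟨z, hzR, hz1⟩ := hex
  -- an element of prime order
  have hoz : orderOf z ≠ 1 := fun e => hz1 (orderOf_eq_one_iff.mp e)
  obtain ⟨p, hp, hpd⟩ := Nat.exists_prime_and_dvd hoz
  haveI : Fact p.Prime := ⟨hp⟩
  obtain ⟨z', hz'⟩ : ∃ z', z' ∈ R ∧ orderOf z' = p := by
    refine ⟨z ^ (orderOf z / p), R.pow_mem hzR _, ?_⟩
    exact orderOf_pow_orderOf_div (orderOf_pos z).ne' hpd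
  obtain ⟨hz'R, hz'o⟩ := hz'
  have hz'1 : z' ≠ 1 := by
    rintro rfl
    rw [orderOf_one] at hz'o
    exact hp.one_lt.ne hz'o
  have hall : ∀ x ∈ R, x ^ p = 1 := by
    intro x hx
    by_cases hx1 : x = 1
    · rw [hx1, one_pow]
    obtain ⟨n, hn, e⟩ := reg_conj hN hR hz'R hx hz'1 hx1
    have : z' ^ p = 1 := by
      rw [← hz'o]
      exact pow_orderOf_eq_one z'
    rw [← e, conj_pow, this]
    group
  have hpg : IsPGroup p R := by
    intro x
    refine ⟨1, ?_⟩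
    apply Subtype.ext
    simpa using hall x.1 x.2
  haveI : Nontrivial R := ⟨⟨⟨z', hz'R⟩, 1, fun e => hz'1 (congrArg Subtype.val e)⟩⟩
  have hcn := hpg.center_nontrivial
  obtain ⟨c, hc⟩ := exists_ne (1 : Subgroup.center R)
  have hc1 : c.1.1 ≠ 1 := fun e => hc (Subtype.ext (Subtype.ext e))
  have hcc : ∀ t ∈ R, c.1.1 * t = t * c.1.1 := by
    intro t ht
    have := (Subgroup.mem_center_iff.mp c.2) ⟨t, ht⟩
    exact (congrArg Subtype.val this).symm
  by_cases hr1 : r = 1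
  · rw [hr1]
    group
  obtain ⟨n, hn, e⟩ := reg_conj hN hR c.1.2 hr hc1 hr1
  have hs' : n⁻¹ * s * n ∈ R := by
    have := hR.conj n⁻¹ (N.inv_mem hn) s hs
    simpa using this
  have := hcc _ hs'
  rw [← e]
  calc n * c.1.1 * n⁻¹ * s = n * (c.1.1 * (n⁻¹ * s * n)) * n⁻¹ := by group
    _ = n * ((n⁻¹ * s * n) * c.1.1) * n⁻¹ := by rw [this]
    _ = _ := by group

/-- Regular subgroups normalised by `N` inside `N` are unique. -/
theorem reg_le [Finite G] [Nonempty Ω] (hfaith : ∀ g : G, (∀ x : Ω, g • x = x) → g = 1) (hRN : R ≤ N) {R' : Subgroup G}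
    (hR'N : R' ≤ N) (hR' : RegIn N R' Ω) : R' ≤ R := by
  classical
  obtain ⟨a⟩ := ‹Nonempty Ω›
  intro r' hr'
  obtain ⟨r, hr, hra⟩ := hR.tr a (r' • a)
  by_cases hint : ∃ x, x ∈ R ∧ x ∈ R' ∧ x ≠ 1
  · -- `R ≤ R'`
    obtain ⟨x, hxR, hxR', hx1⟩ := hint
    have hle : R ≤ R' := by
      intro s hs
      by_cases hs1 : s = 1
      · rw [hs1]
        exact R'.one_mem
      obtain ⟨n, hn, e⟩ := reg_conj hN hR hxR hs hx1 hs1
      rw [← e]
      exact hR'.conj n hn x hxR'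
    have h1 : r⁻¹ * r' = 1 := by
      apply hR'.free _ (R'.mul_mem (R'.inv_mem (hle hr)) hr') a
      rw [mul_smul, inv_smul_eq_iff, hra]
    exact (inv_mul_eq_one.mp h1) ▸ hr
  · push Not at hint
    -- `r'` commutes with `R`
    have hcomm : ∀ s ∈ R, s * r' = r' * s := by
      intro s hs
      have h1 : s * r' * s⁻¹ * r'⁻¹ ∈ R' := R'.mul_mem (hR'.conj s (hRN hs) r' hr') (R'.inv_mem hr')
      have h2 : s * r' * s⁻¹ * r'⁻¹ ∈ R := by
        have h3 := hR.conj r' (hR'N hr') s⁻¹ (R.inv_mem hs)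
        have h4 : s * r' * s⁻¹ * r'⁻¹ = s * (r' * s⁻¹ * r'⁻¹) := by group
        rw [h4]
        exact R.mul_mem hs h3
      have h5 := hint _ h2 h1
      have h6 : s * r' * s⁻¹ = r' := by
        rwa [mul_inv_eq_one] at h5
      rwa [mul_inv_eq_iff_eq_mul] at h6
    -- `r⁻¹ r'` acts trivially
    have h1 : r⁻¹ * r' = 1 := by
      apply hfaith
      intro x
      obtain ⟨s, hs, rfl⟩ := hR.tr a x
      have e1 : (r⁻¹ * r') * s = s * (r⁻¹ * r') := by
        have e2 := reg_comm hN hR hr hs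
        have e3 := hcomm s hs
        calc (r⁻¹ * r') * s = r⁻¹ * (r' * s) := by group
          _ = r⁻¹ * (s * r') := by rw [e3]
          _ = r⁻¹ * s * r' := by group
          _ = s * r⁻¹ * r' := by
            have e4 : r⁻¹ * s = s * r⁻¹ := by
              rw [eq_mul_inv_iff_mul_eq, mul_assoc, ← e2]
              group
            rw [e4]
          _ = _ := by group
      rw [← mul_smul, e1, mul_smul, mul_smul, ← hra, inv_smul_smul]
    exact (inv_mul_eq_one.mp h1) ▸ hr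

end

theorem reg_normal_G [Finite G] [Nonempty Ω] {N R : Subgroup G} (hNn : N.Normal)
    (hN : ∀ a b a' b' : Ω, a ≠ b → a' ≠ b' → ∃ n ∈ N, n • a = a' ∧ n • b = b')
    (hR : RegIn N R Ω) (hfaith : ∀ g : G, (∀ x : Ω, g • x = x) → g = 1) (hRN : R ≤ N) : R.Normal := by
  refine ⟨fun r hr g => ?_⟩
  let R' : Subgroup G := R.map (MulAut.conj g).toMonoidHom
  have hmem : ∀ x, x ∈ R' ↔ g⁻¹ * x * g ∈ R := by
    intro x
    constructor
    · rintro ⟨u, hu, rfl⟩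
      show g⁻¹ * (g * u * g⁻¹) * g ∈ R
      simpa [mul_assoc] using hu
    · intro h
      refine ⟨_, h, ?_⟩
      show g * (g⁻¹ * x * g) * g⁻¹ = x
      group
  have hR'N : R' ≤ N := by
    rintro _ ⟨u, hu, rfl⟩
    exact hNn.conj_mem u (hRN hu) g
  have hR' : RegIn N R' Ω := by
    refine ⟨?_, ?_, ?_⟩
    · intro n hn u hu
      rw [hmem] at hu ⊢
      have h1 : g⁻¹ * n * g ∈ N := by
        have := hNn.conj_mem n hn g⁻¹
        simpa using this
      have h2 := hR.conj _ h1 _ hu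
      have e : g⁻¹ * (n * u * n⁻¹) * g = g⁻¹ * n * g * (g⁻¹ * u * g) * (g⁻¹ * n * g)⁻¹ := by group
      rw [e]
      exact h2
    · intro x y
      obtain ⟨u, hu, e⟩ := hR.tr (g⁻¹ • x) (g⁻¹ • y)
      refine ⟨g * u * g⁻¹, ⟨u, hu, rfl⟩, ?_⟩
      rw [mul_smul, mul_smul, e, smul_inv_smul]
    · rintro u ⟨w, hw, rfl⟩ x hx
      have hx' : (g * w * g⁻¹) • x = x := hx
      have h1 : w • (g⁻¹ • x) = g⁻¹ • x := by
        rw [mul_smul, mul_smul] at hx'
        exact (inv_smul_eq_iff.mpr hx'.symm).symm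
      have := hR.free w hw _ h1
      show g * w * g⁻¹ = 1
      rw [this]
      group
  exact reg_le hN hR hfaith hRN hR'N hR' ⟨r, hr, rfl⟩

end Cfsg.Agent.H02.Zas
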