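import Cfsg.Agent.Lib.H02.ZasC
import Cfsg.Agent.Lib.H02.ZasD

/-!
Non-trivial normal subgroups of Zassenhaus groups are Zassenhaus groups.
-/

set_option autoImplicit false

namespace Cfsg.Agent.H02.Zas

open Cfsg

universe u v

variable {G : Type u} {Ω : Type v} [Group G] [MulAction G Ω]

theorem normal_exists_fix [Finite G] (hZ : IsZassenhausGroup G Ω) (N : Subgroup G) (hNn : N.Normal) (hN : N ≠ ⊥) :
    ∃ w ∈ N, w ≠ 1 ∧ ∃ a b : Ω, a ≠ b ∧ w • a = a ∧ w • b = b := by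
  have Z := Z0.of_isZ hZ
  obtain ⟨-, -, -, -, hcl⟩ := hZ
  by_contra hcon
  push Not at hcon
  have hpre : ∀ (M : Subgroup G), M.Normal → M ≠ ⊥ → MulAction.IsPretransitive M Ω := by
    intro M hM hM1
    refine ⟨fun x y => ?_⟩
    obtain ⟨n, hn, e⟩ := Z.normal_transitive hM hM1 x y
    exact ⟨⟨n, hn⟩, e⟩
  obtain ⟨a₀, -, -, -, -⟩ := Z.nt.choose_spec.2
  obtain ⟨K, h1, h2, h3, h4⟩ := exists_frob_kernel N (Set.univ : Set Ω)
    (fun _ _ _ _ => Set.mem_univ _)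
    (fun y _ y' _ => Z.normal_transitive hNn hN y y')
    (fun g hg y _ y' _ hyy e1 e2 => by
      by_contra hg1
      exact hcon g hg hg1 y y' hyy e1 e2)
    (by
      obtain ⟨y, y', -, -, h⟩ := Z.exists_two_ne a₀
      exact ⟨y, Set.mem_univ _, y', Set.mem_univ _, h⟩)
    (by
      haveI := hpre N hNn hN
      obtain ⟨a, ha⟩ := hcl N hNn (hpre N hNn hN)
      obtain ⟨n, hn⟩ := Subgroup.ne_bot_iff_exists_ne_one.mp ha
      refine ⟨n.1.1, n.1.2, fun e => hn (Subtype.ext (Subtype.ext e)), a, Set.mem_univ _, n.2⟩)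
  have hK3 : ∀ x, x ∈ K ↔ x ∈ N ∧ (x = 1 ∨ ∀ y : Ω, x • y ≠ y) := by
    intro x
    rw [h3 x]
    simp
  have hKn : K.Normal := by
    refine ⟨fun k hk g => ?_⟩
    rw [hK3] at hk ⊢
    refine ⟨hNn.conj_mem k hk.1 g, ?_⟩
    rcases hk.2 with h | h
    · left
      rw [h]
      group
    · right
      intro y e
      apply h (g⁻¹ • y)
      rw [mul_smul, mul_smul] at e
      exact (inv_smul_eq_iff.mpr e.symm).symm
  have hK0 : K ≠ ⊥ := by
    obtain ⟨y, y', -, -, hyy⟩ := Z.exists_two_ne a₀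
    obtain ⟨k, hk, e⟩ := h4 y (Set.mem_univ _) y' (Set.mem_univ _)
    intro hb
    rw [hb, Subgroup.mem_bot] at hk
    rw [hk, one_smul] at e
    exact hyy e
  obtain ⟨a, ha⟩ := hcl K hKn (hpre K hKn hK0)
  obtain ⟨n, hn⟩ := Subgroup.ne_bot_iff_exists_ne_one.mp ha
  have hk : n.1.1 ∈ K := n.1.2
  rw [hK3] at hk
  rcases hk.2 with h | h
  · exact hn (Subtype.ext (Subtype.ext h))
  · exact h a n.2

theorem normal_tr2 [Finite G] (hZ : IsZassenhausGroup G Ω) (N : Subgroup G) (hNn : N.Normal) (hN : N ≠ ⊥) :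
    ∀ a b a' b' : Ω, a ≠ b → a' ≠ b' → ∃ n ∈ N, n • a = a' ∧ n • b = b' := by
  have Z := Z0.of_isZ hZ
  obtain ⟨w₀, hw₀, hw₀1, a₀, b₀, h0, e0, e0'⟩ := normal_exists_fix hZ N hNn hN
  intro a b a' b' hab hab'
  obtain ⟨n₁, hn₁, e1⟩ := Z.normal_transitive hNn hN a a'
  obtain ⟨K, h1, h2, h3, h4⟩ := Z.exists_kernel a'
  obtain ⟨y, hy⟩ := Z.exists_ne a'
  obtain ⟨g, eg1, eg2⟩ := Z.tr2 a₀ b₀ a' y h0 (Ne.symm hy)
  have hKN : K ≤ N := by
    refine Z.kernel_le hy h1 h2 h3 (fun g _ n hn => hNn.conj_mem n hn g) (w := g * w₀ * g⁻¹) ?_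
      (hNn.conj_mem w₀ hw₀ g) ?_ ?_
    · intro e
      apply hw₀1
      have : g⁻¹ * (g * w₀ * g⁻¹) * g = g⁻¹ * 1 * g := by rw [e]
      simpa [mul_assoc] using this
    · rw [mul_smul, mul_smul, ← eg1, inv_smul_smul, e0]
    · rw [mul_smul, mul_smul, ← eg2, inv_smul_smul, e0']
  have hne : n₁ • b ≠ a' := by
    intro e
    apply hab
    rw [← e1] at e
    exact (smul_left_cancel n₁ e).symm
  obtain ⟨k, hk, e2⟩ := h4 (n₁ • b) b' hne (Ne.symm hab')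
  refine ⟨k * n₁, N.mul_mem (hKN hk) hn₁, ?_, ?_⟩
  · rw [mul_smul, e1]
    exact h1 hk
  · rw [mul_smul, e2]

theorem normal_zas [Finite Ω] (hZ : IsZassenhausGroup G Ω) (N : Subgroup G) (hNn : N.Normal) (hN : N ≠ ⊥) :
    IsZassenhausGroup N Ω := by
  have Z := Z0.of_isZ hZ
  haveI : Finite G := finite_of_faith Z
  have htr2 := normal_tr2 hZ N hNn hN
  obtain ⟨w, hw, hw1, a, b, hab, ea, eb⟩ := normal_exists_fix hZ N hNn hN
  haveI : Nonempty Ω := ⟨a⟩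
  have hcl := hZ.2.2.2.2
  refine ⟨⟨fun {g h} e => ?_⟩, pretrans_of_tr2 ?_, ?_, ?_, ?_⟩
  · apply Subtype.ext
    have h1 : h.1⁻¹ * g.1 = 1 := by
      apply Z.faith
      intro x
      have : g.1 • x = h.1 • x := e x
      rw [mul_smul, this, inv_smul_smul]
    exact (inv_mul_eq_one.mp h1).symm
  · intro a b a' b' h1 h2
    obtain ⟨n, hn, e1, e2⟩ := htr2 a b a' b' h1 h2
    exact ⟨⟨n, hn⟩, e1, e2⟩
  · intro g a b c h1 h2 h3 e1 e2 e3
    apply Subtype.ext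
    exact Z.fix3 g.1 a b c h1 h2 h3 e1 e2 e3
  · exact ⟨⟨w, hw⟩, fun e => hw1 (congrArg Subtype.val e), a, b, hab, ea, eb⟩
  · intro N' hN' hpre
    by_contra hcon
    push Not at hcon
    let R : Subgroup G := N'.map N.subtype
    have hRmem : ∀ x, x ∈ R ↔ ∃ h : x ∈ N, (⟨x, h⟩ : N) ∈ N' := by
      intro x
      constructor
      · rintro ⟨u, hu, rfl⟩
        exact ⟨u.2, hu⟩
      · rintro ⟨h, hh⟩
        exact ⟨_, hh, rfl⟩
    have hRN : R ≤ N := fun x hx => ((hRmem x).mp hx).1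
    have hreg : RegIn N R Ω := by
      refine ⟨?_, ?_, ?_⟩
      · intro n hn r hr
        obtain ⟨hrN, hr'⟩ := (hRmem r).mp hr
        rw [hRmem]
        refine ⟨N.mul_mem (N.mul_mem hn hrN) (N.inv_mem hn), ?_⟩
        exact hN'.conj_mem _ hr' ⟨n, hn⟩
      · intro x y
        obtain ⟨g, hg⟩ := hpre.exists_smul_eq x y
        exact ⟨g.1.1, (hRmem _).mpr ⟨g.1.2, g.2⟩, hg⟩
      · intro r hr x e
        obtain ⟨hrN, hr'⟩ := (hRmem r).mp hr
        have : (⟨⟨r, hrN⟩, hr'⟩ : N') ∈ MulAction.stabilizer N' x := e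
        rw [hcon x, Subgroup.mem_bot] at this
        exact congrArg (fun z : N' => (z.1.1 : G)) this
    have hRn : R.Normal := reg_normal_G hNn htr2 hreg Z.faith hRN
    have hRt : MulAction.IsPretransitive R Ω := by
      refine ⟨fun x y => ?_⟩
      obtain ⟨r, hr, e⟩ := hreg.tr x y
      exact ⟨⟨r, hr⟩, e⟩
    obtain ⟨c, hc⟩ := hcl R hRn hRt
    obtain ⟨n, hn⟩ := Subgroup.ne_bot_iff_exists_ne_one.mp hc
    exact hn (Subtype.ext (Subtype.ext (hreg.free _ n.1.2 c n.2)))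

end Cfsg.Agent.H02.Zas
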