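import Cfsg.Agent.Lib.H02.ZasE
import Cfsg.Agent.Lib.H06.CNSolv
import Cfsg.Agent.Lib.H16.EndField

/-!
Doubly transitive groups with a regular normal subgroup and no element fixing three points: the degree
is `2 ^ p` with `p` prime.
-/

set_option autoImplicit false

namespace Cfsg.Agent.H02.Zas

open Cfsg

universe u v

/-- A `Z`-group with a fixed-point-free automorphism is cyclic. -/
theorem isCyclic_of_fpf_aut {E : Type u} [Group E] [Finite E] [IsZGroup E] (α : E ≃* E)
    (hα : ∀ k, α k = k → k = 1) : IsCyclic E := by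
  classical
  haveI hcyc : IsCyclic (commutator E) := IsZGroup.isCyclic_commutator E
  obtain ⟨c, hc⟩ := IsCyclic.exists_generator (α := commutator E)
  have hchar : ∀ x ∈ commutator E, α x ∈ commutator E := by
    intro x hx
    have h : (commutator E).Characteristic := inferInstance
    exact (Subgroup.characteristic_iff_map_le.mp h α) ⟨x, hx, rfl⟩
  have hchar' : ∀ x ∈ commutator E, α.symm x ∈ commutator E := by
    intro x hx
    have h : (commutator E).Characteristic := inferInstance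
    exact (Subgroup.characteristic_iff_map_le.mp h α.symm) ⟨x, hx, rfl⟩
  set c0 : E := c.1 with hc0
  have hc0m : c0 ∈ commutator E := c.2
  have hz : ∀ x ∈ commutator E, ∃ n : ℤ, c0 ^ n = x := by
    intro x hx
    obtain ⟨n, hn⟩ := Subgroup.mem_zpowers_iff.mp (hc ⟨x, hx⟩)
    exact ⟨n, by simpa using congrArg Subtype.val hn⟩
  have hcn : ∀ k : E, ∃ m : ℤ, c0 ^ m = k * c0 * k⁻¹ := by
    intro k
    have hnorm : (commutator E).Normal := inferInstance
    exact hz _ (hnorm.conj_mem _ hc0m k)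
  obtain ⟨j', hj'⟩ := hz _ (hchar' c0 hc0m)
  have key : ∀ k : E, α k * c0 * (α k)⁻¹ = k * c0 * k⁻¹ := by
    intro k
    obtain ⟨m, hm⟩ := hcn k
    have e1 : α k * c0 * (α k)⁻¹ = α (k * α.symm c0 * k⁻¹) := by simp
    rw [e1, ← hj', ← conj_zpow, ← hm, ← zpow_mul, mul_comm, zpow_mul, hj', map_zpow,
      MulEquiv.apply_symm_apply]
  have hinj : Function.Injective (fun k : E => k⁻¹ * α k) := by
    intro k l hkl
    have h1 : k⁻¹ * α k = l⁻¹ * α l := hkl
    have h2 : l * k⁻¹ = α (l * k⁻¹) := by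
      rw [map_mul, map_inv]
      have h3 : α l * (α k)⁻¹ = l * (k⁻¹ * α k) * (α l)⁻¹ * (α l) * (α k)⁻¹ := by
        rw [h1]
        group
      rw [h3]
      group
    have h4 := hα _ h2.symm
    exact (mul_inv_eq_one.mp h4).symm
  have hsurj := Finite.injective_iff_surjective.mp hinj
  have hcentral : ∀ y : E, y * c0 * y⁻¹ = c0 := by
    intro y
    obtain ⟨k, hk⟩ := hsurj y
    have hk' : k⁻¹ * α k = y := hk
    rw [← hk']
    have h1 := key k
    calc k⁻¹ * α k * c0 * (k⁻¹ * α k)⁻¹ = k⁻¹ * (α k * c0 * (α k)⁻¹) * k := by group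
      _ = k⁻¹ * (k * c0 * k⁻¹) * k := by rw [h1]
      _ = c0 := by group
  have hle : commutator E ≤ Subgroup.center E := by
    intro x hx
    obtain ⟨n, rfl⟩ := hz x hx
    rw [Subgroup.mem_center_iff]
    intro y
    have h1 := hcentral y
    have h2 : y * c0 ^ n * y⁻¹ = c0 ^ n := by
      rw [← conj_zpow, h1]
    exact (mul_inv_eq_iff_eq_mul.mp h2)
  have hnil : Group.IsNilpotent E :=
    Subgroup.isNilpotent_of_ker_le_center (Abelianization.of (G := E))
      (by rw [Abelianization.ker_of]; exact hle)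
  exact H06.isCyclic_of_nilp_Z hnil

/-- The key linear algebra: a transitive automorphism of an elementary abelian `2`-group generates a field. -/
theorem conj_core {A : Type u} [Group A] [Finite A] [Nontrivial A] (hc : ∀ x y : A, x * y = y * x)
    (h2 : ∀ v : A, v * v = 1) (τ ψ : MulAut A) (k : ℕ)
    (htr : ∀ u v : A, u ≠ 1 → v ≠ 1 → ∃ m : ℕ, (τ ^ m) u = v) (hk : ψ * τ * ψ⁻¹ = τ ^ k) :
    ∃ i : ℕ, τ ^ k = τ ^ 2 ^ i := by
  classical
  letI : CommGroup A := { (inferInstance : Group A) with mul_comm := hc }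
  let fh : MulAut A →* AddMonoid.End (Additive A) :=
    { toFun := fun σ => MonoidHom.toAdditive σ.toMonoidHom
      map_one' := rfl
      map_mul' := fun _ _ => rfl }
  have hfh : ∀ (σ : MulAut A) (u : A), fh σ (Additive.ofMul u) = Additive.ofMul (σ u) := fun _ _ => rfl
  have hinj : Function.Injective fh := by
    intro σ σ' h
    ext u
    have := DFunLike.congr_fun h (Additive.ofMul u)
    rw [hfh, hfh] at this
    exact Additive.ofMul.injective this
  have hp0 : ∀ v : Additive A, 2 • v = 0 := by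
    intro v
    rw [two_nsmul]
    exact h2 (Additive.toMul v)
  have hirr : ∀ U : AddSubgroup (Additive A), (∀ u ∈ U, fh τ u ∈ U) → U = ⊥ ∨ U = ⊤ := by
    intro U hU
    rcases U.bot_or_exists_ne_zero with h | ⟨u, hu, hu0⟩
    · exact Or.inl h
    right
    rw [AddSubgroup.eq_top_iff']
    intro v
    by_cases hv : v = 0
    · rw [hv]
      exact U.zero_mem
    have hu1 : Additive.toMul u ≠ 1 := hu0
    have hv1 : Additive.toMul v ≠ 1 := hv
    obtain ⟨m, hm⟩ := htr _ _ hu1 hv1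
    have hpow : ∀ (m : ℕ), ∀ u ∈ U, (fh τ ^ m) u ∈ U := by
      intro m
      induction m with
      | zero =>
        intro u hu
        simpa using hu
      | succ n ih =>
        intro u hu
        rw [pow_succ']
        exact hU _ (ih u hu)
    have h3 := hpow m u hu
    rw [← map_pow] at h3
    have h4 : fh (τ ^ m) u = v := congrArg Additive.ofMul hm
    rwa [h4] at h3
  have h1' : fh ψ * fh ψ⁻¹ = 1 := by rw [← map_mul, mul_inv_cancel, map_one]
  have h2' : fh ψ⁻¹ * fh ψ = 1 := by rw [← map_mul, inv_mul_cancel, map_one]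
  have hk' : fh ψ * fh τ * fh ψ⁻¹ = fh τ ^ k := by
    rw [← map_mul, ← map_mul, hk, map_pow]
  obtain ⟨i, hi⟩ := H16.op_conj_pow 2 hp0 (fh τ) hirr (fh ψ) (fh ψ⁻¹) h1' h2' k hk'
  refine ⟨i, hinj ?_⟩
  rw [map_pow, map_pow]
  exact hi

/-- Fixed-point-free conjugation by `y` on powers of `τ`. -/
theorem gcd_of_fpf {X : Type u} [Group X] [Finite X] (τ y : X) (j : ℕ) (hconj : y * τ * y⁻¹ = τ ^ 2 ^ j)
    (hfix : ∀ s : ℕ, y * τ ^ s * y⁻¹ = τ ^ s → τ ^ s = 1) : Nat.gcd (orderOf τ) (2 ^ j - 1) = 1 := by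
  set M := orderOf τ with hM
  have hMpos : 0 < M := orderOf_pos τ
  set d := Nat.gcd M (2 ^ j - 1) with hd
  have hdM : d ∣ M := Nat.gcd_dvd_left _ _
  have hdj : d ∣ 2 ^ j - 1 := Nat.gcd_dvd_right _ _
  obtain ⟨s, hs⟩ := hdM
  obtain ⟨e, he⟩ := hdj
  have hdpos : 0 < d := Nat.pos_of_dvd_of_pos ⟨s, hs⟩ hMpos
  have hspos : 0 < s := by
    rcases Nat.eq_zero_or_pos s with h | h
    · rw [h, mul_zero] at hs
      omega
    · exact h
  have h2j : 2 ^ j = e * d + 1 := by
    have : 1 ≤ 2 ^ j := Nat.one_le_two_pow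
    have h3 : 2 ^ j - 1 = d * e := he
    rw [mul_comm e d]
    omega
  have h1 : y * τ ^ s * y⁻¹ = τ ^ s := by
    rw [← conj_pow, hconj, ← pow_mul, h2j]
    have : (e * d + 1) * s = e * M + s := by
      rw [hs]
      ring
    rw [this, pow_add, pow_mul']
    have hτ : τ ^ M = 1 := pow_orderOf_eq_one τ
    rw [hτ, one_pow, one_mul]
  have h2 := hfix s h1
  have h3 : M ∣ s := orderOf_dvd_of_pow_eq_one h2
  have h4 : d * s ≤ s := by
    rw [← hs]
    exact Nat.le_of_dvd hspos h3
  have : d ≤ 1 := by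
    by_contra hh
    have : 2 * s ≤ d * s := Nat.mul_le_mul_right s (by omega)
    omega
  omega

/-- The arithmetic of the final step. -/
theorem prime_of_fpf {X : Type u} [Group X] [Finite X] (τ w : X) (r i : ℕ) (hr : 2 ≤ r) (ho : orderOf τ = 2 ^ r - 1)
    (hconj : w * τ * w⁻¹ = τ ^ 2 ^ i)
    (hfix : ∀ s : ℕ, w ^ s ≠ 1 → ∀ n : ℕ, w ^ s * τ ^ n * (w ^ s)⁻¹ = τ ^ n → τ ^ n = 1) (hw : w ≠ 1) : r.Prime := by
  have hpow : ∀ s : ℕ, w ^ s * τ * (w ^ s)⁻¹ = τ ^ 2 ^ (i * s) := by
    intro s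
    induction s with
    | zero => simp
    | succ n ih =>
      have : w ^ (n + 1) * τ * (w ^ (n + 1))⁻¹ = w * (w ^ n * τ * (w ^ n)⁻¹) * w⁻¹ := by
        rw [pow_succ']
        group
      rw [this, ih, ← conj_pow, hconj, ← pow_mul, ← pow_add]
      congr 2
      ring
  have hgcd : ∀ s : ℕ, w ^ s ≠ 1 → Nat.gcd r (i * s) = 1 := by
    intro s hs
    have h1 := gcd_of_fpf τ (w ^ s) (i * s) (hpow s) (hfix s hs)
    rw [ho, Nat.pow_sub_one_gcd_pow_sub_one] at h1
    have h2 : 2 ^ Nat.gcd r (i * s) = 2 ^ 1 := by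
      have : 1 ≤ 2 ^ Nat.gcd r (i * s) := Nat.one_le_two_pow
      rw [pow_one]
      omega
    exact Nat.pow_right_injective (le_refl 2) h2
  by_contra hnp
  obtain ⟨s, t, hs, ht, hst⟩ := (Nat.not_prime_iff_exists_mul_eq hr).mp hnp
  have hs2 : 2 ≤ s := by
    by_contra hh
    have : s = 0 ∨ s = 1 := by omega
    rcases this with h | h
    · rw [h] at hst
      omega
    · rw [h, one_mul] at hst
      omega
  have ht2 : 2 ≤ t := by
    by_contra hh
    have : t = 0 ∨ t = 1 := by omega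
    rcases this with h | h
    · rw [h] at hst
      omega
    · rw [h, mul_one] at hst
      omega
  have h1 : Nat.gcd r (i * 1) = 1 := hgcd 1 (by rwa [pow_one])
  rw [mul_one] at h1
  by_cases hws : w ^ s = 1
  · -- `τ = τ ^ 2 ^ (i * s)`
    have h2 := hpow s
    rw [hws] at h2
    simp only [one_mul, inv_one, mul_one] at h2
    have h3 : τ ^ (2 ^ (i * s) - 1) = 1 := by
      have h4 : 2 ^ (i * s) = (2 ^ (i * s) - 1) + 1 := by
        have : 1 ≤ 2 ^ (i * s) := Nat.one_le_two_pow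
        omega
      rw [h4, pow_succ] at h2
      exact (mul_eq_right.mp h2.symm)
    have h5 : 2 ^ r - 1 ∣ 2 ^ (i * s) - 1 := by
      rw [← ho]
      exact orderOf_dvd_of_pow_eq_one h3
    have h6 : Nat.gcd (2 ^ r - 1) (2 ^ (i * s) - 1) = 2 ^ r - 1 := Nat.gcd_eq_left h5
    rw [Nat.pow_sub_one_gcd_pow_sub_one] at h6
    have h7 : 2 ^ Nat.gcd r (i * s) = 2 ^ r := by
      have h8 : 1 ≤ 2 ^ Nat.gcd r (i * s) := Nat.one_le_two_pow
      have h9 : 1 ≤ 2 ^ r := Nat.one_le_two_pow
      omega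
    have h10 : Nat.gcd r (i * s) = r := Nat.pow_right_injective (le_refl 2) h7
    have h11 : r ∣ i * s := by
      rw [← h10]
      exact Nat.gcd_dvd_right _ _
    have h12 : t ∣ i := by
      rw [← hst, mul_comm s t] at h11
      exact Nat.dvd_of_mul_dvd_mul_right (by omega : 0 < s) h11
    have h13 : t ∣ Nat.gcd r i := Nat.dvd_gcd ⟨s, by rw [← hst, mul_comm]⟩ h12
    rw [h1] at h13
    have := Nat.le_of_dvd one_pos h13
    omega
  · have h2 := hgcd s hws
    have h3 : s ∣ Nat.gcd r (i * s) := Nat.dvd_gcd ⟨t, hst.symm⟩ (Dvd.intro_left _ rfl)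
    rw [h2] at h3
    have := Nat.le_of_dvd one_pos h3
    omega

variable {G : Type u} {Ω : Type v} [Group G] [MulAction G Ω]

theorem two_pow_prime [Finite Ω] (Z : Z0 G Ω) (N : Subgroup G) (hNn : N.Normal)
    (hNt : ∀ x y : Ω, ∃ n ∈ N, n • x = y) (hNr : ∀ n ∈ N, ∀ x : Ω, n • x = x → n = 1) :
    ∃ p : ℕ, p.Prime ∧ Nat.card Ω = 2 ^ p := by
  classical
  haveI : Finite G := finite_of_faith Z
  obtain ⟨w, hw1, a, b, hab, hwa, hwb⟩ := Z.nt
  haveI : Nonempty Ω := ⟨a⟩
  have hR : RegIn ⊤ N Ω := ⟨fun n _ r hr => hNn.conj_mem r hr n, hNt, hNr⟩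
  have htop : ∀ a b a' b' : Ω, a ≠ b → a' ≠ b' → ∃ n ∈ (⊤ : Subgroup G), n • a = a' ∧ n • b = b' := by
    intro a b a' b' h1 h2
    obtain ⟨g, e1, e2⟩ := Z.tr2 a b a' b' h1 h2
    exact ⟨g, Subgroup.mem_top g, e1, e2⟩
  have hcomm : ∀ r s, r ∈ N → s ∈ N → r * s = s * r := fun r s hr hs => reg_comm htop hR hr hs
  -- fixed points of `w`
  have hfix : ∀ c : Ω, w • c = c → c = a ∨ c = b := by
    intro c hc
    by_contra hh
    push Not at hh
    exact hw1 (Z.fix3 w a b c hab (Ne.symm hh.2) (Ne.symm hh.1) hwa hwb hc)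
  obtain ⟨t, htN, hta⟩ := hNt a b
  have ht1 : t ≠ 1 := by
    rintro rfl
    rw [one_smul] at hta
    exact hab hta
  have hreg : ∀ x y : G, x ∈ N → y ∈ N → ∀ c : Ω, x • c = y • c → x = y := by
    intro x y hx hy c e
    have : y⁻¹ * x = 1 := by
      apply hNr _ (N.mul_mem (N.inv_mem hy) hx) c
      rw [mul_smul, e, inv_smul_smul]
    exact (inv_mul_eq_one.mp this).symm
  have hwt : w * t * w⁻¹ = t := by
    apply hreg _ _ (hNn.conj_mem t htN w) htN a
    have e : w⁻¹ • a = a := by rw [inv_smul_eq_iff, hwa]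
    rw [mul_smul, mul_smul, e, hta, hwb]
  have htt : t * t = 1 := by
    have h1 : w • (t⁻¹ • a) = t⁻¹ • a := by
      have h2 : w * t⁻¹ = t⁻¹ * w := by
        have h3 : w * t = t * w := mul_inv_eq_iff_eq_mul.mp hwt
        exact Commute.inv_right h3
      rw [← mul_smul, h2, mul_smul, hwa]
    rcases hfix _ h1 with h | h
    · exfalso
      apply ht1
      have := hNr _ (N.inv_mem htN) a h
      simpa using this
    · apply hNr _ (N.mul_mem htN htN) a
      have h3 : a = t • b := by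
        rw [← h, smul_inv_smul]
      rw [mul_smul, hta, ← h3]
  have hall : ∀ x ∈ N, x * x = 1 := by
    intro x hx
    by_cases hx1 : x = 1
    · rw [hx1, mul_one]
    obtain ⟨n, -, e⟩ := reg_conj htop hR htN hx ht1 hx1
    rw [← e]
    calc n * t * n⁻¹ * (n * t * n⁻¹) = n * (t * t) * n⁻¹ := by group
      _ = 1 := by rw [htt]; group
  have hpg : IsPGroup 2 N := by
    intro x
    refine ⟨1, Subtype.ext ?_⟩
    simpa [sq] using hall x.1 x.2
  obtain ⟨r, hr⟩ := IsPGroup.iff_card.mp hpg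
  -- degree
  have hcardN : Nat.card Ω = Nat.card N := by
    apply Nat.card_congr
    apply Equiv.symm
    refine Equiv.ofBijective (fun n : N => n.1 • a) ⟨?_, ?_⟩
    · intro x y e
      exact Subtype.ext (hreg _ _ x.2 y.2 a e)
    · intro y
      obtain ⟨n, hn, e⟩ := hNt a y
      exact ⟨⟨n, hn⟩, e⟩
  have hdeg : Nat.card Ω = 2 ^ r := by rw [hcardN, hr]
  refine ⟨r, ?_, hdeg⟩
  -- three points
  have hba : b ≠ a := Ne.symm hab
  obtain ⟨y₁, y₂, hy₁, hy₂, hy₁₂⟩ := Z.exists_two_ne a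
  have hr2 : 2 ≤ r := by
    by_contra hh
    have h3 : 2 < Nat.card Ω := by
      haveI := Fintype.ofFinite Ω
      rw [Nat.card_eq_fintype_card]
      have : ({a, y₁, y₂} : Finset Ω).card = 3 := by
        rw [Finset.card_eq_three]
        exact ⟨a, y₁, y₂, Ne.symm hy₁, Ne.symm hy₂, hy₁₂, rfl⟩
      have h4 := Finset.card_le_univ ({a, y₁, y₂} : Finset Ω)
      omega
    have : r = 0 ∨ r = 1 := by omega
    rcases this with h | h <;> rw [h] at hdeg <;> omega
  -- the kernel
  obtain ⟨F, hF1, hF2, hF3, hF4⟩ := Z.exists_kernel a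
  have hcardF : Nat.card Ω = Nat.card F + 1 := by
    have h1 : Nat.card F = Nat.card {y : Ω // y ≠ a} := by
      apply Nat.card_congr
      refine Equiv.ofBijective (fun k : F => ⟨k.1 • b, ?_⟩) ⟨?_, ?_⟩
      · intro e
        have h2 : k.1 • a = a := hF1 k.2
        exact hba (smul_left_cancel k.1 (e.trans h2.symm))
      · intro x y e
        have e' : x.1 • b = y.1 • b := congrArg Subtype.val e
        have h2 : y.1⁻¹ * x.1 = 1 := by
          rcases ((hF3 _).mp (F.mul_mem (F.inv_mem y.2) x.2)).2 with h | h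
          · exact h
          · exfalso
            apply h b hba
            rw [mul_smul, e', inv_smul_smul]
        exact Subtype.ext (inv_mul_eq_one.mp h2).symm
      · rintro ⟨y, hy⟩
        obtain ⟨k, hk, e⟩ := hF4 b y hba hy
        exact ⟨⟨k, hk⟩, Subtype.ext e⟩
    haveI := Fintype.ofFinite Ω
    rw [h1, Nat.card_eq_fintype_card, Nat.card_eq_fintype_card, Fintype.card_subtype_compl]
    simp only [Fintype.card_unique]
    have : 0 < Fintype.card Ω := Fintype.card_pos
    omega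
  have hcardF' : Nat.card F = 2 ^ r - 1 := by omega
  have hodd : ¬ 2 ∣ Nat.card F := by
    rw [hcardF']
    have h1 : 2 ∣ 2 ^ r := dvd_pow_self 2 (by omega)
    have h2 : 1 ≤ 2 ^ r := Nat.one_le_two_pow
    omega
  have hN0 : N ≠ ⊥ := by
    intro h
    rw [h, Subgroup.mem_bot] at htN
    exact ht1 htN
  -- fixed-point-free action of the kernel on `N`
  have hfpfN : ∀ h ∈ F, h ≠ 1 → N ⊓ Subgroup.centralizer {h} = ⊥ := by
    intro h hh hh1
    rw [eq_bot_iff]
    rintro n ⟨hn, hnc⟩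
    have hnc' : h * n = n * h := by
      have := Subgroup.mem_centralizer_iff.mp hnc h rfl
      exact this
    rcases ((hF3 h).mp hh).2 with h1 | h1
    · exact absurd h1 hh1
    · rw [Subgroup.mem_bot]
      apply hNr n hn a
      by_contra hne
      apply h1 (n • a) hne
      rw [← mul_smul, hnc', mul_smul]
      have h2 : h • a = a := hF1 hh
      rw [h2]
  have hFnorm : F ≤ Subgroup.normalizer (N : Set G) := by
    intro x _
    rw [Subgroup.mem_normalizer_iff]
    intro n
    constructor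
    · intro hn
      exact hNn.conj_mem n hn x
    · intro hn
      have := hNn.conj_mem _ hn x⁻¹
      simpa [mul_assoc] using this
  haveI hZF : IsZGroup F := H06.fpf_isZGroup N F hFnorm hN0 hfpfN hodd
  -- the fixed-point-free action of `⟨w⟩` on the kernel
  have hfpfF : ∀ y : G, y • a = a → y • b = b → y ≠ 1 → ∀ k ∈ F, y * k * y⁻¹ = k → k = 1 := by
    intro y hya hyb hy1 k hk e
    have h1 : y • (k • b) = k • b := by
      have h2 : y * k = k * y := mul_inv_eq_iff_eq_mul.mp e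
      rw [← mul_smul, h2, mul_smul, hyb]
    have h3 : k • b = b := by
      by_contra hne
      have h4 : k • b ≠ a := by
        intro e'
        have h5 : k • a = a := hF1 hk
        exact hba (smul_left_cancel k (e'.trans h5.symm))
      exact hy1 (Z.fix3 y a b (k • b) hab (Ne.symm hne) (Ne.symm h4) hya hyb h1)
    rcases ((hF3 k).mp hk).2 with h | h
    · exact h
    · exact absurd h3 (h b hba)
  have hwS : w ∈ MulAction.stabilizer G a := hwa
  let α : F ≃* F :=
    { toFun := fun k => ⟨w * k.1 * w⁻¹, hF2 w hwS k.1 k.2⟩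
      invFun := fun k => ⟨w⁻¹ * k.1 * w⁻¹⁻¹, hF2 w⁻¹ (Subgroup.inv_mem _ hwS) k.1 k.2⟩
      left_inv := fun k => Subtype.ext (by group)
      right_inv := fun k => Subtype.ext (by group)
      map_mul' := fun x y => Subtype.ext (by
        show w * (x.1 * y.1) * w⁻¹ = (w * x.1 * w⁻¹) * (w * y.1 * w⁻¹)
        group) }
  haveI hcF : IsCyclic F := isCyclic_of_fpf_aut α (by
    intro k hk
    have h1 : w * k.1 * w⁻¹ = k.1 := congrArg Subtype.val hk
    exact Subtype.ext (hfpfF w hwa hwb hw1 k.1 k.2 h1))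
  obtain ⟨g, hg⟩ := IsCyclic.exists_generator (α := F)
  have hgo : orderOf g.1 = 2 ^ r - 1 := by
    rw [Subgroup.orderOf_coe, orderOf_eq_card_of_forall_mem_zpowers hg, hcardF']
  have hgp : ∀ k ∈ F, ∃ m : ℕ, g.1 ^ m = k := by
    intro k hk
    have h1 := mem_powers_iff_mem_zpowers.mpr (hg ⟨k, hk⟩)
    obtain ⟨m, hm⟩ := Submonoid.mem_powers_iff _ _ |>.mp h1
    exact ⟨m, by simpa using congrArg Subtype.val hm⟩
  -- the conjugation action on `N`
  haveI := hNn
  have hΦ : ∀ (x : G) (n : N), x • (n.1 • a) = ((MulAut.conjNormal x n : N) : G) • (x • a) := by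
    intro x n
    rw [MulAut.conjNormal_apply, mul_smul, mul_smul, inv_smul_smul]
  have hΦinj : ∀ x y : G, x • a = a → y • a = a → MulAut.conjNormal (H := N) x = MulAut.conjNormal y → x = y := by
    intro x y hx hy e
    have h1 : y⁻¹ * x = 1 := by
      apply Z.faith
      intro c
      obtain ⟨n, hn, rfl⟩ := hNt a c
      have h2 := hΦ x ⟨n, hn⟩
      have h3 := hΦ y ⟨n, hn⟩
      rw [hx, e] at h2
      rw [hy] at h3
      rw [mul_smul]
      exact inv_smul_eq_iff.mpr (h2.trans h3.symm)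
    exact (inv_mul_eq_one.mp h1).symm
  have hgS : g.1 ∈ MulAction.stabilizer G a := hF1 g.2
  have hNnt : Nontrivial N := by
    refine ⟨⟨⟨t, htN⟩, 1, fun e => ht1 (congrArg Subtype.val e)⟩⟩
  obtain ⟨k, hk⟩ := hgp _ (hF2 w hwS g.1 g.2)
  obtain ⟨i, hi⟩ := conj_core (A := N) (fun x y => Subtype.ext (hcomm _ _ x.2 y.2))
    (fun v => Subtype.ext (hall _ v.2)) (MulAut.conjNormal g.1) (MulAut.conjNormal w) k
    (by
      intro u v hu hv
      have hua : u.1 • a ≠ a := fun e => hu (Subtype.ext (hNr _ u.2 a e))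
      have hva : v.1 • a ≠ a := fun e => hv (Subtype.ext (hNr _ v.2 a e))
      obtain ⟨x, hx, e⟩ := hF4 _ _ hua hva
      obtain ⟨m, hm⟩ := hgp x hx
      refine ⟨m, ?_⟩
      rw [← map_pow, hm]
      apply Subtype.ext
      apply hreg _ _ (Subtype.property _) v.2 a
      have h1 := hΦ x u
      have h2 : x • a = a := hF1 hx
      rw [h2, e] at h1
      exact h1.symm)
    (by
      rw [← map_pow, hk, ← map_inv, ← map_mul, ← map_mul])
  have hwg : w * g.1 * w⁻¹ = g.1 ^ 2 ^ i := by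
    rw [← hk]
    apply hΦinj
    · have : (g.1 ^ k) ∈ MulAction.stabilizer G a := Subgroup.pow_mem _ hgS k
      exact this
    · have : (g.1 ^ 2 ^ i) ∈ MulAction.stabilizer G a := Subgroup.pow_mem _ hgS _
      exact this
    · rw [map_pow, map_pow]
      exact hi
  refine prime_of_fpf g.1 w r i hr2 hgo hwg ?_ hw1
  intro s hs n e
  refine hfpfF (w ^ s) ?_ ?_ hs _ (F.pow_mem g.2 n) e
  · exact Subgroup.pow_mem _ hwS s
  · have hwbS : w ∈ MulAction.stabilizer G b := hwb
    exact Subgroup.pow_mem _ hwbS s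

end Cfsg.Agent.H02.Zas
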