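import Mathlib
import Cfsg.Agent.Lib.H02.Zip

set_option autoImplicit false

namespace Cfsg.Agent.H02

universe u

open scoped Pointwise

variable {G : Type u} [Group G]

theorem uniqueness_lemma [Finite G] (A : Subgroup G) (U : Set (Subgroup G)) (hU : U.Nonempty)
    (S : Subgroup G → Set (Subgroup G))
    (hS : ∀ V B : Subgroup G, B ∈ S V ↔ (∃ g : G, B = MulAut.conj g • A) ∧ B ≤ V ∧ (B.subgroupOf V).IsSubnormal)
    (h2 : ∀ V ∈ U, ∀ W ∈ U, ∀ B ∈ S W, B ≤ V → B ∈ S V)
    (h3 : ∀ V ∈ U, ∀ W ∈ U, ∃ X ∈ U, Subgroup.normalizer ((sSup (S V ∩ S W) : Subgroup G) : Set G) ≤ X) :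
    ∃ M ∈ U, ∀ V ∈ U, V ≤ M := by
  classical
  have hconjV : ∀ V : Subgroup G, ∀ C ∈ S V, ∀ v ∈ V, MulAut.conj v • C ∈ S V := by
    intro V C hC v hv
    obtain ⟨⟨g, rfl⟩, hCV, hCsn⟩ := (hS V _).mp hC
    refine (hS V _).mpr ⟨⟨v * g, conj_smul_smul _ _ _⟩, ?_, ?_⟩
    · intro y hy
      rw [mem_conj_smul_iff] at hy
      have h3 : y = v * (v⁻¹ * y * v) * v⁻¹ := by group
      rw [h3]
      exact V.mul_mem (V.mul_mem hv (hCV hy)) (V.inv_mem hv)
    · have h4 := Cfsg.Agent.H18.snIn_conj v hCsn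
      have h5 : V.map (MulAut.conj v).toMonoidHom = V := Subgroup.conj_smul_eq_self_of_mem hv
      rw [h5] at h4
      exact h4
  have hSle : ∀ V : Subgroup G, ∀ C ∈ S V, C ≤ V := fun V C hC => ((hS V C).mp hC).2.1
  have hSsn : ∀ V : Subgroup G, ∀ C ∈ S V, (C.subgroupOf V).IsSubnormal := fun V C hC => ((hS V C).mp hC).2.2
  let Mx : Set (Subgroup G) := {V | V ∈ U ∧ ∀ X ∈ U, V ≤ X → X ≤ V}
  have hbelow : ∀ V ∈ U, ∃ M ∈ Mx, V ≤ M := by
    intro V hV
    obtain ⟨M, hVM, hM⟩ := U.toFinite.exists_le_maximal hV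
    exact ⟨M, ⟨hM.1, fun X hX h => hM.2 hX h⟩, hVM⟩
  let Pairs : Set (Subgroup G × Subgroup G) := {p | p.1 ∈ Mx ∧ p.2 ∈ Mx ∧ p.1 ≠ p.2}
  -- normalizer of the join of the common family, when it is invariant
  have hnormsup : ∀ V : Subgroup G, V ≤ Subgroup.normalizer ((sSup (S V) : Subgroup G) : Set G) := by
    intro V v hv
    apply mem_normalizer_of_conj_le
    have hle : sSup (S V) ≤ (sSup (S V)).comap (MulAut.conj v).toMonoidHom := by
      apply sSup_le
      intro C hC x hx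
      have h6 : v * x * v⁻¹ ∈ MulAut.conj v • C := by
        rw [mem_conj_smul_iff]
        have h3 : v⁻¹ * (v * x * v⁻¹) * v = x := by group
        rwa [h3]
      exact le_sSup (hconjV V C hC v hv) h6
    intro x hx
    exact hle hx
  have claim : ∀ V W : Subgroup G, V ∈ Mx → W ∈ Mx → V ≠ W →
      (∀ p ∈ Pairs, (S p.1 ∩ S p.2).ncard ≤ (S V ∩ S W).ncard) →
      Subgroup.normalizer ((sSup (S V ∩ S W) : Subgroup G) : Set G) ≤ V := by
    intro V W hV hW hVW hmaxp
    obtain ⟨X, hX, hNX⟩ := h3 V hV.1 W hW.1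
    obtain ⟨X', hX', hXX'⟩ := hbelow X hX
    have hNX' := hNX.trans hXX'
    by_cases he : X' = V
    · rwa [he] at hNX'
    exfalso
    set 𝒜 := S V ∩ S W with h𝒜
    by_cases hA : 𝒜 = S V
    · have h7 : V ≤ Subgroup.normalizer ((sSup 𝒜 : Subgroup G) : Set G) := by
        rw [hA]
        exact hnormsup V
      exact he (le_antisymm (hV.2 X' hX'.1 (h7.trans hNX')) (h7.trans hNX'))
    · have hss : 𝒜 ⊂ S V := by
        refine lt_of_le_of_ne Set.inter_subset_left hA
      obtain ⟨B, hB, hB𝒜, hBN⟩ := zipper_family_rel V (S V) 𝒜 (hSle V) (hSsn V) (hconjV V) hss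
      have hBX' : B ∈ S X' := h2 X' hX'.1 V hV.1 B hB (hBN.trans hNX')
      have hsub : 𝒜 ⊂ S V ∩ S X' := by
        refine ⟨?_, ?_⟩
        · intro C hC
          refine ⟨hC.1, h2 X' hX'.1 V hV.1 C hC.1 ?_⟩
          exact (le_sSup hC).trans (Subgroup.le_normalizer.trans hNX')
        · intro hcon
          exact hB𝒜 (hcon ⟨hB, hBX'⟩)
      have hlt := Set.ncard_lt_ncard hsub (Set.toFinite _)
      have hle := hmaxp (V, X') ⟨hV, hX', fun h => he h.symm⟩
      exact absurd hle (not_le.mpr hlt)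
  have hsub : ∀ V ∈ Mx, ∀ W ∈ Mx, V = W := by
    by_contra hcon
    push Not at hcon
    obtain ⟨V₀, hV₀, W₀, hW₀, hne⟩ := hcon
    obtain ⟨⟨V, W⟩, ⟨hV, hW, hVW⟩, hmaxp⟩ := Set.exists_max_image Pairs
      (fun p => (S p.1 ∩ S p.2).ncard) (Set.toFinite _) ⟨(V₀, W₀), hV₀, hW₀, hne⟩
    simp only at hV hW hVW hmaxp
    have h1' := claim V W hV hW hVW hmaxp
    have h2' := claim W V hW hV hVW.symm (by
      intro p hp
      rw [Set.inter_comm (S W)]
      exact hmaxp p hp)
    rw [Set.inter_comm (S W)] at h2'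
    by_cases hA : S V ∩ S W = S V
    · have h7 : V ≤ Subgroup.normalizer ((sSup (S V ∩ S W) : Subgroup G) : Set G) := by
        rw [hA]
        exact hnormsup V
      exact hVW (le_antisymm (h7.trans h2') (hV.2 W hW.1 (h7.trans h2')))
    · have hss : S V ∩ S W ⊂ S V := lt_of_le_of_ne Set.inter_subset_left hA
      obtain ⟨B, hB, hB𝒜, hBN⟩ := zipper_family_rel V (S V) (S V ∩ S W) (hSle V) (hSsn V) (hconjV V) hss
      exact hB𝒜 ⟨hB, h2 W hW.1 V hV.1 B hB (hBN.trans h2')⟩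
  obtain ⟨V₁, hV₁⟩ := hU
  obtain ⟨M, hM, -⟩ := hbelow V₁ hV₁
  refine ⟨M, hM.1, ?_⟩
  intro V hV
  obtain ⟨M', hM', hVM'⟩ := hbelow V hV
  rwa [hsub M' hM' M hM] at hVM'

theorem matsuyama [Finite G] (p : ℕ) [Fact p.Prime] (Z Y : Subgroup G)
    (h : ∀ g : G, IsPGroup p ↥(⨆ y ∈ Y, MulAut.conj (y * g) • Z)) :
    ∃ P : Sylow p G, Y ≤ Subgroup.normalizer
      ((⨆ g ∈ {g : G | MulAut.conj g • Z ≤ (P : Subgroup G)}, MulAut.conj g • Z : Subgroup G) : Set G) := by
  classical
  let gen : Subgroup G → Subgroup G := fun W => ⨆ g ∈ {g : G | MulAut.conj g • Z ≤ W}, MulAut.conj g • Z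
  have gen_le : ∀ W, gen W ≤ W := fun W => iSup₂_le (fun g hg => hg)
  have gen_mono : ∀ {W W' : Subgroup G}, W ≤ W' → gen W ≤ gen W' := by
    intro W W' hle
    apply iSup₂_le
    intro g hg
    exact le_iSup₂_of_le g (hg.trans hle) le_rfl
  have term_le : ∀ (W : Subgroup G) (g : G), MulAut.conj g • Z ≤ W → MulAut.conj g • Z ≤ gen W :=
    fun W g hg => le_iSup₂_of_le g hg le_rfl
  let 𝒲 : Set (Subgroup G) := {W | IsPGroup p W ∧ Y ≤ Subgroup.normalizer (W : Set G) ∧ gen W = W}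
  have hbot : (⊥ : Subgroup G) ∈ 𝒲 := by
    refine ⟨(IsPGroup.of_bot : IsPGroup p (⊥ : Subgroup G)), ?_, le_antisymm (gen_le _) bot_le⟩
    have : Subgroup.normalizer ((⊥ : Subgroup G) : Set G) = ⊤ :=
      Subgroup.normalizer_eq_top_iff.mpr inferInstance
    rw [this]
    exact le_top
  obtain ⟨W, hW⟩ := 𝒲.toFinite.exists_maximal ⟨(⊥ : Subgroup G), hbot⟩
  obtain ⟨hWp, hWY, hWgen⟩ := hW.1
  obtain ⟨P, hWP⟩ := hWp.exists_le_sylow
  refine ⟨P, ?_⟩
  suffices hgenP : gen (P : Subgroup G) = W by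
    change Y ≤ Subgroup.normalizer ((gen (P : Subgroup G) : Subgroup G) : Set G)
    rw [hgenP]
    exact hWY
  apply le_antisymm _ (hWgen ▸ gen_mono hWP)
  by_contra hcon
  have hex : ∃ g : G, MulAut.conj g • Z ≤ (P : Subgroup G) ∧ ¬ MulAut.conj g • Z ≤ W := by
    by_contra hno
    push Not at hno
    exact hcon (iSup₂_le (fun g hg => hno g hg))
  obtain ⟨g, hgP, hgW⟩ := hex
  -- Lemma L
  have hL : ∃ g' : G, MulAut.conj g' • Z ≤ Subgroup.normalizer (W : Set G) ∧ ¬ MulAut.conj g' • Z ≤ W := by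
    by_contra hno
    push Not at hno
    set T := Subgroup.normalizer (W : Set G) ⊓ (P : Subgroup G) with hT
    have hTle : T ≤ (P : Subgroup G) := inf_le_right
    rcases hTle.lt_or_eq with hlt | heq
    · obtain ⟨x, hxP, hxT, hxN⟩ := Cfsg.Agent.H18.exists_mem_sdiff_normalizer P.isPGroup' hlt
      apply hxT
      refine Subgroup.mem_inf.mpr ⟨?_, hxP⟩
      apply mem_normalizer_of_conj_le
      have hWT : W ≤ T := le_inf Subgroup.le_normalizer hWP
      have hle : W ≤ W.comap (MulAut.conj x).toMonoidHom := by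
        rw [← hWgen]
        apply iSup₂_le
        intro g₁ hg₁ u hu
        have h5 : MulAut.conj (x * g₁) • Z ≤ Subgroup.normalizer (W : Set G) := by
          intro y hy
          rw [← conj_smul_smul, mem_conj_smul_iff] at hy
          have h6 := hWT (hg₁ hy)
          have h7 := (Subgroup.mem_normalizer_iff.mp (Subgroup.inv_mem _ hxN) _).mp h6
          have h8 : y = x * (x⁻¹ * y * x) * x⁻¹ := by group
          have h9 : x * (x⁻¹ * y * x) * x⁻¹ ∈ T := by
            exact (Subgroup.mem_normalizer_iff.mp hxN _).mp h6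
          rw [h8]
          exact (Subgroup.mem_inf.mp h9).1
        have h10 := hno _ h5
        have hw : x * u * x⁻¹ ∈ W := by
          apply h10
          rw [← conj_smul_smul, mem_conj_smul_iff]
          have h3 : x⁻¹ * (x * u * x⁻¹) * x = u := by group
          rwa [h3]
        rw [← hWgen] at hw
        exact hw
      intro u hu
      exact hle hu
    · apply hgW
      apply hno
      rw [hT] at heq
      intro y hy
      have : y ∈ Subgroup.normalizer (W : Set G) ⊓ (P : Subgroup G) := by rw [heq]; exact hgP hy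
      exact (Subgroup.mem_inf.mp this).1
  obtain ⟨g', hg'N, hg'W⟩ := hL
  set V := ⨆ y ∈ Y, MulAut.conj (y * g') • Z with hV
  have hVp : IsPGroup p V := h g'
  have hterm : ∀ y ∈ Y, MulAut.conj (y * g') • Z ≤ V := fun y hy => le_iSup₂_of_le y hy le_rfl
  have hVN : V ≤ Subgroup.normalizer (W : Set G) := by
    apply iSup₂_le
    intro y hy u hu
    rw [← conj_smul_smul, mem_conj_smul_iff] at hu
    have h6 := hg'N hu
    have h8 : u = y * (y⁻¹ * u * y) * y⁻¹ := by group
    rw [h8]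
    have hyN := hWY hy
    exact Subgroup.mul_mem _ (Subgroup.mul_mem _ hyN h6) (Subgroup.inv_mem _ hyN)
  have hW'p : IsPGroup p (W ⊔ V : Subgroup G) := hWp.to_sup_of_normal_left' hVp hVN
  have hW'Y : Y ≤ Subgroup.normalizer ((W ⊔ V : Subgroup G) : Set G) := by
    intro y hy
    apply mem_normalizer_of_conj_le
    have hle : W ⊔ V ≤ (W ⊔ V).comap (MulAut.conj y).toMonoidHom := by
      apply sup_le
      · intro u hu
        have := (Subgroup.mem_normalizer_iff.mp (hWY hy) u).mp hu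
        exact (le_sup_left : W ≤ W ⊔ V) this
      · apply iSup₂_le
        intro y₁ hy₁ u hu
        have h5 : y * u * y⁻¹ ∈ MulAut.conj (y * y₁ * g') • Z := by
          rw [mem_conj_smul_iff]
          have h3 : (y * y₁ * g')⁻¹ * (y * u * y⁻¹) * (y * y₁ * g') = (y₁ * g')⁻¹ * u * (y₁ * g') := by group
          rw [h3]
          exact mem_conj_smul_iff.mp hu
        exact (le_sup_right : V ≤ W ⊔ V) (hterm _ (Y.mul_mem hy hy₁) h5)
    intro u hu
    exact hle hu
  have hW'gen : gen (W ⊔ V) = W ⊔ V := by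
    apply le_antisymm (gen_le _)
    apply sup_le
    · rw [← hWgen]
      exact gen_mono (by rw [hWgen]; exact le_sup_left)
    · apply iSup₂_le
      intro y hy
      exact term_le _ _ ((hterm y hy).trans le_sup_right)
  have hle := hW.2 (y := W ⊔ V) ⟨hW'p, hW'Y, hW'gen⟩ le_sup_left
  apply hg'W
  have : MulAut.conj g' • Z ≤ V := by
    have := hterm 1 Y.one_mem
    rwa [one_mul] at this
  exact this.trans (le_sup_right.trans hle)

end Cfsg.Agent.H02
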